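import Cfsg.Statements.S0237
import Cfsg.Agent.Lib.Helper3.Invol
open Cfsg.Agent.Lib.Helper3.Invol

set_option autoImplicit false
open Cfsg

namespace Cfsg.Agent.S0237

/-- If x is real (conjugate to x⁻¹) in a finite group G, the number of g with g x g⁻¹ = x⁻¹ equals |C_G(x)|. -/
theorem result {G : Type*} [Group G] [Finite G] (x : G) (hreal : IsConj x x⁻¹) : Nat.card {g : G // g * x * g⁻¹ = x⁻¹} = Nat.card (Subgroup.centralizer ({x} : Set G)) := by
  obtain ⟨g₀, hg₀⟩ := isConj_iff.1 hreal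
  symm
  refine Nat.card_congr ⟨fun c => ⟨g₀ * c.1, ?_⟩, fun g => ⟨g₀⁻¹ * g.1, ?_⟩, ?_, ?_⟩
  · have hc := Subgroup.mem_centralizer_singleton_iff.1 c.2
    rw [mul_inv_rev, mul_assoc g₀, hc, ← hg₀]; group
  · rw [Subgroup.mem_centralizer_singleton_iff]
    obtain ⟨g, h⟩ := g
    simp only
    have h3 : g * x * g⁻¹ = g₀ * x * g₀⁻¹ := h.trans hg₀.symm
    have h2 : g * x = g₀ * x * g₀⁻¹ * g := by rw [← h3]; group
    rw [mul_assoc, h2]; group
  · intro c; ext; simp
  · intro g; ext; simp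

end Cfsg.Agent.S0237
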