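import Cfsg.Statements.S0236
import Cfsg.Agent.Lib.Helper3.Invol
open Cfsg.Agent.Lib.Helper3.Invol

set_option autoImplicit false
open Cfsg

namespace Cfsg.Agent.S0236

/-- If x is an involution, the number of ordered pairs (u, v) of involutions with uv = x, plus one, equals the number of involutions in the centralizer of x. -/
theorem result {G : Type*} [Group G] [Finite G] (x : G) (hx : orderOf x = 2) : Nat.card {p : G × G // orderOf p.1 = 2 ∧ orderOf p.2 = 2 ∧ p.1 * p.2 = x} + 1 = Nat.card {t : G // orderOf t = 2 ∧ Commute t x} := by
  rw [← Finite.card_option]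
  have hcomm : ∀ p : {p : G × G // orderOf p.1 = 2 ∧ orderOf p.2 = 2 ∧ p.1 * p.2 = x},
      Commute p.1.1 x := by
    rintro ⟨⟨s, t⟩, hs, ht, rfl⟩
    have h2 := sq_of_order hx
    simp only
    have h3 : t * s * t = s := by
      have : s * (s * t * (s * t)) * t = s * t := by rw [h2, mul_one]
      have h4 : s * (s * t * (s * t)) * t = (s * s) * (t * s) * (t * t) := by group
      rw [h4, sq_of_order hs, sq_of_order ht, one_mul, mul_one] at this
      rw [this, mul_assoc, sq_of_order ht, mul_one]
    change s * (s * t) = s * t * s
    rw [← mul_assoc, sq_of_order hs, one_mul]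
    calc t = t * s * t * (t * s) := by
            rw [mul_assoc (t * s), ← mul_assoc t t s, sq_of_order ht, one_mul, mul_assoc,
              sq_of_order hs, mul_one]
      _ = s * t * s := by rw [h3, mul_assoc]
  refine Nat.card_congr (Equiv.ofBijective (fun o => match o with
    | none => ⟨x, hx, Commute.refl x⟩
    | some p => ⟨p.1.1, p.2.1, hcomm p⟩) ⟨?_, ?_⟩)
  · rintro (_ | ⟨⟨s, t⟩, hs, ht, hst⟩) (_ | ⟨⟨s', t'⟩, hs', ht', hst'⟩) h
    · rfl
    · exfalso
      simp only [Subtype.mk.injEq] at h
      subst h
      exact ne_one_of_order ht' (mul_left_cancel (hst'.trans (mul_one _).symm))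
    · exfalso
      simp only [Subtype.mk.injEq] at h
      subst h
      exact ne_one_of_order ht (mul_left_cancel (hst.trans (mul_one _).symm))
    · simp only [Subtype.mk.injEq] at h
      subst h
      have : t = t' := mul_left_cancel (hst.trans hst'.symm)
      subst this
      rfl
  · rintro ⟨t, ht, hc⟩
    by_cases htx : t = x
    · subst htx
      exact ⟨none, rfl⟩
    · refine ⟨some ⟨(t, t * x), ht, ?_, ?_⟩, rfl⟩
      · simp only
        rw [order_two_iff]
        constructor
        · intro h
          apply htx
          rw [← inv_of_order hx]; exact eq_inv_of_mul_eq_one_left h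
        · rw [mul_assoc, ← mul_assoc x, ← hc.eq, mul_assoc, sq_of_order hx, mul_one, sq_of_order ht]
      · simp only
        rw [← mul_assoc, sq_of_order ht, one_mul]

end Cfsg.Agent.S0236
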