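import Cfsg.Statements.S0238
import Cfsg.Agent.Lib.Helper3.Invol
import Cfsg.Agent.S0236
import Cfsg.Agent.S0237
open Cfsg.Agent.Lib.Helper3.Invol

set_option autoImplicit false
open Cfsg

namespace Cfsg.Agent.S0238

/-- For every x in a finite group G, the number c of ordered pairs (u, v) of involutions with uv = x is at most |C_G(x)|; c = 0 when x is not conjugate to x⁻¹; and c + 2 ≤ |C_G(x)| when x is an involution. -/
theorem result {G : Type*} [Group G] [Finite G] (x : G) : Nat.card {p : G × G // orderOf p.1 = 2 ∧ orderOf p.2 = 2 ∧ p.1 * p.2 = x} ≤ Nat.card (Subgroup.centralizer ({x} : Set G)) ∧ (¬ IsConj x x⁻¹ → Nat.card {p : G × G // orderOf p.1 = 2 ∧ orderOf p.2 = 2 ∧ p.1 * p.2 = x} = 0) ∧ (orderOf x = 2 → Nat.card {p : G × G // orderOf p.1 = 2 ∧ orderOf p.2 = 2 ∧ p.1 * p.2 = x} + 2 ≤ Nat.card (Subgroup.centralizer ({x} : Set G))) := by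
  have hinv : ∀ p : {p : G × G // orderOf p.1 = 2 ∧ orderOf p.2 = 2 ∧ p.1 * p.2 = x},
      p.1.1 * x * p.1.1⁻¹ = x⁻¹ := by
    rintro ⟨⟨s, t⟩, hs, ht, rfl⟩
    simp only
    rw [mul_inv_rev, inv_of_order hs, inv_of_order ht, ← mul_assoc, sq_of_order hs, one_mul]
  have hempty : ¬ IsConj x x⁻¹ →
      Nat.card {p : G × G // orderOf p.1 = 2 ∧ orderOf p.2 = 2 ∧ p.1 * p.2 = x} = 0 := by
    intro hn
    have : IsEmpty {p : G × G // orderOf p.1 = 2 ∧ orderOf p.2 = 2 ∧ p.1 * p.2 = x} :=
      ⟨fun p => hn (isConj_iff.2 ⟨_, hinv p⟩)⟩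
    exact Nat.card_of_isEmpty
  refine ⟨?_, hempty, ?_⟩
  · by_cases hreal : IsConj x x⁻¹
    · rw [← Cfsg.Agent.S0237.result x hreal]
      refine Nat.card_le_card_of_injective (fun p => ⟨p.1.1, hinv p⟩) ?_
      rintro ⟨⟨s, t⟩, hs, ht, hst⟩ ⟨⟨s', t'⟩, hs', ht', hst'⟩ h
      simp only [Subtype.mk.injEq] at h
      subst h
      have : t = t' := mul_left_cancel (hst.trans hst'.symm)
      subst this
      rfl
    · rw [hempty hreal]; exact Nat.zero_le _
  · intro hx
    have h1 := Cfsg.Agent.S0236.result x hx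
    have h2 : Nat.card {t : G // orderOf t = 2 ∧ Commute t x} + 1 ≤
        Nat.card (Subgroup.centralizer ({x} : Set G)) := by
      rw [← Finite.card_option]
      refine Nat.card_le_card_of_injective (fun o => match o with
        | none => 1
        | some t => ⟨t.1, Subgroup.mem_centralizer_singleton_iff.2 t.2.2.eq⟩) ?_
      rintro (_ | ⟨t, ht, hc⟩) (_ | ⟨t', ht', hc'⟩) h
      · rfl
      · exfalso
        have : (1 : G) = t' := congrArg Subtype.val h
        exact ne_one_of_order ht' this.symm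
      · exfalso
        have : t = (1 : G) := congrArg Subtype.val h
        exact ne_one_of_order ht this
      · have : t = t' := congrArg Subtype.val h
        subst this
        rfl
    omega

end Cfsg.Agent.S0238
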