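import Cfsg.Statements.S2602
import Cfsg.Agent.Lib.Helper4.PSL2Aut4
open Cfsg.Agent.Lib.Helper4.PSL2Aut Cfsg.Agent.Lib.Helper4.SL2Class

set_option autoImplicit false
open Cfsg

namespace Cfsg.Agent.S2602


theorem ringAut_cyclic {F : Type*} [Field F] [Fintype F] {p f : ℕ} [Fact p.Prime]
    (hF : Fintype.card F = p ^ f) : IsCyclic (RingAut F) ∧ Nat.card (RingAut F) = f := by
  classical
  have hchar : CharP F p := charP_of_card_eq_prime_pow hF
  let _ : Algebra (ZMod p) F := ZMod.algebra F p
  let e : (F ≃ₐ[ZMod p] F) ≃* RingAut F :=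
    { toFun := fun σ => σ.toRingEquiv
      invFun := fun σ => AlgEquiv.ofRingEquiv (f := σ) (fun r =>
        RingHom.congr_fun (Subsingleton.elim ((σ : F →+* F).comp (algebraMap (ZMod p) F))
          (algebraMap (ZMod p) F)) r)
      left_inv := fun σ => by ext; rfl
      right_inv := fun σ => by ext; rfl
      map_mul' := fun σ τ => by ext; rfl }
  refine ⟨isCyclic_of_surjective e e.surjective, ?_⟩
  rw [← Nat.card_congr e.toEquiv, IsGalois.card_aut_eq_finrank]
  have h1 := Module.card_eq_pow_finrank (K := ZMod p) (V := F)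
  rw [hF, ZMod.card] at h1
  exact (Nat.pow_right_injective (Fact.out : p.Prime).two_le h1).symm

theorem det_dg {F : Type*} [Field F] (e : F) (he : e ≠ 0) : (dg e he).1.det = e := by
  change (!![e, 0; 0, 1] : Matrix (Fin 2) (Fin 2) F).det = e
  rw [Matrix.det_fin_two_of]; ring

theorem det_dg_inv {F : Type*} [Field F] (e : F) (he : e ≠ 0) : ((dg e he)⁻¹).1.det = e⁻¹ := by
  change (!![e⁻¹, 0; 0, 1] : Matrix (Fin 2) (Fin 2) F).det = e⁻¹
  rw [Matrix.det_fin_two_of]; ring


/-- Structure of the outer automorphism group of PSL_2(q), q = p^f ≥ 4: it has a normal cyclic subgroup of order gcd(2, q − 1) (diagonal automorphisms) with cyclic quotient of order f (field automorphisms); there is no graph automorphism in dimension 2. -/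
theorem result {F : Type*} [Field F] [Fintype F] {p f : ℕ} [Fact p.Prime] (hf : 1 ≤ f) (hF : Fintype.card F = p ^ f) (h4 : 4 ≤ p ^ f) : ∃ φ : Cfsg.Out (Matrix.ProjectiveSpecialLinearGroup (Fin 2) F) →* Multiplicative (ZMod f), Function.Surjective φ ∧ IsCyclic φ.ker ∧ Nat.card φ.ker = Nat.gcd 2 (p ^ f - 1) := by
  classical
  have hchar : CharP F p := charP_of_card_eq_prime_pow hF
  obtain ⟨hcyc, hcard⟩ := ringAut_cyclic hF
  subst hcard
  let PSL := Matrix.ProjectiveSpecialLinearGroup (Fin 2) F
  have hInn : ∀ x ∈ Cfsg.Inn PSL, Phi p x = 1 := by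
    rintro _ ⟨y, rfl⟩
    obtain ⟨s, rfl⟩ := QuotientGroup.mk_surjective y
    rw [← cbar_toGL, Phi_cbar]
  let Φ : Cfsg.Out PSL →* RingAut F := QuotientGroup.lift (Cfsg.Inn PSL) (Phi p) hInn
  have hΦmk : ∀ α : MulAut PSL, Φ (QuotientGroup.mk α) = Phi p α := fun α => rfl
  have hΦsurj : Function.Surjective Φ := by
    intro σ
    obtain ⟨α, hα⟩ := Phi_surjective p σ
    exact ⟨QuotientGroup.mk α, hα⟩
  let e : RingAut F ≃* Multiplicative (ZMod (Nat.card (RingAut F))) := (zmodCyclicMulEquiv hcyc).symm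
  have hker : (e.toMonoidHom.comp Φ).ker = Φ.ker := by
    ext x
    rw [MonoidHom.mem_ker, MonoidHom.mem_ker]
    exact map_eq_one_iff e e.injective
  refine ⟨e.toMonoidHom.comp Φ, e.surjective.comp hΦsurj, ?_⟩
  rw [hker]
  have hinner : ∀ (P : GL (Fin 2) F) (s : F), P.1.det = s ^ 2 →
      (QuotientGroup.mk (cbar P) : Cfsg.Out PSL) = 1 := by
    intro P s hs
    obtain ⟨x, hx⟩ := cbar_inner P s hs
    rw [QuotientGroup.eq_one_iff, hx]
    exact ⟨x, rfl⟩
  by_cases h2 : (2 : F) = 0
  · -- even characteristic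
    have hr2 : ringChar F = 2 := by
      have hc2 : CharP F 2 := CharTwo.of_one_ne_zero_of_two_eq_zero one_ne_zero h2
      exact ringChar.eq F 2
    have hbot : Φ.ker = ⊥ := by
      rw [eq_bot_iff]
      intro x hx
      obtain ⟨α, rfl⟩ := QuotientGroup.mk_surjective x
      rw [MonoidHom.mem_ker, hΦmk] at hx
      obtain ⟨P, rfl⟩ := exists_cbar_of_Phi p α hx
      obtain ⟨s, hs⟩ := FiniteField.isSquare_of_char_two hr2 P.1.det
      rw [Subgroup.mem_bot]
      exact hinner P s (by rw [hs, sq])
    have heven := (FiniteField.even_card_iff_char_two (F := F)).1 hr2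
    rw [hF] at heven
    have hg : Nat.gcd 2 (p ^ Nat.card (RingAut F) - 1) = 1 := by
      apply (Nat.Prime.coprime_iff_not_dvd Nat.prime_two).2
      omega
    rw [hbot, hg]
    exact ⟨inferInstance, Subgroup.card_bot⟩
  · -- odd characteristic
    have hodd := odd_card h2
    rw [hF] at hodd
    have hg : Nat.gcd 2 (p ^ Nat.card (RingAut F) - 1) = 2 := by
      apply Nat.gcd_eq_left
      omega
    have hring : ringChar F ≠ 2 := by
      intro h
      apply h2
      have : CharP F 2 := by rw [← h]; exact ringChar.charP F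
      exact CharTwo.two_eq_zero
    obtain ⟨ν, hν⟩ := FiniteField.exists_nonsquare hring
    have hν0 : ν ≠ 0 := by
      rintro rfl
      exact hν ⟨0, by simp⟩
    have hδmem : (QuotientGroup.mk (cbar (dg ν hν0)) : Cfsg.Out PSL) ∈ Φ.ker := by
      rw [MonoidHom.mem_ker, hΦmk, Phi_cbar]
    have hδne : (QuotientGroup.mk (cbar (dg ν hν0)) : Cfsg.Out PSL) ≠ 1 := by
      intro h
      rw [QuotientGroup.eq_one_iff] at h
      obtain ⟨y, hy⟩ := h
      obtain ⟨s, rfl⟩ := QuotientGroup.mk_surjective y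
      rw [← cbar_toGL] at hy
      have h1 : cbar ((Matrix.SpecialLinearGroup.toGL s)⁻¹ * dg ν hν0) = 1 := by
        rw [map_mul, map_inv, hy, inv_mul_cancel]
      obtain ⟨a, ha⟩ := det_sq_of_cbar_eq_one h2 _ h1
      apply hν
      refine ⟨a, ?_⟩
      rw [Units.val_mul, Matrix.det_mul, det_dg, ← map_inv] at ha
      have : (Matrix.SpecialLinearGroup.toGL s⁻¹).1.det = 1 := (s⁻¹).2
      rw [this, one_mul] at ha
      rw [ha, sq]
    have hcard2 : Nat.card Φ.ker = 2 := by
      rw [Nat.card_eq_two_iff' (1 : Φ.ker)]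
      refine ⟨⟨_, hδmem⟩, ?_, ?_⟩
      · intro h
        exact hδne (congrArg Subtype.val h)
      · rintro ⟨x, hx⟩ hx1
        apply Subtype.ext
        change x = _
        obtain ⟨α, rfl⟩ := QuotientGroup.mk_surjective x
        rw [MonoidHom.mem_ker, hΦmk] at hx
        obtain ⟨P, rfl⟩ := exists_cbar_of_Phi p α hx
        have hd0 : P.1.det ≠ 0 := by
          have : IsUnit P.1.det := (Matrix.isUnit_iff_isUnit_det _).1 P.isUnit
          exact this.ne_zero
        have hns : ¬ IsSquare P.1.det := by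
          rintro ⟨s, hs⟩
          apply hx1
          apply Subtype.ext
          exact hinner P s (by rw [hs, sq])
        have hsq : IsSquare (P.1.det * ν⁻¹) := by
          rw [FiniteField.isSquare_iff hring (mul_ne_zero hd0 (inv_ne_zero hν0)), mul_pow, inv_pow]
          have e1 := (FiniteField.pow_dichotomy hring hd0).resolve_left
            (fun h => hns ((FiniteField.isSquare_iff hring hd0).2 h))
          have e2 := (FiniteField.pow_dichotomy hring hν0).resolve_left
            (fun h => hν ((FiniteField.isSquare_iff hring hν0).2 h))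
          rw [e1, e2]
          norm_num
        obtain ⟨s, hs⟩ := hsq
        have h3 : cbar P = cbar (P * (dg ν hν0)⁻¹) * cbar (dg ν hν0) := by
          rw [← map_mul, inv_mul_cancel_right]
        rw [h3, QuotientGroup.mk_mul, hinner (P * (dg ν hν0)⁻¹) s (by
          rw [Units.val_mul, Matrix.det_mul, det_dg_inv, hs, sq]), one_mul]
    rw [hg]
    have : Fact (Nat.Prime 2) := ⟨Nat.prime_two⟩
    exact ⟨isCyclic_of_prime_card hcard2, hcard2⟩
end Cfsg.Agent.S2602
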