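import Cfsg.Statements.S0263
import Mathlib

set_option autoImplicit false
open Cfsg

namespace Cfsg.Agent.S0263

open Matrix

theorem card_gl_factor (q n : ℕ) (hq : 1 ≤ q) :
    ∏ i : Fin n, (q ^ n - q ^ (i : ℕ)) =
      q ^ (n * (n - 1) / 2) * ∏ i : Fin n, (q ^ (n - (i : ℕ)) - 1) := by
  have h1 : ∀ i : Fin n, q ^ n - q ^ (i : ℕ) = q ^ (i : ℕ) * (q ^ (n - (i : ℕ)) - 1) := by
    intro i
    rw [Nat.mul_sub, mul_one, ← pow_add]
    congr 2
    have := i.2
    omega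
  rw [Finset.prod_congr rfl (fun i _ => h1 i), Finset.prod_mul_distrib,
    Finset.prod_pow_eq_pow_sum, Fin.sum_univ_eq_sum_range (fun i => i) n, Finset.sum_range_id]

theorem not_dvd_prod (p q n f : ℕ) (hp : p.Prime) (hf : 1 ≤ f) (hq : q = p ^ f) :
    ¬ p ∣ ∏ i : Fin n, (q ^ (n - (i : ℕ)) - 1) := by
  rw [Prime.dvd_finsetProd_iff hp.prime]
  rintro ⟨i, -, hi⟩
  have hi2 := i.2
  have h1 : p ∣ q ^ (n - (i : ℕ)) := by
    rw [hq, ← pow_mul]
    exact dvd_pow_self p (by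
      have : 1 ≤ f * (n - (i : ℕ)) := Nat.mul_pos hf (by omega)
      omega)
  have h2 : 1 ≤ q ^ (n - (i : ℕ)) := Nat.one_le_pow _ _ (by rw [hq]; exact pow_pos hp.pos _)
  have h3 : p ∣ 1 := by
    have := (Nat.dvd_sub h1 hi)
    rwa [Nat.sub_sub_self h2] at this
  exact hp.one_lt.ne' (Nat.dvd_one.1 h3)


/-- A Sylow p-subgroup of GL_n(q), p the characteristic, has order q^(n(n-1)/2). -/
theorem result {F : Type*} [Field F] [Fintype F] {q : ℕ} (hF : Fintype.card F = q) (p : ℕ) [Fact p.Prime] [CharP F p] (n : ℕ) (P : Sylow p (Matrix.GeneralLinearGroup (Fin n) F)) : Nat.card P = q ^ (n * (n - 1) / 2) := by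
  classical
  have hp : p.Prime := Fact.out
  obtain ⟨f, -, hf⟩ := FiniteField.card F p
  rw [hF] at hf
  have hq1 : 1 ≤ q := by rw [hf]; exact Nat.one_le_pow _ _ hp.pos
  rw [Sylow.card_eq_multiplicity, Matrix.card_GL_field, hF, card_gl_factor q n hq1]
  have hnd := not_dvd_prod p q n f hp f.2 hf
  have hne : ∏ i : Fin n, (q ^ (n - (i : ℕ)) - 1) ≠ 0 := by
    intro h0
    exact hnd (h0 ▸ dvd_zero p)
  rw [Nat.factorization_mul (pow_ne_zero _ (by omega)) hne, Finsupp.add_apply,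
    Nat.factorization_eq_zero_of_not_dvd hnd, add_zero, hf, ← pow_mul,
    Nat.Prime.factorization_pow hp, Finsupp.single_eq_same]
end Cfsg.Agent.S0263
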