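import Cfsg.Statements.S0771

set_option autoImplicit false
open Cfsg

namespace Cfsg.Agent.S0771

open Matrix

/-- the index splitting -/
def eqv (n k : ℕ) (hk : k ≤ n) : Fin k ⊕ Fin (n - k) ≃ Fin n :=
  finSumFinEquiv.trans (finCongr (by omega))

theorem eqv_inl (n k : ℕ) (hk : k ≤ n) (i : Fin k) : ((eqv n k hk (Sum.inl i)) : ℕ) = i := by
  simp [eqv]

theorem eqv_inr (n k : ℕ) (hk : k ≤ n) (j : Fin (n - k)) :
    ((eqv n k hk (Sum.inr j)) : ℕ) = k + j := by
  simp [eqv]

theorem mem_S_iff {F : Type*} [Field F] (n k : ℕ) (hk : k ≤ n) (v : Fin n → F) :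
    v ∈ {v : Fin n → F | ∀ i : Fin n, k ≤ (i : ℕ) → v i = 0} ↔
      (v ∘ eqv n k hk) ∘ Sum.inr = 0 := by
  constructor
  · intro h
    ext j
    exact h _ (by rw [eqv_inr]; omega)
  · intro h i hi
    have := congr_fun h ⟨i - k, by omega⟩
    have e : eqv n k hk (Sum.inr ⟨i - k, by omega⟩) = i := by
      apply Fin.ext
      rw [eqv_inr]
      simp only
      omega
    simpa [e] using this

/-- the block upper triangular matrix -/
noncomputable def blk {F : Type*} [Field F] (n k : ℕ) (hk : k ≤ n)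
    (x : GL (Fin k) F × GL (Fin (n - k)) F × Matrix (Fin k) (Fin (n - k)) F) : GL (Fin n) F :=
  GeneralLinearGroup.mkOfDetNeZero
    (reindex (eqv n k hk) (eqv n k hk) (fromBlocks x.1.1 x.2.2 0 x.2.1.1)) (by
      rw [det_reindex_self, det_fromBlocks_zero₂₁]
      exact mul_ne_zero (GeneralLinearGroup.det_ne_zero _) (GeneralLinearGroup.det_ne_zero _))

theorem blk_val {F : Type*} [Field F] (n k : ℕ) (hk : k ≤ n)
    (x : GL (Fin k) F × GL (Fin (n - k)) F × Matrix (Fin k) (Fin (n - k)) F) :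
    (blk n k hk x).1 = reindex (eqv n k hk) (eqv n k hk) (fromBlocks x.1.1 x.2.2 0 x.2.1.1) := rfl

theorem blk_injective {F : Type*} [Field F] (n k : ℕ) (hk : k ≤ n) :
    Function.Injective (blk (F := F) n k hk) := by
  intro x y h
  have h1 := congr_arg Units.val h
  rw [blk_val, blk_val] at h1
  have h2 := (reindex (eqv n k hk) (eqv n k hk)).injective h1
  rw [fromBlocks_inj] at h2
  obtain ⟨a, b, -, d⟩ := h2
  exact Prod.ext (Units.ext a) (Prod.ext (Units.ext d) b)

theorem blk_mulVec {F : Type*} [Field F] (n k : ℕ) (hk : k ≤ n)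
    (A : Matrix (Fin k) (Fin k) F) (B : Matrix (Fin k) (Fin (n - k)) F)
    (C : Matrix (Fin (n - k)) (Fin k) F)
    (D : Matrix (Fin (n - k)) (Fin (n - k)) F) (v : Fin n → F) :
    (((reindex (eqv n k hk) (eqv n k hk) (fromBlocks A B C D)) *ᵥ v) ∘ eqv n k hk) ∘ Sum.inr
      = C *ᵥ ((v ∘ eqv n k hk) ∘ Sum.inl) + D *ᵥ ((v ∘ eqv n k hk) ∘ Sum.inr) := by
  rw [reindex_apply, submatrix_mulVec_equiv, fromBlocks_mulVec]
  ext j
  simp

theorem range_blk {F : Type*} [Field F] (n k : ℕ) (hk : k ≤ n) :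
    Set.range (blk (F := F) n k hk) =
      (Cfsg.stabilizing (Cfsg.glToMat (Fin n) F)
        {v : Fin n → F | ∀ i : Fin n, k ≤ (i : ℕ) → v i = 0} : Set (GL (Fin n) F)) := by
  ext g
  constructor
  · rintro ⟨x, rfl⟩
    intro v
    rw [mem_S_iff n k hk, mem_S_iff n k hk]
    change _ ↔ (((blk n k hk x).1 *ᵥ v) ∘ _) ∘ _ = 0
    rw [blk_val, blk_mulVec, zero_mulVec, zero_add]
    constructor
    · intro h; rw [h, mulVec_zero]
    · intro h
      have := congr_arg (fun w => (x.2.1⁻¹).1 *ᵥ w) h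
      simpa using this
  · intro hg
    set M := reindex (eqv n k hk).symm (eqv n k hk).symm g.1 with hM
    have hgM : g.1 = reindex (eqv n k hk) (eqv n k hk)
        (fromBlocks M.toBlocks₁₁ M.toBlocks₁₂ M.toBlocks₂₁ M.toBlocks₂₂) := by
      rw [fromBlocks_toBlocks, hM]
      ext a b
      simp
    have hC : M.toBlocks₂₁ = 0 := by
      ext j i
      have h1 := (hg (Pi.single (eqv n k hk (Sum.inl i)) 1)).1 (by
        intro a ha
        rw [Pi.single_apply, if_neg]
        rintro rfl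
        rw [eqv_inl] at ha
        omega)
      have h2 := h1 (eqv n k hk (Sum.inr j)) (by rw [eqv_inr]; omega)
      change (g.1 *ᵥ _) _ = 0 at h2
      rw [mulVec_single_one] at h2
      simpa [hM, toBlocks₂₁] using h2
    rw [hC] at hgM
    have hdet : M.toBlocks₁₁.det * M.toBlocks₂₂.det ≠ 0 := by
      rw [← det_fromBlocks_zero₂₁ _ M.toBlocks₁₂, ← det_reindex_self (eqv n k hk), ← hgM]
      exact GeneralLinearGroup.det_ne_zero g
    refine ⟨(GeneralLinearGroup.mkOfDetNeZero _ (left_ne_zero_of_mul hdet),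
      GeneralLinearGroup.mkOfDetNeZero _ (right_ne_zero_of_mul hdet), M.toBlocks₁₂), ?_⟩
    apply Units.ext
    rw [blk_val, hgM]
    rfl


/-- Maximal parabolic of GL_n(q): the stabiliser of the coordinate subspace spanned by the first k basis vectors has order q^(k(n-k)) · |GL_k(q)| · |GL_(n-k)(q)| (unipotent radical of order q^(k(n-k)) and Levi complement GL_k × GL_(n-k)). -/
theorem result {F : Type*} [Field F] [Fintype F] {q : ℕ} (hF : Fintype.card F = q) (n k : ℕ) (hk : k ≤ n) : Nat.card ↥(Cfsg.stabilizing (Cfsg.glToMat (Fin n) F) {v : Fin n → F | ∀ i : Fin n, k ≤ (i : ℕ) → v i = 0}) = q ^ (k * (n - k)) * (∏ i : Fin k, (q ^ k - q ^ (i : ℕ))) * ∏ i : Fin (n - k), (q ^ (n - k) - q ^ (i : ℕ)) := by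
  classical
  have h1 : Nat.card ↥(Cfsg.stabilizing (Cfsg.glToMat (Fin n) F)
      {v : Fin n → F | ∀ i : Fin n, k ≤ (i : ℕ) → v i = 0}) =
      Nat.card (Set.range (blk (F := F) n k hk)) := by
    rw [range_blk]
    rfl
  have h2 : Nat.card (Matrix (Fin k) (Fin (n - k)) F) = q ^ (k * (n - k)) := by
    rw [Nat.card_eq_fintype_card]
    change Fintype.card (Fin k → Fin (n - k) → F) = _
    simp [hF, pow_mul, ← pow_mul, mul_comm]
  rw [h1, Nat.card_range_of_injective (blk_injective n k hk), Nat.card_prod, Nat.card_prod,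
    Matrix.card_GL_field, Matrix.card_GL_field, h2, hF]
  ring
end Cfsg.Agent.S0771
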