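import Cfsg.Statements.S2579
import Cfsg.Agent.Lib.Helper4.PSLnConj

set_option autoImplicit false
open Cfsg

namespace Cfsg.Agent.S2579

open Cfsg.Agent.Lib.Helper4.PSLn Cfsg.Agent.Lib.Helper4.SLnTv Matrix

theorem exists_vecMulVec {F : Type*} [Field F] {n : ℕ} (M : Matrix (Fin n) (Fin n) F) (h : M.rank = 1) :
    ∃ v φ : Fin n → F, M = vecMulVec v φ := by
  rw [Matrix.rank] at h
  obtain ⟨⟨v, hv⟩, -, hspan⟩ := finrank_eq_one_iff'.1 h
  have h1 : ∀ j : Fin n, ∃ c : F, c • v = M *ᵥ (Pi.single j 1) := by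
    intro j
    obtain ⟨c, hc⟩ := hspan ⟨M *ᵥ (Pi.single j 1), ⟨_, rfl⟩⟩
    exact ⟨c, congrArg Subtype.val hc⟩
  choose φ hφ using h1
  refine ⟨v, φ, ?_⟩
  ext i j
  have := congrFun (hφ j) i
  rw [Matrix.mulVec_single_one] at this
  rw [vecMulVec_apply, mul_comm]
  exact this.symm

theorem exists_tv {F : Type*} [Field F] {n : ℕ} (t : SpecialLinearGroup (Fin n) F)
    (ht : Cfsg.IsTransvection (t : Matrix (Fin n) (Fin n) F)) :
    ∃ v φ : Fin n → F, v ≠ 0 ∧ φ ≠ 0 ∧ φ ⬝ᵥ v = 0 ∧ t = tv v φ := by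
  obtain ⟨h1, h2⟩ := ht
  obtain ⟨v, φ, h⟩ := exists_vecMulVec _ h1
  have hne : vecMulVec v φ ≠ 0 := by
    intro h0
    rw [h, h0, Matrix.rank_zero] at h1
    exact zero_ne_one h1
  have hv : v ≠ 0 := by
    rintro rfl
    exact hne (by simp)
  have hφ : φ ≠ 0 := by
    rintro rfl
    exact hne (by simp)
  have h0 : φ ⬝ᵥ v = 0 := by
    rw [h, vecMulVec_mul_vecMulVec] at h2
    by_contra hc
    apply hne
    have h3 : vecMulVec v ((φ ⬝ᵥ v) • φ) = (φ ⬝ᵥ v) • vecMulVec v φ := by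
      ext i j; simp [vecMulVec_apply]; ring
    rw [h3] at h2
    exact (smul_eq_zero.1 h2).resolve_left hc
  refine ⟨v, φ, hv, hφ, h0, ?_⟩
  apply Subtype.ext
  rw [tv_val h0, ← h]
  abel


/-- In SL_n(F) with n ≥ 3, over a finite field F, any two transvections (matrices t with t − 1 of rank one and square zero) are conjugate by an element of SL_n(F). -/
theorem result {F : Type*} [Field F] [Finite F] {n : ℕ} (hn : 3 ≤ n) (s t : Matrix.SpecialLinearGroup (Fin n) F) (hs : Cfsg.IsTransvection (s : Matrix (Fin n) (Fin n) F)) (ht : Cfsg.IsTransvection (t : Matrix (Fin n) (Fin n) F)) : IsConj s t := by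
  obtain ⟨v, φ, hv, hφ, h0, rfl⟩ := exists_tv s hs
  obtain ⟨v', φ', hv', hφ', h0', rfl⟩ := exists_tv t ht
  have hne : (⟨0, by omega⟩ : Fin n) ≠ ⟨1, by omega⟩ := by simp
  obtain ⟨g, hg⟩ := conj_to_E hn hne hv hφ h0
  obtain ⟨g', hg'⟩ := conj_to_E hn hne hv' hφ' h0'
  exact (isConj_iff.2 ⟨g, hg⟩).trans (isConj_iff.2 ⟨g', hg'⟩).symm
end Cfsg.Agent.S2579
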