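import Cfsg.Statements.S2621
import Mathlib
import Cfsg.Agent.Lib.Helper4.QuadDet

set_option autoImplicit false
open Cfsg

namespace Cfsg.Agent.S2621

open Cfsg.Agent.Lib.Helper4.QuadFin


/-- Discriminant of an elliptic quadratic form Σ_(i<m−1) x_i y_i + z₁² + a z₁z₂ + c z₂² (binary part anisotropic) in dimension 2m over a field with q elements, q odd, m ≥ 1: the determinant of the Gram matrix of its polar form in any basis is a square if and only if m(q − 1)/2 is odd (equivalently q^m ≡ 3 (mod 4)). -/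
theorem result {F : Type*} [Field F] [Fintype F] {q : ℕ} (hF : Fintype.card F = q) (hq : Odd q) {m : ℕ} (hm : 1 ≤ m) (a c : F) (hac : ∀ z₁ z₂ : F, z₁ ^ 2 + a * z₁ * z₂ + c * z₂ ^ 2 = 0 → z₁ = 0 ∧ z₂ = 0) {ι : Type*} [Fintype ι] [DecidableEq ι] (b : Module.Basis ι F ((Fin (m - 1) ⊕ Fin (m - 1)) ⊕ Fin 2 → F)) : IsSquare (Matrix.of (fun i j : ι => QuadraticMap.polar (Cfsg.quadFormMinus (m - 1) F a c) (b i) (b j))).det ↔ ¬ Even (m * (q - 1) / 2) := by
  classical
  rw [← QM_coe]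
  obtain ⟨u, hu, h⟩ := det_gram_any (QM F (m - 1) a c) b
  rw [h, det_QM, isSquare_sq_mul hu, ← isSquare_neg_one_pow hF hq]
  obtain ⟨k, rfl⟩ : ∃ k, m = k + 1 := ⟨m - 1, by omega⟩
  rw [Nat.add_sub_cancel]
  have h2 : (2 : F) ≠ 0 := by
    intro h2
    have hchar : ringChar F = 2 := by
      exact (ringChar.eq_iff.2 (CharTwo.of_one_ne_zero_of_two_eq_zero one_ne_zero h2))
    have := FiniteField.even_card_of_char_two hchar
    rw [hF] at this
    exact (Nat.not_even_iff_odd.2 hq) (Nat.even_iff.2 this)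
  have hD : ¬ IsSquare (a ^ 2 - 4 * c) := by
    rintro ⟨s, hs⟩
    have := (hac ((s - a) / 2) 1 (by field_simp; linear_combination -hs)).2
    exact one_ne_zero this
  have e1 : (-1 : F) ^ k * (4 * c - a ^ 2) = (-1) ^ (k + 1) * (a ^ 2 - 4 * c) := by ring
  rw [e1]
  have hx : ((-1 : F) ^ (k + 1)) ≠ 0 := pow_ne_zero _ (neg_ne_zero.2 one_ne_zero)
  have hD0 : a ^ 2 - 4 * c ≠ 0 := by
    intro h0; exact hD (h0 ▸ IsSquare.zero)
  rw [← quadraticChar_one_iff_isSquare (mul_ne_zero hx hD0), ← quadraticChar_one_iff_isSquare hx, map_mul,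
    quadraticChar_neg_one_iff_not_isSquare.2 hD]
  rcases quadraticChar_dichotomy hx with h1 | h1 <;> rw [h1] <;> decide
end Cfsg.Agent.S2621
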