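import Cfsg.Statements.S1182
import Mathlib
import Cfsg.Agent.Lib.Helper6.Invol

set_option autoImplicit false
open Cfsg

namespace Cfsg.Agent.S1182

open Cfsg.Agent.Lib.Helper6.Invol

/-- Let z be an isolated involution of the finite group G and H a subgroup normalized by z. If x, y ∈ H both commute with z and y = h x h⁻¹ for some h ∈ H, then y = c x c⁻¹ for some c ∈ H commuting with z. -/
theorem result {G : Type*} [Group G] [Finite G] (z : G) (hz : Cfsg.IsIsolatedInvolution z) (H : Subgroup G) (hzH : z ∈ Subgroup.normalizer (H : Set G)) (x y : G) (hx : x ∈ H) (hy : y ∈ H) (hxz : Commute x z) (hyz : Commute y z) (h : G) (hh : h ∈ H) (hconj : h * x * h⁻¹ = y) : ∃ c ∈ H, Commute c z ∧ c * x * c⁻¹ = y := by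
  obtain ⟨m, hm⟩ := IsIsolated.exists_pow_conj hz h
  set t := h * z * h⁻¹ with ht
  have hzz : z * z = 1 := mul_self_of_orderOf hz.1
  have hzinv : z⁻¹ = z := inv_eq_self hzz
  have hztH : z * t ∈ H := by
    have h1 : z * h * z⁻¹ ∈ H := (Subgroup.mem_normalizer_iff.mp hzH h).mp hh
    have : z * t = (z * h * z⁻¹) * h⁻¹ := by rw [ht, hzinv]; group
    rw [this]
    exact H.mul_mem h1 (H.inv_mem hh)
  have hyt : Commute y t := by
    rw [← hconj, ht]
    show h * x * h⁻¹ * (h * z * h⁻¹) = h * z * h⁻¹ * (h * x * h⁻¹)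
    have : x * z = z * x := hxz.eq
    calc h * x * h⁻¹ * (h * z * h⁻¹) = h * (x * z) * h⁻¹ := by group
      _ = h * (z * x) * h⁻¹ := by rw [this]
      _ = _ := by group
  have hyk : Commute y ((z * t) ^ m) := (hyz.mul_right hyt).pow_right m
  set k := (z * t) ^ m with hk
  refine ⟨k⁻¹ * h, H.mul_mem (H.inv_mem (H.pow_mem hztH m)) hh, ?_, ?_⟩
  · show k⁻¹ * h * z = z * (k⁻¹ * h)
    have h2 : h * z = k * z * k⁻¹ * h := by rw [hm, ht]; group
    calc k⁻¹ * h * z = k⁻¹ * (h * z) := by group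
      _ = k⁻¹ * (k * z * k⁻¹ * h) := by rw [h2]
      _ = _ := by group
  · have : k⁻¹ * h * x * (k⁻¹ * h)⁻¹ = k⁻¹ * (h * x * h⁻¹) * k := by group
    rw [this, hconj, mul_assoc, hyk.eq, inv_mul_cancel_left]

end Cfsg.Agent.S1182
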