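import Cfsg.Statements.S1185
import Mathlib
import Cfsg.Agent.Lib.Helper6.Invol

set_option autoImplicit false
open Cfsg

namespace Cfsg.Agent.S1185

open Cfsg.Agent.Lib.Helper6.Invol

theorem sq_eq {G : Type*} [Group G] {z k : G} (hzz : z * z = 1) (hinv : z * k * z⁻¹ = k⁻¹) :
    k * z * k⁻¹ = k ^ 2 * z := by
  have hzi : z⁻¹ = z := inv_eq_self hzz
  have : z * k⁻¹ = k * z := by
    have h1 : z * k⁻¹ * z⁻¹ = k := by
      have := congrArg (·⁻¹) hinv
      simpa [mul_assoc] using this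
    calc z * k⁻¹ = (z * k⁻¹ * z⁻¹) * z := by group
      _ = k * z := by rw [h1]
  rw [mul_assoc, this, pow_two, mul_assoc]

theorem eq_of_sq_eq {G : Type*} [Group G] {k k' : G} (hk : Odd (orderOf k)) (hk' : Odd (orderOf k'))
    (h : k ^ 2 = k' ^ 2) : k = k' := by
  have c1 : (orderOf k).Coprime 2 := Nat.coprime_two_right.mpr hk
  have c2 : (orderOf k').Coprime 2 := Nat.coprime_two_right.mpr hk'
  have o1 : orderOf (k ^ 2) = orderOf k := c1.orderOf_pow
  have o2 : orderOf (k' ^ 2) = orderOf k' := c2.orderOf_pow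
  have o : orderOf k = orderOf k' := by rw [← o1, ← o2, h]
  obtain ⟨a, ha⟩ := hk
  have e1 : k = (k ^ 2) ^ (a + 1) := by
    rw [← pow_mul, show 2 * (a + 1) = (2 * a + 1) + 1 by ring, ← ha, pow_succ, pow_orderOf_eq_one, one_mul]
  have e2 : k' = (k' ^ 2) ^ (a + 1) := by
    rw [← pow_mul, show 2 * (a + 1) = (2 * a + 1) + 1 by ring, ← ha, o, pow_succ, pow_orderOf_eq_one,
      one_mul]
  rw [e1, e2, h]

/-- Let z be an isolated involution of the finite group G with centralizer C. Then for every g ∈ G there is exactly one element k in the coset gC that has odd order and is inverted by z. -/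
theorem result {G : Type*} [Group G] [Finite G] (z : G) (hz : Cfsg.IsIsolatedInvolution z) (g : G) : ∃! k : G, (Odd (orderOf k) ∧ z * k * z⁻¹ = k⁻¹) ∧ g⁻¹ * k ∈ Subgroup.centralizer ({z} : Set G) := by
  have hzz : z * z = 1 := mul_self_of_orderOf hz.1
  have hzi : z⁻¹ = z := inv_eq_self hzz
  obtain ⟨m, hm⟩ := IsIsolated.exists_pow_conj hz g
  set t := g * z * g⁻¹ with ht
  have htt : t * t = 1 := conj_mul_self hzz g
  have hcent : ∀ k : G, g⁻¹ * k ∈ Subgroup.centralizer ({z} : Set G) ↔ k * z * k⁻¹ = t := by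
    intro k
    rw [Subgroup.mem_centralizer_singleton_iff, ht]
    constructor
    · intro h
      calc k * z * k⁻¹ = g * (g⁻¹ * k * z) * k⁻¹ := by group
        _ = g * (z * (g⁻¹ * k)) * k⁻¹ := by rw [h]
        _ = _ := by group
    · intro h
      calc g⁻¹ * k * z = g⁻¹ * (k * z * k⁻¹) * k := by group
        _ = g⁻¹ * (g * z * g⁻¹) * k := by rw [h]
        _ = _ := by group
  refine ⟨(z * t) ^ m, ⟨⟨?_, ?_⟩, (hcent _).mpr hm⟩, ?_⟩
  · exact (IsIsolated.odd_orderOf hz g).of_dvd_nat (orderOf_pow_dvd m)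
  · have h1 : z * (z * t) * z⁻¹ = (z * t)⁻¹ := by
      rw [mul_inv_eq hzz htt, hzi, ← mul_assoc, hzz, one_mul]
    have : z * (z * t) ^ m * z⁻¹ = (z * (z * t) * z⁻¹) ^ m := (conj_pow (a := z) (b := z * t) (i := m)).symm
    rw [this, h1, inv_pow]
  · rintro k ⟨⟨hodd, hinv⟩, hk⟩
    have e1 := (hcent k).mp hk
    have hinv' : z * (z * t) ^ m * z⁻¹ = ((z * t) ^ m)⁻¹ := by
      have h1 : z * (z * t) * z⁻¹ = (z * t)⁻¹ := by
        rw [mul_inv_eq hzz htt, hzi, ← mul_assoc, hzz, one_mul]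
      have : z * (z * t) ^ m * z⁻¹ = (z * (z * t) * z⁻¹) ^ m := (_root_.conj_pow (a := z) (b := z * t) (i := m)).symm
      rw [this, h1, inv_pow]
    rw [sq_eq hzz hinv] at e1
    rw [sq_eq hzz hinv'] at hm
    apply eq_of_sq_eq hodd ((IsIsolated.odd_orderOf hz g).of_dvd_nat (orderOf_pow_dvd m))
    exact mul_right_cancel (e1.trans hm.symm)

end Cfsg.Agent.S1185
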