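import Mathlib
import Cfsg.Statements.S0928
import Cfsg.Agent.Lib.Helper2.CentralMod

set_option autoImplicit false
open Cfsg

namespace Cfsg.Agent.S0928

open Cfsg.Agent.Lib.Helper2.CentralMod Cfsg.Agent.Lib.Helper7.CharIrr
  Cfsg.Agent.Lib.Helper7.CharMore

theorem key {G : Type*} [Group G] [Fintype G] (p : ℕ) [Fact p.Prime] {g z : G}
    (hz : orderOf z = p) (hzg : z * g = g * z) :
    p ∣ Nat.card {x : G // x ∈ {s : G | s ^ p = 1} ∧ x⁻¹ * g ∈ {s : G | s ^ p = 1}} := by
  set X : Set G := {x | x ∈ {s : G | s ^ p = 1} ∧ x⁻¹ * g ∈ {s : G | s ^ p = 1}} with hX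
  have hP : IsPGroup p (Subgroup.zpowers z) := by
    apply IsPGroup.of_card (n := 1)
    rw [Nat.card_zpowers, hz, pow_one]
  have hcg : ∀ q ∈ Subgroup.zpowers z, q * g = g * q := by
    intro q hq
    obtain ⟨k, rfl⟩ := Subgroup.mem_zpowers_iff.mp hq
    exact (Commute.zpow_left (show Commute z g from hzg) k)
  have hcz : ∀ q ∈ Subgroup.zpowers z, q * z = z * q := by
    intro q hq
    obtain ⟨k, rfl⟩ := Subgroup.mem_zpowers_iff.mp hq
    exact (Commute.zpow_left (Commute.refl z) k)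
  have hinv : ∀ q ∈ Subgroup.zpowers z, ∀ x ∈ X, q * x * q⁻¹ ∈ X := by
    intro q hq x hx
    refine ⟨?_, ?_⟩
    · show (q * x * q⁻¹) ^ p = 1
      rw [conj_pow, show x ^ p = 1 from hx.1]; group
    · show ((q * x * q⁻¹)⁻¹ * g) ^ p = 1
      have h2 : g = q * g * q⁻¹ := by rw [hcg q hq]; group
      have h1 : (q * x * q⁻¹)⁻¹ * g = q * (x⁻¹ * g) * q⁻¹ := by
        calc (q * x * q⁻¹)⁻¹ * g = (q * x * q⁻¹)⁻¹ * (q * g * q⁻¹) := by rw [← h2]
          _ = q * (x⁻¹ * g) * q⁻¹ := by group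
      rw [h1, conj_pow, show (x⁻¹ * g) ^ p = 1 from hx.2]; group
  have hmod := card_modEq_fixed (Subgroup.zpowers z) hP X hinv
  set Y : Set G := {x | x ∈ X ∧ ∀ q ∈ Subgroup.zpowers z, q * x = x * q} with hY
  have hzp : z ^ p = 1 := by rw [← hz]; exact pow_orderOf_eq_one z
  have hYz : ∀ y ∈ Y, y * z ∈ Y := by
    intro y hy
    have hyz : z * y = y * z := hy.2 z (Subgroup.mem_zpowers z)
    refine ⟨⟨?_, ?_⟩, ?_⟩
    · show (y * z) ^ p = 1
      rw [(show Commute y z from hyz.symm).mul_pow, show y ^ p = 1 from hy.1.1, hzp, one_mul]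
    · show ((y * z)⁻¹ * g) ^ p = 1
      have h1 : (y * z)⁻¹ * g = z⁻¹ * (y⁻¹ * g) := by group
      have h2 : Commute z (y⁻¹ * g) :=
        ((show Commute z y from hyz).inv_right).mul_right (show Commute z g from hzg)
      rw [h1, (h2.inv_left).mul_pow, show (y⁻¹ * g) ^ p = 1 from hy.1.2, inv_pow, hzp]
      simp
    · intro q hq
      calc q * (y * z) = (q * y) * z := by group
        _ = y * (q * z) := by rw [hy.2 q hq]; group
        _ = y * z * q := by rw [hcz q hq]; group
  have hdvd : p ∣ Nat.card Y := dvd_card_of_mul_right z hz Y hYz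
  have h3 : Nat.card X ≡ 0 [MOD p] := hmod.trans ((Nat.modEq_zero_iff_dvd).mpr hdvd)
  exact (Nat.modEq_zero_iff_dvd).mp h3

/-- Let χ be an irreducible character of the finite group G and p a prime. If χ g = 0 for every element g of order p, then the exponent of p in the degree χ(1) equals the exponent of p in the order of G (χ has p-defect zero). -/
theorem result {G : Type*} [Group G] [Finite G] (p : ℕ) [Fact p.Prime] (χ : Cfsg.IrrCharacter G) (hvan : ∀ g : G, orderOf g = p → (χ : G → ℂ) g = 0) : (Cfsg.charDegree (χ : G → ℂ)).factorization p = (Nat.card G).factorization p := by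
  classical
  have : Fintype G := Fintype.ofFinite G
  have hp : p.Prime := Fact.out
  obtain ⟨χ, hχ⟩ := χ
  simp only at hvan ⊢
  by_contra hne
  have hdvd := Cfsg.Agent.Lib.Helper7.CharDeg.charDegree_dvd_card hχ
  have hd0 : charDegree χ ≠ 0 := (Cfsg.Agent.Lib.Helper7.CharDeg.charDegree_pos hχ).ne'
  have hle : (charDegree χ).factorization p ≤ (Nat.card G).factorization p :=
    (Nat.factorization_le_iff_dvd hd0 Nat.card_pos.ne').mpr hdvd p
  have hlt := lt_of_le_of_ne hle hne
  obtain ⟨M, hM⟩ := exists_modular p hp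
  have hMtop : M ≠ ⊤ := hM.2.1.ne_top
  -- minimal good class
  obtain ⟨y0, hy0, hmin⟩ := Set.exists_min_image {y : G | Good M χ y}
    (fun y => (Nat.card (Subgroup.centralizer ({y} : Set G))).factorization p)
    (Set.toFinite _) ⟨1, good_one hMtop hχ⟩
  have hpd := good_dvd hM hχ hlt hy0
  obtain ⟨z', hz'⟩ := exists_prime_orderOf_dvd_card' p hpd
  have hz : orderOf (z' : G) = p := by rw [Subgroup.orderOf_coe, hz']
  have hzy : (z' : G) * y0 = y0 * z' := Subgroup.mem_centralizer_singleton_iff.mp z'.2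
  -- the set of solutions of `s ^ p = 1`
  have hS : ∀ g h : G, g ∈ {s : G | s ^ p = 1} → h * g * h⁻¹ ∈ {s : G | s ^ p = 1} := by
    intro g h hg
    show (h * g * h⁻¹) ^ p = 1
    rw [conj_pow, show g ^ p = 1 from hg]; group
  have hW : Wc χ (ind {s : G | s ^ p = 1}) = 1 := by
    have h1 : ∑ g, ((ind {s : G | s ^ p = 1} g : ℤ) : ℂ) * χ g = χ 1 := by
      rw [Finset.sum_eq_single 1]
      · simp [ind]
      · intro g _ hg
        by_cases hgS : g ^ p = 1
        · rw [hvan g (orderOf_eq_prime hgS hg), mul_zero]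
        · have : ind {s : G | s ^ p = 1} g = 0 := by
            unfold ind
            exact if_neg hgS
          rw [this]; simp
      · intro h; exact absurd (Finset.mem_univ _) h
    rw [Wc, h1, div_self (irr_one_ne_zero hχ)]
  have hW' : ¬ Mem M (Wc χ (ind {s : G | s ^ p = 1})) := by
    rw [hW]; exact not_mem_one hMtop
  obtain ⟨g, hg, hcard⟩ := prod_good hM hχ hS hS hW' hW'
  obtain ⟨g', hgg', hzg'⟩ := minmax hM hχ y0 hy0 hmin z' hz hzy g hg
  have h1 := (conv_isCl (ind_isCl hS) (ind_isCl hS)).eq_of_isConj hgg'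
  rw [conv_ind, conv_ind] at h1
  have h2 : Nat.card {x : G // x ∈ {s : G | s ^ p = 1} ∧ x⁻¹ * g ∈ {s : G | s ^ p = 1}}
      = Nat.card {x : G // x ∈ {s : G | s ^ p = 1} ∧ x⁻¹ * g' ∈ {s : G | s ^ p = 1}} := by
    exact_mod_cast h1
  rw [h2] at hcard
  exact hcard (key p hz hzg')

end Cfsg.Agent.S0928
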