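import Cfsg.Statements.S4733
import Cfsg.Agent.Lib.Helper7.All1
import Cfsg.Agent.Lib.Helper7.BRank1
import Cfsg.Agent.S0928
-- import your own Cfsg.Agent.* helpers here

set_option autoImplicit false
open Cfsg
open Cfsg.Agent.Lib.Helper7.CharBasic Cfsg.Agent.Lib.Helper7.CharIrr Cfsg.Agent.Lib.Helper7.CharDecomp Cfsg.Agent.Lib.Helper7.CharComplete Cfsg.Agent.Lib.Helper7.CharOrth Cfsg.Agent.Lib.Helper7.CharInd Cfsg.Agent.Lib.Helper7.CharIntegral Cfsg.Agent.Lib.Helper7.CharBurnside Cfsg.Agent.Lib.Helper7.CharLinear Cfsg.Agent.Lib.Helper7.CharEquiv Cfsg.Agent.Lib.Helper7.CharMore Cfsg.Agent.Lib.Helper7.CharCount Cfsg.Agent.Lib.Helper7.CharMisc Cfsg.Agent.Lib.Helper7.CharMisc2 Cfsg.Agent.Lib.Helper7.CharNormal Cfsg.Agent.Lib.Helper7.CharOdd Cfsg.Agent.Lib.Helper7.CharClifford Cfsg.Agent.Lib.Helper7.CharProd Cfsg.Agent.Lib.Helper7.CharPerm Cfsg.Agent.Lib.Helper7.CharClassAlg Cfsg.Agent.Lib.Helper7.CharClassAlg2 Cfsg.Agent.Lib.Helper7.CharCentral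 Cfsg.Agent.Lib.Helper7.CharNormal2 Cfsg.Agent.Lib.Helper7.CharCliffordCorr
open scoped ComplexConjugate

namespace Cfsg.Agent.S4733

/-- Let p be a prime, M a maximal ideal of the algebraic integers containing p, and B a p-block of the finite group G with k irreducible characters and p-regular rank l (the number of irreducible Brauer characters). Then l ≤ k, and the following are equivalent: B has defect 0; k = l = 1; k = l. -/
theorem result {G : Type*} [Group G] [Finite G] (p : ℕ) [Fact p.Prime] (M : Ideal Cfsg.AlgInt) (hM : Cfsg.IsPModular p M) (B : Set (Cfsg.IrrCharacter G)) (hB : Cfsg.IsPBlock M B) : Cfsg.blockRank p B ≤ Nat.card B ∧ (Cfsg.blockDefect p B = 0 ↔ (Nat.card B = 1 ∧ Cfsg.blockRank p B = 1)) ∧ (Cfsg.blockDefect p B = 0 ↔ Nat.card B = Cfsg.blockRank p B) := by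
  classical
  haveI := Fintype.ofFinite G
  haveI := Fintype.ofFinite (IrrCharacter G)
  obtain ⟨S, hSdef⟩ : ∃ S, S = (Set.toFinite B).toFinset := ⟨_, rfl⟩
  have hS : ∀ χ, χ ∈ S ↔ χ ∈ B := fun χ => by rw [hSdef]; exact Set.Finite.mem_toFinset _
  have hcard : Nat.card B = S.card := by
    rw [Nat.card_coe_set_eq, Set.ncard_eq_toFinset_card B (Set.toFinite B), hSdef]
  have hrank := Cfsg.Agent.Lib.Helper7.BRank1.rank_eq hM hB S hS
  choose r hr1 hr2 using fun χ : IrrCharacter G =>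
    Cfsg.Agent.Lib.Helper7.BCount1.classInner_pReg_self_le p χ.2
  have hrank' : ∑ χ ∈ S, r χ = (blockRank p B : ℝ) := by
    have : ((∑ χ ∈ S, r χ : ℝ) : ℂ) = ((blockRank p B : ℝ) : ℂ) := by
      push_cast
      rw [← hrank]
      exact Finset.sum_congr rfl (fun χ _ => (hr1 χ).symm)
    exact_mod_cast this
  have hle : blockRank p B ≤ Nat.card B := by
    rw [hcard]
    have : (blockRank p B : ℝ) ≤ (S.card : ℝ) := by
      rw [← hrank', Finset.card_eq_sum_ones]
      push_cast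
      exact Finset.sum_le_sum (fun χ _ => hr2 χ)
    exact_mod_cast this
  haveI := hM.2.1.isPrime
  have hne : B.Nonempty := Cfsg.Agent.Lib.Helper2.BlockZ.block_nonempty hB
  have h3 : Nat.card B = blockRank p B → blockDefect p B = 0 := by
    intro h
    have hall : ∀ χ ∈ S, r χ = 1 := by
      apply (Finset.sum_eq_sum_iff_of_le (fun χ _ => hr2 χ)).mp
      rw [hrank', ← h, hcard]
      simp
    have hdeg : ∀ χ ∈ B, (charDegree (χ : G → ℂ)).factorization p =
        (Nat.card G).factorization p := by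
      intro χ hχ
      apply Cfsg.Agent.S0928.result p χ
      intro g hg
      have h1 := hr1 χ
      rw [hall χ ((hS χ).mpr hχ), Cfsg.Agent.Lib.Helper7.CharRes.classInner_self_eq] at h1
      have h2 := Cfsg.Agent.Lib.Helper7.CharRes.classInner_self_eq (χ : G → ℂ)
      rw [Cfsg.Agent.Lib.Helper7.CharIrr.classInner_irr χ.2 χ.2, if_pos rfl] at h2
      have h1' : (Nat.card G : ℝ)⁻¹ *
          ∑ g : G, ‖Cfsg.Agent.Lib.Helper7.Brauer11.pReg p (χ : G → ℂ) g‖ ^ 2 = 1 := by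
        exact_mod_cast h1
      have h2' : (Nat.card G : ℝ)⁻¹ * ∑ g : G, ‖(χ : G → ℂ) g‖ ^ 2 = 1 := by
        exact_mod_cast h2.symm
      have hG : (Nat.card G : ℝ)⁻¹ ≠ 0 := by
        have : (Nat.card G : ℝ) ≠ 0 := by exact_mod_cast Nat.card_pos.ne'
        exact inv_ne_zero this
      have h4 : ∑ g : G, ‖Cfsg.Agent.Lib.Helper7.Brauer11.pReg p (χ : G → ℂ) g‖ ^ 2 =
          ∑ g : G, ‖(χ : G → ℂ) g‖ ^ 2 := mul_left_cancel₀ hG (h1'.trans h2'.symm)
      have h5 := (Finset.sum_eq_sum_iff_of_le (s := Finset.univ)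
        (f := fun g : G => ‖Cfsg.Agent.Lib.Helper7.Brauer11.pReg p (χ : G → ℂ) g‖ ^ 2)
        (g := fun g : G => ‖(χ : G → ℂ) g‖ ^ 2) (by
          intro g _
          simp only [Cfsg.Agent.Lib.Helper7.Brauer11.pReg]
          split_ifs
          · simp
          · exact le_rfl)).mp h4 g (Finset.mem_univ g)
      simp only [Cfsg.Agent.Lib.Helper7.Brauer11.pReg] at h5
      rw [if_pos (by rw [hg])] at h5
      simp only [norm_zero] at h5
      have h6 : ‖(χ : G → ℂ) g‖ = 0 := by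
        have : ‖(χ : G → ℂ) g‖ ^ 2 = 0 := by rw [← h5]; norm_num
        exact pow_eq_zero_iff (two_ne_zero) |>.mp this
      exact norm_eq_zero.mp h6
    have hne' : ((fun χ : IrrCharacter G => (charDegree (χ : G → ℂ)).factorization p) '' B).Nonempty :=
      hne.image _
    obtain ⟨χ, hχ, h2⟩ := Nat.sInf_mem hne'
    unfold blockDefect
    rw [← h2]
    simp only
    rw [hdeg χ hχ, Nat.sub_self]
  have h2 : blockDefect p B = 0 → Nat.card B = 1 ∧ blockRank p B = 1 := by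
    intro h
    have hbf := Cfsg.Agent.Lib.Helper7.BFeit1.brauer_feit hM hB S hS
    rw [h] at hbf
    norm_num at hbf
    have hk1 : S.card ≤ 1 := by
      calc S.card = ∑ χ ∈ S, 1 := Finset.card_eq_sum_ones S
        _ ≤ ∑ χ ∈ S, p ^ (2 * blockHeight p B (χ : G → ℂ)) :=
            Finset.sum_le_sum (fun χ _ => Nat.one_le_pow _ _ hM.1.pos)
        _ ≤ 1 := hbf
    obtain ⟨χ, hχ⟩ := hne
    have hk2 : 0 < S.card := Finset.card_pos.mpr ⟨χ, (hS χ).mpr hχ⟩
    have hk : Nat.card B = 1 := by omega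
    refine ⟨hk, ?_⟩
    have hl : blockRank p B ≠ 0 := by
      intro h0
      unfold blockRank at h0
      rw [Submodule.finrank_eq_zero, Submodule.span_eq_bot] at h0
      have h7 := h0 _ ⟨χ, hχ, rfl⟩
      simp only at h7
      rw [Cfsg.Agent.Lib.Helper7.BRank1.pRegularPart_eq_pReg] at h7
      have h8 := congrFun h7 1
      simp only [Cfsg.Agent.Lib.Helper7.Brauer11.pReg, orderOf_one, Nat.dvd_one, Pi.zero_apply] at h8
      rw [if_neg hM.1.one_lt.ne'] at h8
      exact Cfsg.Agent.Lib.Helper7.CharMore.irr_one_ne_zero χ.2 h8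
    omega
  refine ⟨hle, ⟨h2, fun h => h3 (by rw [h.1, h.2])⟩, ⟨fun h => ?_, h3⟩⟩
  obtain ⟨a, b⟩ := h2 h
  rw [a, b]

end Cfsg.Agent.S4733
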