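import Mathlib
import Cfsg.Statements.S0908
import Cfsg.Agent.Lib.Helper2.BlockDef

set_option autoImplicit false
open Cfsg

namespace Cfsg.Agent.S0908

open Cfsg.Agent.Lib.Helper2.BlockDef

/-- Let B be a block of the finite group G relative to a maximal ideal M of the algebraic integers containing the prime p, and let D be a defect group of B. Then the order of D is p ^ d, where d is the exponent of p in the order of G minus the least exponent of p in the degrees of the members of B. -/
theorem result {G : Type*} [Group G] [Finite G] (p : ℕ) [Fact p.Prime] (M : Ideal Cfsg.AlgInt) (hM : Cfsg.IsPModular p M) (B : Set (Cfsg.IrrCharacter G)) (hB : Cfsg.IsPBlock M B) (D : Subgroup G) (hD : Cfsg.IsDefectGroup p M B D) : Nat.card D = p ^ Cfsg.blockDefect p B := by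
  classical
  have := Fintype.ofFinite G
  obtain ⟨g, hg, P, rfl⟩ := hD
  rw [blockDefect_eq hM hB g hg, ← P.card_eq_multiplicity]
  exact Nat.card_congr
    (Subgroup.equivMapOfInjective _ _ (Subgroup.subtype_injective _)).symm.toEquiv

end Cfsg.Agent.S0908
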