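import Mathlib
import Cfsg.Statements.S0529
import Cfsg.Agent.Lib.Helper2.Supersolvable2

set_option autoImplicit false
open Cfsg

namespace Cfsg.Agent.S0529

open Cfsg.Agent.Lib.Helper2.Supersolvable Cfsg.Agent.Lib.Helper1

universe u

theorem exists_normal_max_prime : ∀ (n : ℕ) (G : Type u) [Group G] [Finite G], Nat.card G = n →
    Cfsg.IsSupersolvable G → ∀ p : ℕ, p.Prime → p ∣ Nat.card G →
    (∀ q : ℕ, q.Prime → q ∣ Nat.card G → q ≤ p) → ∃ N : Subgroup G, N.Normal ∧ Nat.card N = p := by
  intro n
  induction n using Nat.strong_induction_on with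
  | _ n ih =>
  intro G _ _ hn hG p hp hpd hmax
  haveI : Nontrivial G := by
    by_contra h
    rw [not_nontrivial_iff_subsingleton] at h
    rw [Nat.card_eq_one_iff_unique.mpr ⟨h, ⟨1⟩⟩] at hpd
    exact hp.one_lt.ne' (Nat.dvd_one.mp hpd)
  obtain ⟨g, hgn, hgp⟩ := exists_normal_prime_card hG
  set N := Subgroup.zpowers g with hN
  set q := Nat.card N with hq
  have hcard : Nat.card (G ⧸ N) * q = Nat.card G := card_quotient_mul_card N
  have hqp : q ≤ p := hmax q hgp (Dvd.intro_left _ hcard)
  by_cases hqe : q = p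
  · exact ⟨N, hgn, hqe⟩
  have hlt : q < p := lt_of_le_of_ne hqp hqe
  have hcop : Nat.Coprime p q := (Nat.coprime_primes hp hgp).mpr (Ne.symm hqe)
  have hpd' : p ∣ Nat.card (G ⧸ N) := by
    rw [← hcard] at hpd
    exact hcop.dvd_of_dvd_mul_right hpd
  obtain ⟨Kb, hKbn, hKbc⟩ := ih _ (hn ▸ card_quotient_lt N hgp.one_lt) (G ⧸ N) rfl
    (isSupersolvable_of_surjective (QuotientGroup.mk'_surjective N) hG) p hp hpd'
    (fun r hr hrd => hmax r hr (hrd.trans (Dvd.intro _ hcard)))
  set K := Kb.comap (QuotientGroup.mk' N) with hK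
  haveI hKn : K.Normal := hKbn.comap _
  have hKc : Nat.card K = q * p := by rw [hK, card_comap_mk', hKbc]
  haveI : Fact p.Prime := ⟨hp⟩
  obtain ⟨P⟩ : Nonempty (Sylow p K) := inferInstance
  have hPc : Nat.card P = p := by
    rw [P.card_eq_multiplicity, hKc, Nat.factorization_mul hgp.ne_zero hp.ne_zero,
      Finsupp.add_apply, hp.factorization_self,
      Nat.factorization_eq_zero_of_not_dvd (fun h => hqe ((Nat.prime_dvd_prime_iff_eq hp hgp).mp h).symm)]
    simp
  have hPi : (P : Subgroup K).index = q := by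
    have h1 := Subgroup.card_mul_index (P : Subgroup K)
    have h2 : Nat.card (P : Subgroup K) = p := hPc
    rw [h2, hKc, mul_comm q p] at h1
    exact Nat.eq_of_mul_eq_mul_left hp.pos h1
  have hone : Nat.card (Sylow p K) = 1 := by
    have h1 := P.card_dvd_index
    rw [hPi] at h1
    rcases (Nat.dvd_prime hgp).mp h1 with h | h
    · exact h
    · exfalso
      have h2 := card_sylow_modEq_one p K
      rw [h] at h2
      have h3 : q % p = q := Nat.mod_eq_of_lt hlt
      have h4 : 1 % p = 1 := Nat.mod_eq_of_lt hp.one_lt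
      unfold Nat.ModEq at h2
      rw [h3, h4] at h2
      exact hgp.one_lt.ne' h2
  haveI : Subsingleton (Sylow p K) := (Nat.card_eq_one_iff_unique.mp hone).1
  haveI : (P : Subgroup K).Characteristic := Sylow.characteristic_of_subsingleton P
  refine ⟨(P : Subgroup K).map K.subtype, ConjAct.normal_of_characteristic_of_normal, ?_⟩
  rw [Subgroup.card_map_of_injective K.subtype_injective]
  exact hPc

/-- reachable by normal subgroups with prime steps, non-increasing, all at least `b`. -/
inductive DReach {G : Type u} [Group G] : ℕ → Subgroup G → Prop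
  | bot (b : ℕ) : DReach b ⊥
  | step (b c : ℕ) (H K : Subgroup G) : DReach b H → H ≤ K → K.Normal → (H.relIndex K).Prime →
      c ≤ H.relIndex K → H.relIndex K ≤ b → DReach c K

theorem DReach.mono {G : Type u} [Group G] {b b' : ℕ} {K : Subgroup G} (h : DReach b K)
    (hb : b' ≤ b) : DReach b' K := by
  cases h with
  | bot => exact DReach.bot b'
  | step b₀ _ H _ h1 h2 h3 h4 h5 h6 => exact DReach.step b₀ b' H K h1 h2 h3 h4 (hb.trans h5) h6

theorem DReach.comap {G Q : Type u} [Group G] [Group Q] [Finite Q] {f : G →* Q}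
    (hf : Function.Surjective f)
    (p : ℕ) (hker : DReach p f.ker) (hp : ∀ r : ℕ, r.Prime → r ∣ Nat.card Q → r ≤ p)
    {b : ℕ} {K : Subgroup Q} (h : DReach b K) : DReach (min b p) (K.comap f) := by
  induction h with
  | bot b => exact hker.mono (min_le_right _ _)
  | step b c H K _ hle hn hpr hc hb ih =>
    have e : (H.comap f).relIndex (K.comap f) = H.relIndex K := by
      rw [Subgroup.relIndex_comap, Subgroup.map_comap_eq_self_of_surjective hf]
    refine DReach.step (min b p) _ (H.comap f) _ ih (Subgroup.comap_mono hle) (hn.comap f)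
      (e ▸ hpr) ?_ ?_
    · rw [e]; exact (min_le_left _ _).trans hc
    · rw [e]
      refine le_min hb (hp _ hpr ?_)
      exact (Subgroup.relIndex_dvd_card H K).trans (Subgroup.card_subgroup_dvd_card K)

theorem dreach_top : ∀ (n : ℕ) (G : Type u) [Group G] [Finite G], Nat.card G = n →
    Cfsg.IsSupersolvable G → DReach 0 (⊤ : Subgroup G) := by
  intro n
  induction n using Nat.strong_induction_on with
  | _ n ih =>
  intro G _ _ hn hG
  rcases subsingleton_or_nontrivial G with hs | hnt
  · rw [Subsingleton.elim (⊤ : Subgroup G) ⊥]; exact DReach.bot 0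
  have hne : (Nat.card G).primeFactors.Nonempty := by
    rw [Nat.nonempty_primeFactors]
    exact Finite.one_lt_card
  set p := (Nat.card G).primeFactors.max' hne with hp
  have hpmem : p ∈ (Nat.card G).primeFactors := Finset.max'_mem _ hne
  have hpp : p.Prime := Nat.prime_of_mem_primeFactors hpmem
  have hpd : p ∣ Nat.card G := Nat.dvd_of_mem_primeFactors hpmem
  have hmax : ∀ q : ℕ, q.Prime → q ∣ Nat.card G → q ≤ p := by
    intro q hq hqd
    apply Finset.le_max'
    rw [Nat.mem_primeFactors]
    exact ⟨hq, hqd, Nat.card_pos.ne'⟩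
  obtain ⟨N, hNn, hNc⟩ := exists_normal_max_prime _ G rfl hG p hpp hpd hmax
  have hcard : Nat.card (G ⧸ N) * Nat.card N = Nat.card G := card_quotient_mul_card N
  have h1 : DReach p N := by
    have e : (⊥ : Subgroup G).relIndex N = p := by rw [Subgroup.relIndex_bot_left, hNc]
    exact DReach.step p p ⊥ N (DReach.bot p) bot_le hNn (e ▸ hpp) e.ge e.le
  have h2 := ih _ (hn ▸ card_quotient_lt N (hNc ▸ hpp.one_lt)) (G ⧸ N) rfl
    (isSupersolvable_of_surjective (QuotientGroup.mk'_surjective N) hG)
  have h3 := DReach.comap (QuotientGroup.mk'_surjective N) p (by rw [QuotientGroup.ker_mk']; exact h1)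
    (fun r hr hrd => hmax r hr (hrd.trans (Dvd.intro _ hcard))) h2
  rw [Subgroup.comap_top] at h3
  exact h3.mono (Nat.zero_le _)

theorem chain_of_dreach {G : Type u} [Group G] {b : ℕ} {K : Subgroup G} (h : DReach b K) :
    ∃ (n : ℕ) (H : Fin (n + 1) → Subgroup G), H 0 = ⊥ ∧ H (Fin.last n) = K ∧ (∀ i, (H i).Normal) ∧
      (∀ i : Fin n, H i.castSucc ≤ H i.succ ∧ ((H i.castSucc).relIndex (H i.succ)).Prime) ∧
      (∀ i j : Fin n, i ≤ j → (H j.castSucc).relIndex (H j.succ) ≤ (H i.castSucc).relIndex (H i.succ)) ∧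
      (∀ i : Fin n, b ≤ (H i.castSucc).relIndex (H i.succ)) := by
  induction h with
  | bot b => exact ⟨0, fun _ => ⊥, rfl, rfl, fun _ => inferInstance, fun i => i.elim0,
      fun i => i.elim0, fun i => i.elim0⟩
  | step b c K K' _ hle hn hpr hc hb ih =>
    obtain ⟨n, H, h0, hl, hnorm, hs, hanti, hbd⟩ := ih
    have e1 : ∀ j : Fin n, (Fin.snoc H K' : Fin (n + 1 + 1) → Subgroup G) j.castSucc.castSucc
        = H j.castSucc := fun j => by rw [Fin.snoc_castSucc]
    have e2 : ∀ j : Fin n, (Fin.snoc H K' : Fin (n + 1 + 1) → Subgroup G) j.castSucc.succ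
        = H j.succ := fun j => by rw [Fin.succ_castSucc, Fin.snoc_castSucc]
    have e3 : (Fin.snoc H K' : Fin (n + 1 + 1) → Subgroup G) (Fin.last n).castSucc = K := by
      rw [Fin.snoc_castSucc, hl]
    have e4 : (Fin.snoc H K' : Fin (n + 1 + 1) → Subgroup G) (Fin.last n).succ = K' := by
      rw [Fin.succ_last, Fin.snoc_last]
    refine ⟨n + 1, Fin.snoc H K', ?_, ?_, ?_, ?_, ?_, ?_⟩
    · have : (0 : Fin (n + 1 + 1)) = Fin.castSucc 0 := rfl
      rw [this, Fin.snoc_castSucc, h0]
    · rw [Fin.snoc_last]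
    · intro i
      induction i using Fin.lastCases with
      | last => rw [Fin.snoc_last]; exact hn
      | cast j => rw [Fin.snoc_castSucc]; exact hnorm j
    · intro i
      induction i using Fin.lastCases with
      | last => rw [e3, e4]; exact ⟨hle, hpr⟩
      | cast j => rw [e1, e2]; exact hs j
    · intro i j hij
      induction j using Fin.lastCases with
      | last =>
        rw [e3, e4]
        induction i using Fin.lastCases with
        | last => rw [e3, e4]
        | cast i' => rw [e1, e2]; exact hb.trans (hbd i')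
      | cast j' =>
        induction i using Fin.lastCases with
        | last =>
          exfalso
          have := Fin.castSucc_lt_last j'
          exact absurd hij (not_le.mpr this)
        | cast i' =>
          rw [e1, e2, e1, e2]
          exact hanti i' j' (by simpa using hij)
    · intro i
      induction i using Fin.lastCases with
      | last => rw [e3, e4]; exact hc
      | cast j => rw [e1, e2]; exact (hc.trans hb).trans (hbd j)

theorem result {G : Type*} [Group G] [Finite G] (hG : Cfsg.IsSupersolvable G) : ∃ (n : ℕ) (H : Fin (n + 1) → Subgroup G), H 0 = ⊥ ∧ H (Fin.last n) = ⊤ ∧ (∀ i, (H i).Normal) ∧ (∀ i : Fin n, H i.castSucc ≤ H i.succ ∧ ((H i.castSucc).relIndex (H i.succ)).Prime) ∧ ∀ i j : Fin n, i ≤ j → (H j.castSucc).relIndex (H j.succ) ≤ (H i.castSucc).relIndex (H i.succ) := by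
  obtain ⟨n, H, h0, hl, hn, hs, ha, -⟩ := chain_of_dreach (dreach_top _ G rfl hG)
  exact ⟨n, H, h0, hl, hn, hs, ha⟩

end Cfsg.Agent.S0529
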