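import Cfsg.Statements.S0006
import Cfsg.Agent.Lib.Helper1.HallConverse
open Cfsg.Agent.Lib.Helper1

set_option autoImplicit false
open Cfsg

namespace Cfsg.Agent.S0006

/-- Converse of Hall's Theorem: if for every prime p a finite group has a subgroup of index equal to the p-part of the group order (a Hall p-complement), then the group is solvable. -/
theorem result {G : Type*} [Group G] [Finite G]
    (h : ∀ p : ℕ, p.Prime → ∃ H : Subgroup G, H.index = p ^ (Nat.card G).factorization p) :
    Group.IsSolvable G := by
  apply hall_converse_aux _ G rfl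
  intro p hp
  obtain ⟨H, hH⟩ := h p hp
  refine ⟨H, ?_, _, hH⟩
  have h1 := H.card_mul_index
  rw [hH] at h1
  have h2 : Nat.card H = Nat.card G / p ^ (Nat.card G).factorization p :=
    (Nat.div_eq_of_eq_mul_left (pow_pos hp.pos _) h1.symm).symm
  rw [h2]
  exact (Nat.coprime_ordCompl hp Nat.card_pos.ne').symm

end Cfsg.Agent.S0006
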