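import Cfsg.Statements.S0011
import Cfsg.Agent.Lib.Helper1.Frat
open Cfsg.Agent.Lib.Helper1

set_option autoImplicit false
open Cfsg

namespace Cfsg.Agent.S0011

/-- If the Frattini quotient of a finite group is nilpotent then the group is nilpotent. -/
theorem result {G : Type*} [Group G] [Finite G]
    (h : Group.IsNilpotent (G ⧸ frattini G)) : Group.IsNilpotent G := by
  have h1 : Group.IsNilpotent ((⊤ : Subgroup G).map (QuotientGroup.mk' (frattini G))) := by
    infer_instance
  have h2 := isNilpotent_of_map_frattini (⊤ : Subgroup G) le_top h1
  exact Group.nilpotent_of_mulEquiv Subgroup.topEquiv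

end Cfsg.Agent.S0011
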