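import Cfsg.Statements.S0018
import Cfsg.Agent.Lib.Helper1.Misc
open Cfsg.Agent.Lib.Helper1

set_option autoImplicit false
open Cfsg

namespace Cfsg.Agent.S0018

/-- A finite solvable group whose Sylow p-subgroups are abelian has p-length one: a Sylow p-subgroup together with the largest normal subgroup of order prime to p generates a normal subgroup. -/
theorem result {G : Type*} [Group G] [Finite G] [Group.IsSolvable G]
    (p : ℕ) [Fact p.Prime] (P : Sylow p G) (hP : IsMulCommutative P) :
    ((P : Subgroup G) ⊔ Cfsg.pPrimeCore p G).Normal := by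
  have hn := pPrimeCore_normal (G := G) p
  set N := Cfsg.pPrimeCore p G with hN
  have h1 := pPrimeCore_quotient_eq_bot p N hN
  have h2 : Subgroup.centralizer (Cfsg.pCore p (G ⧸ N) : Set (G ⧸ N)) ≤ Cfsg.pCore p (G ⧸ N) := by
    rw [← fitting_eq_pCore_of_pPrimeCore_eq_bot p h1]
    exact centralizer_fitting_le
  let Pb : Sylow p (G ⧸ N) := P.mapSurjective (QuotientGroup.mk'_surjective N)
  have h3 : Cfsg.pCore p (G ⧸ N) ≤ Pb := normal_pgroup_le_sylow (pCore_normal p) (pCore_isPGroup p) Pb
  have hPb : (Pb : Subgroup (G ⧸ N)) = (P : Subgroup G).map (QuotientGroup.mk' N) := rfl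
  have h4 : (Pb : Subgroup (G ⧸ N)) ≤ Subgroup.centralizer (Cfsg.pCore p (G ⧸ N) : Set (G ⧸ N)) := by
    have : IsMulCommutative (Pb : Subgroup (G ⧸ N)) := by
      rw [hPb]; exact map_isMulCommutative _ _
    exact le_centralizer_of_isMulCommutative h3
  have h5 : (Pb : Subgroup (G ⧸ N)) = Cfsg.pCore p (G ⧸ N) := le_antisymm (h4.trans h2) h3
  have h6 : ((P : Subgroup G).map (QuotientGroup.mk' N)).Normal := by
    rw [← hPb, h5]; exact pCore_normal p
  have h7 := h6.comap (QuotientGroup.mk' N)
  rwa [QuotientGroup.comap_map_mk', sup_comm] at h7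

end Cfsg.Agent.S0018
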