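import Cfsg.Statements.S0020
import Cfsg.Agent.Lib.Helper1.SylowSystem
open Cfsg.Agent.Lib.Helper1

set_option autoImplicit false
open Pointwise
open Cfsg

namespace Cfsg.Agent.S0020

/-- A finite solvable group admits a Sylow system: Sylow subgroups, one for each prime, that pairwise permute as sets. -/
theorem result {G : Type*} [Group G] [Finite G] [Group.IsSolvable G] :
    ∃ S : (p : Nat.Primes) → Sylow (p : ℕ) G,
      ∀ p q : Nat.Primes, (S p : Set G) * (S q : Set G) = (S q : Set G) * (S p : Set G) := by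
  obtain ⟨J, hmono, hcard⟩ := sylow_system (G := G)
  have hc1 : ∀ p : Nat.Primes, Nat.card (J {(p : ℕ)}) = (p : ℕ) ^ (Nat.card G).factorization (p : ℕ) := by
    intro p
    rw [hcard _ (by intro q hq; rw [Finset.mem_singleton.mp hq]; exact p.2), Finset.prod_singleton]
  refine ⟨fun p => 
    have := Fact.mk p.2
    Sylow.ofCard (J {(p : ℕ)}) (hc1 p), ?_⟩
  intro p q
  by_cases hpq : p = q
  · rw [hpq]
  have hne : (p : ℕ) ≠ q := fun h => hpq (Subtype.ext h)
  change (J {(p : ℕ)} : Set G) * (J {(q : ℕ)} : Set G) = (J {(q : ℕ)} : Set G) * (J {(p : ℕ)} : Set G)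
  have hD : Nat.card (J {(p : ℕ), (q : ℕ)}) = Nat.card (J {(p : ℕ)}) * Nat.card (J {(q : ℕ)}) := by
    rw [hcard _ (by
      intro r hr
      rcases Finset.mem_insert.mp hr with h | h
      · rw [h]; exact p.2
      · rw [Finset.mem_singleton.mp h]; exact q.2), Finset.prod_pair hne, hc1, hc1]
  have hcop : (Nat.card (J {(p : ℕ)})).Coprime (Nat.card (J {(q : ℕ)})) := by
    rw [hc1, hc1]
    exact Nat.Coprime.pow _ _ ((Nat.coprime_primes p.2 q.2).mpr hne)
  have hp : J {(p : ℕ)} ≤ J {(p : ℕ), (q : ℕ)} := hmono _ _ (by simp)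
  have hq : J {(q : ℕ)} ≤ J {(p : ℕ), (q : ℕ)} := hmono _ _ (by simp)
  rw [mul_eq_of_card_mul hp hq (Subgroup.inf_eq_bot_of_coprime hcop) hD.symm,
    mul_eq_of_card_mul hq hp (Subgroup.inf_eq_bot_of_coprime hcop.symm) (by rw [hD, mul_comm])]

end Cfsg.Agent.S0020
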