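import Cfsg.Statements.S0021
import Cfsg.Agent.Lib.Helper1.HallConverse
open Cfsg.Agent.Lib.Helper1

set_option autoImplicit false
open Pointwise
open Cfsg

namespace Cfsg.Agent.S0021

open Pointwise

theorem coe_sup_of_mul_comm {G : Type*} [Group G] (H K : Subgroup G)
    (h : (H : Set G) * (K : Set G) = (K : Set G) * (H : Set G)) :
    ((H ⊔ K : Subgroup G) : Set G) = (H : Set G) * (K : Set G) := by
  let L : Subgroup G :=
    { carrier := (H : Set G) * (K : Set G)
      one_mem' := ⟨1, H.one_mem, 1, K.one_mem, one_mul 1⟩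
      mul_mem' := by
        rintro _ _ ⟨h1, hh1, k1, hk1, rfl⟩ ⟨h2, hh2, k2, hk2, rfl⟩
        have : k1 * h2 ∈ (H : Set G) * (K : Set G) := h ▸ ⟨k1, hk1, h2, hh2, rfl⟩
        obtain ⟨h3, hh3, k3, hk3, e⟩ := this
        refine ⟨h1 * h3, H.mul_mem hh1 hh3, k3 * k2, K.mul_mem hk3 hk2, ?_⟩
        change h1 * h3 * (k3 * k2) = h1 * k1 * (h2 * k2)
        have e' : h3 * k3 = k1 * h2 := e
        calc h1 * h3 * (k3 * k2) = h1 * (h3 * k3) * k2 := by group
          _ = h1 * k1 * (h2 * k2) := by rw [e']; group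
      inv_mem' := by
        rintro _ ⟨h1, hh1, k1, hk1, rfl⟩
        rw [h]
        exact ⟨k1⁻¹, K.inv_mem hk1, h1⁻¹, H.inv_mem hh1, (mul_inv_rev h1 k1).symm⟩ }
  apply Set.Subset.antisymm
  · have : H ⊔ K ≤ L := sup_le (fun x hx => ⟨x, hx, 1, K.one_mem, mul_one x⟩)
      (fun x hx => ⟨1, H.one_mem, x, hx, one_mul x⟩)
    exact this
  · rintro _ ⟨h1, hh1, k1, hk1, rfl⟩
    exact Subgroup.mul_mem_sup hh1 hk1

theorem permuting_family {G : Type*} [Group G] [Finite G] {ι : Type*} (T : ι → Subgroup G)
    (hT : ∀ i j, (T i : Set G) * (T j : Set G) = (T j : Set G) * (T i : Set G)) (s : Finset ι) :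
    ∃ K : Subgroup G, (∀ q ∈ s, T q ≤ K) ∧ Nat.card K ≤ ∏ q ∈ s, Nat.card (T q) ∧
      ∀ r, (T r : Set G) * (K : Set G) = (K : Set G) * (T r : Set G) := by
  classical
  induction s using Finset.induction_on with
  | empty =>
    refine ⟨⊥, by simp, by simp, fun r => ?_⟩
    simp
  | insert a s ha ih =>
    obtain ⟨K, h1, h2, h3⟩ := ih
    have hco := coe_sup_of_mul_comm (T a) K (h3 a)
    refine ⟨T a ⊔ K, ?_, ?_, ?_⟩
    · intro q hq
      rcases Finset.mem_insert.mp hq with h | h
      · rw [h]; exact le_sup_left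
      · exact (h1 q h).trans le_sup_right
    · rw [Finset.prod_insert ha]
      calc Nat.card (T a ⊔ K : Subgroup G)
          = Nat.card ((T a : Set G) * (K : Set G) : Set G) := by
            rw [← hco]; rfl
        _ ≤ Nat.card (T a : Set G) * Nat.card (K : Set G) := Set.natCard_mul_le
        _ ≤ Nat.card (T a) * ∏ q ∈ s, Nat.card (T q) := Nat.mul_le_mul_left _ h2
    · intro r
      rw [hco, ← mul_assoc, hT r a, mul_assoc, h3 r, mul_assoc]



/-- A finite group with a family of pairwise permuting Sylow subgroups, one for each prime, is solvable (this direction rests on Burnside's two-prime Theorem). -/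
theorem result {G : Type*} [Group G] [Finite G]
    (S : (p : Nat.Primes) → Sylow (p : ℕ) G)
    (hS : ∀ p q : Nat.Primes, (S p : Set G) * (S q : Set G) = (S q : Set G) * (S p : Set G)) :
    Group.IsSolvable G := by
  classical
  apply hall_converse_aux _ G rfl
  intro p hp
  have hcard : ∀ q : Nat.Primes, Nat.card (S q : Subgroup G) = (q : ℕ) ^ (Nat.card G).factorization q := by
    intro q
    have := Fact.mk q.2
    exact (S q).card_eq_multiplicity
  -- the set of primes dividing |G| other than p
  let PF : Finset Nat.Primes := ((Nat.card G).primeFactors.erase p).attach.map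
    ⟨fun q => ⟨q.1, Nat.prime_of_mem_primeFactors (Finset.mem_of_mem_erase q.2)⟩, by
      intro a b h
      exact Subtype.ext (congrArg (fun x : Nat.Primes => (x : ℕ)) h)⟩
  obtain ⟨K, h1, h2, -⟩ := permuting_family (fun q : Nat.Primes => (S q : Subgroup G)) hS PF
  have hA : ∏ q ∈ PF, Nat.card (S q : Subgroup G) =
      ∏ q ∈ (Nat.card G).primeFactors.erase p, q ^ (Nat.card G).factorization q := by
    rw [Finset.prod_map, ← Finset.prod_attach ((Nat.card G).primeFactors.erase p)]
    exact Finset.prod_congr rfl (fun q _ => hcard _)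
  have hprod : ∏ p ∈ (Nat.card G).primeFactors, p ^ (Nat.card G).factorization p = Nat.card G :=
    Nat.prod_factorization_pow_eq_self Nat.card_pos.ne'
  have hB : p ^ (Nat.card G).factorization p *
      ∏ q ∈ (Nat.card G).primeFactors.erase p, q ^ (Nat.card G).factorization q = Nat.card G := by
    by_cases hpm : p ∈ (Nat.card G).primeFactors
    · rw [Finset.mul_prod_erase _ (fun q => q ^ (Nat.card G).factorization q) hpm, hprod]
    · rw [Finset.erase_eq_of_notMem hpm, hprod]
      rw [← Nat.support_factorization, Finsupp.notMem_support_iff] at hpm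
      rw [hpm, pow_zero, one_mul]
  set m := ∏ q ∈ (Nat.card G).primeFactors.erase p, q ^ (Nat.card G).factorization q with hm
  have hmpos : 0 < m := Finset.prod_pos (fun q hq =>
    pow_pos (Nat.prime_of_mem_primeFactors (Finset.mem_of_mem_erase hq)).pos _)
  have hmcop : m.Coprime p := by
    apply Nat.Coprime.prod_left
    intro q hq
    exact Nat.Coprime.pow_left _ ((Nat.coprime_primes
      (Nat.prime_of_mem_primeFactors (Finset.mem_of_mem_erase hq)) hp).mpr (Finset.ne_of_mem_erase hq))
  have hidx : K.index = p ^ K.index.primeFactorsList.length := by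
    apply Nat.eq_prime_pow_of_unique_prime_dvd Subgroup.index_ne_zero_of_finite
    intro q hq hqd
    by_contra hne
    have hqG : q ∈ (Nat.card G).primeFactors :=
      Nat.mem_primeFactors.mpr ⟨hq, hqd.trans (Subgroup.index_dvd_card K), Nat.card_pos.ne'⟩
    let q' : Nat.Primes := ⟨q, hq⟩
    have hqPF : q' ∈ PF :=
      Finset.mem_map.mpr ⟨⟨q, Finset.mem_erase.mpr ⟨hne, hqG⟩⟩, Finset.mem_attach _ _, rfl⟩
    have : Fact (Nat.Prime (q' : ℕ)) := Fact.mk hq
    exact (S q').not_dvd_index (hqd.trans (Subgroup.index_dvd_of_le (h1 _ hqPF)))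
  set k := K.index.primeFactorsList.length
  have hKc := K.card_mul_index
  rw [hidx, ← hB] at hKc
  rw [hA] at h2
  have hk1 : (Nat.card G).factorization p ≤ k := by
    have h3 : p ^ (Nat.card G).factorization p * m ≤ m * p ^ k := hKc ▸ Nat.mul_le_mul_right _ h2
    rw [mul_comm] at h3
    exact (Nat.pow_le_pow_iff_right hp.one_lt).mp (Nat.le_of_mul_le_mul_left h3 hmpos)
  have hk2 : k ≤ (Nat.card G).factorization p :=
    (hp.pow_dvd_iff_le_factorization Nat.card_pos.ne').mp (hidx ▸ Subgroup.index_dvd_card K)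
  have hk : k = (Nat.card G).factorization p := le_antisymm hk2 hk1
  refine ⟨K, ?_, k, hidx⟩
  rw [hk, mul_comm] at hKc
  rw [Nat.eq_of_mul_eq_mul_left (pow_pos hp.pos _) hKc]
  exact hmcop

end Cfsg.Agent.S0021
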