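import Cfsg.Statements.S0026
import Cfsg.Agent.Lib.Helper1.Coprime2

set_option autoImplicit false
open Cfsg

namespace Cfsg.Agent.S0026

/-- Under coprime action the acted-on group factorises as the commutator with A times the fixed points: K = [K, A] C_K(A). -/
theorem result {G : Type*} [Group G] [Finite G] (A K : Subgroup G) (hAK : A ≤ Subgroup.normalizer (K : Set G))
    (hcop : (Nat.card A).Coprime (Nat.card K)) (hsolv : Group.IsSolvable A ∨ Group.IsSolvable K) :
    ⁅K, A⁆ ⊔ (K ⊓ Subgroup.centralizer (A : Set G)) = K := by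
  apply le_antisymm
  · exact sup_le (Cfsg.Agent.Lib.Helper1.commutator_le_of_le_normalizer hAK) inf_le_left
  · intro k hk
    obtain ⟨y, hy, c, hc, rfl⟩ :=
      Cfsg.Agent.Lib.Helper1.exists_commutator_mul_fixed A K hAK hcop hsolv k hk
    exact Subgroup.mul_mem_sup hy hc

end Cfsg.Agent.S0026
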