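import Cfsg.Statements.S0028
import Cfsg.Agent.Lib.Helper1.Misc
import Cfsg.Agent.S0027
open Cfsg.Agent.Lib.Helper1

set_option autoImplicit false
open Cfsg

namespace Cfsg.Agent.S0028

theorem pq_aux {G : Type*} [Group G] [Finite G] (p : ℕ) [Fact p.Prime]
    (P Q : Subgroup G) (hP : IsPGroup p P) (hQ : (Nat.card Q).Coprime p) 
    (hPQ : P ≤ Subgroup.centralizer (Q : Set G)) : ∀ (n : ℕ) (U : Subgroup G), Nat.card U = n → IsPGroup p U →
    P ≤ Subgroup.normalizer (U : Set G) → Q ≤ Subgroup.normalizer (U : Set G) →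
    U ⊓ Subgroup.centralizer (P : Set G) ≤ Subgroup.centralizer (Q : Set G) →
    Q ≤ Subgroup.centralizer (U : Set G) := by
  intro n
  induction n using Nat.strong_induction_on with
  | _ n ih =>
    intro U hn hU hPU hQU hC
    by_cases hbot : U = ⊥
    · rw [hbot, Subgroup.coe_bot, Subgroup.centralizer_eq_top_iff_subset.mpr (by simp)]
      exact le_top
    have hle : ⁅U, P⁆ ≤ U := commutator_le_of_le_normalizer hPU
    have hne : ⁅U, P⁆ ≠ U := by
      intro h
      apply hbot
      have hT : IsPGroup p (P ⊔ U : Subgroup G) := hP.to_sup_of_normal_right' hU hPU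
      exact eq_bot_of_le_commutator hT.isNilpotent le_sup_right
        (h.ge.trans (Subgroup.commutator_mono le_rfl le_sup_left))
    have hlt : Nat.card (⁅U, P⁆ : Subgroup G) < n := hn ▸ card_lt_of_lt (lt_of_le_of_ne hle hne)
    have hQP : Q ≤ Subgroup.normalizer (P : Set G) :=
      (Subgroup.le_centralizer_iff.mp hPQ).trans (Subgroup.centralizer_le_normalizer _)
    have h1 : Q ≤ Subgroup.centralizer ((⁅U, P⁆ : Subgroup G) : Set G) := by
      apply ih _ hlt _ rfl (hU.to_le hle) (le_normalizer_commutator_right hPU)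
      · intro q hq
        apply mem_normalizer_of_conj_smul_eq
        rw [conj_smul_commutator, conj_smul_eq_of_mem_normalizer (hQU hq),
          conj_smul_eq_of_mem_normalizer (hQP hq)]
      · exact (inf_le_inf_right _ hle).trans hC
    have h2 : ⁅⁅U, P⁆, Q⁆ = ⊥ :=
      Subgroup.commutator_eq_bot_iff_le_centralizer.mpr (Subgroup.le_centralizer_iff.mp h1)
    have h3 : ⁅⁅P, Q⁆, U⁆ = ⊥ := by
      rw [Subgroup.commutator_eq_bot_iff_le_centralizer.mpr hPQ, Subgroup.commutator_bot_left]
    have h4 : ⁅⁅Q, U⁆, P⁆ = ⊥ := Subgroup.commutator_commutator_eq_bot_of_rotate h2 h3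
    rw [Subgroup.commutator_comm Q U, Subgroup.commutator_eq_bot_iff_le_centralizer] at h4
    have h5 : ⁅⁅U, Q⁆, Q⁆ = ⊥ :=
      Subgroup.commutator_eq_bot_iff_le_centralizer.mpr
        ((le_inf (commutator_le_of_le_normalizer hQU) h4).trans hC)
    have hcop : (Nat.card Q).Coprime (Nat.card U) := by
      obtain ⟨k, hk⟩ := IsPGroup.iff_card.mp hU
      rw [hk]; exact Nat.Coprime.pow_right k hQ
    have hsol : Group.IsSolvable U := by
      have := hU.isNilpotent
      infer_instance
    rw [Cfsg.Agent.S0027.result Q U hQU hcop (Or.inr hsol),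
      Subgroup.commutator_eq_bot_iff_le_centralizer] at h5
    exact Subgroup.le_centralizer_iff.mp h5


/-- Thompson's P × Q Lemma: let a p-subgroup P and a subgroup Q of order prime to p centralise each other and normalise a p-subgroup U; if every element of U fixed by P is fixed by Q, then Q centralises U. -/
theorem result {G : Type*} [Group G] [Finite G] (p : ℕ) [Fact p.Prime]
    (P Q U : Subgroup G) (hP : IsPGroup p P) (hQ : (Nat.card Q).Coprime p) (hU : IsPGroup p U)
    (hPQ : P ≤ Subgroup.centralizer (Q : Set G))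
    (hPU : P ≤ Subgroup.normalizer (U : Set G)) (hQU : Q ≤ Subgroup.normalizer (U : Set G))
    (hC : U ⊓ Subgroup.centralizer (P : Set G) ≤ Subgroup.centralizer (Q : Set G)) :
    Q ≤ Subgroup.centralizer (U : Set G) := by
  exact pq_aux p P Q hP hQ hPQ _ U rfl hU hPU hQU hC

end Cfsg.Agent.S0028
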