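import Cfsg.Statements.S0030
import Cfsg.Agent.Lib.Helper1.Coprime2

set_option autoImplicit false
open Cfsg

namespace Cfsg.Agent.S0030

/-- Under coprime action fixed points of a product of two invariant subgroups factor: if K = X Y with X and Y normalised by A then every A-fixed element of K is a product of an A-fixed element of X and an A-fixed element of Y. -/
theorem result {G : Type*} [Group G] [Finite G] (A K : Subgroup G) (hAK : A ≤ Subgroup.normalizer (K : Set G))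
    (hcop : (Nat.card A).Coprime (Nat.card K)) (hsolv : Group.IsSolvable A ∨ Group.IsSolvable K)
    (X Y : Subgroup G) (hX : X ≤ K) (hY : Y ≤ K) (hXA : A ≤ Subgroup.normalizer (X : Set G)) (hYA : A ≤ Subgroup.normalizer (Y : Set G))
    (hXY : ∀ k ∈ K, ∃ x ∈ X, ∃ y ∈ Y, k = x * y) (k : G) (hk : k ∈ K ⊓ Subgroup.centralizer (A : Set G)) :
    ∃ x ∈ X ⊓ Subgroup.centralizer (A : Set G), ∃ y ∈ Y ⊓ Subgroup.centralizer (A : Set G), k = x * y := by
  obtain ⟨x, hx, y, hy, hxy⟩ := hXY k hk.1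
  have hDK : X ⊓ Y ≤ K := inf_le_left.trans hX
  have hAD : A ≤ Subgroup.normalizer ((X ⊓ Y : Subgroup G) : Set G) :=
    (le_inf hXA hYA).trans Subgroup.inf_normalizer_le_normalizer_inf
  obtain ⟨d, hd, hdc⟩ := Cfsg.Agent.Lib.Helper1.exists_fixed_in_coset A (X ⊓ Y) hAD
    (Nat.Coprime.coprime_dvd_right (Subgroup.card_dvd_of_le hDK) hcop)
    (hsolv.imp id (Cfsg.Agent.Lib.Helper1.isSolvable_of_le hDK)) x (by
      intro a ha
      have h1 : a * x * a⁻¹ ∈ X := (Subgroup.mem_normalizer_iff.mp (hXA ha) x).mp hx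
      have h2 : a * y * a⁻¹ ∈ Y := (Subgroup.mem_normalizer_iff.mp (hYA ha) y).mp hy
      have h3 : a * k = k * a := (Subgroup.mem_centralizer_iff.mp hk.2) a ha
      refine ⟨X.mul_mem (X.inv_mem hx) h1, ?_⟩
      have h4 : x⁻¹ * (a * x * a⁻¹) = y * (a * y * a⁻¹)⁻¹ := by
        have h5 : a * x * a⁻¹ * (a * y * a⁻¹) = x * y := by
          have : a * x * a⁻¹ * (a * y * a⁻¹) = a * (x * y) * a⁻¹ := by group
          rw [this, ← hxy, h3]; group
        have h6 : a * x * a⁻¹ = x * y * (a * y * a⁻¹)⁻¹ := by rw [← h5]; group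
        rw [h6]; group
      rw [h4]
      exact Y.mul_mem hy (Y.inv_mem h2))
  refine ⟨x * d, ⟨X.mul_mem hx hd.1, hdc⟩, d⁻¹ * y, ⟨Y.mul_mem (Y.inv_mem hd.2) hy, ?_⟩, by rw [hxy]; group⟩
  have h7 : d⁻¹ * y = (x * d)⁻¹ * k := by rw [hxy]; group
  rw [h7]
  exact Subgroup.mul_mem _ (Subgroup.inv_mem _ hdc) hk.2

end Cfsg.Agent.S0030
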