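import Cfsg.Statements.S0031


set_option autoImplicit false
open Cfsg

namespace Cfsg.Agent.S0031

/-- A fixed-point-free automorphism of a finite group maps some Sylow p-subgroup to itself. -/
theorem result {G : Type*} [Group G] [Finite G] (φ : G ≃* G)
    (hφ : MonoidHom.FixedPointFree (φ : G →* G)) (p : ℕ) [Fact p.Prime] :
    ∃ P : Sylow p G, (P : Subgroup G).map (φ : G →* G) = P := by
  obtain ⟨P⟩ : Nonempty (Sylow p G) := inferInstance
  let ψ : MulAut G := φ
  obtain ⟨g, hg⟩ := MulAction.exists_smul_eq G P (ψ • P)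
  obtain ⟨y, hy⟩ := hφ.commutatorMap_surjective g⁻¹
  have hy' : φ y⁻¹ * g = y⁻¹ := by
    have : y / φ y = g⁻¹ := hy
    rw [map_inv, ← inv_inv g, ← this, div_eq_mul_inv]
    group
  refine ⟨y⁻¹ • P, ?_⟩
  have h1 : ψ • (y⁻¹ • P) = y⁻¹ • P := by
    rw [Sylow.smul_def, ← mul_smul]
    have h2 : ψ * MulAut.conj y⁻¹ = MulAut.conj (φ y⁻¹) * ψ := by
      ext z
      simp [ψ]
    rw [h2, mul_smul, ← hg, Sylow.smul_def, ← mul_smul, ← map_mul, hy']
  have h3 := congrArg (fun S : Sylow p G => (S : Subgroup G)) h1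
  exact h3

end Cfsg.Agent.S0031
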