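import Cfsg.Statements.S0032


set_option autoImplicit false
open Cfsg

namespace Cfsg.Agent.S0032

/-- If an automorphism of a finite group fixes only the identity and maps a normal subgroup N into itself, then the only cosets of N it fixes are those in N: a fixed coset xN forces x ∈ N. -/
theorem result {G : Type*} [Group G] [Finite G] (φ : G ≃* G)
    (hφ : MonoidHom.FixedPointFree (φ : G →* G)) (N : Subgroup G) [N.Normal] (hN : ∀ n ∈ N, φ n ∈ N)
    (x : G) (hx : (φ x)⁻¹ * x ∈ N) : x ∈ N := by
  have hinj : ∀ y z : G, (φ y)⁻¹ * y = (φ z)⁻¹ * z → y = z := by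
    intro y z h
    have h1 : φ (z * y⁻¹) = z * y⁻¹ := by
      rw [map_mul, map_inv]
      calc φ z * (φ y)⁻¹ = φ z * ((φ y)⁻¹ * y) * y⁻¹ := by group
        _ = z * y⁻¹ := by rw [h]; group
    have h2 := hφ _ h1
    exact (mul_inv_eq_one.mp h2).symm
  let f : N → N := fun n => ⟨(φ n)⁻¹ * n, N.mul_mem (N.inv_mem (hN n n.2)) n.2⟩
  have hf : Function.Injective f := by
    intro a b hab
    exact Subtype.ext (hinj a b (congrArg Subtype.val hab))
  obtain ⟨n, hn⟩ := Finite.surjective_of_injective hf ⟨_, hx⟩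
  have := hinj n x (congrArg Subtype.val hn)
  exact this ▸ n.2

end Cfsg.Agent.S0032
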