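import Cfsg.Statements.S0034
import Cfsg.Agent.Lib.Helper1.FrobB

set_option autoImplicit false
open Cfsg

namespace Cfsg.Agent.S0034

/-- For a Frobenius complement H, the set of elements lying in no conjugate of H, together with 1, has exactly as many elements as the index of H, and that index is congruent to 1 modulo the order of H. -/
theorem result {G : Type*} [Group G] [Finite G] (H : Subgroup G) (hH : Cfsg.IsFrobeniusComplement H) :
    Nat.card (Cfsg.frobeniusKernel H) = H.index ∧ H.index % Nat.card H = 1 % Nat.card H := by
  refine ⟨Cfsg.Agent.Lib.Helper1.FrobB.card_kernel hH, ?_⟩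
  have h1 := Cfsg.Agent.Lib.Helper1.FrobB.index_modEq hH
  have hpos : 1 ≤ H.index := Nat.one_le_iff_ne_zero.mpr Subgroup.index_ne_zero_of_finite
  exact ((Nat.modEq_iff_dvd' hpos).mpr h1).symm

end Cfsg.Agent.S0034
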