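import Cfsg.Statements.S0047
import Cfsg.Agent.Lib.Helper1.HallRel
open Cfsg.Agent.Lib.Helper1

set_option autoImplicit false
open Cfsg

namespace Cfsg.Agent.S0047

open scoped commutatorElement in
theorem ito_comm {G : Type*} [Group G] (A B : Subgroup G)
    [IsMulCommutative A] [IsMulCommutative B] (hAB : ∀ g : G, ∃ a ∈ A, ∃ b ∈ B, g = a * b)
    (a : G) (ha : a ∈ A) (b : G) (hb : b ∈ B) (a1 : G) (ha1 : a1 ∈ A) (b1 : G) (hb1 : b1 ∈ B) :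
    (b1 * a1) * ⁅a, b⁆ * (b1 * a1)⁻¹ = (a1 * b1) * ⁅a, b⁆ * (a1 * b1)⁻¹ := by
  have hA : ∀ x ∈ A, ∀ y ∈ A, x * y = y * x := fun x hx y hy =>
    congrArg Subtype.val (mul_comm' (⟨x, hx⟩ : A) ⟨y, hy⟩)
  have hB : ∀ x ∈ B, ∀ y ∈ B, x * y = y * x := fun x hx y hy =>
    congrArg Subtype.val (mul_comm' (⟨x, hx⟩ : B) ⟨y, hy⟩)
  have hBA : ∀ g : G, ∃ b ∈ B, ∃ a ∈ A, g = b * a := by
    intro g
    obtain ⟨a, ha, b, hb, h⟩ := hAB g⁻¹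
    exact ⟨b⁻¹, B.inv_mem hb, a⁻¹, A.inv_mem ha, by rw [← mul_inv_rev, ← h, inv_inv]⟩
  have L1 : ∀ x ∈ A, ∀ y ∈ A, ∀ z : G, ⁅x, z * y⁆ = ⁅x, z⁆ := by
    intro x hx y hy z
    rw [commutatorElement_def, commutatorElement_def]
    have : y * x⁻¹ = x⁻¹ * y := hA y hy x⁻¹ (A.inv_mem hx)
    calc x * (z * y) * x⁻¹ * (z * y)⁻¹ = x * z * (y * x⁻¹) * y⁻¹ * z⁻¹ := by group
      _ = x * z * x⁻¹ * z⁻¹ := by rw [this]; group
  have L2 : ∀ x ∈ B, ∀ y ∈ B, ∀ z : G, ⁅z * x, y⁆ = ⁅z, y⁆ := by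
    intro x hx y hy z
    rw [commutatorElement_def, commutatorElement_def]
    have : x * y = y * x := hB x hx y hy
    calc z * x * y * (z * x)⁻¹ * y⁻¹ = z * (x * y) * x⁻¹ * z⁻¹ * y⁻¹ := by group
      _ = z * y * z⁻¹ * y⁻¹ := by rw [this]; group
  have L3 : ∀ g x y : G, g * ⁅x, y⁆ * g⁻¹ = ⁅g * x * g⁻¹, g * y * g⁻¹⁆ := by
    intro g x y
    simp only [commutatorElement_def]; group
  obtain ⟨b2, hb2, a2, ha2, h2⟩ := hBA (a1 * b * a1⁻¹)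
  obtain ⟨a3, ha3, b3, hb3, h3⟩ := hAB (b1 * a * b1⁻¹)
  have cA : ∀ x ∈ A, a1 * x * a1⁻¹ = x := by
    intro x hx; rw [hA a1 ha1 x hx]; group
  have cB : ∀ x ∈ B, b1 * x * b1⁻¹ = x := by
    intro x hx; rw [hB b1 hb1 x hx]; group
  have e1 : (b1 * a1) * ⁅a, b⁆ * (b1 * a1)⁻¹ = ⁅a3, b2⁆ := by
    calc (b1 * a1) * ⁅a, b⁆ * (b1 * a1)⁻¹ = b1 * (a1 * ⁅a, b⁆ * a1⁻¹) * b1⁻¹ := by group
      _ = b1 * ⁅a, b2⁆ * b1⁻¹ := by rw [L3, cA a ha, h2, L1 a ha a2 ha2]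
      _ = ⁅a3, b2⁆ := by rw [L3, cB b2 hb2, h3, L2 b3 hb3 b2 hb2]
  have e2 : (a1 * b1) * ⁅a, b⁆ * (a1 * b1)⁻¹ = ⁅a3, b2⁆ := by
    calc (a1 * b1) * ⁅a, b⁆ * (a1 * b1)⁻¹ = a1 * (b1 * ⁅a, b⁆ * b1⁻¹) * a1⁻¹ := by group
      _ = a1 * ⁅a3, b⁆ * a1⁻¹ := by rw [L3, cB b hb, h3, L2 b3 hb3 b hb]
      _ = ⁅a3, b2⁆ := by rw [L3, cA a3 ha3, h2, L1 a3 ha3 a2 ha2]
  rw [e1, e2]

open scoped commutatorElement in
theorem ito {G : Type*} [Group G] [Finite G] (A B : Subgroup G)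
    [IsMulCommutative A] [IsMulCommutative B] (hAB : ∀ g : G, ∃ a ∈ A, ∃ b ∈ B, g = a * b) :
    Group.IsSolvable G := by
  have htop : A ⊔ B = ⊤ := by
    rw [eq_top_iff]
    intro g _
    obtain ⟨a, ha, b, hb, rfl⟩ := hAB g
    exact Subgroup.mul_mem_sup ha hb
  have hKn : (⁅A, B⁆ : Subgroup G).Normal := by
    rw [← Subgroup.normalizer_eq_top_iff, eq_top_iff, ← htop]
    apply sup_le (le_normalizer_commutator_left A B)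
    rw [Subgroup.commutator_comm]
    exact le_normalizer_commutator_left B A
  have hAA : ⁅A, A⁆ = ⊥ := isMulCommutative_iff_commutator_eq_bot.mp inferInstance
  have hBB : ⁅B, B⁆ = ⊥ := isMulCommutative_iff_commutator_eq_bot.mp inferInstance
  have h1 : ⁅(⊤ : Subgroup G), ⊤⁆ ≤ ⁅A, B⁆ := by
    rw [← htop]
    apply sup_commutator_le
    · apply commutator_sup_le
      · rw [hAA]; exact bot_le
      · exact le_rfl
    · apply commutator_sup_le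
      · rw [Subgroup.commutator_comm]
      · rw [hBB]; exact bot_le
  have h2 : ⁅(⁅A, B⁆ : Subgroup G), ⁅A, B⁆⁆ = ⊥ := by
    rw [Subgroup.commutator_eq_bot_iff_le_centralizer, Subgroup.commutator_le]
    intro a' ha' b' hb'
    rw [Subgroup.mem_centralizer_iff]
    intro x hx
    have : (⁅A, B⁆ : Subgroup G) ≤ Subgroup.centralizer {⁅a', b'⁆} := by
      rw [Subgroup.commutator_le]
      intro a ha b hb
      rw [Subgroup.mem_centralizer_singleton_iff]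
      have h3 := ito_comm A B hAB a ha b hb a'⁻¹ (A.inv_mem ha') b'⁻¹ (B.inv_mem hb')
      have h4 : ⁅b', a'⁆ * ⁅a, b⁆ = ⁅a, b⁆ * ⁅b', a'⁆ := by
        have e : ⁅b', a'⁆ = (a'⁻¹ * b'⁻¹)⁻¹ * (b'⁻¹ * a'⁻¹) := by
          rw [commutatorElement_def]; group
        rw [e]
        calc (a'⁻¹ * b'⁻¹)⁻¹ * (b'⁻¹ * a'⁻¹) * ⁅a, b⁆
            = (a'⁻¹ * b'⁻¹)⁻¹ * ((b'⁻¹ * a'⁻¹) * ⁅a, b⁆ * (b'⁻¹ * a'⁻¹)⁻¹) * (b'⁻¹ * a'⁻¹) := by group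
          _ = ⁅a, b⁆ * ((a'⁻¹ * b'⁻¹)⁻¹ * (b'⁻¹ * a'⁻¹)) := by rw [h3]; group
      rw [← commutatorElement_inv b' a']
      calc ⁅a, b⁆ * ⁅b', a'⁆⁻¹ = ⁅b', a'⁆⁻¹ * (⁅b', a'⁆ * ⁅a, b⁆) * ⁅b', a'⁆⁻¹ := by group
        _ = ⁅b', a'⁆⁻¹ * ⁅a, b⁆ := by rw [h4]; group
    have h5 := this hx
    rw [Subgroup.mem_centralizer_singleton_iff] at h5
    exact h5
  rw [Group.isSolvable_def]
  refine ⟨2, ?_⟩
  rw [derivedSeries_succ, derivedSeries_succ, derivedSeries_zero, eq_bot_iff, ← h2]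
  exact Subgroup.commutator_mono h1 h1


/-- A finite group which is the product AB of two abelian subgroups A and B is solvable. -/
theorem result {G : Type*} [Group G] [Finite G] (A B : Subgroup G)
    [IsMulCommutative A] [IsMulCommutative B] (hAB : ∀ g : G, ∃ a ∈ A, ∃ b ∈ B, g = a * b) :
    Group.IsSolvable G := by
  exact ito A B hAB

end Cfsg.Agent.S0047
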