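import Cfsg.Statements.S0048
import Cfsg.Agent.Lib.Helper1.Frat
import Cfsg.Agent.Lib.Helper1.Hall
open Cfsg.Agent.Lib.Helper1

set_option autoImplicit false
open Cfsg

namespace Cfsg.Agent.S0048

/-- In a finite solvable group every maximal subgroup has index a prime power. -/
theorem result {G : Type*} [Group G] [Finite G] [Group.IsSolvable G]
    (M : Subgroup G) (hM : IsCoatom M) : IsPrimePow M.index := by
  set K := M.normalCore with hK
  have hKM : K ≤ M := Subgroup.normalCore_le M
  have hKn : K.Normal := inferInstance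
  have hnt : (⊤ : Subgroup (G ⧸ K)) ≠ ⊥ := by
    intro h
    have h1 : K = ⊤ := by
      rw [← Subgroup.index_eq_one, Subgroup.index_eq_card, ← Subgroup.card_top, h, Subgroup.card_bot]
    exact hM.1 (eq_top_iff.mpr (h1 ▸ hKM))
  obtain ⟨p, hp, A, -, hAn, hAne, -, hAexp⟩ := exists_normal_elemAbelian _ (⊤ : Subgroup (G ⧸ K)) rfl
    inferInstance inferInstance hnt
  have := Fact.mk hp
  have hAp : IsPGroup p A := isPGroup_of_pow_eq_one hAexp
  obtain ⟨k, hk⟩ := IsPGroup.iff_card.mp hAp
  have hBn : (A.comap (QuotientGroup.mk' K)).Normal := hAn.comap _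
  have hBc := card_comap_mk' K A
  have hKB : K ≤ A.comap (QuotientGroup.mk' K) := by
    conv_lhs => rw [← QuotientGroup.ker_mk' K]
    exact Subgroup.ker_le_comap _ _
  set B := A.comap (QuotientGroup.mk' K) with hB
  have hBM : ¬ B ≤ M := by
    intro h
    have h1 : B ≤ K := (Subgroup.normal_le_normalCore).mpr h
    apply hAne
    rw [← Subgroup.map_comap_eq_self_of_surjective (QuotientGroup.mk'_surjective K) A, ← hB,
      eq_bot_iff]
    calc B.map (QuotientGroup.mk' K) ≤ K.map (QuotientGroup.mk' K) := Subgroup.map_mono h1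
      _ = ⊥ := by rw [QuotientGroup.map_mk'_self]
  have htop : M ⊔ B = ⊤ := hM.2 _ (lt_of_le_of_ne le_sup_left (fun h => hBM (h ▸ le_sup_right)))
  have h1 := card_sup_mul_card_inf M B
  rw [htop, Subgroup.card_top, ← M.card_mul_index, hBc, hk] at h1
  obtain ⟨t, ht⟩ := Subgroup.card_dvd_of_le (le_inf hKM hKB)
  rw [ht] at h1
  have h2 : M.index * t = p ^ k := by
    have hMpos : 0 < Nat.card M := Nat.card_pos
    have hKpos : 0 < Nat.card K := Nat.card_pos
    have : (Nat.card M * Nat.card K) * (M.index * t) = (Nat.card M * Nat.card K) * p ^ k := by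
      calc (Nat.card M * Nat.card K) * (M.index * t) = Nat.card M * M.index * (Nat.card K * t) := by ring
        _ = Nat.card M * (Nat.card K * p ^ k) := h1
        _ = _ := by ring
    exact Nat.eq_of_mul_eq_mul_left (Nat.mul_pos hMpos hKpos) this
  obtain ⟨j, hj, hj2⟩ := (Nat.dvd_prime_pow hp).mp (Dvd.intro _ h2)
  rw [hj2]
  refine ⟨p, j, hp.prime, ?_, rfl⟩
  rcases Nat.eq_zero_or_pos j with h0 | h0
  · exfalso
    rw [h0, pow_zero, Subgroup.index_eq_one] at hj2
    exact hM.1 hj2
  · exact h0

end Cfsg.Agent.S0048
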