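import Cfsg.Statements.S0049
import Cfsg.Agent.Lib.Helper1.Frat
open Cfsg.Agent.Lib.Helper1

set_option autoImplicit false
open Cfsg

namespace Cfsg.Agent.S0049

/-- A prime divisor of the order of a finite group also divides the index of the Frattini subgroup. -/
theorem result {G : Type*} [Group G] [Finite G] (p : ℕ) (hp : p.Prime) (hdvd : p ∣ Nat.card G) :
    p ∣ (frattini G).index := by
  by_contra hnd
  have := Fact.mk hp
  obtain ⟨P⟩ : Nonempty (Sylow p (frattini G)) := inferInstance
  have hnil : Group.IsNilpotent (frattini G) := frattini_nilpotent
  have hPn : (P : Subgroup (frattini G)).Normal := by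
    have q := (Group.isNilpotent_of_finite_tfae (G := frattini G)).out 0 3
    exact q.mp hnil p this P
  have hPc : (P : Subgroup (frattini G)).Characteristic := Sylow.characteristic_of_normal P hPn
  have hOn : ((P : Subgroup (frattini G)).map (frattini G).subtype).Normal := map_characteristic_normal _
  have hle : (P : Subgroup (frattini G)).map (frattini G).subtype ≤ frattini G := Subgroup.map_subtype_le _
  have hc : Nat.card ((P : Subgroup (frattini G)).map (frattini G).subtype) = p ^ (Nat.card G).factorization p := by
    rw [Subgroup.card_map_of_injective (frattini G).subtype_injective, P.card_eq_multiplicity,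
      ← (frattini G).card_mul_index, Nat.factorization_mul Nat.card_pos.ne' (Subgroup.index_ne_zero_of_finite)]
    simp [Nat.factorization_eq_zero_of_not_dvd hnd]
  set O := (P : Subgroup (frattini G)).map (frattini G).subtype with hO
  let S : Sylow p G := Sylow.ofCard O hc
  have hcop : (Nat.card O).Coprime O.index := S.card_coprime_index
  obtain ⟨H, hH⟩ := Subgroup.exists_right_complement'_of_coprime hcop
  have h1 : H ⊔ frattini G = ⊤ := by
    rw [eq_top_iff, ← hH.sup_eq_top]
    exact sup_le (hle.trans le_sup_right) le_sup_left
  have h2 := frattini_nongenerating h1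
  have h3 : O = ⊥ := by
    have := hH.disjoint.eq_bot
    rwa [h2, inf_top_eq] at this
  rw [h3, Subgroup.card_bot] at hc
  have h4 : (Nat.card G).factorization p = 0 := by
    by_contra h
    exact (Nat.one_lt_pow h hp.one_lt).ne hc
  have h5 := (hp.dvd_iff_one_le_factorization Nat.card_pos.ne').mp hdvd
  omega

end Cfsg.Agent.S0049
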