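import Cfsg.Statements.S0052
import Mathlib
import Cfsg.Agent.Lib.Helper9.Cocyc

set_option autoImplicit false
open Pointwise
open Cfsg

namespace Cfsg.Agent.S0052

open scoped Pointwise IsMulCommutative

/-- Gaschütz's Theorem, conjugacy: for an abelian normal subgroup K ≤ U with the order of K coprime to the index of U, two complements of K in G having the same intersection with U are conjugate. -/
theorem result {G : Type*} [Group G] [Finite G] (K U : Subgroup G) [K.Normal] [IsMulCommutative K]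
    (hKU : K ≤ U) (hcop : (Nat.card K).Coprime U.index)
    (H₀ H₁ : Subgroup G) (h₀ : Subgroup.IsComplement' K H₀) (h₁ : Subgroup.IsComplement' K H₁) (hU : H₀ ⊓ U = H₁ ⊓ U) :
    ∃ g : G, MulAut.conj g • H₀ = H₁ := by
  -- projections
  have key : ∀ H : Subgroup G, Subgroup.IsComplement' K H →
      ∃ p : G → G, (∀ g, p g ∈ H) ∧ (∀ g, g * (p g)⁻¹ ∈ K) ∧
        (∀ g h, h ∈ H → g * h⁻¹ ∈ K → h = p g) := by
    intro H hH
    have ex : ∀ g : G, ∃ h ∈ H, g * h⁻¹ ∈ K := by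
      intro g
      obtain ⟨⟨k, h⟩, hkh⟩ := hH.2 g
      refine ⟨h, h.2, ?_⟩
      have : (k : G) * h = g := hkh
      rw [← this]
      simp
    choose p hp hp' using ex
    refine ⟨p, hp, hp', ?_⟩
    intro g h hh hgh
    have h1 : p g * h⁻¹ ∈ K := by
      have := K.mul_mem (K.inv_mem (hp' g)) hgh
      simpa [mul_assoc] using this
    have h2 : p g * h⁻¹ ∈ K ⊓ H := ⟨h1, H.mul_mem (hp g) (H.inv_mem hh)⟩
    rw [hH.disjoint.eq_bot, Subgroup.mem_bot] at h2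
    exact (mul_inv_eq_one.mp h2).symm
  obtain ⟨p₀, a₀, b₀, c₀⟩ := key H₀ h₀
  obtain ⟨p₁, a₁, b₁, c₁⟩ := key H₁ h₁
  have hmul : ∀ (H : Subgroup G) (p : G → G), (∀ g, p g ∈ H) → (∀ g, g * (p g)⁻¹ ∈ K) →
      (∀ g h, h ∈ H → g * h⁻¹ ∈ K → h = p g) → ∀ g g', p (g * g') = p g * p g' := by
    intro H p a b c g g'
    symm
    apply c _ _ (H.mul_mem (a g) (a g'))
    have h1 : g * g' * (p g * p g')⁻¹ = (g * (g' * (p g')⁻¹) * g⁻¹) * (g * (p g)⁻¹) := by group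
    rw [h1]
    exact K.mul_mem (‹K.Normal›.conj_mem _ (b g') g) (b g)
  have m₀ := hmul H₀ p₀ a₀ b₀ c₀
  have m₁ := hmul H₁ p₁ a₁ b₁ c₁
  have hdK : ∀ g, p₁ g * (p₀ g)⁻¹ ∈ K := by
    intro g
    have := K.mul_mem (K.inv_mem (b₁ g)) (b₀ g)
    simpa [mul_assoc] using this
  have hcomm : ∀ x ∈ K, ∀ y ∈ K, x * y = y * x := by
    intro x hx y hy
    have := mul_comm (⟨x, hx⟩ : K) ⟨y, hy⟩
    exact congrArg Subtype.val this
  have hconj : ∀ g, ∀ x ∈ K, p₁ g * x * (p₁ g)⁻¹ = g * x * g⁻¹ := by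
    intro g x hx
    have h1 := hcomm _ (b₁ g) _ (‹K.Normal›.conj_mem x hx (p₁ g))
    calc p₁ g * x * (p₁ g)⁻¹ = (p₁ g * x * (p₁ g)⁻¹) * (g * (p₁ g)⁻¹) * (g * (p₁ g)⁻¹)⁻¹ := by group
      _ = (g * (p₁ g)⁻¹) * (p₁ g * x * (p₁ g)⁻¹) * (g * (p₁ g)⁻¹)⁻¹ := by rw [h1]
      _ = g * x * g⁻¹ := by group
  obtain ⟨a, haK, ha⟩ := Cfsg.Agent.Lib.Helper9.Cocyc.cocycle_split K U
    (fun g => p₁ g * (p₀ g)⁻¹) hdK
    (by
      intro g h
      show p₁ (g * h) * (p₀ (g * h))⁻¹ = p₁ g * (p₀ g)⁻¹ * (g * (p₁ h * (p₀ h)⁻¹) * g⁻¹)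
      rw [← hconj g _ (hdK h), hcomm _ (hdK g) _ (‹K.Normal›.conj_mem _ (hdK h) (p₁ g)), m₀, m₁]
      group)
    (by
      intro u hu
      show p₁ u * (p₀ u)⁻¹ = 1
      have h1 : p₀ u ∈ U := by
        have := U.mul_mem (U.inv_mem (hKU (b₀ u))) hu
        simpa [mul_assoc] using this
      have h2 : p₀ u ∈ H₁ := by
        have : p₀ u ∈ H₀ ⊓ U := ⟨a₀ u, h1⟩
        rw [hU] at this
        exact this.1
      rw [← c₁ u (p₀ u) h2 (b₀ u), mul_inv_cancel])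
    hcop
  refine ⟨a, ?_⟩
  have hle : MulAut.conj a • H₀ ≤ H₁ := by
    rintro _ ⟨h, hh, rfl⟩
    have h1 : p₀ h = h := (c₀ h h hh (by simp)).symm
    have h2 := ha h
    simp only [h1] at h2
    have h3 : p₁ h = a * h * a⁻¹ := by
      calc p₁ h = p₁ h * h⁻¹ * h := by group
        _ = a * (h * a⁻¹ * h⁻¹) * h := by rw [h2]
        _ = a * h * a⁻¹ := by group
    show a * h * a⁻¹ ∈ H₁
    rw [← h3]
    exact a₁ h
  apply Subgroup.eq_of_le_of_card_ge hle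
  have e0 := h₀.card_mul_card
  have e1 := h₁.card_mul_card
  have e2 : Nat.card H₀ = Nat.card H₁ :=
    Nat.eq_of_mul_eq_mul_left Nat.card_pos (e0.trans e1.symm)
  have e3 : Nat.card ↥(MulAut.conj a • H₀) = Nat.card H₀ :=
    Subgroup.card_map_of_injective (MulAut.conj a).injective
  rw [e3, e2]

end Cfsg.Agent.S0052
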