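import Cfsg.Statements.S0053
import Cfsg.Agent.Lib.Helper1.Frat
open Cfsg.Agent.Lib.Helper1

set_option autoImplicit false
open Cfsg

namespace Cfsg.Agent.S0053

open Pointwise in
theorem aux {G : Type*} [Group G] [Finite G]
    (N : Subgroup G) [hNn : N.Normal] [IsMulCommutative N] (hN : N ≠ ⊥)
    (hmin : ∀ M : Subgroup G, M.Normal → M ≤ N → M = ⊥ ∨ M = N) :
    (∃ H : Subgroup G, Subgroup.IsComplement' N H) ↔ ¬ N ≤ frattini G := by
  constructor
  · rintro ⟨H, hH⟩ hle
    have h1 : H ⊔ frattini G = ⊤ := by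
      rw [eq_top_iff, ← hH.sup_eq_top]
      exact sup_le (hle.trans le_sup_right) le_sup_left
    have h2 := frattini_nongenerating h1
    have := hH.disjoint.eq_bot
    rw [h2, inf_top_eq] at this
    exact hN this
  · intro hle
    have : ∃ M : Subgroup G, IsCoatom M ∧ ¬ N ≤ M := by
      by_contra hcon
      push Not at hcon
      apply hle
      simp only [frattini, Order.radical]
      exact le_iInf₂ hcon
    obtain ⟨M, hM, hNM⟩ := this
    have htop : N ⊔ M = ⊤ := by
      apply hM.2
      exact lt_of_le_of_ne le_sup_right (fun h => hNM (h ▸ le_sup_left))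
    have hmul : (N : Set G) * (M : Set G) = Set.univ := by
      rw [← Subgroup.normal_mul, htop, Subgroup.coe_top]
    have hnorm : (N ⊓ M).Normal := by
      constructor
      intro x hx g
      obtain ⟨n, hn, m, hm, rfl⟩ : g ∈ (N : Set G) * (M : Set G) := hmul ▸ Set.mem_univ g
      have h1 : m * x * m⁻¹ ∈ N := hNn.conj_mem x hx.1 m
      have h2 : m * x * m⁻¹ ∈ M := M.mul_mem (M.mul_mem hm hx.2) (M.inv_mem hm)
      have h3 : n * (m * x * m⁻¹) = (m * x * m⁻¹) * n :=
        congrArg Subtype.val (mul_comm' (⟨n, hn⟩ : N) ⟨_, h1⟩)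
      have h4 : n * m * x * (n * m)⁻¹ = m * x * m⁻¹ := by
        calc n * m * x * (n * m)⁻¹ = (n * (m * x * m⁻¹)) * n⁻¹ := by group
          _ = m * x * m⁻¹ := by rw [h3]; group
      rw [h4]
      exact ⟨h1, h2⟩
    refine ⟨M, Subgroup.isComplement'_of_disjoint_and_mul_eq_univ ?_ hmul⟩
    rw [disjoint_iff]
    rcases hmin _ hnorm inf_le_left with h | h
    · exact h
    · exact absurd (inf_eq_left.mp h) hNM


/-- An abelian minimal normal subgroup N of a finite group is complemented exactly when N is not inside the Frattini subgroup. -/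
theorem result {G : Type*} [Group G] [Finite G]
    (N : Subgroup G) [N.Normal] [IsMulCommutative N] (hN : N ≠ ⊥)
    (hmin : ∀ M : Subgroup G, M.Normal → M ≤ N → M = ⊥ ∨ M = N) :
    (∃ H : Subgroup G, Subgroup.IsComplement' N H) ↔ ¬ N ≤ frattini G := by
  exact aux N hN hmin

end Cfsg.Agent.S0053
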