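import Cfsg.Statements.S0054
import Mathlib

set_option autoImplicit false
open Cfsg

namespace Cfsg.Agent.S0054

open Cfsg

/-- A regular normal subgroup of a finite 2-transitive group is elementary abelian: it is commutative and all its elements have order dividing one prime. -/
theorem result {G : Type*} [Group G] [Finite G]
    {X : Type*} [Nonempty X] [MulAction G X] (h2 : MulAction.IsMultiplyPretransitive G X 2)
    (N : Subgroup G) [N.Normal] (htrans : MulAction.IsPretransitive N X) (hreg : ∀ x : X, MulAction.stabilizer N x = ⊥) :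
    IsMulCommutative N ∧ ∃ p : ℕ, p.Prime ∧ ∀ n ∈ N, n ^ p = 1 := by
  have hNn : N.Normal := inferInstance
  obtain ⟨x₀⟩ := ‹Nonempty X›
  have hfree : ∀ n ∈ N, n • x₀ = x₀ → n = 1 := by
    intro n hn h
    have h1 : (⟨n, hn⟩ : N) ∈ MulAction.stabilizer N x₀ := h
    rw [hreg, Subgroup.mem_bot] at h1
    exact congrArg Subtype.val h1
  have h2' : ∀ (a b c d : X), a ≠ b → c ≠ d → ∃ g : G, g • a = c ∧ g • b = d :=
    fun a b c d h h' => MulAction.is_two_pretransitive_iff.mp h2 h h'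
  have hconj : ∀ n ∈ N, n ≠ 1 → ∀ m ∈ N, m ≠ 1 → ∃ g : G, g * n * g⁻¹ = m := by
    intro n hn hn1 m hm hm1
    have a1 : x₀ ≠ n • x₀ := fun h => hn1 (hfree n hn h.symm)
    have a2 : x₀ ≠ m • x₀ := fun h => hm1 (hfree m hm h.symm)
    obtain ⟨g, hg1, hg2⟩ := h2' _ _ _ _ a1 a2
    refine ⟨g, ?_⟩
    have h3 : m⁻¹ * (g * n * g⁻¹) = 1 := by
      apply hfree _ (N.mul_mem (N.inv_mem hm) (hNn.conj_mem n hn g))
      have e : g⁻¹ • x₀ = x₀ := by rw [inv_smul_eq_iff, hg1]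
      rw [mul_smul, mul_smul, mul_smul, e, hg2, inv_smul_smul]
    exact (inv_mul_eq_one.mp h3).symm
  by_cases hbot : N = ⊥
  · subst hbot
    refine ⟨⟨⟨fun a b => Subsingleton.elim _ _⟩⟩, 2, Nat.prime_two, ?_⟩
    intro n hn
    rw [Subgroup.mem_bot] at hn
    rw [hn, one_pow]
  have hcard : Nat.card N ≠ 1 := fun h => hbot (Subgroup.card_eq_one.mp h)
  obtain ⟨p, hp, hpd⟩ := Nat.exists_prime_and_dvd hcard
  haveI := Fact.mk hp
  obtain ⟨n₀, hn₀⟩ := exists_prime_orderOf_dvd_card' (G := N) p hpd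
  have hn₀1 : n₀.1 ≠ 1 := by
    intro h
    have : n₀ = 1 := Subtype.ext h
    rw [this, orderOf_one] at hn₀
    exact hp.one_lt.ne hn₀
  have hn₀p : n₀.1 ^ p = 1 := by
    have := pow_orderOf_eq_one n₀
    rw [hn₀] at this
    exact congrArg Subtype.val this
  have hexp : ∀ n ∈ N, n ^ p = 1 := by
    intro n hn
    by_cases hn1 : n = 1
    · rw [hn1, one_pow]
    obtain ⟨g, hg⟩ := hconj n₀.1 n₀.2 hn₀1 n hn hn1
    rw [← hg, conj_pow, hn₀p]; group
  refine ⟨?_, p, hp, hexp⟩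
  have hpg : IsPGroup p N := by
    intro n
    refine ⟨1, ?_⟩
    rw [pow_one]
    exact Subtype.ext (hexp n.1 n.2)
  haveI : Nontrivial N := (Subgroup.nontrivial_iff_ne_bot _).mpr hbot
  haveI := hpg.center_nontrivial
  obtain ⟨z, hz1⟩ := exists_ne (1 : Subgroup.center N)
  have hz1' : z.1.1 ≠ 1 := fun h => hz1 (Subtype.ext (Subtype.ext h))
  have hzc : ∀ a ∈ N, a * z.1.1 = z.1.1 * a := by
    intro a ha
    exact congrArg Subtype.val (Subgroup.mem_center_iff.mp z.2 ⟨a, ha⟩)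
  constructor
  constructor
  intro m a
  apply Subtype.ext
  show m.1 * a.1 = a.1 * m.1
  by_cases hm1 : m.1 = 1
  · rw [hm1]; simp
  obtain ⟨g, hg⟩ := hconj z.1.1 z.1.2 hz1' m.1 m.2 hm1
  have h3 := hzc (g⁻¹ * a.1 * g) (by
    have := hNn.conj_mem a.1 a.2 g⁻¹
    rwa [inv_inv] at this)
  rw [← hg]
  calc g * z.1.1 * g⁻¹ * a.1 = g * (z.1.1 * (g⁻¹ * a.1 * g)) * g⁻¹ := by group
    _ = g * ((g⁻¹ * a.1 * g) * z.1.1) * g⁻¹ := by rw [h3]
    _ = a.1 * (g * z.1.1 * g⁻¹) := by group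

end Cfsg.Agent.S0054
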