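import Cfsg.Statements.S0057
import Cfsg.Agent.Lib.Helper1.SylowSystem
import Cfsg.Agent.Lib.Helper1.NormMap
import Cfsg.Agent.S0026
import Cfsg.Agent.S0027
open Cfsg.Agent.Lib.Helper1

set_option autoImplicit false
open Cfsg

namespace Cfsg.Agent.S0057

open scoped commutatorElement in
theorem r57 {G : Type*} [Group G] [Finite G] (A K : Subgroup G) (hAK : A ≤ Subgroup.normalizer (K : Set G))
    (hcop : (Nat.card A).Coprime (Nat.card K)) (hsolv : Group.IsSolvable A ∨ Group.IsSolvable K)
    (p : ℕ) (hp : p.Prime) (hidx : (K ⊓ Subgroup.centralizer (A : Set G)).relIndex K = p) :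
    Nat.card (⁅K, A⁆ : Subgroup G) = p := by
  have := Fact.mk hp
  obtain ⟨P, hPK, hPc, hAP⟩ := exists_invariant_sylow A K hAK hcop hsolv p
  set C := K ⊓ Subgroup.centralizer (A : Set G) with hC
  set W := ⁅K, A⁆ with hW
  have hWK : W ≤ K := commutator_le_of_le_normalizer hAK
  -- factorization K = P C
  have hfac : ∀ k ∈ K, ∃ x ∈ P, ∃ c ∈ C, k = x * c := by
    intro k hk
    have hcop2 : (P.subgroupOf K).index.Coprime (C.subgroupOf K).index := by
      change (P.relIndex K).Coprime (C.relIndex K)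
      rw [hidx]
      have h1 := card_mul_relIndex_of_le hPK
      rw [hPc] at h1
      have h2 : P.relIndex K = Nat.card K / p ^ (Nat.card K).factorization p :=
        (Nat.div_eq_of_eq_mul_right (pow_pos hp.pos _) h1.symm).symm
      rw [h2]
      exact (Nat.coprime_ordCompl hp Nat.card_pos.ne').symm
    obtain ⟨x, hx, c, hc, h⟩ := Cfsg.Agent.S0007.exists_mul_of_coprime _ _ hcop2 (⟨k, hk⟩ : K)
    exact ⟨x, hx, c, hc, congrArg Subtype.val h⟩
  have hWP : W ≤ P := by
    rw [hW, Subgroup.commutator_le]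
    intro k hk a ha
    obtain ⟨x, hx, c, hc, rfl⟩ := hfac k hk
    have hca : a * c = c * a := (Subgroup.mem_centralizer_iff.mp hc.2) a ha
    have h1 : ⁅x * c, a⁆ = x * (a * x⁻¹ * a⁻¹) := by
      rw [commutatorElement_def]
      calc x * c * a * (x * c)⁻¹ * a⁻¹ = x * (c * a) * c⁻¹ * x⁻¹ * a⁻¹ := by group
        _ = x * (a * x⁻¹ * a⁻¹) := by rw [← hca]; group
    rw [h1]
    exact P.mul_mem hx ((Subgroup.mem_normalizer_iff.mp (hAP ha) x⁻¹).mp (P.inv_mem hx))
  have hPp : IsPGroup p P := IsPGroup.of_card hPc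
  have hWp : IsPGroup p W := hPp.to_le hWP
  have hAW : A ≤ Subgroup.normalizer (W : Set G) := le_normalizer_commutator_right hAK
  have hKW : K ≤ Subgroup.normalizer (W : Set G) := le_normalizer_commutator_left K A
  have hWW : ⁅W, A⁆ = W := Cfsg.Agent.S0027.result A K hAK hcop hsolv
  have hsup : W ⊔ C = K := Cfsg.Agent.S0026.result A K hAK hcop hsolv
  set D := W ⊓ Subgroup.centralizer (A : Set G) with hD
  have hCW : C ⊓ W = D := by
    rw [hC, hD, inf_comm, ← inf_assoc, inf_eq_left.mpr hWK]
  have hcardW : Nat.card W = Nat.card D * p := by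
    have h1 := card_sup_mul_card_inf' C W (inf_le_left.trans hKW)
    rw [sup_comm, hsup, hCW, ← card_mul_relIndex_of_le (inf_le_left : C ≤ K), hidx] at h1
    have h2 : Nat.card C * (p * Nat.card D) = Nat.card C * Nat.card W := by rw [← h1]; ring
    rw [← Nat.eq_of_mul_eq_mul_left Nat.card_pos h2, mul_comm]
  have hDW : D ≤ W := inf_le_left
  have hWD : W ≤ Subgroup.normalizer (D : Set G) := by
    rw [← Subgroup.normal_subgroupOf_iff_le_normalizer hDW]
    apply Subgroup.normal_of_index_eq_minFac_card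
    have hi : (D.subgroupOf W).index = p := by
      change D.relIndex W = p
      have h1 := card_mul_relIndex_of_le hDW
      rw [hcardW] at h1
      exact Nat.eq_of_mul_eq_mul_left Nat.card_pos h1
    rw [hi]
    obtain ⟨n, hn⟩ := IsPGroup.iff_card.mp hWp
    rw [hn]
    have hn0 : n ≠ 0 := by
      rintro rfl
      rw [pow_zero] at hn
      have : p ∣ 1 := hn ▸ (hcardW ▸ Dvd.intro_left _ rfl)
      exact hp.one_lt.ne' (Nat.dvd_one.mp this)
    exact (hp.pow_minFac hn0).symm
  have hDA : ⁅D, A⁆ = ⊥ := Subgroup.commutator_eq_bot_iff_le_centralizer.mpr inf_le_right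
  have h1 : ⁅⁅W, D⁆, A⁆ = ⊥ := by
    rw [eq_bot_iff, ← hDA]
    apply Subgroup.commutator_mono _ le_rfl
    rw [Subgroup.commutator_comm]
    exact commutator_le_of_le_normalizer hWD
  have h2 : ⁅⁅D, A⁆, W⁆ = ⊥ := by rw [hDA, Subgroup.commutator_bot_left]
  have h3 : ⁅⁅A, W⁆, D⁆ = ⊥ := Subgroup.commutator_commutator_eq_bot_of_rotate h1 h2
  rw [Subgroup.commutator_comm A W, hWW, Subgroup.commutator_eq_bot_iff_le_centralizer,
    Subgroup.le_centralizer_iff] at h3
  have hWab : IsMulCommutative W := by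
    have hn : (D.subgroupOf W).Normal := (Subgroup.normal_subgroupOf_iff_le_normalizer hDW).mpr hWD
    have hcyc : IsCyclic (W ⧸ D.subgroupOf W) := by
      apply isCyclic_of_prime_card (p := p)
      rw [← Subgroup.index_eq_card]
      change D.relIndex W = p
      have h1 := card_mul_relIndex_of_le hDW
      rw [hcardW] at h1
      exact Nat.eq_of_mul_eq_mul_left Nat.card_pos h1
    refine ⟨⟨commutative_of_cyclic_center_quotient (QuotientGroup.mk' (D.subgroupOf W)) ?_⟩⟩
    rw [QuotientGroup.ker_mk']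
    intro d hd
    rw [Subgroup.mem_center_iff]
    intro w
    apply Subtype.ext
    exact (Subgroup.mem_centralizer_iff.mp (h3 hd)) w w.2
  have h4 := fixed_inf_commutator_eq_bot A W hAW
    (Nat.Coprime.coprime_dvd_right (Subgroup.card_dvd_of_le hWK) hcop)
  rw [hWW, ← hD, inf_eq_left.mpr hDW] at h4
  rw [hcardW, h4, Subgroup.card_bot, one_mul]


/-- Under coprime action, if the centraliser of A in K has prime index p in K then the commutator subgroup [K, A] has order exactly p. -/
theorem result {G : Type*} [Group G] [Finite G] (A K : Subgroup G) (hAK : A ≤ Subgroup.normalizer (K : Set G))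
    (hcop : (Nat.card A).Coprime (Nat.card K)) (hsolv : Group.IsSolvable A ∨ Group.IsSolvable K)
    (p : ℕ) (hp : p.Prime) (hidx : (K ⊓ Subgroup.centralizer (A : Set G)).relIndex K = p) :
    Nat.card (⁅K, A⁆ : Subgroup G) = p := by
  exact r57 A K hAK hcop hsolv p hp hidx

end Cfsg.Agent.S0057
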