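import Cfsg.Statements.S0059
import Cfsg.Agent.Lib.Helper1.Glauberman

set_option autoImplicit false
open Cfsg

namespace Cfsg.Agent.S0059

/-- Let a finite group act on a set on which a normal subgroup K of coprime order and index is transitive, with K or the quotient solvable. Then any complement H of K has a fixed point, and any two H-fixed points are interchanged by an element of K centralising H. -/
theorem result {G : Type*} [Group G] [Finite G] {X : Type*} [Nonempty X] [MulAction G X]
    (K H : Subgroup G) [K.Normal] (hc : Subgroup.IsComplement' K H) (hcop : (Nat.card K).Coprime K.index)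
    (hsolv : Group.IsSolvable K ∨ Group.IsSolvable (G ⧸ K)) (htrans : MulAction.IsPretransitive K X) :
    (∃ x : X, ∀ h ∈ H, h • x = x) ∧
    ∀ x y : X, (∀ h ∈ H, h • x = x) → (∀ h ∈ H, h • y = y) → ∃ k ∈ K ⊓ Subgroup.centralizer (H : Set G), k • x = y := by
  have hHc : Nat.card H = K.index := hc.symm.index_eq_card.symm
  have hcop' : (Nat.card H).Coprime (Nat.card K) := by rw [hHc]; exact hcop.symm
  have hsolv' : Group.IsSolvable H ∨ Group.IsSolvable K := by
    rcases hsolv with h | h
    · exact Or.inr h
    · left
      apply Group.isSolvable_of_isSolvable_injective (f := (QuotientGroup.mk' K).comp H.subtype)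
      rw [injective_iff_map_eq_one]
      intro x hx
      have h1 : (x : G) ∈ K := by simpa using hx
      have h2 : (x : G) ∈ K ⊓ H := ⟨h1, x.2⟩
      rw [hc.disjoint.eq_bot, Subgroup.mem_bot] at h2
      exact Subtype.ext h2
  have htr : ∀ x y : X, ∃ k ∈ K, k • x = y := by
    intro x y
    obtain ⟨k, hk⟩ := MulAction.exists_smul_eq K x y
    exact ⟨k, k.2, hk⟩
  constructor
  · obtain ⟨x, -, hx⟩ := Cfsg.Agent.Lib.Helper1.glauberman_exists H K
      Subgroup.le_normalizer_of_normal hcop' hsolv' Set.univ Set.univ_nonempty
      (fun _ _ _ _ => trivial) (fun _ _ _ _ => trivial) (fun x _ y _ => htr x y)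
    exact ⟨x, hx⟩
  · intro x y hx hy
    obtain ⟨k, hk, hkxy⟩ := htr x y
    exact Cfsg.Agent.Lib.Helper1.glauberman_conj H K
      Subgroup.le_normalizer_of_normal hcop' hsolv' x y hx hy k hk hkxy

end Cfsg.Agent.S0059
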