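import Cfsg.Statements.S0060
import Cfsg.Agent.Lib.Helper1.HallRel
open Cfsg.Agent.Lib.Helper1

set_option autoImplicit false
open Pointwise
open Cfsg

namespace Cfsg.Agent.S0060

/-- Brodkey's Theorem: in a finite group with abelian Sylow p-subgroups and no nontrivial normal p-subgroup, some conjugate of a Sylow p-subgroup meets it trivially. -/
theorem result {G : Type*} [Group G] [Finite G] (p : ℕ) [Fact p.Prime]
    (S : Sylow p G) (hS : IsMulCommutative S) (hOp : Cfsg.pCore p G = ⊥) :
    ∃ g : G, (S : Subgroup G) ⊓ MulAut.conj g • (S : Subgroup G) = ⊥ := by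
  obtain ⟨g, hg⟩ := Finite.exists_min
    (fun g : G => Nat.card ((S : Subgroup G) ⊓ MulAut.conj g • (S : Subgroup G) : Subgroup G))
  refine ⟨g, ?_⟩
  set T := MulAut.conj g • (S : Subgroup G) with hT
  set D := (S : Subgroup G) ⊓ T with hD
  have hSab : IsMulCommutative (S : Subgroup G) := hS
  have hTab : IsMulCommutative T := by
    rw [hT, Subgroup.pointwise_smul_def]; exact map_isMulCommutative _ _
  have hSN : (S : Subgroup G) ≤ Subgroup.normalizer (D : Set G) :=
    (le_centralizer_of_isMulCommutative inf_le_left).trans (Subgroup.centralizer_le_normalizer _)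
  have hTN : T ≤ Subgroup.normalizer (D : Set G) :=
    (le_centralizer_of_isMulCommutative inf_le_right).trans (Subgroup.centralizer_le_normalizer _)
  have hSc : Nat.card (S : Subgroup G) = p ^ (Nat.card (Subgroup.normalizer (D : Set G))).factorization p := by
    apply sylow_card_of_le hSN le_top
    rw [Subgroup.card_top]; exact S.card_eq_multiplicity
  have key : ∀ b : G, D ≤ MulAut.conj b • (S : Subgroup G) := by
    intro b
    have hPp : IsPGroup p (MulAut.conj b • (S : Subgroup G) ⊓ Subgroup.normalizer (D : Set G) : Subgroup G) := by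
      have : IsPGroup p (MulAut.conj b • (S : Subgroup G) : Subgroup G) := by
        rw [Subgroup.pointwise_smul_def]; exact S.isPGroup'.map _
      exact this.to_le inf_le_left
    obtain ⟨x, hx, hxle⟩ := sylow_dominance_in _ (S : Subgroup G) _ hSN inf_le_right hSc hPp
    have h1 : MulAut.conj (x⁻¹ * b) • (S : Subgroup G) ⊓ T ≤ D := by
      intro z hz
      obtain ⟨hz1, hzT⟩ := Subgroup.mem_inf.mp hz
      refine Subgroup.mem_inf.mpr ⟨?_, hzT⟩
      rw [← conj_smul_smul, mem_conj_smul, inv_inv] at hz1
      have hz2 : x * z * x⁻¹ ∈ Subgroup.normalizer (D : Set G) :=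
        Subgroup.mul_mem _ (Subgroup.mul_mem _ hx (hTN hzT)) (Subgroup.inv_mem _ hx)
      have hz3 := hxle (Subgroup.mem_inf.mpr ⟨hz1, hz2⟩)
      rw [mem_conj_smul] at hz3
      have : x⁻¹ * (x * z * x⁻¹) * x = z := by group
      rwa [this] at hz3
    have h2 : Nat.card D ≤ Nat.card (MulAut.conj (x⁻¹ * b) • (S : Subgroup G) ⊓ T : Subgroup G) := by
      have h3 := hg (b⁻¹ * x * g)
      have h4 : MulAut.conj (x⁻¹ * b) • ((S : Subgroup G) ⊓ MulAut.conj (b⁻¹ * x * g) • (S : Subgroup G)) =
          MulAut.conj (x⁻¹ * b) • (S : Subgroup G) ⊓ T := by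
        rw [Subgroup.smul_inf, conj_smul_smul, hT]
        congr 3
        group
      rw [← h4, card_conj_smul]
      exact h3
    have h5 := Subgroup.eq_of_le_of_card_ge h1 h2
    have h6 : D ≤ MulAut.conj (x⁻¹ * b) • (S : Subgroup G) := h5 ▸ inf_le_left
    have h7 : MulAut.conj x • D ≤ MulAut.conj x • MulAut.conj (x⁻¹ * b) • (S : Subgroup G) :=
      Subgroup.pointwise_smul_le_pointwise_smul_iff.mpr h6
    rw [conj_smul_eq_of_mem_normalizer hx, conj_smul_smul] at h7
    simpa using h7
  have h8 : D ≤ (S : Subgroup G).normalCore := by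
    intro d hd b
    have := key b⁻¹ hd
    rw [mem_conj_smul, inv_inv] at this
    exact this
  have h9 : (S : Subgroup G).normalCore ≤ Cfsg.pCore p G :=
    le_pCore inferInstance (S.isPGroup'.to_le (Subgroup.normalCore_le _))
  exact eq_bot_iff.mpr (hOp ▸ h8.trans h9)

end Cfsg.Agent.S0060
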