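import Cfsg.Statements.S0063
import Cfsg.Agent.Lib.Helper1.Misc
open Cfsg.Agent.Lib.Helper1

set_option autoImplicit false
open Cfsg

namespace Cfsg.Agent.S0063

theorem r63aux (p : ℕ) [hp : Fact p.Prime] : ∀ (m : ℕ) (G : Type*) [Group G] [Finite G],
    Nat.card G = p ^ m → 1 < m → Group.nilpotencyClass G ≤ m - 1 := by
  intro m
  induction m using Nat.strong_induction_on with
  | _ m ih =>
    intro G _ _ hG hm
    have hPG : IsPGroup p G := IsPGroup.of_card hG
    have hnil : Group.IsNilpotent G := hPG.isNilpotent
    have hcomm1 : ∀ (H : Type _) [Group H], (∀ a b : H, a * b = b * a) → Group.nilpotencyClass H ≤ 1 := by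
      intro H _ hH
      let _ : CommGroup H := { (inferInstance : Group H) with mul_comm := hH }
      exact CommGroup.nilpotencyClass_le_one
    rcases Nat.lt_or_ge 2 m with h3 | h2
    · have hnt : Nontrivial G := by
        rw [← Finite.one_lt_card_iff_nontrivial, hG]
        exact Nat.one_lt_pow (by omega) hp.out.one_lt
      have hZ : Nontrivial (Subgroup.center G) := hPG.center_nontrivial
      obtain ⟨k, hk⟩ := IsPGroup.iff_card.mp (hPG.to_subgroup (Subgroup.center G))
      have hk0 : 0 < k := by
        rcases Nat.eq_zero_or_pos k with h | h
        · rw [h, pow_zero] at hk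
          have := Finite.one_lt_card_iff_nontrivial.mpr hZ
          omega
        · exact h
      obtain ⟨j, hj⟩ := IsPGroup.iff_card.mp (hPG.to_quotient (Subgroup.center G))
      have hjk : k + j = m := by
        have := (Subgroup.center G).card_mul_index
        rw [Subgroup.index_eq_card, hk, hj, hG, ← pow_add] at this
        exact Nat.pow_right_injective hp.out.two_le this
      have hq := Group.nilpotencyClass_quotient_center (G := G)
      have hcl : Group.nilpotencyClass (G ⧸ Subgroup.center G) ≤ m - 2 := by
        rcases Nat.lt_or_ge 1 j with hj1 | hj1
        · have := ih j (by omega) (G ⧸ Subgroup.center G) hj hj1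
          omega
        · have : Group.nilpotencyClass (G ⧸ Subgroup.center G) ≤ 1 := by
            apply hcomm1
            have hcyc : IsCyclic (G ⧸ Subgroup.center G) := by
              interval_cases j
              · rw [pow_zero] at hj
                have := (Nat.card_eq_one_iff_unique.mp hj).1
                infer_instance
              · rw [pow_one] at hj
                exact isCyclic_of_prime_card hj
            intro a b
            exact (IsCyclic.commGroup (α := G ⧸ Subgroup.center G)).mul_comm a b
          omega
      omega
    · have : m = 2 := by omega
      subst this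
      exact hcomm1 G (IsPGroup.commutative_of_card_eq_prime_sq hG)


/-- A finite group of prime-power order p ^ m with m > 1 is nilpotent of class at most m - 1. -/
theorem result {G : Type*} [Group G] [Finite G] (p m : ℕ) [Fact p.Prime]
    (hG : Nat.card G = p ^ m) (hm : 1 < m) : Group.nilpotencyClass G ≤ m - 1 := by
  exact r63aux p m G hG hm

end Cfsg.Agent.S0063
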