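import Cfsg.Statements.S0064
import Cfsg.Agent.Lib.Helper1.Misc
open Cfsg.Agent.Lib.Helper1

set_option autoImplicit false
open Cfsg

namespace Cfsg.Agent.S0064

/-- A finite group is nilpotent exactly when each of its subgroups is subnormal. -/
theorem result {G : Type*} [Group G] [Finite G] :
    Group.IsNilpotent G ↔ ∀ H : Subgroup G, H.IsSubnormal := by
  constructor
  · intro hnil
    have q := (Group.isNilpotent_of_finite_tfae (G := G)).out 0 1
    have hnc : NormalizerCondition G := q.mp hnil
    have : ∀ (n : ℕ) (H : Subgroup G), Nat.card G - Nat.card H = n → H.IsSubnormal := by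
      intro n
      induction n using Nat.strong_induction_on with
      | _ n ih =>
        intro H hn
        by_cases hH : H = ⊤
        · rw [hH]; exact Subgroup.IsSubnormal.top
        · have h1 := hnc H (lt_top_iff_ne_top.mpr hH)
          have h2 := card_lt_of_lt h1
          have h3 : Nat.card (Subgroup.normalizer (H : Set G)) ≤ Nat.card G := Subgroup.card_le_card_group _
          exact Subgroup.IsSubnormal.step H _ h1.le (ih _ (by omega) _ rfl)
            ((Subgroup.normal_subgroupOf_iff_le_normalizer h1.le).mpr le_rfl)
    exact fun H => this _ H rfl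
  · intro h
    have q := (Group.isNilpotent_of_finite_tfae (G := G)).out 0 2
    rw [q]
    intro M hM
    obtain ⟨K, hK, hMK, hKt⟩ := (h M).exists_normal_and_le_and_lt_top_of_ne hM.1
    rcases eq_or_lt_of_le hMK with h1 | h1
    · rw [h1]; exact hK
    · exact absurd (hM.2 K h1) hKt.ne

end Cfsg.Agent.S0064
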