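import Cfsg.Statements.S0066
import Cfsg.Agent.Lib.Helper1.Subn1
open Cfsg.Agent.Lib.Helper1
open Cfsg.Agent.Lib.Helper6.Basic Cfsg.Agent.Lib.Helper6.Subn Cfsg.Agent.Lib.Helper6.Rad Cfsg.Agent.Lib.Helper6.Nil
open scoped Pointwise

set_option autoImplicit false
open Pointwise
open Cfsg

namespace Cfsg.Agent.S0066

theorem wielandt_SN {G : Type*} [Group G] [Finite G] (A : Subgroup G)
    (h : ∀ g : G, SN A (A ⊔ cj g A)) : SN A ⊤ := by
  apply SN_induction A _ ⊤ le_top
  intro K M hAM hMK hmax hsn
  by_cases hc : ∃ g ∈ K, A ⊔ cj g A = K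
  · obtain ⟨g, _, hg⟩ := hc
    exact hg ▸ h g
  · push Not at hc
    apply SN_of_conj_le hMK hsn
    intro x hx
    have h1 : A ⊔ cj x A ≤ K := sup_le (hAM.trans hMK.le) (by
      have := cj_mono (g := x) (hAM.trans hMK.le)
      rwa [cj_eq_self_of_mem hx] at this)
    exact le_sup_right.trans (hmax _ le_sup_left (lt_of_le_of_ne h1 (hc x hx)))

/-- Wielandt's subnormality criterion: a subgroup that is subnormal in its join with each of its conjugates is subnormal in the whole finite group. -/
theorem result {G : Type*} [Group G] [Finite G] (A : Subgroup G)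
    (h : ∀ g : G, (A.subgroupOf (A ⊔ MulAut.conj g • A)).IsSubnormal) : A.IsSubnormal := by
  rw [isSubnormal_iff]
  apply wielandt_SN
  intro g
  exact (subgroupOf_isSubnormal_iff le_sup_left).mp (h g)

end Cfsg.Agent.S0066
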