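import Cfsg.Statements.S0067
import Cfsg.Agent.Lib.Helper1.Subn1
open Cfsg.Agent.Lib.Helper1
open Cfsg.Agent.Lib.Helper6.Basic Cfsg.Agent.Lib.Helper6.Subn Cfsg.Agent.Lib.Helper6.Rad Cfsg.Agent.Lib.Helper6.Nil
open scoped Pointwise

set_option autoImplicit false
open Pointwise
open Cfsg

namespace Cfsg.Agent.S0067

theorem wielandt_SN {G : Type*} [Group G] [Finite G] (A : Subgroup G)
    (h : ∀ g : G, SN A (A ⊔ cj g A)) : SN A ⊤ := by
  apply SN_induction A _ ⊤ le_top
  intro K M hAM hMK hmax hsn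
  by_cases hc : ∃ g ∈ K, A ⊔ cj g A = K
  · obtain ⟨g, _, hg⟩ := hc
    exact hg ▸ h g
  · push Not at hc
    apply SN_of_conj_le hMK hsn
    intro x hx
    have h1 : A ⊔ cj x A ≤ K := sup_le (hAM.trans hMK.le) (by
      have := cj_mono (g := x) (hAM.trans hMK.le)
      rwa [cj_eq_self_of_mem hx] at this)
    exact le_sup_right.trans (hmax _ le_sup_left (lt_of_le_of_ne h1 (hc x hx)))

/-- If the join of a subgroup A with each of its conjugates is nilpotent, then A is subnormal in the finite group and contained in the Fitting subgroup. -/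
theorem result {G : Type*} [Group G] [Finite G] (A : Subgroup G)
    (h : ∀ g : G, Group.IsNilpotent (A ⊔ MulAut.conj g • A : Subgroup G)) : A.IsSubnormal ∧ A ≤ Cfsg.fittingSubgroup G := by
  have h1 : SN A ⊤ := by
    apply wielandt_SN
    intro g
    exact SN_of_le_nilpotent (h g) le_sup_left
  refine ⟨isSubnormal_iff.mpr h1, le_fitting_of_SN h1 ?_⟩
  exact nilpotent_of_le le_sup_left (h 1)

end Cfsg.Agent.S0067
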