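import Cfsg.Statements.S0070
import Cfsg.Agent.Lib.Helper1.Frat
open Cfsg.Agent.Lib.Helper1

set_option autoImplicit false
open Cfsg

namespace Cfsg.Agent.S0070

/-- The Fitting subgroup commutes with passing to the Frattini quotient: the Fitting subgroup of G modulo its Frattini subgroup is the image of the Fitting subgroup of G. -/
theorem result {G : Type*} [Group G] [Finite G] :
    Cfsg.fittingSubgroup (G ⧸ frattini G) = (Cfsg.fittingSubgroup G).map (QuotientGroup.mk' (frattini G)) := by
  have hπs : Function.Surjective (QuotientGroup.mk' (frattini G)) := QuotientGroup.mk'_surjective _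
  apply le_antisymm
  · have hn : ((Cfsg.fittingSubgroup (G ⧸ frattini G)).comap (QuotientGroup.mk' (frattini G))).Normal :=
      fitting_normal.comap _
    have hm : ((Cfsg.fittingSubgroup (G ⧸ frattini G)).comap (QuotientGroup.mk' (frattini G))).map
        (QuotientGroup.mk' (frattini G)) = Cfsg.fittingSubgroup (G ⧸ frattini G) :=
      Subgroup.map_comap_eq_self_of_surjective hπs _
    have h1 := isNilpotent_of_map_frattini
      ((Cfsg.fittingSubgroup (G ⧸ frattini G)).comap (QuotientGroup.mk' (frattini G)))
      (by
        conv_lhs => rw [← QuotientGroup.ker_mk' (frattini G)]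
        exact Subgroup.ker_le_comap _ _)
      (by rw [hm]; exact fitting_isNilpotent)
    rw [← hm]
    exact Subgroup.map_mono (le_fitting hn h1)
  · have := fitting_isNilpotent (G := G)
    exact le_fitting (fitting_normal.map _ hπs)
      (Group.nilpotent_of_surjective _ ((QuotientGroup.mk' (frattini G)).subgroupMap_surjective _))

end Cfsg.Agent.S0070
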