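import Cfsg.Statements.S0071
import Cfsg.Agent.Lib.Helper1.Frobenius
open Cfsg.Agent.Lib.Helper1
open Pointwise

set_option autoImplicit false
open Cfsg

namespace Cfsg.Agent.S0071

/-- The Frobenius normal p-complement Theorem states that a Sylow p-subgroup has a normal complement exactly when, for each of its subgroups Q, every element of the normalizer of Q of order prime to p centralizes Q. -/
theorem result {G : Type*} [Group G] [Finite G] {p : ℕ} [Fact p.Prime] (P : Sylow p G) : (∃ N : Subgroup G, N.Normal ∧ N.IsComplement' (P : Subgroup G)) ↔ ∀ Q : Subgroup G, Q ≤ (P : Subgroup G) → ∀ g ∈ Subgroup.normalizer (Q : Set G), Nat.Coprime (orderOf g) p → g ∈ Subgroup.centralizer (Q : Set G) := by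
  constructor
  · rintro ⟨N, hN, hc⟩ Q hQ g hg hcop
    have hidx : N.index = Nat.card (P : Subgroup G) := by
      have h1 := hc.card_mul_card
      exact Nat.eq_of_mul_eq_mul_left Nat.card_pos (N.card_mul_index.trans h1.symm)
    have hq : IsPGroup p (G ⧸ N) := by
      obtain ⟨k, hk⟩ := IsPGroup.iff_card.mp P.isPGroup'
      apply IsPGroup.of_card (n := k)
      rw [← Subgroup.index_eq_card, hidx, hk]
    have hgN : g ∈ N := pResidual_le N hq (mem_pResidual_of_coprime hcop)
    have hdisj : Q ⊓ N = ⊥ := by
      rw [eq_bot_iff, ← hc.disjoint.eq_bot, inf_comm N]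
      exact inf_le_inf_right _ hQ
    exact mem_centralizer_of_mem_normalizer Subgroup.le_normalizer_of_normal hdisj hgN hg
  · intro h
    have h1 := frobenius_aux _ G rfl (frobHyp_of_sylow P h)
    exact ⟨_, pResidual_normal p, isComplement'_pResidual h1 P⟩

end Cfsg.Agent.S0071
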