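import Cfsg.Statements.S0072
import Cfsg.Agent.Lib.Helper1.Frobenius
open Cfsg.Agent.Lib.Helper1
open Pointwise

set_option autoImplicit false
open Cfsg

namespace Cfsg.Agent.S0072

/-- A finite group has a normal p-complement if and only if every p-local subgroup (normalizer of a nontrivial p-subgroup) has one. -/
theorem result {G : Type*} [Group G] [Finite G] (p : ℕ) [Fact p.Prime] : Cfsg.HasNormalPComplement p G ↔ ∀ Q : Subgroup G, IsPGroup p Q → Q ≠ ⊥ → Cfsg.HasNormalPComplement p (Subgroup.normalizer (Q : Set G)) := by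
  constructor
  · intro h Q _ _
    exact hasNormalPComplement_subgroup h _
  · intro h
    rw [hasNormalPComplement_iff]
    apply frobenius_aux _ G rfl
    intro Q hQ g hg hcop
    by_cases hbot : Q = ⊥
    · rw [hbot, Subgroup.coe_bot, Subgroup.centralizer_eq_top_iff_subset.mpr (by simp)]
      exact Subgroup.mem_top g
    have h1 := hasNormalPComplement_iff.mp (h Q hQ hbot)
    have hKn := pResidual_normal (G := Subgroup.normalizer (Q : Set G)) p
    have hQn : (Q.subgroupOf (Subgroup.normalizer (Q : Set G))).Normal :=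
      (Subgroup.normal_subgroupOf_iff_le_normalizer Subgroup.le_normalizer).mpr le_rfl
    have hgK : (⟨g, hg⟩ : Subgroup.normalizer (Q : Set G)) ∈ Cfsg.pResidual p (Subgroup.normalizer (Q : Set G)) :=
      mem_pResidual_of_coprime (by rw [Subgroup.orderOf_mk]; exact hcop)
    have hdisj : Q.subgroupOf (Subgroup.normalizer (Q : Set G)) ⊓
        Cfsg.pResidual p (Subgroup.normalizer (Q : Set G)) = ⊥ := by
      apply Subgroup.inf_eq_bot_of_coprime
      rw [card_subgroupOf Subgroup.le_normalizer]
      obtain ⟨k, hk⟩ := IsPGroup.iff_card.mp hQ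
      rw [hk]
      exact (Nat.Coprime.pow_right k h1).symm
    have h2 := mem_centralizer_of_mem_normalizer (A := Q.subgroupOf (Subgroup.normalizer (Q : Set G)))
      Subgroup.le_normalizer_of_normal hdisj hgK (Subgroup.le_normalizer_of_normal (Subgroup.mem_top _))
    rw [Subgroup.mem_centralizer_iff] at h2 ⊢
    intro x hx
    exact congrArg Subtype.val (h2 ⟨x, Subgroup.le_normalizer hx⟩ hx)

end Cfsg.Agent.S0072
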