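import Cfsg.Statements.S0073
import Cfsg.Agent.Lib.Helper1.RankFrattini
open Cfsg.Agent.Lib.Helper1

set_option autoImplicit false
open Cfsg

namespace Cfsg.Agent.S0073

theorem burnside_of_card {G : Type*} [Group G] [Finite G] {p d : ℕ} [hp : Fact p.Prime] (P : Sylow p G)
    (hab : IsMulCommutative (P : Subgroup G)) (hc : Nat.card (P : Subgroup G) ∣ p ^ d)
    (h : ∀ q : ℕ, q.Prime → q ∣ Nat.card G → q ≠ p → ∀ i, 1 ≤ i → i ≤ d → ¬ q ∣ p ^ i - 1) :
    Subgroup.normalizer ((P : Subgroup G) : Set G) ≤ Subgroup.centralizer ((P : Subgroup G) : Set G) := by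
  intro g hg
  apply mem_centralizer_of_forall_prime_power (P : Subgroup G) g hg
  intro q hq hqG A hA hAN
  by_cases hqp : q = p
  · have hA' : IsPGroup p A := hqp ▸ hA
    exact (pgroup_le_sylow_of_le_normalizer P hA' hAN).trans (le_centralizer_of_isMulCommutative le_rfl)
  · exact centralizes_of_frattini_index (d := d) (P : Subgroup G) A P.2 hA hAN (Ne.symm hqp)
      ((frattini (P : Subgroup G)).index_dvd_card.trans hc) (h q hq.out hqG hqp)

/-- For a finite non-abelian simple group, either the cube of the least prime divisor of the order divides the order, or 12 does. -/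
theorem result {G : Type*} [Group G] [Finite G] [IsSimpleGroup G] (hG : ∃ x y : G, x * y ≠ y * x) : (Nat.card G).minFac ^ 3 ∣ Nat.card G ∨ 12 ∣ Nat.card G := by
  by_contra hcon
  push Not at hcon
  obtain ⟨h3, h12⟩ := hcon
  have h1 : Nat.card G ≠ 1 := by
    intro h
    have := (Nat.card_eq_one_iff_unique.mp h).1
    obtain ⟨x, y, hxy⟩ := hG
    exact hxy (Subsingleton.elim _ _)
  set p := (Nat.card G).minFac with hpdef
  have hp : p.Prime := Nat.minFac_prime h1
  have hpG : p ∣ Nat.card G := Nat.minFac_dvd _
  haveI := Fact.mk hp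
  obtain ⟨P⟩ : Nonempty (Sylow p G) := inferInstance
  obtain ⟨k, hk⟩ := IsPGroup.iff_card.mp P.2
  have hk2 : k ≤ 2 := by
    by_contra hlt
    exact h3 ((pow_dvd_pow p (by omega)).trans (hk ▸ Subgroup.card_subgroup_dvd_card _))
  have hab : IsMulCommutative (P : Subgroup G) := by
    have hk' : k = 0 ∨ k = 1 ∨ k = 2 := by omega
    rcases hk' with rfl | rfl | rfl
    · have : Subsingleton (P : Subgroup G) := (Nat.card_eq_one_iff_unique.mp (by simpa using hk)).1
      exact ⟨⟨fun a b => Subsingleton.elim _ _⟩⟩
    · have := isCyclic_of_prime_card (p := p) (by simpa using hk)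
      exact ⟨⟨fun a b => IsCyclic.commGroup.mul_comm a b⟩⟩
    · exact IsPGroup.isMulCommutative_of_card_eq_prime_sq hk
  have hNC : Subgroup.normalizer ((P : Subgroup G) : Set G) ≤ Subgroup.centralizer ((P : Subgroup G) : Set G) := by
    by_cases hk1 : k ≤ 1
    · apply burnside_of_card (d := 1) P hab (hk ▸ pow_dvd_pow p hk1)
      intro q hq hqG hqp i hi1 hi2 hd
      have hlt : p < q := lt_of_le_of_ne (Nat.minFac_le_of_dvd hq.two_le hqG) (Ne.symm hqp)
      have hi : i = 1 := by omega
      rw [hi, pow_one] at hd
      have := Nat.le_of_dvd (by have := hp.two_le; omega) hd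
      omega
    · have hk2' : k = 2 := by omega
      apply burnside_of_card (d := 2) P hab (hk ▸ pow_dvd_pow p hk2)
      intro q hq hqG hqp i hi1 hi2 hdvd
      have hlt : p < q := lt_of_le_of_ne (Nat.minFac_le_of_dvd hq.two_le hqG) (Ne.symm hqp)
      have hp2 := hp.two_le
      have hcase : q ∣ p - 1 ∨ q ∣ p + 1 := by
        interval_cases i
        · left; simpa using hdvd
        · have : p ^ 2 - 1 = (p - 1) * (p + 1) := by
            obtain ⟨m, hm⟩ : ∃ m, p = m + 1 := ⟨p - 1, by omega⟩
            rw [hm]
            simp only [Nat.add_sub_cancel]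
            have : (m + 1) ^ 2 = m * (m + 1 + 1) + 1 := by ring
            omega
          rw [this] at hdvd
          exact (hq.dvd_mul).mp hdvd
      rcases hcase with hc | hc
      · have := Nat.le_of_dvd (by omega) hc
        omega
      · have hle := Nat.le_of_dvd (by omega) hc
        have h23 : q = p + 1 := by omega
        have hp2 : p = 2 := by
          rcases hp.eq_two_or_odd' with h2 | hodd
          · exact h2
          · exfalso
            have heven : Even q := by rw [h23]; exact hodd.add_one
            have := (hq.even_iff).mp heven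
            omega
        have hq3 : q = 3 := by omega
        apply h12
        have h4 : 4 ∣ Nat.card G := by
          have h6 : (4 : ℕ) = p ^ k := by rw [hp2, hk2']; norm_num
          rw [h6, ← hk]; exact Subgroup.card_subgroup_dvd_card _
        have : (3 * 4) ∣ Nat.card G := Nat.Coprime.mul_dvd_of_dvd_of_dvd (by norm_num) (hq3 ▸ hqG) h4
        simpa using this
  have hc := MonoidHom.ker_transferSylow_isComplement' P hNC
  have hcard := hc.card_mul_card
  rcases (inferInstance : (MonoidHom.transferSylow P hNC).ker.Normal).eq_bot_or_eq_top with hb | ht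
  · rw [hb, Subgroup.card_bot, one_mul] at hcard
    have hPtop : (P : Subgroup G) = ⊤ := Subgroup.eq_top_of_card_eq _ hcard
    obtain ⟨x, y, hxy⟩ := hG
    apply hxy
    have := hab.is_comm.comm (⟨x, hPtop ▸ Subgroup.mem_top x⟩ : (P : Subgroup G)) ⟨y, hPtop ▸ Subgroup.mem_top y⟩
    exact congrArg Subtype.val this
  · rw [ht, Subgroup.card_top] at hcard
    have h5 : Nat.card (P : Subgroup G) = 1 := by
      have : Nat.card G * Nat.card (P : Subgroup G) = Nat.card G * 1 := by rw [hcard, mul_one]
      exact Nat.eq_of_mul_eq_mul_left Nat.card_pos this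
    have h6 := P.card_eq_multiplicity
    rw [h5] at h6
    have hfpos : 0 < (Nat.card G).factorization p := hp.factorization_pos_of_dvd Nat.card_pos.ne' hpG
    have := Nat.one_lt_pow hfpos.ne' hp.one_lt
    omega

end Cfsg.Agent.S0073
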