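import Cfsg.Statements.S0075
import Cfsg.Agent.Lib.Helper1.Transfer1
open Cfsg.Agent.Lib.Helper1
open Pointwise

set_option autoImplicit false
open Cfsg

namespace Cfsg.Agent.S0075

/-- For an abelian Sylow p-subgroup T, its intersection with the subgroup generated by the elements of order prime to p is the commutator of T with its normalizer. -/
theorem result {G : Type*} [Group G] [Finite G] {p : ℕ} [Fact p.Prime] (T : Sylow p G) (hT : IsMulCommutative T) : (T : Subgroup G) ⊓ Cfsg.pResidual p G = ⁅(T : Subgroup G), Subgroup.normalizer (T : Set G)⁆ := by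
  obtain ⟨h1, h2, h3⟩ := focal_sylow T
  rw [← focal_abelian_sylow]
  apply le_antisymm
  · rw [← h1, inf_comm]
    apply inf_le_inf_right
    exact pResidual_le_ker _ (T.isPGroup'.to_quotient _)
  · rw [← h3, inf_comm]
    exact inf_le_inf_left _ (commutator_le_pResidual_of_abelian_sylow T)

end Cfsg.Agent.S0075
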