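import Cfsg.Statements.S0076
import Cfsg.Agent.Lib.Helper1.Transfer1
open Cfsg.Agent.Lib.Helper1
open Pointwise

set_option autoImplicit false
open Cfsg

namespace Cfsg.Agent.S0076

/-- Two P-invariant subsets of a Sylow p-subgroup P that are conjugate in G are conjugate under the normalizer of P. -/
theorem result {G : Type*} [Group G] [Finite G] {p : ℕ} [Fact p.Prime] (P : Sylow p G) (X Y : Set G) (hXP : X ⊆ P) (hYP : Y ⊆ P) (hX : ∀ x ∈ P, (fun y => x * y * x⁻¹) '' X = X) (hY : ∀ x ∈ P, (fun y => x * y * x⁻¹) '' Y = Y) (g : G) (hg : (fun y => g * y * g⁻¹) '' X = Y) : ∃ n ∈ Subgroup.normalizer (P : Set G), (fun y => n * y * n⁻¹) '' X = Y := by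
  have himg : ∀ (a : G) (S : Set G), (fun y => a * y * a⁻¹) '' S = MulAut.conj a • S := fun a S => rfl
  simp only [himg] at hX hY hg ⊢
  let L : Subgroup G := (MulAction.stabilizer (MulAut G) Y).comap MulAut.conj
  have hL : ∀ a, a ∈ L ↔ MulAut.conj a • Y = Y := fun a => Iff.rfl
  have hPL : (P : Subgroup G) ≤ L := fun x hx => (hL x).mpr (hY x hx)
  have hRL : MulAut.conj g • (P : Subgroup G) ≤ L := by
    intro x hx
    rw [mem_conj_smul] at hx
    rw [hL, ← hg, smul_smul, ← map_mul]
    have h1 := hX _ hx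
    have : x * g = g * (g⁻¹ * x * g) := by group
    rw [this, map_mul, mul_smul, h1]
  obtain ⟨c, hc, hcP⟩ := sylow_conj_in L (MulAut.conj g • (P : Subgroup G)) (P : Subgroup G) hRL hPL
    (sylow_card_of_le hRL le_top (by rw [card_conj_smul]; exact sylow_card_top P))
    (sylow_card_of_le hPL le_top (sylow_card_top P))
  refine ⟨c * g, ?_, ?_⟩
  · apply mem_normalizer_of_conj_smul_eq
    rw [← conj_smul_smul]; exact hcP
  · rw [map_mul, mul_smul, hg]
    exact (hL c).mp hc

end Cfsg.Agent.S0076
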