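import Mathlib
import Cfsg.Statements.S0077
import Cfsg.Agent.Lib.Helper6.WClosed

set_option autoImplicit false
open Cfsg
open Cfsg.Agent.Lib.Helper6.Basic Cfsg.Agent.Lib.Helper6.WClosed Cfsg.Agent.Lib.Helper6.Ores
open scoped commutatorElement

namespace Cfsg.Agent.S0077

/-- statement -/
theorem result {G : Type*} [Group G] [Finite G] {p : ℕ} [Fact p.Prime] (P : Sylow p G) (Z : Subgroup G) (hZ : Z ≤ Subgroup.centralizer (P : Set G)) (hW : Cfsg.IsWeaklyClosed Z P) : commutator G ⊓ (P : Subgroup G) = ⁅Subgroup.normalizer (Z : Set G), Subgroup.normalizer (Z : Set G)⁆ ⊓ (P : Subgroup G) := by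
  classical
  apply le_antisymm
  swap
  · exact inf_le_inf_right _ (Subgroup.commutator_mono le_top le_top)
  have hZP : Z ≤ (P : Subgroup G) := hW.1
  have hZp : IsPGroup p Z := P.isPGroup'.to_le hZP
  have hZc : ∀ z ∈ Z, ∀ m ∈ (P : Subgroup G), m * z = z * m := fun z hz m hm =>
    Subgroup.mem_centralizer_iff.1 (hZ hz) m hm
  have hWC : WC p Z ⊤ := by
    apply wc_of_syl (syl_of_sylow P)
    intro g _ hg
    exact hW.2 g hg
  have hPN : (P : Subgroup G) ≤ Subgroup.normalizer (Z : Set G) := by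
    intro m hm
    rw [← cj_eq_self_iff]
    apply hW.2
    rintro _ ⟨z, hz, rfl⟩
    show m * z * m⁻¹ ∈ (P : Subgroup G)
    rw [hZc z hz m hm, mul_inv_cancel_right]
    exact hZP hz
  rw [Subgroup.commutator_inf_eq_focalSubgroup, Subgroup.focalSubgroup_def, Subgroup.closure_le]
  rintro t ⟨ht, x, hx, g, rfl⟩
  refine ⟨?_, ht⟩
  -- y = g x g⁻¹ ∈ P
  have hy : g * x * g⁻¹ ∈ (P : Subgroup G) := by
    have h1 : g * x * g⁻¹ = (x⁻¹ * ⁅x, g⁆)⁻¹ := by rw [commutatorElement_def]; group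
    rw [h1]
    exact Subgroup.inv_mem _ (Subgroup.mul_mem _ (Subgroup.inv_mem _ hx) ht)
  have hZK : Z ≤ Subgroup.centralizer ({g * x * g⁻¹} : Set G) := by
    intro z hz
    rw [Subgroup.mem_centralizer_iff]
    intro t ht
    rw [Set.mem_singleton_iff] at ht
    rw [ht]
    exact hZc z hz _ hy
  have hgK : cj g Z ≤ Subgroup.centralizer ({g * x * g⁻¹} : Set G) := by
    rintro _ ⟨z, hz, rfl⟩
    rw [Subgroup.mem_centralizer_iff]
    intro t ht
    rw [Set.mem_singleton_iff] at ht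
    rw [ht]
    show g * x * g⁻¹ * (g * z * g⁻¹) = g * z * g⁻¹ * (g * x * g⁻¹)
    have := hZc z hz x hx
    calc g * x * g⁻¹ * (g * z * g⁻¹) = g * (x * z) * g⁻¹ := by group
      _ = g * (z * x) * g⁻¹ := by rw [this]
      _ = _ := by group
  obtain ⟨k, hk, hkg⟩ := WC.conj hWC hZp hZK le_top (Subgroup.mem_top g) hgK
  have h1 : cj (k⁻¹ * g) Z = Z := by
    rw [← cj_cj, hkg, cj_cj, inv_mul_cancel, cj_one]
  rw [cj_eq_self_iff] at h1
  have hky : (g * x * g⁻¹) * k = k * (g * x * g⁻¹) := Subgroup.mem_centralizer_iff.1 hk _ rfl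
  have h2 : k⁻¹ * g * x * (k⁻¹ * g)⁻¹ = g * x * g⁻¹ := by
    calc k⁻¹ * g * x * (k⁻¹ * g)⁻¹ = k⁻¹ * ((g * x * g⁻¹) * k) := by group
      _ = g * x * g⁻¹ := by rw [hky]; group
  have h3 : ⁅x, g⁆ = ⁅x, k⁻¹ * g⁆ := by
    rw [commutatorElement_def, commutatorElement_def]
    have e1 : x * g * x⁻¹ * g⁻¹ = x * (g * x * g⁻¹)⁻¹ := by group
    have e2 : x * (k⁻¹ * g) * x⁻¹ * (k⁻¹ * g)⁻¹ = x * (k⁻¹ * g * x * (k⁻¹ * g)⁻¹)⁻¹ := by group
    rw [e1, e2, h2]
  show ⁅x, g⁆ ∈ ⁅Subgroup.normalizer (Z : Set G), Subgroup.normalizer (Z : Set G)⁆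
  rw [h3]
  exact Subgroup.commutator_mem_commutator (hPN hx) h1

end Cfsg.Agent.S0077
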