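import Cfsg.Statements.S0082
import Cfsg.Agent.Lib.Helper1.Transfer1
open Cfsg.Agent.Lib.Helper1
open Pointwise

set_option autoImplicit false
open Cfsg

namespace Cfsg.Agent.S0082

/-- With a cyclic Sylow p-subgroup, either there is a normal p-complement or the elements of order prime to p generate the whole group. -/
theorem result {G : Type*} [Group G] [Finite G] {p : ℕ} [Fact p.Prime] (P : Sylow p G) (hP : IsCyclic P) : Cfsg.HasNormalPComplement p G ∨ Cfsg.pResidual p G = ⊤ := by
  rcases P.normalizer_le_centralizer_or_le_commutator with h | h
  · left
    exact ⟨P, _, inferInstance, MonoidHom.ker_transferSylow_isComplement' P h⟩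
  · right
    have hc : IsMulCommutative P := inferInstance
    have h1 := sylow_sup_pResidual P
    rwa [sup_eq_right.mpr (h.trans (commutator_le_pResidual_of_abelian_sylow P))] at h1

end Cfsg.Agent.S0082
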