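import Cfsg.Statements.S0083
import Cfsg.Agent.Lib.Helper1.Transfer1
import Cfsg.Agent.S0055
open Cfsg.Agent.Lib.Helper1
open Pointwise

set_option autoImplicit false
open Cfsg

namespace Cfsg.Agent.S0083

/-- For an abelian Sylow p-subgroup P, a normal p-complement exists exactly when the normalizer of P is an internal direct product of P with some subgroup. -/
theorem result {G : Type*} [Group G] [Finite G] {p : ℕ} [Fact p.Prime] (P : Sylow p G) (hP : IsMulCommutative P) : Cfsg.HasNormalPComplement p G ↔ ∃ Q : Subgroup G, Q ≤ Subgroup.centralizer (P : Set G) ∧ Q ⊓ (P : Subgroup G) = ⊥ ∧ Q ⊔ (P : Subgroup G) = Subgroup.normalizer (P : Set G) := by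
  constructor
  · rintro ⟨P', N, hN, hc'⟩
    have hc := isComplement'_sylow_of_isComplement' P P' hc'
    have hdisj : (P : Subgroup G) ⊓ N = ⊥ := by rw [inf_comm]; exact hc.disjoint.eq_bot
    refine ⟨N ⊓ Subgroup.normalizer (P : Set G), ?_, ?_, ?_⟩
    · rintro x ⟨hx1, hx2⟩
      exact mem_centralizer_of_mem_normalizer (Subgroup.le_normalizer_of_normal) hdisj hx1 hx2
    · rw [eq_bot_iff, ← hdisj, inf_comm (P : Subgroup G) N]
      exact inf_le_inf_right _ inf_le_left
    · apply le_antisymm (sup_le inf_le_right Subgroup.le_normalizer)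
      intro g hg
      have hg2 : g ∈ N ⊔ (P : Subgroup G) := hc.sup_eq_top ▸ Subgroup.mem_top g
      obtain ⟨n, hn, x, hx, rfl⟩ := Subgroup.mem_sup_of_normal_left.mp hg2
      refine Subgroup.mul_mem_sup ⟨hn, ?_⟩ hx
      have : n = n * x * x⁻¹ := by group
      rw [this]
      exact Subgroup.mul_mem _ hg (Subgroup.inv_mem _ (Subgroup.le_normalizer hx))
  · rintro ⟨Q, hQ, -, hsup⟩
    have h : Subgroup.normalizer (P : Set G) ≤ Subgroup.centralizer (P : Set G) := by
      rw [← hsup]
      have : IsMulCommutative (P : Subgroup G) := hP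
      exact sup_le hQ (le_centralizer_of_isMulCommutative le_rfl)
    exact ⟨P, _, inferInstance, MonoidHom.ker_transferSylow_isComplement' P h⟩

end Cfsg.Agent.S0083
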