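import Cfsg.Statements.S0084
import Cfsg.Agent.Lib.Helper1.RankFrattini
open Cfsg.Agent.Lib.Helper1

set_option autoImplicit false
open Cfsg

namespace Cfsg.Agent.S0084

theorem burnside_of_card {G : Type*} [Group G] [Finite G] {p d : ℕ} [hp : Fact p.Prime] (P : Sylow p G)
    (hab : IsMulCommutative (P : Subgroup G)) (hc : Nat.card (P : Subgroup G) ∣ p ^ d)
    (h : ∀ q : ℕ, q.Prime → q ∣ Nat.card G → q ≠ p → ∀ i, 1 ≤ i → i ≤ d → ¬ q ∣ p ^ i - 1) :
    Subgroup.normalizer ((P : Subgroup G) : Set G) ≤ Subgroup.centralizer ((P : Subgroup G) : Set G) := by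
  intro g hg
  apply mem_centralizer_of_forall_prime_power (P : Subgroup G) g hg
  intro q hq hqG A hA hAN
  by_cases hqp : q = p
  · have hA' : IsPGroup p A := hqp ▸ hA
    exact (pgroup_le_sylow_of_le_normalizer P hA' hAN).trans (le_centralizer_of_isMulCommutative le_rfl)
  · exact centralizes_of_frattini_index (d := d) (P : Subgroup G) A P.2 hA hAN (Ne.symm hqp)
      ((frattini (P : Subgroup G)).index_dvd_card.trans hc) (h q hq.out hqG hqp)

/-- A group whose Sylow 2-subgroups are Klein four-groups and whose order is prime to 3 has a normal 2-complement. -/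
theorem result {G : Type*} [Group G] [Finite G] (T : Sylow 2 G) (hT : IsKleinFour T) (h3 : ¬ 3 ∣ Nat.card G) : Cfsg.HasNormalPComplement 2 G := by
  have hab : IsMulCommutative (T : Subgroup G) := by
    refine ⟨⟨fun a b => ?_⟩⟩
    exact (mul_comm_of_exponent_two (hT.exponent_two)) a b
  have hNC := burnside_of_card (d := 2) T hab (by
    have : Nat.card (T : Subgroup G) = 4 := hT.card_four
    rw [this]; norm_num) (by
    intro q hq hqG _ i hi1 hi2 hd
    interval_cases i
    · simp at hd; exact hq.one_lt.ne' hd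
    · have : q ∣ 3 := by simpa using hd
      exact h3 (((Nat.prime_dvd_prime_iff_eq hq Nat.prime_three).mp this) ▸ hqG))
  exact ⟨T, _, inferInstance, MonoidHom.ker_transferSylow_isComplement' T hNC⟩

end Cfsg.Agent.S0084
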