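import Cfsg.Statements.S0089
import Cfsg.Agent.Lib.Helper1.Transfer1
open Cfsg.Agent.Lib.Helper1
open Pointwise

set_option autoImplicit false
open Cfsg

namespace Cfsg.Agent.S0089

/-- When all Sylow subgroups are abelian, the derived subgroup meets the centre trivially. -/
theorem result {G : Type*} [Group G] [Finite G] (h : ∀ p : ℕ, p.Prime → ∀ P : Sylow p G, IsMulCommutative P) : commutator G ⊓ Subgroup.center G = ⊥ := by
  by_contra hne
  obtain ⟨⟨x, hx⟩, hx1⟩ := Subgroup.ne_bot_iff_exists_ne_one.mp hne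
  have hx1' : x ≠ 1 := fun h => hx1 (Subtype.ext h)
  have hord : orderOf x ≠ 1 := fun h => hx1' (orderOf_eq_one_iff.mp h)
  obtain ⟨p, hp, hpd⟩ := Nat.exists_prime_and_dvd hord
  have := Fact.mk hp
  obtain ⟨m, hm⟩ := hpd
  have hm0 : 0 < m := by
    rcases Nat.eq_zero_or_pos m with h0 | h0
    · rw [h0, mul_zero] at hm; exact absurd hm (orderOf_pos x).ne'
    · exact h0
  have hy : orderOf (x ^ m) = p := by
    rw [orderOf_pow_of_dvd hm0.ne' ⟨p, by rw [hm, mul_comm]⟩, hm]
    exact Nat.mul_div_cancel _ hm0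
  have hyp : IsPGroup p (Subgroup.zpowers (x ^ m)) := by
    apply IsPGroup.of_card (n := 1)
    rw [Nat.card_zpowers, hy, pow_one]
  obtain ⟨P, hP⟩ := hyp.exists_le_sylow
  have h1 := abelian_hall_inf_commutator_inf_center (P : Subgroup G) (h p hp P) P.card_coprime_index
  have h2 : x ^ m ∈ (P : Subgroup G) ⊓ commutator G ⊓ Subgroup.center G :=
    ⟨⟨hP (Subgroup.mem_zpowers _), Subgroup.pow_mem _ hx.1 m⟩, Subgroup.pow_mem _ hx.2 m⟩
  rw [h1, Subgroup.mem_bot] at h2
  rw [h2, orderOf_one] at hy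
  exact hp.one_lt.ne hy

end Cfsg.Agent.S0089
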