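import Cfsg.Statements.S0090
import Cfsg.Agent.Lib.Helper1.Transfer1
import Cfsg.Agent.S0055
open Cfsg.Agent.Lib.Helper1
open Pointwise

set_option autoImplicit false
open Cfsg

namespace Cfsg.Agent.S0090

/-- An abelian normal Hall subgroup A splits as the internal direct product of G' ∩ A and Z(G) ∩ A, and [A, G] = G' ∩ A. -/
theorem result {G : Type*} [Group G] [Finite G] (A : Subgroup G) [A.Normal] (hc : IsMulCommutative A) (hHall : Nat.Coprime (Nat.card A) A.index) : ⁅A, (⊤ : Subgroup G)⁆ = commutator G ⊓ A ∧ (commutator G ⊓ A) ⊓ (Subgroup.center G ⊓ A) = ⊥ ∧ (commutator G ⊓ A) ⊔ (Subgroup.center G ⊓ A) = A := by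
  have h1 : (commutator G ⊓ A) ⊓ (Subgroup.center G ⊓ A) = ⊥ := by
    rw [eq_bot_iff, ← abelian_hall_inf_commutator_inf_center A hc hHall]
    rintro x ⟨⟨hx1, hx2⟩, hx3, -⟩
    exact ⟨⟨hx2, hx1⟩, hx3⟩
  obtain ⟨K, hK⟩ := Subgroup.exists_right_complement'_of_coprime hHall
  have hKc : Nat.card K = A.index := by
    have h2 := hK.card_mul_card
    exact Nat.eq_of_mul_eq_mul_left Nat.card_pos (h2.trans A.card_mul_index.symm)
  have h3 := (Cfsg.Agent.S0055.result K A Subgroup.le_normalizer_of_normal (by rw [hKc]; exact hHall.symm)).2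
  have h4 : A ⊓ Subgroup.centralizer (K : Set G) ≤ Subgroup.center G ⊓ A := by
    rintro x ⟨hx1, hx2⟩
    refine ⟨?_, hx1⟩
    have h5 : (⊤ : Subgroup G) ≤ Subgroup.centralizer {x} := by
      rw [← hK.sup_eq_top]
      apply sup_le
      · intro a ha
        rw [Subgroup.mem_centralizer_singleton_iff]
        exact congrArg Subtype.val (mul_comm' (⟨a, ha⟩ : A) ⟨x, hx1⟩)
      · intro k hk
        rw [Subgroup.mem_centralizer_singleton_iff]
        exact (Subgroup.mem_centralizer_iff.mp hx2 k hk)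
    apply Subgroup.mem_center_iff.mpr
    intro g
    exact (Subgroup.mem_centralizer_singleton_iff.mp (h5 (Subgroup.mem_top g)))
  have hle : ⁅A, (⊤ : Subgroup G)⁆ ≤ commutator G ⊓ A :=
    le_inf (Subgroup.commutator_mono le_top le_rfl) (Subgroup.commutator_le_left _ _)
  have h6 : ⁅A, (⊤ : Subgroup G)⁆ ⊔ (Subgroup.center G ⊓ A) = A := by
    apply le_antisymm (sup_le (Subgroup.commutator_le_left _ _) inf_le_right)
    conv_lhs => rw [← h3]
    rw [sup_comm]
    exact sup_le_sup (Subgroup.commutator_mono le_rfl le_top) h4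
  have h7 : ⁅A, (⊤ : Subgroup G)⁆ = commutator G ⊓ A := by
    apply le_antisymm hle
    intro x hx
    have hx2 : x ∈ ⁅A, (⊤ : Subgroup G)⁆ ⊔ (Subgroup.center G ⊓ A) := by rw [h6]; exact hx.2
    obtain ⟨w, hw, z, hz, rfl⟩ := Subgroup.mem_sup_of_normal_left.mp hx2
    have hz2 : z ∈ (commutator G ⊓ A) ⊓ (Subgroup.center G ⊓ A) := by
      refine ⟨?_, hz⟩
      have : z = w⁻¹ * (w * z) := by group
      rw [this]
      exact Subgroup.mul_mem _ (Subgroup.inv_mem _ (hle hw)) hx
    rw [h1, Subgroup.mem_bot] at hz2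
    rw [hz2, mul_one]; exact hw
  exact ⟨h7, h1, h7 ▸ h6⟩

end Cfsg.Agent.S0090
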