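import Cfsg.Statements.S0091
import Cfsg.Agent.Lib.Helper1.Transfer1
open Cfsg.Agent.Lib.Helper1
open Pointwise

set_option autoImplicit false
open Cfsg

namespace Cfsg.Agent.S0091

open scoped commutatorElement in
theorem r91 {G : Type*} [Group G] [Finite G] {p : ℕ} [Fact p.Prime] (P : Sylow p G) (hp : p ∣ Nat.card G) (h : ∀ x ∈ P, ∀ y ∈ P, (∃ g : G, g * x * g⁻¹ = y) → ∃ z ∈ P, z * x * z⁻¹ = y) : ¬ (P : Subgroup G) ≤ commutator G := by
  intro hle
  obtain ⟨h1, h2, h3⟩ := focal_sylow P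
  rw [inf_eq_right.mpr hle] at h3
  have h4 : (P : Subgroup G).focalSubgroup ≤ ⁅(P : Subgroup G), (P : Subgroup G)⁆ := by
    rw [Subgroup.focalSubgroup_def, Subgroup.closure_le]
    rintro g ⟨hg, x, hx, u, rfl⟩
    have h5 : u * x⁻¹ * u⁻¹ ∈ P := by
      have : u * x⁻¹ * u⁻¹ = x⁻¹ * ⁅x, u⁆ := by rw [commutatorElement_def]; group
      rw [this]
      exact (P : Subgroup G).mul_mem ((P : Subgroup G).inv_mem hx) hg
    obtain ⟨z, hz, hz2⟩ := h x⁻¹ ((P : Subgroup G).inv_mem hx) _ h5 ⟨u, rfl⟩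
    have h6 : ⁅x, u⁆ = ⁅x, z⁆ := by
      rw [commutatorElement_def, commutatorElement_def]
      calc x * u * x⁻¹ * u⁻¹ = x * (u * x⁻¹ * u⁻¹) := by group
        _ = x * z * x⁻¹ * z⁻¹ := by rw [← hz2]; group
    rw [h6]
    exact Subgroup.commutator_mem_commutator hx hz
  have hne : (P : Subgroup G) ≠ ⊥ := by
    intro hb
    have := P.card_eq_multiplicity
    rw [hb, Subgroup.card_bot] at this
    have hpp : p.Prime := Fact.out
    have h7 := (hpp.dvd_iff_one_le_factorization Nat.card_pos.ne').mp hp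
    exact (Nat.one_lt_pow (by omega) hpp.one_lt).ne this
  have hsol : Group.IsSolvable (P : Subgroup G) := by
    have := P.isPGroup'.isNilpotent
    infer_instance
  exact (commutator_lt_of_solvable hsol hne).not_ge (h3.le.trans h4)


/-- If a nontrivial Sylow p-subgroup controls its own fusion then it is not contained in the derived subgroup. -/
theorem result {G : Type*} [Group G] [Finite G] {p : ℕ} [Fact p.Prime] (P : Sylow p G) (hp : p ∣ Nat.card G) (h : ∀ x ∈ P, ∀ y ∈ P, (∃ g : G, g * x * g⁻¹ = y) → ∃ z ∈ P, z * x * z⁻¹ = y) : ¬ (P : Subgroup G) ≤ commutator G := by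
  exact r91 P hp h

end Cfsg.Agent.S0091
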