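import Cfsg.Statements.S0094
import Mathlib
import Cfsg.Agent.Lib.Helper1.ClassTwo
import Cfsg.Agent.S0012

set_option autoImplicit false
open Cfsg

namespace Cfsg.Agent.S0094

open Cfsg
open Cfsg.Agent.Lib.Helper1
open scoped commutatorElement

/-- In a special p-group every central element has order dividing p. -/
theorem result {P : Type*} [Group P] [Finite P] {p : ℕ} [Fact p.Prime] (h : Cfsg.IsSpecial p P) (z : P) (hz : z ∈ Subgroup.center P) : z ^ p = 1 := by
  obtain ⟨hP, hF, hC⟩ := h
  have hcen : ∀ x y : P, ⁅x, y⁆ ∈ Subgroup.center P := by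
    intro x y
    rw [← hC]
    exact Subgroup.commutator_mem_commutator (Subgroup.mem_top x) (Subgroup.mem_top y)
  have hcomm : ∀ x y z : P, Commute ⁅x, y⁆ z := fun x y z =>
    (Subgroup.mem_center_iff.mp (hcen x y) z).symm
  have hpow : ∀ x : P, x ^ p ∈ Subgroup.center P := by
    intro x
    rw [← hF]
    exact (Cfsg.Agent.S0012.result p hP).2 x
  let N : Subgroup P :=
    { carrier := {z | z ∈ Subgroup.center P ∧ z ^ p = 1}
      one_mem' := ⟨one_mem _, one_pow _⟩
      mul_mem' := by
        rintro a b ⟨ha, ha2⟩ ⟨hb, hb2⟩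
        refine ⟨mul_mem ha hb, ?_⟩
        have : Commute a b := (Subgroup.mem_center_iff.mp ha b).symm
        rw [this.mul_pow, ha2, hb2, one_mul]
      inv_mem' := by
        rintro a ⟨ha, ha2⟩
        exact ⟨inv_mem ha, by rw [inv_pow, ha2, inv_one]⟩ }
  have hle : commutator P ≤ N := by
    rw [commutator_def, Subgroup.commutator_le]
    intro x _ y _
    refine ⟨hcen x y, ?_⟩
    rw [← commutatorElement_pow_left (hcomm x y x) p]
    exact commutatorElement_eq_one_iff_commute.mpr (Subgroup.mem_center_iff.mp (hpow x) y).symm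
  rw [← hC] at hz
  exact (hle hz).2

end Cfsg.Agent.S0094
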