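import Cfsg.Statements.S0096
import Mathlib
import Cfsg.Agent.Lib.Helper1.ClassTwo

set_option autoImplicit false
open Cfsg

namespace Cfsg.Agent.S0096

open Cfsg
open Cfsg.Agent.Lib.Helper1
open scoped commutatorElement

/-- For odd p, in a p-group of class at most two the elements of order dividing p generate a subgroup of exponent dividing p. -/
theorem result {P : Type*} [Group P] [Finite P] {p : ℕ} [Fact p.Prime] (hp : p ≠ 2) (hP : IsPGroup p P) (h2 : ⁅commutator P, (⊤ : Subgroup P)⁆ = ⊥) (g : P) (hg : g ∈ Subgroup.closure {x : P | x ^ p = 1}) : g ^ p = 1 := by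
  have hpp : p.Prime := Fact.out
  have hcomm : ∀ x y z : P, Commute ⁅x, y⁆ z := by
    intro x y z
    have h1 : ⁅⁅x, y⁆, z⁆ ∈ ⁅commutator P, (⊤ : Subgroup P)⁆ :=
      Subgroup.commutator_mem_commutator (Subgroup.commutator_mem_commutator (Subgroup.mem_top x) (Subgroup.mem_top y)) (Subgroup.mem_top z)
    rw [h2, Subgroup.mem_bot] at h1
    exact commutatorElement_eq_one_iff_commute.mp h1
  have hdvd : p ∣ p.choose 2 := hpp.dvd_choose_self (by norm_num) (by
    have := hpp.two_le
    omega)
  induction hg using Subgroup.closure_induction with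
  | mem x hx => exact hx
  | one => exact one_pow _
  | mul x y _ _ hx hy =>
    rw [mul_pow_of_class_two (hcomm y x x) (hcomm y x y) p, hx, hy, one_mul, one_mul]
    obtain ⟨k, hk⟩ := hdvd
    rw [hk, pow_mul, ← commutatorElement_pow_left (hcomm y x y) p, hy]
    simp
  | inv x _ hx => rw [inv_pow, hx, inv_one]

end Cfsg.Agent.S0096
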