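import Cfsg.Statements.S0097
import Mathlib
import Cfsg.Agent.Lib.Helper1.ClassTwo
import Cfsg.Agent.S0012
import Cfsg.Agent.S0094
import Cfsg.Agent.S0096

set_option autoImplicit false
open Cfsg

namespace Cfsg.Agent.S0097

open Cfsg
open Cfsg.Agent.Lib.Helper1
open scoped commutatorElement

/-- For odd p and E extraspecial, the subgroup generated by the elements of order dividing p has exponent dividing p and index at most p. -/
theorem result {E : Type*} [Group E] [Finite E] {p : ℕ} [Fact p.Prime] (hp : p ≠ 2) (h : Cfsg.IsExtraspecial p E) : (Subgroup.closure {x : E | x ^ p = 1}).index ≤ p ∧ ∀ g ∈ Subgroup.closure {x : E | x ^ p = 1}, g ^ p = 1 := by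
  have hpp : p.Prime := Fact.out
  obtain ⟨hS, hcard⟩ := h
  have hS' := hS
  obtain ⟨hP, hF, hC⟩ := hS
  have hcen : ∀ x y : E, ⁅x, y⁆ ∈ Subgroup.center E := by
    intro x y
    rw [← hC]
    exact Subgroup.commutator_mem_commutator (Subgroup.mem_top x) (Subgroup.mem_top y)
  have hcomm : ∀ x y z : E, Commute ⁅x, y⁆ z := fun x y z =>
    (Subgroup.mem_center_iff.mp (hcen x y) z).symm
  have hpow : ∀ x : E, x ^ p ∈ Subgroup.center E := by
    intro x
    rw [← hF]
    exact (Cfsg.Agent.S0012.result p hP).2 x
  have hdvd : p ∣ p.choose 2 := hpp.dvd_choose_self (by norm_num) (by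
    have := hpp.two_le
    omega)
  have hmul : ∀ x y : E, (x * y) ^ p = x ^ p * y ^ p := by
    intro x y
    rw [mul_pow_of_class_two (hcomm y x x) (hcomm y x y) p]
    obtain ⟨k, hk⟩ := hdvd
    rw [hk, pow_mul, Cfsg.Agent.S0094.result hS' _ (hcen y x), one_pow, mul_one]
  let φ : E →* Subgroup.center E :=
    { toFun := fun x => ⟨x ^ p, hpow x⟩
      map_one' := by apply Subtype.ext; exact one_pow _
      map_mul' := by intro x y; apply Subtype.ext; exact hmul x y }
  constructor
  · have h1 : φ.ker ≤ Subgroup.closure {x : E | x ^ p = 1} := by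
      intro x hx
      apply Subgroup.subset_closure
      rw [MonoidHom.mem_ker] at hx
      exact congrArg Subtype.val hx
    have h2 := Subgroup.index_dvd_of_le h1
    rw [Subgroup.index_ker] at h2
    have h3 : Nat.card φ.range ∣ p := by
      rw [← hcard]; exact Subgroup.card_subgroup_dvd_card _
    exact Nat.le_of_dvd hpp.pos (h2.trans h3)
  · intro g hg
    apply Cfsg.Agent.S0096.result hp hP _ g hg
    rw [hC, Subgroup.commutator_eq_bot_iff_le_centralizer]
    intro z hz
    rw [Subgroup.mem_centralizer_iff]
    intro w _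
    exact Subgroup.mem_center_iff.mp hz w

end Cfsg.Agent.S0097
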