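import Cfsg.Statements.S0101
import Cfsg.Agent.Lib.Helper1.Transfer1
import Cfsg.Agent.S0012
open Cfsg.Agent.Lib.Helper1
open Pointwise

set_option autoImplicit false
open Cfsg

namespace Cfsg.Agent.S0101

theorem center_inf_commutator_inf_sylow_le_frattini {H : Type*} [Group H] [Finite H] {p : ℕ} [hp : Fact p.Prime]
    (P : Sylow p H) (z : H) (hzc : z ∈ Subgroup.center H) (hzG : z ∈ commutator H) (hzP : z ∈ P) :
    z ∈ (frattini P).map (P : Subgroup H).subtype := by
  have h1 := center_commutator_pow (P : Subgroup H) z hzc hzG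
  rw [← Subgroup.map_subtype_commutator] at h1
  obtain ⟨w, hw, hwz⟩ := h1
  have hw' : w = (⟨z, hzP⟩ : P) ^ (P : Subgroup H).index := Subtype.ext hwz
  have h2 : (⟨z, hzP⟩ : P) ^ (P : Subgroup H).index ∈ frattini P :=
    hw' ▸ (Cfsg.Agent.S0012.result p P.isPGroup').1 hw
  refine ⟨⟨z, hzP⟩, ?_, rfl⟩
  change (⟨z, hzP⟩ : P) ∈ frattini P
  rw [← QuotientGroup.eq_one_iff] at h2 ⊢
  rw [QuotientGroup.mk_pow] at h2
  obtain ⟨k, hk⟩ := (P.isPGroup'.to_quotient (frattini P)) ((⟨z, hzP⟩ : P) : P ⧸ frattini P)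
  have h3 := pow_gcd_eq_one.mpr ⟨h2, hk⟩
  rwa [Nat.Coprime.pow_right k ((Nat.Prime.coprime_iff_not_dvd hp.out).mpr P.not_dvd_index).symm,
    pow_one] at h3



/-- In a perfect central extension, the kernel meets each Sylow p-subgroup P inside the Frattini subgroup of P. -/
theorem result {H : Type*} {G : Type*} [Group H] [Group G] [Finite H] (σ : H →* G) (hσ : Function.Surjective σ) (hc : σ.ker ≤ Subgroup.center H) (hH : commutator H = ⊤) {p : ℕ} [Fact p.Prime] (P : Sylow p H) : σ.ker ⊓ (P : Subgroup H) ≤ (frattini P).map (P : Subgroup H).subtype := by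
  rintro z ⟨hz1, hz2⟩
  exact center_inf_commutator_inf_sylow_le_frattini P z (hc hz1) (hH ▸ Subgroup.mem_top z) hz2

end Cfsg.Agent.S0101
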