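import Cfsg.Statements.S0102
import Cfsg.Agent.Lib.Helper1.Transfer1
import Cfsg.Agent.S0101
open Cfsg.Agent.Lib.Helper1
open Pointwise

set_option autoImplicit false
open Cfsg

namespace Cfsg.Agent.S0102

/-- A finite perfect group with cyclic Sylow p-subgroups has no perfect central extension whose kernel has order divisible by p. -/
theorem result {G : Type*} {H : Type*} [Group G] [Group H] [Finite G] [Finite H] (hG : commutator G = ⊤) {p : ℕ} [Fact p.Prime] (hcyc : ∀ P : Sylow p G, IsCyclic P) (σ : H →* G) (hσ : Function.Surjective σ) (hz : σ.ker ≤ Subgroup.center H) (hH : commutator H = ⊤) : ¬ p ∣ Nat.card σ.ker := by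
  intro hdvd
  obtain ⟨P⟩ : Nonempty (Sylow p H) := inferInstance
  have hPcyc : IsCyclic P := by
    have h1 := hcyc (P.mapSurjective hσ)
    obtain ⟨⟨y, hy⟩, hgen⟩ := h1.exists_generator
    obtain ⟨x, hx, rfl⟩ : y ∈ (P : Subgroup H).map σ := hy
    have h2 : Subgroup.zpowers (⟨x, hx⟩ : P) ⊔ frattini P = ⊤ := by
      rw [eq_top_iff]
      intro w _
      have hw : σ w ∈ (P : Subgroup H).map σ := ⟨w, w.2, rfl⟩
      obtain ⟨i, hi⟩ := Subgroup.mem_zpowers_iff.mp (hgen ⟨σ w, hw⟩)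
      have hi' : σ x ^ i = σ w := congrArg Subtype.val hi
      have h3 : ((⟨x, hx⟩ : P) ^ i)⁻¹ * w ∈ frattini P := by
        have h4 : (x ^ i)⁻¹ * (w : H) ∈ σ.ker ⊓ (P : Subgroup H) := by
          refine Subgroup.mem_inf.mpr ⟨?_, (P : Subgroup H).mul_mem ((P : Subgroup H).inv_mem ((P : Subgroup H).zpow_mem hx i)) w.2⟩
          rw [MonoidHom.mem_ker, map_mul, map_inv, map_zpow, hi', inv_mul_cancel]
        obtain ⟨v, hv, hv2⟩ := Cfsg.Agent.S0101.result σ hσ hz hH P h4
        have : v = ((⟨x, hx⟩ : P) ^ i)⁻¹ * w := Subtype.ext hv2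
        rw [← this]; exact hv
      have : w = (⟨x, hx⟩ : P) ^ i * (((⟨x, hx⟩ : P) ^ i)⁻¹ * w) := by group
      rw [this]
      exact Subgroup.mul_mem_sup (Subgroup.zpow_mem _ (Subgroup.mem_zpowers _) i) h3
    have h5 := frattini_nongenerating h2
    refine ⟨⟨⟨x, hx⟩, fun w => ?_⟩⟩
    have : w ∈ Subgroup.zpowers (⟨x, hx⟩ : P) := h5 ▸ Subgroup.mem_top w
    exact this
  have hPab : IsMulCommutative P := inferInstance
  have h6 := abelian_hall_inf_commutator_inf_center (P : Subgroup H) hPab P.card_coprime_index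
  rw [hH, inf_top_eq] at h6
  obtain ⟨z, hzo⟩ := exists_prime_orderOf_dvd_card' p hdvd
  have hzc : (z : H) ∈ Subgroup.center H := hz z.2
  have hzn : (Subgroup.zpowers (z : H)).Normal := by
    constructor
    intro w hw g
    obtain ⟨i, rfl⟩ := Subgroup.mem_zpowers_iff.mp hw
    have h7 : (z : H) ^ i ∈ Subgroup.center H := Subgroup.zpow_mem _ hzc i
    rw [Subgroup.mem_center_iff.mp h7 g]
    simp
  have hzp : IsPGroup p (Subgroup.zpowers (z : H)) := by
    apply IsPGroup.of_card (n := 1)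
    rw [Nat.card_zpowers, Subgroup.orderOf_coe, hzo, pow_one]
  have h8 := normal_pgroup_le_sylow hzn hzp P (Subgroup.mem_zpowers _)
  have h9 : (z : H) ∈ (P : Subgroup H) ⊓ Subgroup.center H := ⟨h8, hzc⟩
  rw [h6, Subgroup.mem_bot] at h9
  have h10 : z = 1 := Subtype.ext h9
  rw [h10, orderOf_one] at hzo
  exact (Fact.out : p.Prime).one_lt.ne hzo

end Cfsg.Agent.S0102
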