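import Cfsg.Statements.S0104
import Cfsg.Agent.Lib.Helper1.Transfer1
open Cfsg.Agent.Lib.Helper1
open Pointwise

set_option autoImplicit false
open Cfsg

namespace Cfsg.Agent.S0104

/-- A subgroup Z of a Sylow p-subgroup P that is normalized by N_G(P) is weakly closed in P exactly when it is normal in every Sylow p-subgroup containing it. -/
theorem result {G : Type*} [Group G] [Finite G] {p : ℕ} [Fact p.Prime] (P : Sylow p G) (Z : Subgroup G) (hZP : Z ≤ (P : Subgroup G)) (hZN : Subgroup.normalizer (P : Set G) ≤ Subgroup.normalizer (Z : Set G)) : Cfsg.IsWeaklyClosed Z P ↔ ∀ R : Sylow p G, Z ≤ (R : Subgroup G) → (R : Subgroup G) ≤ Subgroup.normalizer (Z : Set G) := by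
  have hPN : (P : Subgroup G) ≤ Subgroup.normalizer (Z : Set G) := Subgroup.le_normalizer.trans hZN
  constructor
  · rintro ⟨-, hw⟩ R hZR
    obtain ⟨g, hg⟩ := MulAction.exists_smul_eq G P R
    have hR : (R : Subgroup G) = MulAut.conj g • (P : Subgroup G) := by
      rw [← hg]; rfl
    have h1 : MulAut.conj g⁻¹ • Z ≤ (P : Subgroup G) := by
      have : MulAut.conj g⁻¹ • Z ≤ MulAut.conj g⁻¹ • MulAut.conj g • (P : Subgroup G) :=
        Subgroup.pointwise_smul_le_pointwise_smul_iff.mpr (hR ▸ hZR)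
      rwa [conj_smul_smul, inv_mul_cancel, map_one, one_smul] at this
    have h2 : MulAut.conj g⁻¹ • Z = Z := hw g⁻¹ h1
    have h3 : g ∈ Subgroup.normalizer (Z : Set G) := by
      have := Subgroup.inv_mem _ (mem_normalizer_of_conj_smul_eq h2)
      rwa [inv_inv] at this
    rw [hR]
    intro x hx
    rw [mem_conj_smul] at hx
    have h4 := hPN hx
    have : x = g * (g⁻¹ * x * g) * g⁻¹ := by group
    rw [this]
    exact Subgroup.mul_mem _ (Subgroup.mul_mem _ h3 h4) (Subgroup.inv_mem _ h3)
  · intro h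
    refine ⟨hZP, fun g hg => ?_⟩
    rw [map_conj_eq_smul] at hg ⊢
    have hZR : Z ≤ ((g⁻¹ • P : Sylow p G) : Subgroup G) := by
      change Z ≤ MulAut.conj g⁻¹ • (P : Subgroup G)
      have : MulAut.conj g⁻¹ • MulAut.conj g • Z ≤ MulAut.conj g⁻¹ • (P : Subgroup G) :=
        Subgroup.pointwise_smul_le_pointwise_smul_iff.mpr hg
      rwa [conj_smul_smul, inv_mul_cancel, map_one, one_smul] at this
    have hRN := h _ hZR
    obtain ⟨c, hc, hcP⟩ := sylow_conj_in (Subgroup.normalizer (Z : Set G)) ((g⁻¹ • P : Sylow p G) : Subgroup G)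
      (P : Subgroup G) hRN hPN (sylow_card_of_le hRN le_top (sylow_card_top _))
      (sylow_card_of_le hPN le_top (sylow_card_top _))
    have h5 : MulAut.conj (c * g⁻¹) • (P : Subgroup G) = P := by
      rw [← conj_smul_smul]; exact hcP
    have h6 := hZN (mem_normalizer_of_conj_smul_eq h5)
    have h7 : g ∈ Subgroup.normalizer (Z : Set G) := by
      have : g = (c * g⁻¹)⁻¹ * c := by group
      rw [this]
      exact Subgroup.mul_mem _ (Subgroup.inv_mem _ h6) hc
    exact conj_smul_eq_of_mem_normalizer h7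

end Cfsg.Agent.S0104
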