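import Cfsg.Statements.S0120
import Cfsg.Agent.Lib.Helper1.ClassTwo
open Cfsg.Agent.Lib.Helper1

set_option autoImplicit false
open Cfsg

namespace Cfsg.Agent.S0120

/-- For odd p, a p'-automorphism of a p-group acting trivially on the elements of order dividing p is trivial. -/
theorem result {G : Type*} [Group G] [Finite G] {p : ℕ} [Fact p.Prime] (hp : p ≠ 2) (hG : IsPGroup p G) (a : MulAut G) (ha : Nat.Coprime (orderOf a) p) (h : ∀ x : G, x ^ p = 1 → a x = x) : a = 1 := by
  have hpp : p.Prime := Fact.out
  have h3 : 2 < p := lt_of_le_of_ne hpp.two_le (Ne.symm hp)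
  exact aut_trivial hG a ha (pow_orderOf_eq_one a) dvd_rfl (hpp.dvd_choose_self (by norm_num) h3) h

end Cfsg.Agent.S0120
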