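import Cfsg.Statements.S0121


set_option autoImplicit false
open Cfsg

namespace Cfsg.Agent.S0121

/-- A p'-automorphism of a p-group acting trivially on a critical subgroup is trivial. -/
theorem result {G : Type*} [Group G] [Finite G] {p : ℕ} [Fact p.Prime] (hG : IsPGroup p G) (H : Subgroup G) (hH : H.Characteristic) (h1 : (frattini H).map H.subtype ≤ Subgroup.centralizer (H : Set G)) (h2 : ⁅H, (⊤ : Subgroup G)⁆ ≤ H ⊓ Subgroup.centralizer (H : Set G)) (h3 : Subgroup.centralizer (H : Set G) ≤ H) (a : MulAut G) (ha : Nat.Coprime (orderOf a) p) (h : ∀ x ∈ H, a x = x) : a = 1 := by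
  have hHn : H.Normal := inferInstance
  ext g
  rw [MulAut.one_apply]
  have hc : g⁻¹ * a g ∈ Subgroup.centralizer (H : Set G) := by
    rw [Subgroup.mem_centralizer_iff]
    intro x hx
    have e1 : a (g * x * g⁻¹) = g * x * g⁻¹ := h _ (hHn.conj_mem x hx g)
    rw [map_mul, map_mul, map_inv, h x hx] at e1
    calc x * (g⁻¹ * a g) = g⁻¹ * (g * x * g⁻¹) * a g := by group
      _ = g⁻¹ * (a g * x * (a g)⁻¹) * a g := by rw [e1]
      _ = g⁻¹ * a g * x := by group
  have hfix : a (g⁻¹ * a g) = g⁻¹ * a g := h _ (h3 hc)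
  have hpow : ∀ n : ℕ, (a ^ n) g = g * (g⁻¹ * a g) ^ n := by
    intro n
    induction n with
    | zero => simp
    | succ n ih =>
      rw [pow_succ', MulAut.mul_apply, ih, map_mul, map_pow, hfix, pow_succ' (g⁻¹ * a g) n]
      simp only [mul_assoc, mul_inv_cancel_left]
  have h4 := hpow (orderOf a)
  rw [pow_orderOf_eq_one, MulAut.one_apply] at h4
  have h5 : (g⁻¹ * a g) ^ orderOf a = 1 := by
    have : g * (g⁻¹ * a g) ^ orderOf a = g * 1 := by rw [← h4, mul_one]
    exact mul_left_cancel this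
  obtain ⟨k, hk⟩ := hG (g⁻¹ * a g)
  have h6 : g⁻¹ * a g = 1 := by
    have h7 := pow_gcd_eq_one.mpr ⟨h5, hk⟩
    rwa [Nat.Coprime.pow_right k ha, pow_one] at h7
  exact (inv_mul_eq_one.mp h6).symm

end Cfsg.Agent.S0121
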