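import Cfsg.Statements.S0125
import Mathlib
import Cfsg.Agent.Lib.Helper1.Coprime
import Cfsg.Agent.Lib.Helper1.Basic

set_option autoImplicit false
open Cfsg

namespace Cfsg.Agent.S0125

open Cfsg
open Cfsg.Agent.Lib.Helper1

/-- The centralizer of a self-centralizing normal subgroup A of a Sylow p-subgroup is the direct product of A with a normal p'-subgroup. -/
theorem result {G : Type*} [Group G] [Finite G] {p : ℕ} [Fact p.Prime] (R : Sylow p G) (A : Subgroup G) (hAR : A ≤ (R : Subgroup G)) (hAn : (R : Subgroup G) ≤ Subgroup.normalizer (A : Set G)) (hC : (R : Subgroup G) ⊓ Subgroup.centralizer (A : Set G) = A) : ∃ H : Subgroup G, H ≤ Subgroup.centralizer (A : Set G) ∧ Nat.Coprime (Nat.card H) p ∧ Subgroup.centralizer (A : Set G) ≤ Subgroup.normalizer (H : Set G) ∧ H ⊓ A = ⊥ ∧ H ⊔ A = Subgroup.centralizer (A : Set G) := by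
  have hp : p.Prime := Fact.out
  obtain ⟨C, hCdef⟩ : ∃ C, C = Subgroup.centralizer (A : Set G) := ⟨_, rfl⟩
  rw [← hCdef] at hC ⊢
  have hAC : A ≤ C := by rw [← hC]; exact inf_le_right
  have hRC : (R : Subgroup G) ≤ Subgroup.normalizer (C : Set G) := by
    intro r hr
    have hrA := hAn hr
    rw [Subgroup.mem_normalizer_iff] at hrA ⊢
    have key : ∀ (s : G), (∀ a, a ∈ A ↔ s * a * s⁻¹ ∈ A) → ∀ c ∈ C, s * c * s⁻¹ ∈ C := by
      intro s hs c hc
      rw [hCdef, Subgroup.mem_centralizer_iff] at hc ⊢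
      intro a ha
      have h1 : s⁻¹ * a * s ∈ A := by
        rw [hs]
        have : s * (s⁻¹ * a * s) * s⁻¹ = a := by group
        rw [this]; exact ha
      have h2 := hc _ h1
      calc a * (s * c * s⁻¹) = s * ((s⁻¹ * a * s) * c) * s⁻¹ := by group
        _ = s * (c * (s⁻¹ * a * s)) * s⁻¹ := by rw [h2]
        _ = s * c * s⁻¹ * a := by group
    intro c
    constructor
    · exact key r hrA c
    · intro h
      have := key r⁻¹ (by
        intro a
        rw [hrA (r⁻¹ * a * r⁻¹⁻¹)]
        have : r * (r⁻¹ * a * r⁻¹⁻¹) * r⁻¹ = a := by group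
        rw [this]) _ h
      have e : r⁻¹ * (r * c * r⁻¹) * r⁻¹⁻¹ = c := by group
      rwa [e] at this
  have hidx : ¬ p ∣ (A.subgroupOf C).index := by
    change ¬ p ∣ A.relIndex C
    intro hd
    have e1 := card_sup_mul_card_inf' (R : Subgroup G) C hRC
    rw [hC, ← card_mul_relIndex_of_le hAC] at e1
    have e2 : Nat.card ((R : Subgroup G) ⊔ C : Subgroup G) = Nat.card (R : Subgroup G) * A.relIndex C := by
      have : Nat.card ((R : Subgroup G) ⊔ C : Subgroup G) * Nat.card A = (Nat.card (R : Subgroup G) * A.relIndex C) * Nat.card A := by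
        rw [e1]; ring
      exact Nat.eq_of_mul_eq_mul_right Nat.card_pos this
    have e3 : Nat.card ((R : Subgroup G) ⊔ C : Subgroup G) ∣ Nat.card G := Subgroup.card_subgroup_dvd_card _
    rw [e2, ← Subgroup.card_mul_index (R : Subgroup G)] at e3
    have e4 := Nat.dvd_of_mul_dvd_mul_left Nat.card_pos e3
    exact R.not_dvd_index (hd.trans e4)
  have hAp : IsPGroup p (A.subgroupOf C) := (R.2.to_le hAR).comap_of_injective _ C.subtype_injective
  let S : Sylow p C := hAp.toSylow hidx
  have hS : (S : Subgroup C) = A.subgroupOf C := rfl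
  have hcen : Subgroup.normalizer ((S : Subgroup C) : Set C) ≤ Subgroup.centralizer ((S : Subgroup C) : Set C) := by
    intro c _
    rw [Subgroup.mem_centralizer_iff]
    intro a ha
    rw [SetLike.mem_coe, hS, Subgroup.mem_subgroupOf] at ha
    apply Subtype.ext
    have hc : c.1 ∈ Subgroup.centralizer (A : Set G) := (le_of_eq hCdef) c.2
    rw [Subgroup.mem_centralizer_iff] at hc
    exact hc a.1 ha
  have hcomp := MonoidHom.ker_transferSylow_isComplement' S hcen
  have hnd := MonoidHom.not_dvd_card_ker_transferSylow S hcen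
  obtain ⟨H', hH'⟩ : ∃ H', H' = (MonoidHom.transferSylow S hcen).ker := ⟨_, rfl⟩
  have hH'n : H'.Normal := by rw [hH']; infer_instance
  rw [← hH'] at hcomp hnd
  have hmapA : (A.subgroupOf C).map C.subtype = A := Subgroup.map_subgroupOf_eq_of_le hAC
  refine ⟨H'.map C.subtype, Subgroup.map_subtype_le _, ?_, ?_, ?_, ?_⟩
  · rw [Subgroup.card_map_of_injective C.subtype_injective]
    exact Nat.coprime_comm.mp ((Nat.Prime.coprime_iff_not_dvd hp).mpr hnd)
  · have h1 := Subgroup.le_normalizer_map (H := H') C.subtype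
    rw [Subgroup.normalizer_eq_top_iff.mpr hH'n, ← MonoidHom.range_eq_map, Subgroup.range_subtype] at h1
    exact h1
  · have h1 := disjoint_iff.mp hcomp.disjoint
    rw [hS] at h1
    rw [← hmapA, ← Subgroup.map_inf _ _ _ C.subtype_injective, h1, Subgroup.map_bot]
  · have h1 := hcomp.sup_eq_top
    rw [hS] at h1
    rw [← hmapA, ← Subgroup.map_sup, h1, ← MonoidHom.range_eq_map, Subgroup.range_subtype]

end Cfsg.Agent.S0125
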