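import Mathlib
import Cfsg.Statements.S0130
import Cfsg.Agent.Lib.Helper1.ClassTwo

set_option autoImplicit false
open Cfsg
open scoped commutatorElement

namespace Cfsg.Agent.S0130

open Cfsg.Agent.Lib.Helper1

variable {G : Type*} [Group G]

/-- preimages of the upper central series of `G ⧸ A`. -/
def Zs (A : Subgroup G) [A.Normal] (k : ℕ) : Subgroup G :=
  (Subgroup.upperCentralSeries (G ⧸ A) k).comap (QuotientGroup.mk' A)

theorem Zs_zero (A : Subgroup G) [A.Normal] : Zs A 0 = A := by
  unfold Zs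
  rw [Subgroup.upperCentralSeries_zero, MonoidHom.comap_bot, QuotientGroup.ker_mk']

theorem Zs_comm (A : Subgroup G) [A.Normal] (k : ℕ) {d : G} (hd : d ∈ Zs A (k + 1)) (g : G) :
    ⁅d, g⁆ ∈ Zs A k := by
  unfold Zs at *
  rw [Subgroup.mem_comap] at *
  rw [Subgroup.mem_upperCentralSeries_succ_iff] at hd
  have := hd (QuotientGroup.mk' A g)
  rw [map_commutatorElement]
  exact this

theorem Zs_le (A : Subgroup G) [A.Normal] {a b : ℕ} (h : a ≤ b) : Zs A a ≤ Zs A b :=
  Subgroup.comap_mono (Subgroup.upperCentralSeries_mono _ h)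

theorem le_Zs (A : Subgroup G) [A.Normal] (k : ℕ) : A ≤ Zs A k := by
  have := Zs_le A (Nat.zero_le k)
  rwa [Zs_zero] at this

theorem pow_choose_eq_one {p n : ℕ} (hp : p.Prime) (hp2 : p ≠ 2) {f : G} (hf : f ^ p ^ n = 1) :
    f ^ ((p ^ n).choose 2) = 1 := by
  have hodd : Odd (p ^ n) := (hp.odd_of_ne_two hp2).pow
  obtain ⟨t, ht⟩ := hodd
  have h1 : (p ^ n).choose 2 = p ^ n * t := by
    rw [Nat.choose_two_right]
    have : p ^ n - 1 = 2 * t := by omega
    rw [this, ← mul_assoc, mul_comm (p ^ n) 2, mul_assoc, Nat.mul_div_cancel_left _ (by norm_num)]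
  rw [h1, pow_mul, hf, one_pow]

theorem main [Finite G] {p : ℕ} [hp : Fact p.Prime] (n : ℕ) (hn : p ^ n ≠ 2) (A : Subgroup G)
    [A.Normal] (hA : IsMulCommutative A) (hAe : ∀ a ∈ A, a ^ p ^ n = 1)
    (hmax : ∀ B : Subgroup G, B.Normal → IsMulCommutative B → (∀ b ∈ B, b ^ p ^ n = 1) → A ≤ B →
      B = A) :
    ∀ j : ℕ, ∀ x ∈ Zs A j, x ∈ Subgroup.centralizer (A : Set G) → x ^ p ^ n = 1 → x ∈ A := by
  intro j
  induction j with
  | zero => intro x hx _ _; rwa [Zs_zero] at hx
  | succ j ih =>
    intro x hxZ hxC hxm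
    have hcx : ∀ a ∈ A, Commute a x := fun a ha => Subgroup.mem_centralizer_iff.1 hxC a ha
    have hconjpow : ∀ g : G, (⁅g, x⁆ * x) ^ p ^ n = 1 := by
      intro g
      have : ⁅g, x⁆ * x = g * x * g⁻¹ := by rw [commutatorElement_def]; group
      rw [this, conj_pow, hxm]; group
    have hcommC : ∀ g : G, ⁅g, x⁆ ∈ Subgroup.centralizer (A : Set G) := by
      intro g
      have : ⁅g, x⁆ = g * x * g⁻¹ * x⁻¹ := commutatorElement_def g x
      rw [this]
      exact Subgroup.mul_mem _ (Subgroup.normal_centralizer.conj_mem x hxC g)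
        (Subgroup.inv_mem _ hxC)
    have hQ : ∀ k, k ≤ j → ∀ d ∈ Zs A k, d ∈ Subgroup.centralizer (A : Set G) →
        (d * x) ^ p ^ n = 1 → d ∈ A := by
      intro k
      induction k with
      | zero => intro _ d hd _ _; rwa [Zs_zero] at hd
      | succ k ihk =>
        intro hk d hdZ hdC hdx
        have hcd : ∀ a ∈ A, Commute a d := fun a ha => Subgroup.mem_centralizer_iff.1 hdC a ha
        have he : ⁅d, x⁆ ∈ A :=
          ihk (by omega) _ (Zs_comm A k hdZ x) (hcommC d) (hconjpow d)
        have hf : ⁅x, d⁆ ∈ A := by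
          rw [← commutatorElement_inv]; exact Subgroup.inv_mem _ he
        have key := mul_pow_of_class_two (x := d) (y := x) (hcd _ hf) (hcx _ hf) (p ^ n)
        rw [hdx, hxm, mul_one] at key
        have hdj : d ∈ Zs A j := Zs_le A hk hdZ
        apply ih d hdj hdC
        have hfm : ⁅x, d⁆ ^ p ^ n = 1 := hAe _ hf
        suffices h : ⁅x, d⁆ ^ ((p ^ n).choose 2) = 1 by
          rw [h, mul_one] at key; exact key.symm
        by_cases hp2 : p = 2
        · subst hp2
          match n, hn, hAe, hmax, ih, hxm, hconjpow, ihk, hdx, key, hfm with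
          | 0, _, _, _, _, _, _, _, _, _, _ => simp
          | 1, hn, _, _, _, _, _, _, _, _, _ => exact absurd (by norm_num) hn
          | (n' + 2), _, hAe, _, ih, _, _, _, _, key, hfm =>
            have hch : (2 ^ (n' + 2)).choose 2 = (2 ^ (n' + 2) - 1) * 2 ^ (n' + 1) := by
              rw [Nat.choose_two_right]
              have : 2 ^ (n' + 2) = 2 * 2 ^ (n' + 1) := by ring
              rw [this, mul_assoc, Nat.mul_div_cancel_left _ (by norm_num), mul_comm]
            set f := ⁅x, d⁆ with hfdef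
            have hy : (d ^ 2 * f ^ (2 ^ (n' + 2) - 1)) ^ 2 ^ (n' + 1) = 1 := by
              have hc : Commute (d ^ 2) (f ^ (2 ^ (n' + 2) - 1)) :=
                ((hcd _ hf).symm.pow_pow _ _)
              rw [hc.mul_pow, ← pow_mul, ← pow_mul, ← hch]
              have : 2 * 2 ^ (n' + 1) = 2 ^ (n' + 2) := by ring
              rw [this]; exact key.symm
            have hyA : d ^ 2 * f ^ (2 ^ (n' + 2) - 1) ∈ A := by
              apply ih
              · exact Subgroup.mul_mem _ (Subgroup.pow_mem _ hdj _)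
                  (le_Zs A j (Subgroup.pow_mem _ hf _))
              · exact Subgroup.mul_mem _ (Subgroup.pow_mem _ hdC _)
                  (Subgroup.pow_mem _ (by
                    rw [hfdef, ← commutatorElement_inv]
                    exact Subgroup.inv_mem _ (hcommC d)) _)
              · have h2 : ∀ w : G, w ^ 2 ^ (n' + 2) = (w ^ 2 ^ (n' + 1)) ^ 2 := by
                  intro w
                  rw [← pow_mul]; congr 1
                rw [h2, hy, one_pow]
            have hd2 : d ^ 2 ∈ A := by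
              have := Subgroup.mul_mem _ hyA (Subgroup.inv_mem _ (Subgroup.pow_mem _ hf (2 ^ (n' + 2) - 1)))
              rwa [mul_inv_cancel_right] at this
            have he2 : ⁅d, x⁆ ^ 2 = 1 := by
              rw [← commutatorElement_pow_left (hcd _ he) 2]
              exact commutatorElement_eq_one_iff_commute.2 (hcx _ hd2)
            have hf2 : f ^ 2 = 1 := by
              rw [hfdef, ← commutatorElement_inv, inv_pow, he2, inv_one]
            rw [hch]
            have : (2 ^ (n' + 2) - 1) * 2 ^ (n' + 1) = 2 * ((2 ^ (n' + 2) - 1) * 2 ^ n') := by ring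
            rw [this, pow_mul, hf2, one_pow]
        · exact pow_choose_eq_one hp.out hp2 hfm
    have hconj : ∀ g : G, ⁅g, x⁆ ∈ A := by
      intro g
      apply hQ j le_rfl _ _ (hcommC g) (hconjpow g)
      have := Zs_comm A j hxZ g
      rw [← commutatorElement_inv]; exact Subgroup.inv_mem _ this
    -- the subgroup B
    have hmemB : ∀ b ∈ A ⊔ Subgroup.zpowers x, ∃ a ∈ A, ∃ i : ℤ, b = a * x ^ i := by
      intro b hb
      obtain ⟨a, ha, z, hz, rfl⟩ := Subgroup.mem_sup_of_normal_left.1 hb
      obtain ⟨i, rfl⟩ := hz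
      exact ⟨a, ha, i, rfl⟩
    have hxB : x ∈ A ⊔ Subgroup.zpowers x :=
      (le_sup_right : Subgroup.zpowers x ≤ _) (Subgroup.mem_zpowers x)
    have hBn : (A ⊔ Subgroup.zpowers x).Normal := by
      constructor
      intro b hb g
      obtain ⟨a, ha, i, rfl⟩ := hmemB b hb
      have e : g * (a * x ^ i) * g⁻¹ = (g * a * g⁻¹) * (⁅g, x⁆ * x) ^ i := by
        have : ⁅g, x⁆ * x = g * x * g⁻¹ := by rw [commutatorElement_def]; group
        rw [this, conj_zpow]; group
      rw [e]
      refine Subgroup.mul_mem _ ((le_sup_left : A ≤ _) (Subgroup.Normal.conj_mem inferInstance a ha g))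
        (Subgroup.zpow_mem _ (Subgroup.mul_mem _ ((le_sup_left : A ≤ _) (hconj g)) hxB) i)
    have hBc : IsMulCommutative ↥(A ⊔ Subgroup.zpowers x) := by
      have : A ⊔ Subgroup.zpowers x = Subgroup.closure ((A : Set G) ∪ {x}) := by
        rw [Subgroup.closure_union, Subgroup.closure_eq, Subgroup.zpowers_eq_closure]
      rw [this]
      apply Subgroup.isMulCommutative_closure
      rintro u (hu | hu) v (hv | hv)
      · have := hA.is_comm.comm (⟨u, hu⟩ : A) ⟨v, hv⟩
        exact congrArg Subtype.val this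
      · rw [Set.mem_singleton_iff.1 hv]; exact hcx u hu
      · rw [Set.mem_singleton_iff.1 hu]; exact (hcx v hv).symm
      · rw [Set.mem_singleton_iff.1 hu, Set.mem_singleton_iff.1 hv]
    have hBe : ∀ b ∈ A ⊔ Subgroup.zpowers x, b ^ p ^ n = 1 := by
      intro b hb
      obtain ⟨a, ha, i, rfl⟩ := hmemB b hb
      rw [((hcx a ha).zpow_right i).mul_pow, hAe a ha, one_mul, ← zpow_natCast, ← zpow_mul,
        mul_comm, zpow_mul, zpow_natCast, hxm, one_zpow]
    have := hmax _ hBn hBc hBe le_sup_left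
    rw [← this]; exact hxB

theorem result {G : Type*} [Group G] [Finite G] {p : ℕ} [Fact p.Prime] (hG : IsPGroup p G) (n : ℕ) (hn : p ^ n ≠ 2) (A : Subgroup G) [A.Normal] (hA : IsMulCommutative A) (hAe : ∀ a ∈ A, a ^ p ^ n = 1) (hmax : ∀ B : Subgroup G, B.Normal → IsMulCommutative B → (∀ b ∈ B, b ^ p ^ n = 1) → A ≤ B → B = A) (x : G) (hx : x ∈ Subgroup.centralizer (A : Set G)) (hxn : x ^ p ^ n = 1) : x ∈ A := by
  haveI : Group.IsNilpotent (G ⧸ A) := (hG.to_quotient A).isNilpotent
  obtain ⟨K, hK⟩ := Group.IsNilpotent.nilpotent' (G := G ⧸ A)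
  apply main n hn A hA hAe hmax K x _ hx hxn
  unfold Zs
  rw [hK]; exact Subgroup.mem_top _

end Cfsg.Agent.S0130
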