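import Cfsg.Statements.S0131
import Cfsg.Agent.Lib.Helper1.Transfer1
open Cfsg.Agent.Lib.Helper1
open Pointwise

set_option autoImplicit false
open Cfsg

namespace Cfsg.Agent.S0131

/-- P/P' has a normal complement in G exactly when the focal subgroup G' ∩ P is as small as possible, namely P'. -/
theorem result {G : Type*} [Group G] [Finite G] {p : ℕ} [Fact p.Prime] (P : Sylow p G) : (∃ N : Subgroup G, N.Normal ∧ N ⊓ (P : Subgroup G) = ⁅(P : Subgroup G), (P : Subgroup G)⁆ ∧ N ⊔ (P : Subgroup G) = ⊤) ↔ commutator G ⊓ (P : Subgroup G) = ⁅(P : Subgroup G), (P : Subgroup G)⁆ := by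
  obtain ⟨h1, h2, h3⟩ := focal_sylow P
  constructor
  · rintro ⟨N, hN, hNP, hsup⟩
    apply le_antisymm
    · rw [← hNP]
      apply inf_le_inf_right
      rw [commutator_def, ← hsup]
      apply sup_commutator_le
      · exact Subgroup.commutator_le_left _ _
      · apply commutator_sup_le
        · exact Subgroup.commutator_le_right _ _
        · rw [← hNP]; exact inf_le_left
    · exact le_inf (Subgroup.commutator_mono le_top le_top)
        (commutator_le_of_le_normalizer Subgroup.le_normalizer)
  · intro h
    exact ⟨_, inferInstance, h1.trans (h3.symm.trans h), h2⟩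

end Cfsg.Agent.S0131
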