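import Cfsg.Statements.S0168
import Cfsg.Agent.Lib.Helper7.All1
-- import your own Cfsg.Agent.* helpers here

set_option autoImplicit false
open Cfsg
open Cfsg.Agent.Lib.Helper7.CharBasic Cfsg.Agent.Lib.Helper7.CharIrr Cfsg.Agent.Lib.Helper7.CharDecomp Cfsg.Agent.Lib.Helper7.CharComplete Cfsg.Agent.Lib.Helper7.CharOrth Cfsg.Agent.Lib.Helper7.CharInd Cfsg.Agent.Lib.Helper7.CharIntegral Cfsg.Agent.Lib.Helper7.CharBurnside Cfsg.Agent.Lib.Helper7.CharLinear Cfsg.Agent.Lib.Helper7.CharEquiv Cfsg.Agent.Lib.Helper7.CharMore Cfsg.Agent.Lib.Helper7.CharCount Cfsg.Agent.Lib.Helper7.CharMisc Cfsg.Agent.Lib.Helper7.CharMisc2 Cfsg.Agent.Lib.Helper7.CharNormal Cfsg.Agent.Lib.Helper7.CharOdd Cfsg.Agent.Lib.Helper7.CharClifford Cfsg.Agent.Lib.Helper7.CharProd Cfsg.Agent.Lib.Helper7.CharPerm Cfsg.Agent.Lib.Helper7.CharClassAlg Cfsg.Agent.Lib.Helper7.CharClassAlg2 Cfsg.Agent.Lib.Helper7.CharCentral Cfsg.Agent.Lib.Helper7.CharNormal2 Cfsg.Agent.Lib.Helper7.CharCliffordCorr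
open scoped ComplexConjugate

namespace Cfsg.Agent.S0168

/-- The Burnside–Brauer Theorem. Let χ be the character of a faithful complex representation of a finite group, taking m distinct values. Then every irreducible character has nonzero inner product with χ ^ i for some i < m. -/
theorem result {G : Type*} [Group G] [Fintype G] {V : Type*} [AddCommGroup V] [Module ℂ V] [FiniteDimensional ℂ V] (ρ : Representation ℂ G V) (hfaithful : Function.Injective ρ) (ψ : G → ℂ) (hψ : Cfsg.IsIrrCharacter G ψ) : ∃ i : ℕ, i < Nat.card (Set.range ρ.character) ∧ Cfsg.classInner (fun g => ρ.character g ^ i) ψ ≠ 0 := by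
  classical
  by_contra hcon
  push Not at hcon
  set χ := ρ.character with hχ
  haveI : Fintype (Set.range χ) := Fintype.ofFinite _
  set R : Finset ℂ := (Set.range χ).toFinset with hR
  have hcardR : R.card = Nat.card (Set.range χ) := by
    rw [hR, Set.toFinset_card, Nat.card_eq_fintype_card]
  have h1R : χ 1 ∈ R := by rw [hR, Set.mem_toFinset]; exact ⟨1, rfl⟩
  set P : Polynomial ℂ := ∏ a ∈ R.erase (χ 1), (Polynomial.X - Polynomial.C a) with hP
  have hdeg : P.natDegree < Nat.card (Set.range χ) := by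
    rw [hP, Polynomial.natDegree_prod_of_monic _ _ (fun a _ => Polynomial.monic_X_sub_C a)]
    simp only [Polynomial.natDegree_X_sub_C, Finset.sum_const, smul_eq_mul, mul_one]
    rw [Finset.card_erase_of_mem h1R, hcardR]
    have : 0 < Nat.card (Set.range χ) := by rw [← hcardR]; exact Finset.card_pos.mpr ⟨_, h1R⟩
    omega
  have hsum0 : ∀ i < Nat.card (Set.range χ), ∑ g : G, χ g ^ i * conj (ψ g) = 0 := by
    intro i hi
    have h := hcon i hi
    unfold classInner at h
    have hne : ((Nat.card G : ℂ))⁻¹ ≠ 0 := inv_ne_zero (by exact_mod_cast Nat.card_pos.ne')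
    exact (mul_eq_zero.mp h).resolve_left hne
  have hPsum : ∑ g : G, P.eval (χ g) * conj (ψ g) = 0 := by
    have h2 : ∀ g : G, P.eval (χ g) * conj (ψ g) =
        ∑ i ∈ Finset.range (Nat.card (Set.range χ)), P.coeff i * (χ g ^ i * conj (ψ g)) := by
      intro g
      rw [Polynomial.eval_eq_sum_range' hdeg, Finset.sum_mul]
      apply Finset.sum_congr rfl
      intro i _
      ring
    simp only [h2]
    rw [Finset.sum_comm]
    apply Finset.sum_eq_zero
    intro i hi
    rw [← Finset.mul_sum, hsum0 i (Finset.mem_range.mp hi), mul_zero]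
  have hzero : ∀ g : G, g ≠ 1 → P.eval (χ g) * conj (ψ g) = 0 := by
    intro g hg
    have hne : χ g ≠ χ 1 := by
      intro h
      apply hg
      apply hfaithful
      rw [hχ, Representation.char_one, char_eq_finrank_iff] at h
      rw [h, map_one]
      rfl
    have hmem : χ g ∈ R.erase (χ 1) := by
      rw [Finset.mem_erase]
      refine ⟨hne, ?_⟩
      rw [hR, Set.mem_toFinset]
      exact ⟨g, rfl⟩
    rw [hP, Polynomial.eval_prod, Finset.prod_eq_zero hmem (by simp), zero_mul]
  rw [Finset.sum_eq_single 1 (fun g _ hg => hzero g hg) (fun h => absurd (Finset.mem_univ _) h)] at hPsum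
  rcases mul_eq_zero.mp hPsum with h | h
  · rw [hP, Polynomial.eval_prod, Finset.prod_eq_zero_iff] at h
    obtain ⟨a, ha, ha2⟩ := h
    simp only [Polynomial.eval_sub, Polynomial.eval_X, Polynomial.eval_C] at ha2
    exact (Finset.mem_erase.mp ha).1 (sub_eq_zero.mp ha2).symm
  · exact irr_one_ne_zero hψ ((map_eq_zero _).mp h)

end Cfsg.Agent.S0168
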