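import Cfsg.Statements.S0198
import Cfsg.Agent.Lib.Helper7.All1
import Cfsg.Agent.Lib.Helper7.CharGen
-- import your own Cfsg.Agent.* helpers here

set_option autoImplicit false
open Cfsg
open Cfsg.Agent.Lib.Helper7.CharBasic Cfsg.Agent.Lib.Helper7.CharIrr Cfsg.Agent.Lib.Helper7.CharDecomp Cfsg.Agent.Lib.Helper7.CharComplete Cfsg.Agent.Lib.Helper7.CharOrth Cfsg.Agent.Lib.Helper7.CharInd Cfsg.Agent.Lib.Helper7.CharIntegral Cfsg.Agent.Lib.Helper7.CharBurnside Cfsg.Agent.Lib.Helper7.CharLinear Cfsg.Agent.Lib.Helper7.CharEquiv Cfsg.Agent.Lib.Helper7.CharMore Cfsg.Agent.Lib.Helper7.CharCount Cfsg.Agent.Lib.Helper7.CharMisc Cfsg.Agent.Lib.Helper7.CharMisc2 Cfsg.Agent.Lib.Helper7.CharNormal Cfsg.Agent.Lib.Helper7.CharOdd Cfsg.Agent.Lib.Helper7.CharClifford Cfsg.Agent.Lib.Helper7.CharProd Cfsg.Agent.Lib.Helper7.CharPerm Cfsg.Agent.Lib.Helper7.CharClassAlg Cfsg.Agent.Lib.Helper7.CharClassAlg2 Cfsg.Agent.Lib.Helper7.CharCentral Cfsg.Agent.Lib.Helper7.CharNormal2 Cfsg.Agent.Lib.Helper7.CharCliffordCorr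 Cfsg.Agent.Lib.Helper7.CharKer Cfsg.Agent.Lib.Helper7.CharRes Cfsg.Agent.Lib.Helper7.CharGen
open scoped ComplexConjugate

namespace Cfsg.Agent.S0198

/-- The isometry lemma behind exceptional characters. Let τ be a family of generalized characters of a finite group G indexed by Fin n, with τ i₀ = 0, every τ i vanishing at the identity, and inner products ⟨τ i, τ j⟩ = 2 if i = j and 1 otherwise for i, j ≠ i₀. Then there are a sign ε and pairwise distinct irreducible characters μ i with τ i = ε (μ i − μ i₀) for all i. -/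
theorem result {G : Type*} [Group G] [Fintype G] (n : ℕ) (i₀ : Fin n) (τ : Fin n → (G → ℂ)) (h0 : τ i₀ = 0) (hgen : ∀ i, Cfsg.IsGeneralizedCharacter G (τ i)) (hone : ∀ i, τ i 1 = 0) (hgram : ∀ i j, i ≠ i₀ → j ≠ i₀ → Cfsg.classInner (τ i) (τ j) = if i = j then 2 else 1) : ∃ ε : ℂ, (ε = 1 ∨ ε = -1) ∧ ∃ μ : Fin n → (G → ℂ), (∀ i, Cfsg.IsIrrCharacter G (μ i)) ∧ Function.Injective μ ∧ ∀ i, τ i = ε • (μ i - μ i₀) := by
  classical
  by_cases hI : ∃ i₁, i₁ ≠ i₀
  swap
  · push Not at hI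
    refine ⟨1, Or.inl rfl, fun _ _ => 1, fun _ => isIrrCharacter_one, ?_, ?_⟩
    · intro i j _; rw [hI i, hI j]
    · intro i; rw [hI i, h0]; simp
  obtain ⟨i₁, hi₁⟩ := hI
  have hdec : ∀ i, ∃ α β : G → ℂ, i ≠ i₀ →
      (IsIrrCharacter G α ∧ IsIrrCharacter G β ∧ α ≠ β ∧ τ i = α - β) := by
    intro i
    by_cases hi : i = i₀
    · exact ⟨0, 0, fun h => absurd hi h⟩
    · obtain ⟨α, β, h1, h2, h3, h4⟩ := gen_norm_two (hgen i)
        (by rw [hgram i i hi hi, if_pos rfl]) (hone i)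
      exact ⟨α, β, fun _ => ⟨h1, h2, h3, h4⟩⟩
  choose α β hαβ using hdec
  have hform : ∀ i j, i ≠ i₀ → j ≠ i₀ → classInner (τ i) (τ j) =
      (if α i = α j then 1 else 0) - (if α i = β j then 1 else 0) -
      ((if β i = α j then 1 else 0) - (if β i = β j then 1 else 0)) := by
    intro i j hi hj
    obtain ⟨a1, a2, a3, a4⟩ := hαβ i hi
    obtain ⟨b1, b2, b3, b4⟩ := hαβ j hj
    rw [a4, b4, classInner_sub_left, classInner_sub_right, classInner_sub_right,
      classInner_irr a1 b1, classInner_irr a1 b2, classInner_irr a2 b1, classInner_irr a2 b2]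
  have hcover : ∀ i j, i ≠ i₀ → j ≠ i₀ → α i = α j ∨ β i = β j := by
    intro i j hi hj
    by_cases hij : i = j
    · left; rw [hij]
    have h1 := hform i j hi hj
    rw [hgram i j hi hj, if_neg hij] at h1
    by_contra hcon
    push Not at hcon
    rw [if_neg hcon.1, if_neg hcon.2] at h1
    have h2 := congrArg Complex.re h1
    split_ifs at h2 <;> norm_num at h2
  have hnotboth : ∀ i j, i ≠ i₀ → j ≠ i₀ → i ≠ j → ¬ (α i = α j ∧ β i = β j) := by
    intro i j hi hj hij hcon
    have h1 := hgram i j hi hj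
    rw [if_neg hij, (hαβ i hi).2.2.2, (hαβ j hj).2.2.2, hcon.1, hcon.2,
      ← (hαβ j hj).2.2.2, hgram j j hj hj, if_pos rfl] at h1
    norm_num at h1
  by_cases hA : ∀ i j, i ≠ i₀ → j ≠ i₀ → α i = α j
  · refine ⟨-1, Or.inr rfl, fun i => if i = i₀ then α i₁ else β i, ?_, ?_, ?_⟩
    · intro i
      simp only
      split_ifs with h
      · exact (hαβ i₁ hi₁).1
      · exact (hαβ i h).2.1
    · intro i j hij
      simp only at hij
      split_ifs at hij with h1 h2 h2
      · rw [h1, h2]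
      · exact absurd ((hA j i₁ h2 hi₁).trans hij) (hαβ j h2).2.2.1
      · exact absurd ((hA i i₁ h1 hi₁).trans hij.symm) (hαβ i h1).2.2.1
      · by_contra hne
        exact hnotboth i j h1 h2 hne ⟨hA i j h1 h2, hij⟩
    · intro i
      simp only [if_true]
      split_ifs with h
      · rw [h, h0]; simp
      · rw [(hαβ i h).2.2.2, hA i i₁ h hi₁]; simp
  · have hB : ∀ i j, i ≠ i₀ → j ≠ i₀ → β i = β j := by
      push Not at hA
      obtain ⟨i, j, hi, hj, hne⟩ := hA
      have hij : β i = β j := (hcover i j hi hj).resolve_left hne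
      have key : ∀ k, k ≠ i₀ → β k = β i := by
        intro k hk
        rcases hcover k i hk hi with h1 | h1
        · rcases hcover k j hk hj with h2 | h2
          · exact absurd (h1.symm.trans h2) hne
          · rw [h2, hij]
        · exact h1
      intro k l hk hl
      rw [key k hk, key l hl]
    refine ⟨1, Or.inl rfl, fun i => if i = i₀ then β i₁ else α i, ?_, ?_, ?_⟩
    · intro i
      simp only
      split_ifs with h
      · exact (hαβ i₁ hi₁).2.1
      · exact (hαβ i h).1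
    · intro i j hij
      simp only at hij
      split_ifs at hij with h1 h2 h2
      · rw [h1, h2]
      · exact absurd (((hB j i₁ h2 hi₁).trans hij).symm) (hαβ j h2).2.2.1
      · exact absurd (hij.trans (hB i₁ i hi₁ h1)) (hαβ i h1).2.2.1
      · by_contra hne
        exact hnotboth i j h1 h2 hne ⟨hij, hB i j h1 h2⟩
    · intro i
      simp only [if_true]
      split_ifs with h
      · rw [h, h0]; simp
      · rw [(hαβ i h).2.2.2, hB i i₁ h hi₁]; simp

end Cfsg.Agent.S0198
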