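import Cfsg.Statements.S0170
import Cfsg.Agent.Lib.Helper7.All1
import Cfsg.Agent.Lib.Helper7.CharGen
import Cfsg.Agent.S0198
-- import your own Cfsg.Agent.* helpers here

set_option autoImplicit false
open Cfsg
open Cfsg.Agent.Lib.Helper7.CharBasic Cfsg.Agent.Lib.Helper7.CharIrr Cfsg.Agent.Lib.Helper7.CharDecomp Cfsg.Agent.Lib.Helper7.CharComplete Cfsg.Agent.Lib.Helper7.CharOrth Cfsg.Agent.Lib.Helper7.CharInd Cfsg.Agent.Lib.Helper7.CharIntegral Cfsg.Agent.Lib.Helper7.CharBurnside Cfsg.Agent.Lib.Helper7.CharLinear Cfsg.Agent.Lib.Helper7.CharEquiv Cfsg.Agent.Lib.Helper7.CharMore Cfsg.Agent.Lib.Helper7.CharCount Cfsg.Agent.Lib.Helper7.CharMisc Cfsg.Agent.Lib.Helper7.CharMisc2 Cfsg.Agent.Lib.Helper7.CharNormal Cfsg.Agent.Lib.Helper7.CharOdd Cfsg.Agent.Lib.Helper7.CharClifford Cfsg.Agent.Lib.Helper7.CharProd Cfsg.Agent.Lib.Helper7.CharPerm Cfsg.Agent.Lib.Helper7.CharClassAlg Cfsg.Agent.Lib.Helper7.CharClassAlg2 Cfsg.Agent.Lib.Helper7.CharCentral Cfsg.Agent.Lib.Helper7.CharNormal2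 Cfsg.Agent.Lib.Helper7.CharCliffordCorr Cfsg.Agent.Lib.Helper7.CharKer Cfsg.Agent.Lib.Helper7.CharRes Cfsg.Agent.Lib.Helper7.CharGen
open scoped ComplexConjugate

namespace Cfsg.Agent.S0170

/-- Exceptional characters. Let S be a subset of a finite group contained in its normalizer N and meeting its conjugates by elements outside N only in the identity. Given n ≥ 2 distinct irreducible characters of N of equal degree that vanish on N away from S, there exist a sign ε and n distinct irreducible characters θ_i of G such that inducing χ_i − χ_j to G gives ε (θ_i − θ_j) for all i, j. -/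
theorem result {G : Type*} [Group G] [Fintype G] (S : Set G) (hSN : S ⊆ Subgroup.normalizer S) (hTI : ∀ g : G, g ∉ Subgroup.normalizer S → ∀ s ∈ S, g * s * g⁻¹ ∈ S → s = 1) (n : ℕ) (hn : 2 ≤ n) (χ : Fin n → (Subgroup.normalizer S → ℂ)) (hirr : ∀ i, Cfsg.IsIrrCharacter (Subgroup.normalizer S) (χ i)) (hinj : Function.Injective χ) (hvan : ∀ i, ∀ x : Subgroup.normalizer S, (x : G) ∉ S → χ i x = 0) (hdeg : ∀ i j, χ i 1 = χ j 1) : ∃ ε : ℂ, (ε = 1 ∨ ε = -1) ∧ ∃ θ : Fin n → (G → ℂ), (∀ i, Cfsg.IsIrrCharacter G (θ i)) ∧ Function.Injective θ ∧ ∀ i j, Cfsg.indFun (Subgroup.normalizer S) (χ i) - Cfsg.indFun (Subgroup.normalizer S) (χ j) = ε • (θ i - θ j) := by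
  classical
  haveI := Fintype.ofFinite (Subgroup.normalizer S)
  let i₀ : Fin n := ⟨0, by omega⟩
  have hcl : ∀ i, IsClassFunction (Subgroup.normalizer S) (χ i) := fun i => IsIrrCharacter.isClassFunction (hirr i)
  have key := Cfsg.Agent.S0198.result n i₀ (fun i => indFun (Subgroup.normalizer S) (χ i - χ i₀))
    (by simp only [sub_self]; funext g; simp [indFun, extendByZero, Function.extend])
    (fun i => isGen_indFun (Subgroup.normalizer S) (isGen_sub (isGen_of_isCharacter (IsIrrCharacter.isCharacter (hirr i)))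
      (isGen_of_isCharacter (IsIrrCharacter.isCharacter (hirr i₀)))))
    (fun i => by
      rw [indFun_one]
      simp [hdeg i i₀])
    (fun i j hi hj => by
      rw [indFun_isometry_TI S hTI _ _ (isClassFunction_sub (hcl i) (hcl i₀))
        (isClassFunction_sub (hcl j) (hcl i₀))
        (fun x hx => by simp [hvan i x hx, hvan i₀ x hx])
        (fun x hx => by simp [hvan j x hx, hvan i₀ x hx])
        (by simp [hdeg i i₀])]
      rw [classInner_sub_left, classInner_sub_right, classInner_sub_right,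
        classInner_irr (hirr i) (hirr j), classInner_irr (hirr i) (hirr i₀),
        classInner_irr (hirr i₀) (hirr j), classInner_irr (hirr i₀) (hirr i₀),
        if_neg (fun h => hi (hinj h)), if_neg (fun h => hj (hinj h).symm), if_pos rfl]
      by_cases hij : i = j
      · rw [if_pos hij, if_pos (by rw [hij])]; norm_num
      · rw [if_neg hij, if_neg (fun h => hij (hinj h))]; norm_num)
  obtain ⟨ε, hε, μ, hμ, hμinj, hτ⟩ := key
  refine ⟨ε, hε, μ, hμ, hμinj, ?_⟩
  intro i j
  have h1 := hτ i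
  have h2 := hτ j
  simp only [indFun_sub] at h1 h2
  have : indFun (Subgroup.normalizer S) (χ i) - indFun (Subgroup.normalizer S) (χ j) =
      (indFun (Subgroup.normalizer S) (χ i) - indFun (Subgroup.normalizer S) (χ i₀)) - (indFun (Subgroup.normalizer S) (χ j) - indFun (Subgroup.normalizer S) (χ i₀)) := by ring
  rw [this, h1, h2, ← smul_sub]
  congr 1
  ring

end Cfsg.Agent.S0170
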