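import Cfsg.Statements.S0186
import Cfsg.Agent.Lib.Helper7.All1
import Cfsg.Agent.Lib.Helper7.CharKer
-- import your own Cfsg.Agent.* helpers here

set_option autoImplicit false
open Cfsg
open Cfsg.Agent.Lib.Helper7.CharBasic Cfsg.Agent.Lib.Helper7.CharIrr Cfsg.Agent.Lib.Helper7.CharDecomp Cfsg.Agent.Lib.Helper7.CharComplete Cfsg.Agent.Lib.Helper7.CharOrth Cfsg.Agent.Lib.Helper7.CharInd Cfsg.Agent.Lib.Helper7.CharIntegral Cfsg.Agent.Lib.Helper7.CharBurnside Cfsg.Agent.Lib.Helper7.CharLinear Cfsg.Agent.Lib.Helper7.CharEquiv Cfsg.Agent.Lib.Helper7.CharMore Cfsg.Agent.Lib.Helper7.CharCount Cfsg.Agent.Lib.Helper7.CharMisc Cfsg.Agent.Lib.Helper7.CharMisc2 Cfsg.Agent.Lib.Helper7.CharNormal Cfsg.Agent.Lib.Helper7.CharOdd Cfsg.Agent.Lib.Helper7.CharClifford Cfsg.Agent.Lib.Helper7.CharProd Cfsg.Agent.Lib.Helper7.CharPerm Cfsg.Agent.Lib.Helper7.CharClassAlg Cfsg.Agent.Lib.Helper7.CharClassAlg2 Cfsg.Agent.Lib.Helper7.CharCentral Cfsg.Agent.Lib.Helper7.CharNormal2 Cfsg.Agent.Lib.Helper7.CharCliffordCorr Cfsg.Agent.Lib.Helper7.CharKer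
open scoped ComplexConjugate

namespace Cfsg.Agent.S0186

/-- Let G be a finite simple group of order n and p a prime dividing n. If G has more than n / p^2 conjugacy classes, then every Sylow p-subgroup of G is abelian. -/
theorem result {G : Type*} [Group G] [Finite G] [IsSimpleGroup G] (p : ℕ) [Fact p.Prime] (hp : p ∣ Nat.card G) (hmany : Nat.card G < p ^ 2 * Nat.card (ConjClasses G)) (P : Sylow p G) (a b : G) (ha : a ∈ P) (hb : b ∈ P) : a * b = b * a := by
  classical
  haveI := Fintype.ofFinite G
  haveI := Fintype.ofFinite (IrrCharacter G)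
  have hpp : p.Prime := Fact.out
  by_cases hcase : ∃ χ : IrrCharacter G, χ.1 ≠ (fun _ => 1) ∧ ∃ d : ℕ, χ.1 1 = d ∧ d < p
  · obtain ⟨⟨χ, hχ⟩, hne, d, hd, hdp⟩ := hcase
    simp only at hne hd
    have hχc := IsIrrCharacter.isCharacter hχ
    haveI := Fintype.ofFinite (P : Subgroup G)
    haveI := Fintype.ofFinite (IrrCharacter (P : Subgroup G))
    have hθc : IsCharacter (P : Subgroup G) (fun x : (P : Subgroup G) => χ x) :=
      isCharacter_restrict _ hχc
    have hm0 : ∀ φ : IrrCharacter (P : Subgroup G), ∃ m : ℕ,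
        classInner (fun x : (P : Subgroup G) => χ x) φ.1 = m := fun φ =>
      classInner_isCharacter_nat hθc (IsIrrCharacter.isCharacter φ.2)
    choose m hm using hm0
    choose e he using fun φ : IrrCharacter (P : Subgroup G) =>
      irr_one_eq_natCast (IsIrrCharacter.isCharacter φ.2)
    have hdec := classFunction_eq_sum (IsCharacter.isClassFunction hθc)
    have hdeg : d = ∑ φ : IrrCharacter (P : Subgroup G), m φ * e φ := by
      have h1 := congrFun hdec 1
      simp only [Finset.sum_apply, Pi.smul_apply, smul_eq_mul, hm, he, Subgroup.coe_one, hd] at h1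
      exact_mod_cast h1
    set c : (P : Subgroup G) := ⟨a, ha⟩ * ⟨b, hb⟩ * ⟨a, ha⟩⁻¹ * ⟨b, hb⟩⁻¹ with hc
    have hterm : ∀ φ : IrrCharacter (P : Subgroup G), (m φ : ℂ) * φ.1 c = (m φ : ℂ) * φ.1 1 := by
      intro φ
      by_cases hm0 : m φ = 0
      · rw [hm0]; simp
      · have h1 : e φ ≤ d := by
          rw [hdeg]
          calc e φ ≤ m φ * e φ := Nat.le_mul_of_pos_left _ (Nat.pos_of_ne_zero hm0)
            _ ≤ _ := Finset.single_le_sum (f := fun φ => m φ * e φ) (fun _ _ => Nat.zero_le _)
              (Finset.mem_univ φ)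
        have h2 : e φ ∣ Nat.card (P : Subgroup G) := irr_degree_dvd_card φ.2 (he φ)
        obtain ⟨k, hk⟩ := IsPGroup.iff_card.mp P.isPGroup'
        rw [hk] at h2
        obtain ⟨j, _, hj⟩ := (Nat.dvd_prime_pow hpp).mp h2
        have hj0 : j = 0 := by
          by_contra hj0
          have : p ≤ e φ := by
            rw [hj]
            calc p = p ^ 1 := (pow_one p).symm
              _ ≤ p ^ j := Nat.pow_le_pow_right hpp.pos (Nat.pos_of_ne_zero hj0)
          omega
        rw [hj0, pow_zero] at hj
        have h3 : φ.1 1 = 1 := by rw [he, hj]; simp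
        obtain ⟨l, hl⟩ := exists_hom_of_irr_of_one (IsIrrCharacter.isCharacter φ.2) h3
        rw [hl]
        simp only [hc, map_mul, map_inv, map_one]
        congr 2
        rw [mul_comm (l ⟨a, ha⟩) (l ⟨b, hb⟩)]
        simp
    have hval : χ (a * b * a⁻¹ * b⁻¹) = χ 1 := by
      have h1 := congrFun hdec c
      have h2 := congrFun hdec 1
      simp only [Finset.sum_apply, Pi.smul_apply, smul_eq_mul, hm] at h1 h2
      have h3 : χ (c : G) = χ ((1 : (P : Subgroup G)) : G) := by
        rw [h1, h2]
        exact Finset.sum_congr rfl (fun φ _ => hterm φ)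
      simpa [hc] using h3
    have hker : a * b * a⁻¹ * b⁻¹ ∈ charKer χ hχc := hval
    rcases (charKer_normal χ hχc).eq_bot_or_eq_top with hbot | htop
    · rw [hbot, Subgroup.mem_bot] at hker
      calc a * b = (a * b * a⁻¹ * b⁻¹) * (b * a) := by group
        _ = b * a := by rw [hker, one_mul]
    · exfalso
      apply hne
      have hall : ∀ g, χ g = χ 1 := fun g => by
        have : g ∈ charKer χ hχc := htop ▸ Subgroup.mem_top g
        exact this
      have h1 : classInner χ (fun _ => (1 : ℂ)) = χ 1 := by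
        unfold classInner
        simp only [hall, map_one, mul_one, Finset.sum_const, Finset.card_univ, nsmul_eq_mul]
        rw [← Nat.card_eq_fintype_card, ← mul_assoc,
          inv_mul_cancel₀ (by exact_mod_cast Nat.card_pos.ne'), one_mul]
      rw [classInner_irr hχ isIrrCharacter_one] at h1
      split_ifs at h1 with h2
      · exact h2
      · exact absurd h1.symm (irr_one_ne_zero hχ)
  · push Not at hcase
    choose d hd using fun χ : IrrCharacter G => irr_one_eq_natCast (IsIrrCharacter.isCharacter χ.2)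
    have hsum : ∑ χ : IrrCharacter G, d χ ^ 2 = Nat.card G := by
      have h1 := sum_sq_degrees (G := G)
      rw [finsum_eq_sum_of_fintype] at h1
      simp only [hd] at h1
      exact_mod_cast h1
    have hk : Fintype.card (IrrCharacter G) = Nat.card (ConjClasses G) := by
      rw [← card_irr, Nat.card_eq_fintype_card]
    have hlow : 1 + (Nat.card (ConjClasses G) - 1) * p ^ 2 ≤ Nat.card G := by
      rw [← hsum, ← Finset.add_sum_erase Finset.univ _
        (Finset.mem_univ (⟨fun _ => 1, isIrrCharacter_one⟩ : IrrCharacter G))]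
      apply Nat.add_le_add
      · have h1 : d ⟨fun _ => 1, isIrrCharacter_one⟩ = 1 := by
          have := hd ⟨fun _ => 1, isIrrCharacter_one⟩
          simp only at this
          exact_mod_cast this.symm
        rw [h1]; simp
      · have h2 : (Finset.univ.erase (⟨fun _ => 1, isIrrCharacter_one⟩ : IrrCharacter G)).card =
            Nat.card (ConjClasses G) - 1 := by
          rw [Finset.card_erase_of_mem (Finset.mem_univ _), Finset.card_univ, hk]
        rw [← h2, ← smul_eq_mul]
        apply Finset.card_nsmul_le_sum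
        intro χ hχ
        have h3 : χ.1 ≠ fun _ => 1 := fun h => (Finset.mem_erase.mp hχ).1 (Subtype.ext h)
        exact Nat.pow_le_pow_left (hcase χ h3 (d χ) (hd χ)) 2
    have hnd : ¬ p ^ 2 ∣ Nat.card G := by
      rintro ⟨t, ht⟩
      rw [ht] at hmany hlow
      have h1 : t < Nat.card (ConjClasses G) := Nat.lt_of_mul_lt_mul_left hmany
      have h2 : t ≤ Nat.card (ConjClasses G) - 1 := by omega
      have h3 : p ^ 2 * t ≤ (Nat.card (ConjClasses G) - 1) * p ^ 2 := by
        rw [mul_comm]; exact Nat.mul_le_mul_right _ h2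
      omega
    have hcard := P.card_eq_multiplicity
    have hexp : (Nat.card G).factorization p < 2 := by
      by_contra hge
      apply hnd
      exact (pow_dvd_pow p (not_lt.mp hge)).trans (Nat.ordProj_dvd _ _)
    have hexp1 : (Nat.card G).factorization p = 1 := by
      have : 0 < (Nat.card G).factorization p :=
        hpp.factorization_pos_of_dvd Nat.card_pos.ne' hp
      omega
    rw [hexp1, pow_one] at hcard
    haveI : IsCyclic (P : Subgroup G) := isCyclic_of_prime_card hcard
    have := (IsCyclic.isMulCommutative (α := (P : Subgroup G))).is_comm.comm ⟨a, ha⟩ ⟨b, hb⟩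
    exact congrArg Subtype.val this

end Cfsg.Agent.S0186
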