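import Cfsg.Statements.S0191
import Cfsg.Agent.Lib.Helper7.All1
import Cfsg.Agent.Lib.Helper7.CharZeros
-- import your own Cfsg.Agent.* helpers here

set_option autoImplicit false
open Cfsg
open Cfsg.Agent.Lib.Helper7.CharBasic Cfsg.Agent.Lib.Helper7.CharIrr Cfsg.Agent.Lib.Helper7.CharDecomp Cfsg.Agent.Lib.Helper7.CharComplete Cfsg.Agent.Lib.Helper7.CharOrth Cfsg.Agent.Lib.Helper7.CharInd Cfsg.Agent.Lib.Helper7.CharIntegral Cfsg.Agent.Lib.Helper7.CharBurnside Cfsg.Agent.Lib.Helper7.CharLinear Cfsg.Agent.Lib.Helper7.CharEquiv Cfsg.Agent.Lib.Helper7.CharMore Cfsg.Agent.Lib.Helper7.CharCount Cfsg.Agent.Lib.Helper7.CharMisc Cfsg.Agent.Lib.Helper7.CharMisc2 Cfsg.Agent.Lib.Helper7.CharNormal Cfsg.Agent.Lib.Helper7.CharOdd Cfsg.Agent.Lib.Helper7.CharClifford Cfsg.Agent.Lib.Helper7.CharProd Cfsg.Agent.Lib.Helper7.CharPerm Cfsg.Agent.Lib.Helper7.CharClassAlg Cfsg.Agent.Lib.Helper7.CharClassAlg2 Cfsg.Agent.Lib.Helper7.CharCentral Cfsg.Agent.Lib.Helper7.CharNormal2 Cfsg.Agent.Lib.Helper7.CharCliffordCorr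 Cfsg.Agent.Lib.Helper7.CharKer Cfsg.Agent.Lib.Helper7.CharRes Cfsg.Agent.Lib.Helper7.CharGen Cfsg.Agent.Lib.Helper7.GalC Cfsg.Agent.Lib.Helper7.CharGalois Cfsg.Agent.Lib.Helper7.CharZeros
open scoped ComplexConjugate

namespace Cfsg.Agent.S0191

/-- An irreducible complex representation of a finite group of degree greater than 1 has a character that vanishes somewhere. -/
theorem result {G : Type*} [Group G] [Finite G] {V : Type*} [AddCommGroup V] [Module ℂ V] [FiniteDimensional ℂ V] (ρ : Representation ℂ G V) [ρ.IsIrreducible] (hdeg : 1 < Module.finrank ℂ V) : ∃ g : G, ρ.character g = 0 := by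
  classical
  haveI := Fintype.ofFinite G
  by_contra hcon
  push Not at hcon
  have hχ : IsCharacter G ρ.character := isCharacter_of_rep ρ
  have hnorm : ∑ g : G, ‖ρ.character g‖ ^ 2 = (Nat.card G : ℝ) := by
    have h1 := classInner_irr_self ρ
    rw [classInner_self_eq] at h1
    have h2 : (Nat.card G : ℝ)⁻¹ * ∑ g : G, ‖ρ.character g‖ ^ 2 = 1 := by exact_mod_cast h1
    have h3 : (Nat.card G : ℝ) ≠ 0 := by exact_mod_cast Nat.card_pos.ne'
    field_simp at h2
    exact h2
  have key := card_nonzero_le_sum hχ (fun g => g ≠ 1) (by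
    intro g k hk
    have : g ^ k = 1 ↔ g = 1 := by
      constructor
      · intro h
        apply (powCoprime hk.symm).injective
        change g ^ k = 1 ^ k
        rw [h, one_pow]
      · rintro rfl; exact one_pow k
    exact not_congr this)
  have h1 : ∑ g : G, (if g ≠ 1 ∧ ρ.character g ≠ 0 then (1 : ℝ) else 0) = (Nat.card G : ℝ) - 1 := by
    have : ∀ g : G, (if g ≠ 1 ∧ ρ.character g ≠ 0 then (1 : ℝ) else 0) =
        1 - (if g = 1 then 1 else 0) := by
      intro g
      by_cases hg : g = 1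
      · simp [hg]
      · simp [hg, hcon g]
    simp only [this, Finset.sum_sub_distrib, Finset.sum_const, Finset.card_univ, nsmul_eq_mul,
      mul_one, Finset.sum_ite_eq', Finset.mem_univ, if_true, Nat.card_eq_fintype_card]
  have h2 : ∑ g : G, (if g ≠ 1 then ‖ρ.character g‖ ^ 2 else 0) =
      (Nat.card G : ℝ) - ‖ρ.character 1‖ ^ 2 := by
    rw [← hnorm]
    have : ∀ g : G, (if g ≠ 1 then ‖ρ.character g‖ ^ 2 else 0) =
        ‖ρ.character g‖ ^ 2 - (if g = 1 then ‖ρ.character 1‖ ^ 2 else 0) := by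
      intro g
      by_cases hg : g = 1
      · simp [hg]
      · simp [hg]
    simp only [this, Finset.sum_sub_distrib, Finset.sum_ite_eq', Finset.mem_univ, if_true]
  rw [h1, h2, Representation.char_one, Complex.norm_natCast] at key
  have h3 : (2 : ℝ) ≤ Module.finrank ℂ V := by exact_mod_cast hdeg
  nlinarith

end Cfsg.Agent.S0191
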