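import Cfsg.Statements.S0196
import Mathlib

set_option autoImplicit false
open Cfsg

namespace Cfsg.Agent.S0196


/-- if all stabilizers have index `m`, then `m` divides the size of the set -/
theorem dvd_card_of_index_stabilizer {N X : Type*} [Group N] [MulAction N X] [Finite X] (m : ℕ)
    (h : ∀ x : X, (MulAction.stabilizer N x).index = m) : m ∣ Nat.card X := by
  classical
  have e := MulAction.selfEquivSigmaOrbitsQuotientStabilizer N X
  have : Fintype (Quotient (MulAction.orbitRel N X)) := Fintype.ofFinite _
  have : Finite (Σ ω : Quotient (MulAction.orbitRel N X), N ⧸ MulAction.stabilizer N ω.out) :=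
    Finite.of_equiv _ e
  have : ∀ ω : Quotient (MulAction.orbitRel N X), Finite (N ⧸ MulAction.stabilizer N ω.out) := by
    intro ω
    exact Finite.of_injective (fun q => (⟨ω, q⟩ : Σ ω : Quotient (MulAction.orbitRel N X),
      N ⧸ MulAction.stabilizer N ω.out)) (fun a b hab => by simpa using hab)
  rw [Nat.card_congr e, Nat.card_sigma]
  apply Finset.dvd_sum
  intro ω _
  have := h ω.out
  rw [Subgroup.index] at this
  rw [this]


/-- Let A be a subgroup of a finite group G that equals the centralizer of each of its non-identity elements, and let N be its normalizer. Then the index of A in N divides |A| − 1 (N/A permutes the non-identity elements of A in orbits of full length). -/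
theorem result {G : Type*} [Group G] [Finite G] (A : Subgroup G) (hA : ∀ x ∈ A, x ≠ 1 → Subgroup.centralizer ({x} : Set G) = A) : (A.subgroupOf (Subgroup.normalizer (A : Set G))).index ∣ Nat.card A - 1 := by
  classical
  set N := Subgroup.normalizer (A : Set G) with hN
  let X := ↥((A : Set G) \ {1})
  let _inst : MulAction ↥N X :=
    { smul := fun n a => ⟨(n : G) * a.1 * (n : G)⁻¹, by
        refine ⟨?_, ?_⟩
        · exact (Subgroup.mem_normalizer_iff.mp n.2 a.1).mp a.2.1
        · intro h
          apply a.2.2
          have h' : (n : G) * a.1 * (n : G)⁻¹ = 1 := h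
          have : a.1 = 1 := by
            have := congrArg (fun t => (n : G)⁻¹ * t * (n : G)) h'
            simpa [mul_assoc] using this
          exact this⟩
      one_smul := fun a => by
        apply Subtype.ext
        show ((1 : ↥N) : G) * a.1 * ((1 : ↥N) : G)⁻¹ = a.1
        simp
      mul_smul := fun n m a => by
        apply Subtype.ext
        show ((n * m : ↥N) : G) * a.1 * ((n * m : ↥N) : G)⁻¹ =
          (n : G) * ((m : G) * a.1 * (m : G)⁻¹) * (n : G)⁻¹
        simp [mul_assoc] }
  have hcard : Nat.card X = Nat.card A - 1 := by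
    show Nat.card ↥((A : Set G) \ {1}) = _
    rw [Nat.card_coe_set_eq, Set.ncard_sdiff_singleton_of_mem A.one_mem,
      ← Nat.card_coe_set_eq]
    rfl
  rw [← hcard]
  apply dvd_card_of_index_stabilizer (N := ↥N) (X := X)
  intro x
  congr 1
  ext n
  rw [MulAction.mem_stabilizer_iff, Subgroup.mem_subgroupOf, ← hA x.1 x.2.1 x.2.2,
    Subgroup.mem_centralizer_singleton_iff]
  constructor
  · intro h
    have h' : (n : G) * x.1 * (n : G)⁻¹ = x.1 := congrArg Subtype.val h
    rw [mul_inv_eq_iff_eq_mul] at h'
    exact h'
  · intro h
    apply Subtype.ext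
    show (n : G) * x.1 * (n : G)⁻¹ = x.1
    rw [mul_inv_eq_iff_eq_mul]
    exact h

end Cfsg.Agent.S0196
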