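import Cfsg.Statements.S0207
import Cfsg.Agent.Lib.Helper3.Invol
open Cfsg.Agent.Lib.Helper3.Invol

set_option autoImplicit false
open Cfsg

namespace Cfsg.Agent.S0207

/-- If x, y are distinct involutions, every element of the subgroup they generate that lies outside the cyclic subgroup generated by xy is an involution. -/
theorem result {G : Type*} [Group G] [Finite G] (x y : G) (hx : orderOf x = 2) (hy : orderOf y = 2) (hxy : x ≠ y) (d : G) (hd : d ∈ Subgroup.closure ({x, y} : Set G)) (hd' : d ∉ Subgroup.zpowers (x * y)) : orderOf d = 2 := by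
  have hx2 := sq_of_order hx
  have hy2 := sq_of_order hy
  obtain ⟨k, rfl | rfl⟩ := (mem_closure_iff hx2 hy2 d).1 hd
  · exact absurd (Subgroup.zpow_mem_zpowers _ _) hd'
  · rw [order_two_iff]
    refine ⟨fun h => hd' (h ▸ one_mem _), ?_⟩
    rw [mul_assoc, ← mul_assoc x, x_mul_zpow hx2 hy2, mul_assoc _ x x, hx2, mul_one, ← zpow_add]
    simp

end Cfsg.Agent.S0207
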