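import Cfsg.Statements.S0209
import Cfsg.Agent.Lib.Helper3.Invol
open Cfsg.Agent.Lib.Helper3.Invol

set_option autoImplicit false
open Cfsg

namespace Cfsg.Agent.S0209

/-- If x, y are involutions whose product has even order n, the element (xy)^(n/2) is an involution that commutes with x and with y. -/
theorem result {G : Type*} [Group G] [Finite G] (x y : G) (hx : orderOf x = 2) (hy : orderOf y = 2) (heven : Even (orderOf (x * y))) : orderOf ((x * y) ^ (orderOf (x * y) / 2)) = 2 ∧ Commute ((x * y) ^ (orderOf (x * y) / 2)) x ∧ Commute ((x * y) ^ (orderOf (x * y) / 2)) y := by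
  have hx2 := sq_of_order hx
  have hy2 := sq_of_order hy
  obtain ⟨m, hm⟩ := heven
  have hpos : 0 < orderOf (x * y) := orderOf_pos _
  have hm0 : m ≠ 0 := by omega
  have hdiv : orderOf (x * y) / 2 = m := by omega
  rw [hdiv]
  have ho : orderOf ((x * y) ^ m) = 2 := by
    rw [orderOf_pow_of_dvd hm0 ⟨2, by omega⟩, hm]
    rw [← two_mul, Nat.mul_div_cancel _ (Nat.pos_of_ne_zero hm0)]
  have hinv : ((x * y) ^ (m : ℤ)) = (x * y) ^ (-(m : ℤ)) := by
    rw [zpow_neg, zpow_natCast, inv_of_order ho]
  have hcx : Commute ((x * y) ^ m) x := by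
    have := x_mul_zpow hx2 hy2 (m : ℤ)
    rw [← hinv, zpow_natCast] at this
    exact this.symm
  refine ⟨ho, hcx, ?_⟩
  have hcu : Commute ((x * y) ^ m) (x * y) := (Commute.refl _).pow_left _
  have : x * (x * y) = y := by rw [← mul_assoc, hx2, one_mul]
  have h := hcx.mul_right hcu
  rwa [this] at h

end Cfsg.Agent.S0209
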