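import Cfsg.Statements.S0211
import Cfsg.Agent.Lib.Helper3.Invol
open Cfsg.Agent.Lib.Helper3.Invol

set_option autoImplicit false
open Cfsg

namespace Cfsg.Agent.S0211

/-- Let x, y be involutions with xy of even order n and z = (xy)^(n/2). Then xz is conjugate to x by an element of the subgroup generated by x, y if and only if 4 divides n. -/
theorem result {G : Type*} [Group G] [Finite G] (x y : G) (hx : orderOf x = 2) (hy : orderOf y = 2) (heven : Even (orderOf (x * y))) : (∃ d ∈ Subgroup.closure ({x, y} : Set G), d * x * d⁻¹ = x * (x * y) ^ (orderOf (x * y) / 2)) ↔ 4 ∣ orderOf (x * y) := by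
  have hx2 := sq_of_order hx
  have hy2 := sq_of_order hy
  obtain ⟨m, hm⟩ := heven
  have hdiv : orderOf (x * y) / 2 = m := by omega
  rw [hdiv]
  have hxm : x * (x * y) ^ m = (x * y) ^ (-(m : ℤ)) * x := by
    rw [← x_mul_zpow hx2 hy2, zpow_natCast]
  rw [hxm]
  constructor
  · rintro ⟨d, hd, h⟩
    obtain ⟨k, hk⟩ := conj_x_of_mem hx2 hy2 hd
    rw [h] at hk
    have h1 := mul_right_cancel hk
    have h2 : (x * y) ^ (2 * k + m) = 1 := by
      rw [zpow_add, ← h1, ← zpow_add]; simp
    have h3 := (orderOf_dvd_iff_zpow_eq_one).2 h2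
    rw [hm] at h3
    obtain ⟨c, hc⟩ := h3
    push_cast at hc
    have h4 : (m : ℤ) = 2 * (m * c - k) := by linarith
    have h5 : (2 : ℤ) ∣ m := ⟨_, h4⟩
    have h6 : 2 ∣ m := by exact_mod_cast h5
    rw [hm]
    omega
  · rintro ⟨j, hj⟩
    refine ⟨(x * y) ^ (-(j : ℤ)), zpow_mem (mul_mem (Subgroup.subset_closure (by simp))
      (Subgroup.subset_closure (by simp))) _, ?_⟩
    rw [zpow_conj_x hx2 hy2]
    congr 2
    have : m = 2 * j := by omega
    rw [this]; push_cast; ring

end Cfsg.Agent.S0211
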