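import Cfsg.Statements.S0212
import Cfsg.Agent.Lib.Helper3.BrauerFowler
open Cfsg.Agent.Lib.Helper3.Invol Cfsg.Agent.Lib.Helper3.BrauerFowler

set_option autoImplicit false
open Cfsg

namespace Cfsg.Agent.S0212

/-- The Brauer–Fowler bound: if G is a finite simple group and t an involution of G whose centralizer has order n, then |G| ≤ (2n^2)!. -/
theorem result {G : Type*} [Group G] [Finite G] [IsSimpleGroup G] (t : G) (ht : orderOf t = 2) : Nat.card G ≤ Nat.factorial (2 * (Nat.card (Subgroup.centralizer ({t} : Set G))) ^ 2) := by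
  set c := Nat.card (Subgroup.centralizer ({t} : Set G)) with hc
  have hcpos : 0 < c := Nat.card_pos
  have hcc : c ≤ c ^ 2 := by nlinarith
  by_cases h2 : ∃ H : Subgroup G, H.index = 2
  · obtain ⟨H, hH⟩ := h2
    have hn := Subgroup.normal_of_index_eq_two hH
    rcases hn.eq_bot_or_eq_top with h | h
    · rw [h, Subgroup.index_bot] at hH
      rw [hH]
      exact le_trans (by nlinarith) (Nat.self_le_factorial _)
    · rw [h, Subgroup.index_top] at hH
      omega
  push Not at h2
  by_cases hcen : ∃ z : G, orderOf z = 2 ∧ z ∈ Subgroup.center G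
  · obtain ⟨z, hz, hzc⟩ := hcen
    have htop : Subgroup.center G = ⊤ := by
      rcases (inferInstance : (Subgroup.center G).Normal).eq_bot_or_eq_top with h | h
      · rw [h, Subgroup.mem_bot] at hzc
        exact absurd hzc (ne_one_of_order hz)
      · exact h
    have hC : Subgroup.centralizer ({t} : Set G) = ⊤ := by
      rw [eq_top_iff]
      intro g _
      rw [Subgroup.mem_centralizer_singleton_iff]
      have : t ∈ Subgroup.center G := by rw [htop]; trivial
      exact (Subgroup.mem_center_iff.1 this g)
    have hcg : c = Nat.card G := by rw [hc, hC, Subgroup.card_top]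
    rw [← hcg]
    exact le_trans (by nlinarith) (Nat.self_le_factorial _)
  push Not at hcen
  obtain ⟨H, hH, -, h⟩ := bf_index h2 hcen
  have h1 := card_le_mInv_mul ht
  rw [← hc] at h1
  set m := mInv G with hm
  set g := Nat.card G with hg
  have hmpos : 0 < m := by
    rcases Nat.eq_zero_or_pos m with h0 | h0
    · rw [h0, zero_mul] at h1
      have : 0 < g := Nat.card_pos
      omega
    · exact h0
  have h3 : 2 * H.index * m ^ 2 ≤ (c ^ 2 + c) * m ^ 2 := by
    calc 2 * H.index * m ^ 2 ≤ 2 * H.index * m ^ 2 + 2 * H.index * m + g := by omega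
      _ ≤ g * g + m * g := h
      _ ≤ (m * c) * (m * c) + m * (m * c) :=
          Nat.add_le_add (Nat.mul_le_mul h1 h1) (Nat.mul_le_mul_left _ h1)
      _ = (c ^ 2 + c) * m ^ 2 := by ring
  have h4 : 2 * H.index ≤ c ^ 2 + c := Nat.le_of_mul_le_mul_right h3 (by positivity)
  have h5 : H.index ≤ 2 * c ^ 2 := by omega
  exact (card_le_factorial_index hH).trans (Nat.factorial_le h5)

end Cfsg.Agent.S0212
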