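import Cfsg.Statements.S0213
import Cfsg.Agent.Lib.Helper3.Index2
open Cfsg.Agent.Lib.Helper3.Invol

set_option autoImplicit false
open Cfsg

namespace Cfsg.Agent.S0213

theorem card_A_conj {G : Type*} [Group G] (x₁ x₂ w g : G) :
    Nat.card {p : G × G // IsConj x₁ p.1 ∧ IsConj x₂ p.2 ∧
      g * w * g⁻¹ ∈ Subgroup.zpowers (p.1 * p.2)} =
    Nat.card {p : G × G // IsConj x₁ p.1 ∧ IsConj x₂ p.2 ∧ w ∈ Subgroup.zpowers (p.1 * p.2)} := by
  refine Nat.card_congr (Equiv.subtypeEquiv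
    (Equiv.prodCongr (MulAut.conj g⁻¹).toEquiv (MulAut.conj g⁻¹).toEquiv) ?_)
  rintro ⟨u, v⟩
  change (IsConj x₁ u ∧ IsConj x₂ v ∧ g * w * g⁻¹ ∈ Subgroup.zpowers (u * v)) ↔
    (IsConj x₁ (g⁻¹ * u * g⁻¹⁻¹) ∧ IsConj x₂ (g⁻¹ * v * g⁻¹⁻¹) ∧
      w ∈ Subgroup.zpowers (g⁻¹ * u * g⁻¹⁻¹ * (g⁻¹ * v * g⁻¹⁻¹)))
  rw [inv_inv]
  have hc : ∀ x a : G, IsConj x a ↔ IsConj x (g⁻¹ * a * g) := by
    intro x a
    have : IsConj a (g⁻¹ * a * g) := isConj_iff.2 ⟨g⁻¹, by rw [inv_inv]⟩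
    exact ⟨fun h => h.trans this, fun h => h.trans this.symm⟩
  rw [← hc, ← hc]
  refine and_congr_right fun _ => and_congr_right fun _ => ?_
  have he : g⁻¹ * u * g * (g⁻¹ * v * g) = g⁻¹ * (u * v) * g⁻¹⁻¹ := by group
  rw [he, Subgroup.mem_zpowers_iff, Subgroup.mem_zpowers_iff]
  constructor
  · rintro ⟨k, hk⟩
    refine ⟨k, ?_⟩
    rw [conj_zpow, hk]; group
  · rintro ⟨k, hk⟩
    refine ⟨k, ?_⟩
    rw [conj_zpow] at hk
    rw [← hk]; group

/-- Thompson Order Formula, two-class case: if every involution of the finite group G is conjugate to exactly one of the non-conjugate involutions x₁, x₂, and nᵢ is the number of pairs (u, v) with u conjugate to x₁, v conjugate to x₂ and xᵢ in the cyclic group generated by uv, then |G| = |C(x₂)| n₁ + |C(x₁)| n₂. -/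
theorem result {G : Type*} [Group G] [Finite G] (x₁ x₂ : G) (h₁ : orderOf x₁ = 2) (h₂ : orderOf x₂ = 2) (hnc : ¬ IsConj x₁ x₂) (hall : ∀ t : G, orderOf t = 2 → IsConj x₁ t ∨ IsConj x₂ t) : Nat.card G = Nat.card (Subgroup.centralizer ({x₂} : Set G)) * Nat.card {p : G × G // IsConj x₁ p.1 ∧ IsConj x₂ p.2 ∧ x₁ ∈ Subgroup.zpowers (p.1 * p.2)} + Nat.card (Subgroup.centralizer ({x₁} : Set G)) * Nat.card {p : G × G // IsConj x₁ p.1 ∧ IsConj x₂ p.2 ∧ x₂ ∈ Subgroup.zpowers (p.1 * p.2)} := by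
  classical
  have : Fintype G := Fintype.ofFinite G
  set K₁ : Finset G := Finset.univ.filter (fun y => IsConj x₁ y) with hK₁
  set K₂ : Finset G := Finset.univ.filter (fun y => IsConj x₂ y) with hK₂
  set I : Finset G := Finset.univ.filter (fun y => orderOf y = 2) with hI
  have hA : ∀ w : G, Nat.card {p : G × G // IsConj x₁ p.1 ∧ IsConj x₂ p.2 ∧
      w ∈ Subgroup.zpowers (p.1 * p.2)} =
      ((K₁ ×ˢ K₂).bipartiteBelow (fun p w => w ∈ Subgroup.zpowers (p.1 * p.2)) w).card := by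
    intro w
    rw [Nat.card_eq_fintype_card, Fintype.card_subtype]
    congr 1
    ext p
    simp [Finset.bipartiteBelow, hK₁, hK₂, and_assoc]
  have hdc := Finset.sum_card_bipartiteAbove_eq_sum_card_bipartiteBelow (s := K₁ ×ˢ K₂) (t := I)
    (fun p w => w ∈ Subgroup.zpowers (p.1 * p.2))
  -- each pair determines exactly one involution
  have hone : ∀ p ∈ K₁ ×ˢ K₂,
      (I.bipartiteAbove (fun p w => w ∈ Subgroup.zpowers (p.1 * p.2)) p).card = 1 := by
    rintro ⟨u, v⟩ hp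
    rw [Finset.mem_product] at hp
    have hu : IsConj x₁ u := (Finset.mem_filter.1 hp.1).2
    have hv : IsConj x₂ v := (Finset.mem_filter.1 hp.2).2
    have huo : orderOf u = 2 := by
      obtain ⟨g, rfl⟩ := isConj_iff.1 hu
      rw [order_conj, h₁]
    have hvo : orderOf v = 2 := by
      obtain ⟨g, rfl⟩ := isConj_iff.1 hv
      rw [order_conj, h₂]
    have hnc' : ¬ IsConj u v := fun h => hnc ((hu.trans h).trans hv.symm)
    obtain ⟨z, hz, -, -, hzm⟩ := exists_invol_commute huo hvo hnc'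
    rw [Finset.card_eq_one]
    refine ⟨z, ?_⟩
    ext w
    simp only [Finset.bipartiteAbove, Finset.mem_filter, Finset.mem_singleton, hI, Finset.mem_univ,
      true_and]
    constructor
    · rintro ⟨hw, hwm⟩
      have h1 : orderOf (⟨w, hwm⟩ : Subgroup.zpowers (u * v)) = 2 := by
        rw [Subgroup.orderOf_mk, hw]
      have h2 : orderOf (⟨z, hzm⟩ : Subgroup.zpowers (u * v)) = 2 := by
        rw [Subgroup.orderOf_mk, hz]
      exact congrArg Subtype.val (cyclic_unique_invol h1 h2)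
    · rintro rfl
      exact ⟨hz, hzm⟩
  rw [Finset.sum_congr rfl hone, Finset.sum_const, smul_eq_mul, mul_one, Finset.card_product] at hdc
  -- split the involutions into the two classes
  have hIu : I = K₁ ∪ K₂ := by
    ext w
    simp only [hI, hK₁, hK₂, Finset.mem_filter, Finset.mem_univ, true_and, Finset.mem_union]
    constructor
    · exact hall w
    · rintro (h | h)
      · obtain ⟨g, rfl⟩ := isConj_iff.1 h
        rw [order_conj, h₁]
      · obtain ⟨g, rfl⟩ := isConj_iff.1 h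
        rw [order_conj, h₂]
  have hdisj : Disjoint K₁ K₂ := by
    rw [Finset.disjoint_left]
    intro w hw1 hw2
    exact hnc ((Finset.mem_filter.1 hw1).2.trans (Finset.mem_filter.1 hw2).2.symm)
  rw [hIu, Finset.sum_union hdisj] at hdc
  have hs1 : ∀ w ∈ K₁, ((K₁ ×ˢ K₂).bipartiteBelow
      (fun p w => w ∈ Subgroup.zpowers (p.1 * p.2)) w).card =
      Nat.card {p : G × G // IsConj x₁ p.1 ∧ IsConj x₂ p.2 ∧
        x₁ ∈ Subgroup.zpowers (p.1 * p.2)} := by
    intro w hw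
    obtain ⟨g, rfl⟩ := isConj_iff.1 (Finset.mem_filter.1 hw).2
    rw [← hA, card_A_conj]
  have hs2 : ∀ w ∈ K₂, ((K₁ ×ˢ K₂).bipartiteBelow
      (fun p w => w ∈ Subgroup.zpowers (p.1 * p.2)) w).card =
      Nat.card {p : G × G // IsConj x₁ p.1 ∧ IsConj x₂ p.2 ∧
        x₂ ∈ Subgroup.zpowers (p.1 * p.2)} := by
    intro w hw
    obtain ⟨g, rfl⟩ := isConj_iff.1 (Finset.mem_filter.1 hw).2
    rw [← hA, card_A_conj]
  rw [Finset.sum_congr rfl hs1, Finset.sum_congr rfl hs2, Finset.sum_const, Finset.sum_const,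
    smul_eq_mul, smul_eq_mul] at hdc
  have hc1 := card_class_mul x₁
  have hc2 := card_class_mul x₂
  rw [Nat.card_eq_fintype_card, Fintype.card_subtype] at hc1 hc2
  set a₁ := Nat.card {p : G × G // IsConj x₁ p.1 ∧ IsConj x₂ p.2 ∧
        x₁ ∈ Subgroup.zpowers (p.1 * p.2)}
  set a₂ := Nat.card {p : G × G // IsConj x₁ p.1 ∧ IsConj x₂ p.2 ∧
        x₂ ∈ Subgroup.zpowers (p.1 * p.2)}
  set c₁ := Nat.card (Subgroup.centralizer ({x₁} : Set G))
  set c₂ := Nat.card (Subgroup.centralizer ({x₂} : Set G))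
  have hg : 0 < Nat.card G := Nat.card_pos
  have key : Nat.card G * Nat.card G = Nat.card G * (c₂ * a₁ + c₁ * a₂) := by
    calc Nat.card G * Nat.card G = (K₁.card * c₁) * (K₂.card * c₂) := by rw [hc1, hc2]
      _ = (K₁.card * K₂.card) * (c₁ * c₂) := by ring
      _ = (K₁.card * a₁ + K₂.card * a₂) * (c₁ * c₂) := by rw [hdc]
      _ = (K₁.card * c₁) * (c₂ * a₁) + (K₂.card * c₂) * (c₁ * a₂) := by ring
      _ = Nat.card G * (c₂ * a₁ + c₁ * a₂) := by rw [hc1, hc2]; ring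
  exact Nat.eq_of_mul_eq_mul_left hg key

end Cfsg.Agent.S0213
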