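import Cfsg.Statements.S0216
import Cfsg.Agent.Lib.Helper3.Invol2
open Cfsg.Agent.Lib.Helper3.Invol

set_option autoImplicit false
open Cfsg

namespace Cfsg.Agent.S0216

/-- For an involution u in a Sylow 2-subgroup P of a finite group G, the following are equivalent: no G-conjugate of u other than u lies in P; every commutator of u with an element of G has odd order. -/
theorem result {G : Type*} [Group G] [Finite G] (P : Sylow 2 G) (u : G) (hu : orderOf u = 2) (huP : u ∈ P) : (∀ g : G, g * u * g⁻¹ ∈ P → g * u * g⁻¹ = u) ↔ (∀ g : G, Odd (orderOf (u * g * u⁻¹ * g⁻¹))) := by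
  have hui := inv_of_order hu
  constructor
  · intro hiso g
    have hv : orderOf (g * u * g⁻¹) = 2 := by rw [order_conj, hu]
    have he : u * g * u⁻¹ * g⁻¹ = u * (g * u * g⁻¹) := by rw [hui]; group
    rw [he]
    by_contra hnodd
    rw [Nat.not_odd_iff_even] at hnodd
    obtain ⟨m, hm⟩ := hnodd
    rw [← two_mul] at hm
    have hpos : 0 < orderOf (u * (g * u * g⁻¹)) := orderOf_pos _
    have hm0 : m ≠ 0 := by omega
    obtain ⟨hz, hzu, -⟩ := central_invol hu hv hm0 hm
    have hconj : IsConj u ((u * (g * u * g⁻¹)) ^ (m : ℤ) * u) := by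
      have h := isConj_zpow_mul_x (sq_of_order hu) (sq_of_order hv) (m : ℤ)
      rcases Int.even_or_odd (m : ℤ) with h1 | h1
      · exact h.1 h1
      · exact (isConj_iff.2 ⟨g, rfl⟩ : IsConj u (g * u * g⁻¹)).trans (h.2 h1)
    rw [zpow_natCast] at hconj
    have hc : Commute u ((u * (g * u * g⁻¹)) ^ m * u) := (hzu.symm).mul_right (Commute.refl u)
    have := eq_of_isolated P hu hiso hconj hc
    exact ne_one_of_order hz (mul_right_cancel (this.trans (one_mul u).symm))
  · intro hodd g hg
    have he : u * g * u⁻¹ * g⁻¹ = u * (g * u * g⁻¹) := by rw [hui]; group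
    have h1 := hodd g
    rw [he] at h1
    have hmem : u * (g * u * g⁻¹) ∈ P := mul_mem huP hg
    obtain ⟨k, hk⟩ := P.2 ⟨_, hmem⟩
    have hk' : (u * (g * u * g⁻¹)) ^ 2 ^ k = 1 := congrArg Subtype.val hk
    have h2 := orderOf_dvd_of_pow_eq_one hk'
    have h3 : orderOf (u * (g * u * g⁻¹)) = 1 := by
      obtain ⟨j, -, hj⟩ := (Nat.dvd_prime_pow Nat.prime_two).1 h2
      rw [hj] at h1 ⊢
      rcases Nat.eq_zero_or_pos j with rfl | hj0
      · rfl
      · exact absurd h1 (by rw [Nat.not_odd_iff_even]; exact (Nat.even_pow.2 ⟨even_two, by omega⟩))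
    rw [orderOf_eq_one_iff] at h3
    exact (inv_eq_of_mul_eq_one_right h3).symm.trans hui

end Cfsg.Agent.S0216
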