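import Cfsg.Statements.S0218
import Cfsg.Agent.Lib.Helper3.Invol
open Cfsg.Agent.Lib.Helper3.Invol

set_option autoImplicit false
open Cfsg

namespace Cfsg.Agent.S0218

/-- The generalized quaternion group of order 2^(n+3) contains exactly one element of order 2. -/
theorem result (n : ℕ) : Nat.card {x : QuaternionGroup (2 ^ (n + 1)) // orderOf x = 2} = 1 := by
  have key : ∀ (N : ℕ) [NeZero N], Nat.card {x : QuaternionGroup N // orderOf x = 2} = 1 := by
    intro N _
    have hN : N ≠ 0 := NeZero.ne N
    have : NeZero (2 * N) := ⟨by omega⟩
    have hNN : ((N : ZMod (2 * N)) + (N : ZMod (2 * N))) = 0 := by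
      have : ((2 * N : ℕ) : ZMod (2 * N)) = 0 := ZMod.natCast_self _
      rw [two_mul] at this
      push_cast at this
      rw [← two_mul] at this
      convert this using 2
    have hN0 : (N : ZMod (2 * N)) ≠ 0 := by
      intro h
      rw [ZMod.natCast_eq_zero_iff] at h
      have := Nat.le_of_dvd (Nat.pos_of_ne_zero hN) h
      omega
    rw [Nat.card_eq_one_iff_unique]
    constructor
    · constructor
      have hall : ∀ x : {x : QuaternionGroup N // orderOf x = 2}, x.1 = QuaternionGroup.a N := by
        rintro ⟨x, hx⟩
        rcases x with i | i
        · obtain ⟨h1, h2⟩ := order_two_iff.1 hx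
          rw [QuaternionGroup.a_mul_a, QuaternionGroup.one_def, QuaternionGroup.a.injEq] at h2
          have hi0 : i ≠ 0 := by
            rintro rfl
            exact h1 rfl
          simp only [QuaternionGroup.a.injEq]
          have hv : i.val < 2 * N := ZMod.val_lt i
          have hv0 : i.val ≠ 0 := by
            intro h
            exact hi0 ((ZMod.val_eq_zero i).1 h)
          have h3 : ((i.val + i.val : ℕ) : ZMod (2 * N)) = 0 := by
            push_cast
            rw [ZMod.natCast_zmod_val, h2]
          rw [ZMod.natCast_eq_zero_iff] at h3
          obtain ⟨k, hk⟩ := h3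
          have hk1 : k = 1 := by
            rcases k with _ | _ | k
            · omega
            · rfl
            · exfalso
              have : 2 * N * (k + 1 + 1) ≥ 2 * N * 2 := Nat.mul_le_mul_left _ (by omega)
              omega
          subst hk1
          have : i.val = N := by omega
          have h4 := ZMod.natCast_zmod_val i
          rw [this] at h4
          exact h4.symm
        · rw [QuaternionGroup.orderOf_xa] at hx
          omega
      intro a b
      exact Subtype.ext ((hall a).trans (hall b).symm)
    · refine ⟨⟨QuaternionGroup.a N, order_two_iff.2 ⟨?_, ?_⟩⟩⟩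
      · rw [QuaternionGroup.one_def]
        intro h
        rw [QuaternionGroup.a.injEq] at h
        exact hN0 h
      · rw [QuaternionGroup.a_mul_a, hNN, QuaternionGroup.a_zero]
  exact key (2 ^ (n + 1))

end Cfsg.Agent.S0218
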