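import Cfsg.Statements.S0226
import Cfsg.Agent.Lib.Helper3.Invol
open Cfsg.Agent.Lib.Helper3.Invol

set_option autoImplicit false
open Cfsg

namespace Cfsg.Agent.S0226

/-- A finite group of even order has an odd number of involutions. -/
theorem result {G : Type*} [Group G] [Finite G] (heven : Even (Nat.card G)) : Odd (Nat.card {t : G // orderOf t = 2}) := by
  classical
  have : Fintype G := Fintype.ofFinite G
  have h := Equiv.Perm.card_fixedPoints_modEq (α := G) (f := (fun g => g⁻¹ : G → G)) (p := 2)
    (n := 1) (by
      funext g
      change (g⁻¹)⁻¹ = g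
      simp)
  have h2 : Nat.card (Function.fixedPoints (fun g => g⁻¹ : G → G)) =
      Nat.card {t : G // orderOf t = 2} + 1 := by
    rw [← Finite.card_option]
    symm
    refine Nat.card_congr (Equiv.ofBijective (fun o => match o with
      | none => ⟨1, by simp [Function.mem_fixedPoints, Function.IsFixedPt]⟩
      | some t => ⟨t.1, inv_of_order t.2⟩) ⟨?_, ?_⟩)
    · rintro (_ | ⟨t, ht⟩) (_ | ⟨t', ht'⟩) h
      · rfl
      · exfalso
        have : (1 : G) = t' := congrArg Subtype.val h
        exact ne_one_of_order ht' this.symm
      · exfalso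
        have : t = (1 : G) := congrArg Subtype.val h
        exact ne_one_of_order ht this
      · have : t = t' := congrArg Subtype.val h
        subst this
        rfl
    · rintro ⟨t, ht⟩
      by_cases h1 : t = 1
      · subst h1
        exact ⟨none, rfl⟩
      · refine ⟨some ⟨t, order_two_iff.2 ⟨h1, ?_⟩⟩, rfl⟩
        have : t⁻¹ = t := ht
        nth_rewrite 1 [← this]
        simp
  rw [← Nat.card_eq_fintype_card, ← Nat.card_eq_fintype_card, h2] at h
  have h3 : Nat.card G % 2 = 0 := Nat.even_iff.1 heven
  rw [Nat.odd_iff]
  unfold Nat.ModEq at h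
  omega

end Cfsg.Agent.S0226
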