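import Cfsg.Statements.S0229
import Cfsg.Agent.Lib.Helper3.Invol2
open Cfsg.Agent.Lib.Helper3.Invol

set_option autoImplicit false
open Cfsg

namespace Cfsg.Agent.S0229

/-- Let t be an involution of a Sylow 2-subgroup S of a finite group G, conjugate in G to no other element of S, and let s be an involution of G not conjugate to t. Then the order of st is twice an odd number. -/
theorem result {G : Type*} [Group G] [Finite G] (S : Sylow 2 G) (t : G) (ht : orderOf t = 2) (htS : t ∈ S) (hiso : ∀ g : G, g * t * g⁻¹ ∈ S → g * t * g⁻¹ = t) (s : G) (hs : orderOf s = 2) (hns : ¬ IsConj s t) : orderOf (s * t) % 4 = 2 := by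
  -- the order of `s * t` is even, since otherwise `s` and `t` are conjugate
  have hs2 := sq_of_order hs
  have ht2 := sq_of_order ht
  have heven : Even (orderOf (s * t)) := by
    by_contra hne
    rw [Nat.not_even_iff_odd] at hne
    obtain ⟨m, hm⟩ := hne
    apply hns
    have h := (isConj_zpow_mul_x hs2 ht2 (2 * (m : ℤ))).1 ⟨m, by ring⟩
    have h1 : (s * t) ^ ((2 * m + 1 : ℕ) : ℤ) = 1 := by
      rw [zpow_natCast, ← hm, pow_orderOf_eq_one]
    have h2 : (2 * (m : ℤ)) = ((2 * m + 1 : ℕ) : ℤ) + (-1) := by push_cast; ring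
    rw [h2, zpow_add, h1, one_mul, ← y_eq hs2 ht2] at h
    exact h
  obtain ⟨m, hm⟩ := heven
  rw [← two_mul] at hm
  have hpos : 0 < orderOf (s * t) := orderOf_pos _
  have hm0 : m ≠ 0 := by omega
  obtain ⟨hz, -, hzt⟩ := central_invol hs ht hm0 hm
  rcases Nat.even_or_odd m with hme | hmo
  · exfalso
    have hconj : IsConj t ((s * t) ^ ((m : ℤ) - 1) * s) := by
      refine (isConj_zpow_mul_x hs2 ht2 ((m : ℤ) - 1)).2 ?_
      have : Even (m : ℤ) := by exact_mod_cast hme
      exact this.sub_odd odd_one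
    have he : (s * t) ^ ((m : ℤ) - 1) * s = (s * t) ^ m * t := by
      have h := y_eq hs2 ht2
      calc (s * t) ^ ((m : ℤ) - 1) * s = (s * t) ^ (m : ℤ) * ((s * t) ^ (-1 : ℤ) * s) := by
            rw [← mul_assoc, ← zpow_add]; rfl
        _ = (s * t) ^ m * t := by rw [← h, zpow_natCast]
    rw [he] at hconj
    have hc : Commute t ((s * t) ^ m * t) := (hzt.symm).mul_right (Commute.refl t)
    have := eq_of_isolated S ht hiso hconj hc
    exact ne_one_of_order hz (mul_right_cancel (this.trans (one_mul t).symm))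
  · obtain ⟨k, hk⟩ := hmo
    omega

end Cfsg.Agent.S0229
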