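import Cfsg.Statements.S0230
import Cfsg.Agent.Lib.Helper3.Invol3
open Cfsg.Agent.Lib.Helper3.Invol

set_option autoImplicit false
open Cfsg

namespace Cfsg.Agent.S0230

/-- Let G be a finite group with two non-conjugate involutions, and let t be an involution whose centralizer has maximal order among centralizers of involutions. Then |G| < |C_G(t)|^3. -/
theorem result {G : Type*} [Group G] [Finite G] (s t : G) (hs : orderOf s = 2) (ht : orderOf t = 2) (hnc : ¬ IsConj s t) (hmax : ∀ u : G, orderOf u = 2 → Nat.card (Subgroup.centralizer ({u} : Set G)) ≤ Nat.card (Subgroup.centralizer ({t} : Set G))) : Nat.card G < Nat.card (Subgroup.centralizer ({t} : Set G)) ^ 3 := by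
  classical
  have : Fintype G := Fintype.ofFinite G
  set c := Nat.card (Subgroup.centralizer ({t} : Set G)) with hc
  have hK : (Finset.univ.filter (fun y : G => IsConj s y)) ⊆
      (Finset.univ.filter (fun z : G => orderOf z = 2 ∧ Commute z t)).biUnion
        (fun z => Finset.univ.filter (fun y : G => Commute z y)) := by
    intro y hy
    rw [Finset.mem_filter] at hy
    obtain ⟨g, rfl⟩ := isConj_iff.1 hy.2
    have hy2 : orderOf (g * s * g⁻¹) = 2 := by rw [order_conj, hs]
    obtain ⟨z, hz, hzy, hzt, -⟩ := exists_invol_commute hy2 ht (fun h => hnc (hy.2.trans h))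
    rw [Finset.mem_biUnion]
    exact ⟨z, by simp [hz, hzt], by simp [hzy]⟩
  have h1 := Finset.card_le_card hK
  have h2 := Finset.card_biUnion_le_card_mul
    (Finset.univ.filter (fun z : G => orderOf z = 2 ∧ Commute z t))
    (fun z => Finset.univ.filter (fun y : G => Commute z y)) c (by
      intro z hz
      rw [Finset.mem_filter] at hz
      have := hmax z hz.2.1
      rw [card_centralizer_eq, Nat.card_eq_fintype_card, Fintype.card_subtype] at this
      exact this)
  have h3 := card_invol_centralizer_lt t
  rw [Nat.card_eq_fintype_card, Fintype.card_subtype, ← hc] at h3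
  have h4 := card_class_mul s
  rw [Nat.card_eq_fintype_card, Fintype.card_subtype] at h4
  have h5 := hmax s hs
  set k := (Finset.univ.filter (fun y : G => IsConj s y)).card
  set zc := (Finset.univ.filter (fun z : G => orderOf z = 2 ∧ Commute z t)).card
  have h6 : k ≤ zc * c := h1.trans h2
  have hcpos : 0 < c := by omega
  calc Nat.card G = k * Nat.card (Subgroup.centralizer ({s} : Set G)) := h4.symm
    _ ≤ (zc * c) * c := Nat.mul_le_mul h6 h5
    _ < ((zc + 1) * c) * c := by
        apply Nat.mul_lt_mul_of_pos_right _ hcpos
        apply Nat.mul_lt_mul_of_pos_right _ hcpos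
        omega
    _ ≤ (c * c) * c := by
        apply Nat.mul_le_mul_right
        apply Nat.mul_le_mul_right
        exact h3
    _ = c ^ 3 := by ring

end Cfsg.Agent.S0230
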