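import Cfsg.Statements.S0231
import Cfsg.Agent.Lib.Helper3.Invol2
open Cfsg.Agent.Lib.Helper3.Invol

set_option autoImplicit false
open scoped Pointwise
open Cfsg

namespace Cfsg.Agent.S0231

/-- Let T be a Sylow 2-subgroup of the finite group G which is not normal and which intersects every other Sylow 2-subgroup trivially. Then G has a single conjugacy class of involutions. -/
theorem result {G : Type*} [Group G] [Finite G] (T : Sylow 2 G) (hnn : ¬ (T : Subgroup G).Normal) (hTI : ∀ g : G, MulAut.conj g • (T : Subgroup G) ≠ T → MulAut.conj g • (T : Subgroup G) ⊓ T = ⊥) (s t : G) (hs : orderOf s = 2) (ht : orderOf t = 2) : IsConj s t := by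
  -- elementwise form of the TI hypothesis
  have L1 : ∀ g a : G, a ≠ 1 → a ∈ T → g * a * g⁻¹ ∈ T → MulAut.conj g • (T : Subgroup G) = T := by
    intro g a ha haT hga
    by_contra hne
    have h1 : g * a * g⁻¹ ∈ MulAut.conj g • (T : Subgroup G) ⊓ T := ⟨⟨a, haT, rfl⟩, hga⟩
    rw [hTI g hne, Subgroup.mem_bot] at h1
    apply ha
    have : g * a * g⁻¹ = g * 1 * g⁻¹ := by rw [h1]; group
    exact mul_left_cancel (mul_right_cancel this)
  have L1a : ∀ g : G, MulAut.conj g • (T : Subgroup G) = T → ∀ b, b ∈ T → g * b * g⁻¹ ∈ T := by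
    intro g hg b hb
    have : g * b * g⁻¹ ∈ MulAut.conj g • (T : Subgroup G) := ⟨b, hb, rfl⟩
    rwa [hg] at this
  have L1b : ∀ g : G, MulAut.conj g • (T : Subgroup G) = T → ∀ b, g * b * g⁻¹ ∈ T → b ∈ T := by
    intro g hg b hb
    have hb' : g * b * g⁻¹ ∈ (T : Subgroup G) := hb
    rw [← hg] at hb'
    obtain ⟨c, hc, hcb⟩ := hb'
    have : g * c * g⁻¹ = g * b * g⁻¹ := hcb
    rw [← mul_left_cancel (mul_right_cancel this)]
    exact hc
  have L2 : ∀ a b : G, orderOf a = 2 → orderOf b = 2 → ¬ IsConj a b →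
      ∃ h : G, h * a * h⁻¹ ∈ T ∧ h * b * h⁻¹ ∈ T := by
    intro a b ha hb hnc
    have ha2 := sq_of_order ha
    have hb2 := sq_of_order hb
    have heven : Even (orderOf (a * b)) := by
      by_contra hne
      rw [Nat.not_even_iff_odd] at hne
      obtain ⟨m, hm⟩ := hne
      apply hnc
      have h := (isConj_zpow_mul_x ha2 hb2 (2 * (m : ℤ))).1 ⟨m, by ring⟩
      have h1 : (a * b) ^ ((2 * m + 1 : ℕ) : ℤ) = 1 := by
        rw [zpow_natCast, ← hm, pow_orderOf_eq_one]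
      have h2 : (2 * (m : ℤ)) = ((2 * m + 1 : ℕ) : ℤ) + (-1) := by push_cast; ring
      rw [h2, zpow_add, h1, one_mul, ← y_eq ha2 hb2] at h
      exact h
    obtain ⟨m, hm⟩ := heven
    rw [← two_mul] at hm
    have hpos : 0 < orderOf (a * b) := orderOf_pos _
    have hm0 : m ≠ 0 := by omega
    obtain ⟨hz, hza, hzb⟩ := central_invol ha hb hm0 hm
    set z := (a * b) ^ m with hzdef
    obtain ⟨h1, hh1⟩ := exists_conj_mem_sylow T
      (isPGroup_closure_of_commute (sq_of_order hz) ha2 hza)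
    obtain ⟨h2, hh2⟩ := exists_conj_mem_sylow T
      (isPGroup_closure_of_commute (sq_of_order hz) hb2 hzb)
    have hz1 := hh1 z (Subgroup.subset_closure (by simp))
    have ha1 := hh1 a (Subgroup.subset_closure (by simp))
    have hz2 := hh2 z (Subgroup.subset_closure (by simp))
    have hb1 := hh2 b (Subgroup.subset_closure (by simp))
    have hne1 : h1 * z * h1⁻¹ ≠ 1 := by
      apply ne_one_of_order; rw [order_conj, hz]
    have he : ∀ c, (h2 * h1⁻¹) * (h1 * c * h1⁻¹) * (h2 * h1⁻¹)⁻¹ = h2 * c * h2⁻¹ := by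
      intro c; group
    have hN := L1 (h2 * h1⁻¹) (h1 * z * h1⁻¹) hne1 hz1 (by rw [he]; exact hz2)
    refine ⟨h2, ?_, hb1⟩
    rw [← he]
    exact L1a _ hN _ ha1
  by_contra hnc
  obtain ⟨h, hsT, htT⟩ := L2 s t hs ht hnc
  -- a conjugate of `T` different from `T`
  obtain ⟨g₀, hg₀⟩ : ∃ g₀ : G, MulAut.conj g₀ • (T : Subgroup G) ≠ T := by
    by_contra hcon
    push Not at hcon
    exact hnn ⟨fun n hn g => L1a g (hcon g) n hn⟩
  have hs1 : orderOf (h * s * h⁻¹) = 2 := by rw [order_conj, hs]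
  have ht1 : orderOf (h * t * h⁻¹) = 2 := by rw [order_conj, ht]
  have hs2 : orderOf (g₀ * (h * s * h⁻¹) * g₀⁻¹) = 2 := by rw [order_conj, hs1]
  have hnc2 : ¬ IsConj (g₀ * (h * s * h⁻¹) * g₀⁻¹) (h * t * h⁻¹) := by
    intro hc
    apply hnc
    have c1 : IsConj s (g₀ * (h * s * h⁻¹) * g₀⁻¹) :=
      (isConj_iff.2 ⟨h, rfl⟩ : IsConj s (h * s * h⁻¹)).trans (isConj_iff.2 ⟨g₀, rfl⟩)
    have c2 : IsConj t (h * t * h⁻¹) := isConj_iff.2 ⟨h, rfl⟩
    exact (c1.trans hc).trans c2.symm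
  obtain ⟨k, hk1, hk2⟩ := L2 _ _ hs2 ht1 hnc2
  have hN := L1 k _ (ne_one_of_order ht1) htT hk2
  have h3 := L1b k hN _ hk1
  exact hg₀ (L1 g₀ _ (ne_one_of_order hs1) hsT h3)

end Cfsg.Agent.S0231
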