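import Cfsg.Statements.S0233
import Cfsg.Agent.Lib.Helper3.BrauerFowler
open Cfsg.Agent.Lib.Helper3.Invol Cfsg.Agent.Lib.Helper3.BrauerFowler

set_option autoImplicit false
open Cfsg

namespace Cfsg.Agent.S0233

/-- Let G be a finite group of even order with exactly n involutions whose centre has odd order, and put a = |G|/n. Then G has a proper subgroup H with |G : H| = 2 or |G : H| < a(a+1)/2; over ℕ the latter reads 2·|G:H|·n² < |G|·(|G| + n). -/
theorem result {G : Type*} [Group G] [Finite G] (heven : Even (Nat.card G)) (hZ : Odd (Nat.card (Subgroup.center G))) : ∃ H : Subgroup G, H ≠ ⊤ ∧ (H.index = 2 ∨ 2 * H.index * (Nat.card {t : G // orderOf t = 2}) ^ 2 < Nat.card G * (Nat.card G + Nat.card {t : G // orderOf t = 2})) := by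
  by_cases h2 : ∃ H : Subgroup G, H.index = 2
  · obtain ⟨H, hH⟩ := h2
    exact ⟨H, by rintro rfl; simp at hH, Or.inl hH⟩
  · push Not at h2
    have hnt : Nontrivial G := by
      rw [← Finite.one_lt_card_iff_nontrivial]
      obtain ⟨k, hk⟩ := heven
      have : 0 < Nat.card G := Nat.card_pos
      omega
    obtain ⟨H, hH, -, h⟩ := bf_index h2 (fun t ht hc => (odd_card_iff_no_invol _).1 hZ t hc ht)
    refine ⟨H, hH, Or.inr ?_⟩
    have hg : 0 < Nat.card G := Nat.card_pos
    calc 2 * H.index * (Nat.card {t : G // orderOf t = 2}) ^ 2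
        < 2 * H.index * mInv G ^ 2 + 2 * H.index * mInv G + Nat.card G := by
          change 2 * H.index * mInv G ^ 2 < _
          omega
      _ ≤ Nat.card G * Nat.card G + mInv G * Nat.card G := h
      _ = Nat.card G * (Nat.card G + Nat.card {t : G // orderOf t = 2}) := by ring

end Cfsg.Agent.S0233
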