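import Cfsg.Statements.S0234
import Cfsg.Agent.Lib.Helper3.BrauerFowler
open Cfsg.Agent.Lib.Helper3.Invol Cfsg.Agent.Lib.Helper3.BrauerFowler

set_option autoImplicit false
open Cfsg

namespace Cfsg.Agent.S0234

set_option maxRecDepth 100000 in
theorem card_even_invol_five : (Finset.univ.filter (fun σ : Equiv.Perm (Fin 5) =>
    σ ≠ 1 ∧ σ * σ = 1 ∧ Equiv.Perm.sign σ = 1)).card = 15 := by
  decide +kernel

theorem toPermHom_injective {G : Type*} [Group G] [IsSimpleGroup G] {H : Subgroup G}
    (hH : H ≠ ⊤) : Function.Injective (MulAction.toPermHom G (G ⧸ H)) := by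
  rw [← MonoidHom.ker_eq_bot_iff]
  rcases (MulAction.toPermHom G (G ⧸ H)).normal_ker.eq_bot_or_eq_top with h | h
  · exact h
  · exfalso
    apply hH
    rw [eq_top_iff]
    intro g _
    have hg : g ∈ (MulAction.toPermHom G (G ⧸ H)).ker := by rw [h]; trivial
    have h1 : MulAction.toPermHom G (G ⧸ H) g = 1 := hg
    have h2 : g • (QuotientGroup.mk 1 : G ⧸ H) = QuotientGroup.mk 1 := by
      have := congrArg (fun σ : Equiv.Perm (G ⧸ H) => σ (QuotientGroup.mk 1)) h1
      exact this
    rw [MulAction.Quotient.smul_mk, eq_comm, QuotientGroup.eq, smul_eq_mul, inv_one, one_mul,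
      mul_one] at h2
    exact h2

/-- In a finite simple group G of even order greater than 2, the number n of involutions satisfies 3n < |G|. -/
theorem result {G : Type*} [Group G] [Finite G] [IsSimpleGroup G] (heven : Even (Nat.card G)) (hgt : 2 < Nat.card G) : 3 * Nat.card {t : G // orderOf t = 2} < Nat.card G := by
  classical
  by_contra hcon
  rw [not_lt] at hcon
  have h2 : ∀ H : Subgroup G, H.index ≠ 2 := by
    intro H hH
    have hn := Subgroup.normal_of_index_eq_two hH
    rcases hn.eq_bot_or_eq_top with h | h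
    · rw [h, Subgroup.index_bot] at hH
      omega
    · rw [h, Subgroup.index_top] at hH
      omega
  have hcen : ∀ t : G, orderOf t = 2 → t ∉ Subgroup.center G := by
    intro z hz hzc
    have hZn : (Subgroup.zpowers z).Normal := by
      constructor
      intro x hx g
      obtain ⟨i, rfl⟩ := Subgroup.mem_zpowers_iff.1 hx
      have : g * z ^ i * g⁻¹ = z ^ i := by
        have h3 : z ^ i ∈ Subgroup.center G := zpow_mem hzc i
        rw [Subgroup.mem_center_iff] at h3
        rw [h3 g, mul_assoc, mul_inv_cancel, mul_one]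
      rw [this]
      exact Subgroup.zpow_mem_zpowers _ _
    have hZc : Nat.card (Subgroup.zpowers z) = 2 := by rw [Nat.card_zpowers, hz]
    rcases hZn.eq_bot_or_eq_top with h | h
    · rw [h, Subgroup.card_bot] at hZc
      omega
    · rw [h, Subgroup.card_top] at hZc
      omega
  obtain ⟨H, hH, -, h⟩ := bf_index h2 hcen
  change Nat.card G ≤ 3 * mInv G at hcon
  set m := mInv G with hm
  set g := Nat.card G with hg
  have hidx : H.index ≤ 5 := by
    by_contra h6
    have h6' : 6 ≤ H.index := by omega
    have e1 : g * g ≤ (3 * m) * (3 * m) := Nat.mul_le_mul hcon hcon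
    have e2 : m * g ≤ m * (3 * m) := Nat.mul_le_mul_left _ hcon
    have e3 : 2 * 6 * m ^ 2 ≤ 2 * H.index * m ^ 2 :=
      Nat.mul_le_mul_right _ (Nat.mul_le_mul_left _ h6')
    nlinarith
  have : Fintype (G ⧸ H) := Fintype.ofFinite _
  obtain ⟨e⟩ : Nonempty ((G ⧸ H) ↪ Fin 5) := Function.Embedding.nonempty_of_card_le (by
    rw [Fintype.card_fin, ← Nat.card_eq_fintype_card]
    exact hidx)
  set φ : G →* Equiv.Perm (Fin 5) :=
    (Equiv.Perm.viaEmbeddingHom e).comp (MulAction.toPermHom G (G ⧸ H)) with hφ
  have hφi : Function.Injective φ :=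
    (Equiv.Perm.viaEmbeddingHom_injective e).comp (toPermHom_injective hH)
  have hsign : ∀ x, Equiv.Perm.sign (φ x) = 1 := by
    rcases (Equiv.Perm.sign.comp φ).normal_ker.eq_bot_or_eq_top with hk | hk
    · exfalso
      have hinj : Function.Injective (Equiv.Perm.sign.comp φ) := (MonoidHom.ker_eq_bot_iff _).1 hk
      have := Nat.card_le_card_of_injective _ hinj
      rw [Nat.card_eq_fintype_card (α := ℤˣ), Fintype.card_units_int] at this
      omega
    · intro x
      have : x ∈ (Equiv.Perm.sign.comp φ).ker := by rw [hk]; trivial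
      exact this
  have hm15 : m ≤ 15 := by
    rw [← card_even_invol_five, ← Fintype.card_subtype, ← Nat.card_eq_fintype_card]
    refine Nat.card_le_card_of_injective (fun t : {t : G // orderOf t = 2} =>
      (⟨φ t.1, ?_, ?_, hsign _⟩ : {σ : Equiv.Perm (Fin 5) //
        σ ≠ 1 ∧ σ * σ = 1 ∧ Equiv.Perm.sign σ = 1})) ?_
    · intro h1
      rw [← map_one φ] at h1
      exact ne_one_of_order t.2 (hφi h1)
    · rw [← map_mul, sq_of_order t.2, map_one]
    · intro a b hab
      have : φ a.1 = φ b.1 := congrArg (fun z : {σ : Equiv.Perm (Fin 5) //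
        σ ≠ 1 ∧ σ * σ = 1 ∧ Equiv.Perm.sign σ = 1} => z.1) hab
      exact Subtype.ext (hφi this)
  set φ' : G →* alternatingGroup (Fin 5) := φ.codRestrict (alternatingGroup (Fin 5))
    (fun x => Equiv.Perm.mem_alternatingGroup.2 (hsign x)) with hφ'
  have hφ'i : Function.Injective φ' := by
    intro a b hab
    exact hφi (congrArg Subtype.val hab)
  have hK : Nat.card φ'.range = g := (Nat.card_congr (MonoidHom.ofInjective hφ'i).toEquiv).symm
  have h60 : Nat.card (alternatingGroup (Fin 5)) = 60 := by
    rw [nat_card_alternatingGroup]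
    simp [Nat.factorial]
  have hmul := φ'.range.card_mul_index
  rw [hK, h60] at hmul
  have hKtop : φ'.range ≠ ⊤ := by
    intro htop
    rw [htop, Subgroup.index_top] at hmul
    omega
  have hfac := card_le_factorial_index hKtop
  rw [h60] at hfac
  have hidx5 : 5 ≤ φ'.range.index := by
    by_contra h5
    have h4 : φ'.range.index ≤ 4 := by omega
    have := Nat.factorial_le h4
    have h24 : Nat.factorial 4 = 24 := rfl
    omega
  have hg12 : g ≤ 12 := by
    by_contra h13
    have : 13 * 5 ≤ g * φ'.range.index := Nat.mul_le_mul (by omega) hidx5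
    omega
  obtain ⟨t, ht⟩ := exists_prime_orderOf_dvd_card' (G := G) 2 heven.two_dvd
  have hZc : Nat.card (Subgroup.zpowers t) = 2 := by rw [Nat.card_zpowers, ht]
  have hZi := (Subgroup.zpowers t).card_mul_index
  rw [hZc, ← hg] at hZi
  by_cases hodd : 2 ∣ (Subgroup.zpowers t).index
  · -- g is divisible by 4
    obtain ⟨j, hj⟩ := hodd
    have hj' : g = 4 * j := by omega
    have hj3 : j = 1 ∨ j = 3 := by
      have hjle : j ≤ 3 := by omega
      have hjpos : 0 < j := by omega
      interval_cases j
      · left; rfl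
      · exfalso
        rw [hj'] at hmul
        omega
      · right; rfl
    rcases hj3 with rfl | rfl
    · exact h2 _ (by omega)
    · obtain ⟨Q, hQ⟩ := Sylow.exists_subgroup_card_pow_prime (G := G) 2 (n := 2)
        (by rw [← hg, hj']; exact ⟨3, by norm_num⟩)
      have hQi := Q.card_mul_index
      rw [hQ, ← hg, hj'] at hQi
      have hQ3 : Q.index = 3 := by omega
      have hQtop : Q ≠ ⊤ := by
        rintro rfl
        simp at hQ3
      have := card_le_factorial_index hQtop
      rw [hQ3, ← hg, hj'] at this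
      have h6 : Nat.factorial 3 = 6 := rfl
      omega
  · have hZp : IsPGroup 2 (Subgroup.zpowers t) := IsPGroup.of_card (n := 1) (by rw [hZc, pow_one])
    obtain ⟨H', hH'⟩ := exists_index_two_of_cyclic_sylow heven (hZp.toSylow hodd) (by
      rw [IsPGroup.toSylow_coe]
      infer_instance)
    exact h2 H' hH'

end Cfsg.Agent.S0234
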