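import Cfsg.Statements.S0235
import Cfsg.Agent.Lib.Helper3.Invol
open Cfsg.Agent.Lib.Helper3.Invol

set_option autoImplicit false
open Cfsg

namespace Cfsg.Agent.S0235

/-- If x² ≠ 1, the ordered pairs (u, v) of involutions with uv = x correspond bijectively to the involutions t with t x t⁻¹ = x⁻¹ (via (u, v) ↦ u), so the two counts agree. -/
theorem result {G : Type*} [Group G] [Finite G] (x : G) (hx : x ^ 2 ≠ 1) : Nat.card {p : G × G // orderOf p.1 = 2 ∧ orderOf p.2 = 2 ∧ p.1 * p.2 = x} = Nat.card {t : G // orderOf t = 2 ∧ t * x * t⁻¹ = x⁻¹} := by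
  refine Nat.card_congr ⟨fun p => ⟨p.1.1, p.2.1, ?_⟩, fun t => ⟨(t.1, t.1 * x), t.2.1, ?_, ?_⟩, ?_, ?_⟩
  · obtain ⟨⟨s, t⟩, hs, ht, rfl⟩ := p
    simp only
    rw [mul_inv_rev, inv_of_order hs, inv_of_order ht, ← mul_assoc, sq_of_order hs, one_mul]
  · obtain ⟨t, ht, hinv⟩ := t
    simp only
    rw [order_two_iff]
    constructor
    · intro h
      apply hx
      have : x = t := by rw [← inv_of_order ht]; exact eq_inv_of_mul_eq_one_right h
      rw [this, pow_two, sq_of_order ht]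
    · rw [inv_of_order ht] at hinv
      rw [← mul_assoc, hinv, inv_mul_cancel]
  · obtain ⟨t, ht, hinv⟩ := t
    simp only
    rw [← mul_assoc, sq_of_order ht, one_mul]
  · rintro ⟨⟨s, t⟩, hs, ht, rfl⟩
    simp only [Subtype.mk.injEq, Prod.mk.injEq, true_and]
    rw [← mul_assoc, sq_of_order hs, one_mul]
  · rintro ⟨t, ht, hinv⟩
    rfl

end Cfsg.Agent.S0235
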