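import Cfsg.Statements.S0239
import Cfsg.Agent.Lib.Helper3.Invol
open Cfsg.Agent.Lib.Helper3.Invol

set_option autoImplicit false
open Cfsg

namespace Cfsg.Agent.S0239

/-- If some nontrivial element x of a finite group G is conjugate to x⁻¹, then |G| is even. -/
theorem result {G : Type*} [Group G] [Finite G] (x : G) (hx : x ≠ 1) (hreal : IsConj x x⁻¹) : Even (Nat.card G) := by
  by_contra hodd
  rw [Nat.not_even_iff_odd] at hodd
  obtain ⟨g, hg⟩ := isConj_iff.1 hreal
  have hgodd : Odd (orderOf g) := hodd.of_dvd_nat (orderOf_dvd_natCard g)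
  obtain ⟨k, hk⟩ := hgodd
  have h2 : g * g ∈ Subgroup.centralizer ({x} : Set G) := by
    rw [Subgroup.mem_centralizer_singleton_iff]
    have h1 : g * x = x⁻¹ * g := by rw [← hg]; group
    have h3 : g * x⁻¹ = x * g := by
      have : g * x⁻¹ * g⁻¹ = x := by
        rw [← inv_inj, mul_inv_rev, mul_inv_rev, inv_inv, inv_inv, ← mul_assoc, hg]
      exact mul_inv_eq_iff_eq_mul.1 this
    rw [mul_assoc, h1, ← mul_assoc, h3, mul_assoc]
  have h3 : g ∈ Subgroup.centralizer ({x} : Set G) := by
    have : g = (g * g) ^ (k + 1) := by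
      rw [← pow_two, ← pow_mul]
      have : 2 * (k + 1) = orderOf g + 1 := by omega
      rw [this, pow_succ, pow_orderOf_eq_one, one_mul]
    rw [this]
    exact pow_mem h2 _
  rw [Subgroup.mem_centralizer_singleton_iff] at h3
  rw [h3, mul_assoc, mul_inv_cancel, mul_one] at hg
  have h4 : x ^ 2 = 1 := by
    rw [pow_two]; nth_rewrite 1 [hg]; simp
  have h5 : orderOf x ∣ 2 := orderOf_dvd_of_pow_eq_one h4
  have h6 : Odd (orderOf x) := hodd.of_dvd_nat (orderOf_dvd_natCard x)
  have h7 : orderOf x = 1 := by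
    rcases (Nat.dvd_prime Nat.prime_two).1 h5 with h | h
    · exact h
    · rw [h] at h6; exact absurd h6 (by decide)
  exact hx (orderOf_eq_one_iff.1 h7)

end Cfsg.Agent.S0239
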