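import Cfsg.Statements.S0240
import Cfsg.Agent.Lib.Helper3.Invol
open Cfsg.Agent.Lib.Helper3.Invol

set_option autoImplicit false
open Cfsg

namespace Cfsg.Agent.S0240

/-- Let G be a finite group with n involutions and H a subgroup with |H|·(n+1) > |G|. Then some nontrivial h ∈ H is strongly real in G: an involution t of G satisfies t h t⁻¹ = h⁻¹. -/
theorem result {G : Type*} [Group G] [Finite G] (H : Subgroup G) (hH : Nat.card G < Nat.card H * (Nat.card {t : G // orderOf t = 2} + 1)) : ∃ h : G, h ∈ H ∧ h ≠ 1 ∧ ∃ t : G, orderOf t = 2 ∧ t * h * t⁻¹ = h⁻¹ := by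
  classical
  have hcard : Nat.card {s : G // s * s = 1} = Nat.card {t : G // orderOf t = 2} + 1 := by
    rw [← Finite.card_option]
    symm
    refine Nat.card_congr (Equiv.ofBijective (fun o => match o with
      | none => ⟨1, by simp⟩
      | some t => ⟨t.1, sq_of_order t.2⟩) ⟨?_, ?_⟩)
    · rintro (_ | ⟨t, ht⟩) (_ | ⟨t', ht'⟩) h
      · rfl
      · exfalso
        have : (1 : G) = t' := congrArg Subtype.val h
        exact ne_one_of_order ht' this.symm
      · exfalso
        have : t = (1 : G) := congrArg Subtype.val h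
        exact ne_one_of_order ht this
      · have : t = t' := congrArg Subtype.val h
        subst this
        rfl
    · rintro ⟨t, ht⟩
      by_cases h1 : t = 1
      · subst h1
        exact ⟨none, rfl⟩
      · exact ⟨some ⟨t, order_two_iff.2 ⟨h1, ht⟩⟩, rfl⟩
  have hlt : Nat.card (G ⧸ H) < Nat.card {s : G // s * s = 1} := by
    rw [hcard]
    have h1 := Subgroup.card_eq_card_quotient_mul_card_subgroup H
    rw [h1, mul_comm] at hH
    exact Nat.lt_of_mul_lt_mul_left hH
  have : Fintype {s : G // s * s = 1} := Fintype.ofFinite _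
  have : Fintype (G ⧸ H) := Fintype.ofFinite _
  rw [Nat.card_eq_fintype_card, Nat.card_eq_fintype_card] at hlt
  obtain ⟨⟨s, hs⟩, ⟨t, ht⟩, hne, heq⟩ := Fintype.exists_ne_map_eq_of_card_lt
    (fun s : {s : G // s * s = 1} => (QuotientGroup.mk s.1 : G ⧸ H)) hlt
  simp only at heq
  rw [QuotientGroup.eq] at heq
  have hne' : s ≠ t := fun h => hne (Subtype.ext h)
  have hsi : s⁻¹ = s := inv_eq_of_mul_eq_one_left hs
  have hti : t⁻¹ = t := inv_eq_of_mul_eq_one_left ht
  refine ⟨s⁻¹ * t, heq, ?_, ?_⟩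
  · intro h
    exact hne' (inv_mul_eq_one.1 h)
  · by_cases h1 : s = 1
    · subst h1
      refine ⟨t, order_two_iff.2 ⟨fun h => hne' h.symm, ht⟩, ?_⟩
      simp [hti, ht]
    · refine ⟨s, order_two_iff.2 ⟨h1, hs⟩, ?_⟩
      rw [mul_inv_rev, inv_inv, hsi, hti, ← mul_assoc, hs, one_mul]

end Cfsg.Agent.S0240
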