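import Cfsg.Statements.S0241
import Cfsg.Agent.Lib.Helper3.Invol
open Cfsg.Agent.Lib.Helper3.Invol

set_option autoImplicit false
open Cfsg

namespace Cfsg.Agent.S0241

/-- If x ≠ 1 is conjugate to x⁻¹ in a finite group G and |C_G(x)| is odd, then some involution t satisfies t x t⁻¹ = x⁻¹. -/
theorem result {G : Type*} [Group G] [Finite G] (x : G) (hx : x ≠ 1) (hreal : IsConj x x⁻¹) (hodd : Odd (Nat.card (Subgroup.centralizer ({x} : Set G)))) : ∃ t : G, orderOf t = 2 ∧ t * x * t⁻¹ = x⁻¹ := by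
  obtain ⟨g, hg⟩ := isConj_iff.1 hreal
  obtain ⟨k, hk⟩ := hodd
  have h1 : g * x = x⁻¹ * g := by rw [← hg]; group
  have h3 : g * x⁻¹ = x * g := by
    have : g * x⁻¹ * g⁻¹ = x := by
      rw [← inv_inj, mul_inv_rev, mul_inv_rev, inv_inv, inv_inv, ← mul_assoc, hg]
    exact mul_inv_eq_iff_eq_mul.1 this
  have h2 : g * g ∈ Subgroup.centralizer ({x} : Set G) := by
    rw [Subgroup.mem_centralizer_singleton_iff]
    rw [mul_assoc, h1, ← mul_assoc, h3, mul_assoc]
  have h4 : (g * g) ^ (2 * k + 1) = 1 := by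
    have := pow_card_eq_one' (x := (⟨g * g, h2⟩ : Subgroup.centralizer ({x} : Set G)))
    rw [hk] at this
    exact congrArg Subtype.val this
  have h5 : (g * g) ^ k ∈ Subgroup.centralizer ({x} : Set G) := pow_mem h2 k
  rw [Subgroup.mem_centralizer_singleton_iff] at h5
  have h6 : g ^ (2 * k + 1) = (g * g) ^ k * g := by
    rw [pow_succ, pow_mul, pow_two]
  have hinv : g ^ (2 * k + 1) * x * (g ^ (2 * k + 1))⁻¹ = x⁻¹ := by
    rw [h6, mul_inv_rev, mul_assoc _ g x, h1, mul_assoc, mul_assoc, mul_inv_cancel_left]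
    have h7 : (g * g) ^ k * x⁻¹ = x⁻¹ * (g * g) ^ k := by
      have : x⁻¹ * ((g * g) ^ k * x) * x⁻¹ = x⁻¹ * (x * (g * g) ^ k) * x⁻¹ := by rw [h5]
      rw [mul_assoc, mul_assoc, mul_inv_cancel, mul_one, ← mul_assoc, inv_mul_cancel,
        one_mul] at this
      exact this.symm
    rw [← mul_assoc, h7, mul_assoc, mul_inv_cancel, mul_one]
  refine ⟨g ^ (2 * k + 1), order_two_iff.2 ⟨?_, ?_⟩, hinv⟩
  · intro h
    rw [h] at hinv
    simp only [one_mul, inv_one, mul_one] at hinv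
    -- x = x⁻¹, so x has order two inside its centralizer of odd order
    have hx2 : x * x = 1 := by nth_rewrite 1 [hinv]; simp
    have hxo : orderOf x = 2 := order_two_iff.2 ⟨hx, hx2⟩
    have hxm : x ∈ Subgroup.centralizer ({x} : Set G) :=
      Subgroup.mem_centralizer_singleton_iff.2 rfl
    have := orderOf_dvd_natCard (⟨x, hxm⟩ : Subgroup.centralizer ({x} : Set G))
    rw [Subgroup.orderOf_mk, hxo, hk] at this
    omega
  · rw [← pow_add, ← two_mul, pow_mul, pow_two, h4]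

end Cfsg.Agent.S0241
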