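import Mathlib
import Cfsg.Statements.S0246
import Cfsg.Agent.Lib.Helper5.SympSimple

set_option autoImplicit false
open Cfsg

namespace Cfsg.Agent.S0246


open Matrix Cfsg.Agent.Lib.Helper5.Symp Cfsg.Agent.Lib.Helper5.SympGen
  Cfsg.Agent.Lib.Helper5.SympBridge Cfsg.Agent.Lib.Helper5.SympPrim
  Cfsg.Agent.Lib.Helper5.SympPerfect Cfsg.Agent.Lib.Helper5.SympSimple

theorem central_scalar {F : Type*} [Field F] {m : ℕ} (A : Matrix.symplecticGroup (Fin m) F)
    (hA : A ∈ Subgroup.center (Matrix.symplecticGroup (Fin m) F)) :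
    ∃ s : F, ∀ v, (A : Matrix (Fin m ⊕ Fin m) (Fin m ⊕ Fin m) F) *ᵥ v = s • v := by
  apply scalar_of_fix_lines
  intro w
  by_cases hw : w = 0
  · exact ⟨0, by simp [hw]⟩
  have h1 : tv ((A : Matrix (Fin m ⊕ Fin m) (Fin m ⊕ Fin m) F) *ᵥ w) 1 = tv w 1 := by
    rw [← conj_tv, ← Subgroup.mem_center_iff.mp hA (tv w 1), mul_assoc, mul_inv_cancel, mul_one]
  have hAw := mulVec_ne_zero A hw
  obtain ⟨x, hx⟩ := exists_partner_one _ hAw
  have h2 := congrArg (fun B : Matrix.symplecticGroup (Fin m) F =>
      (B : Matrix (Fin m ⊕ Fin m) (Fin m ⊕ Fin m) F) *ᵥ x) h1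
  simp only [tv_mulVec] at h2
  rw [sympForm_swap x, hx] at h2
  have h3 := add_left_cancel h2
  refine ⟨-(1 * Cfsg.sympForm m F x w), ?_⟩
  rw [neg_smul, ← h3]
  simp

/-- The centre of Sp_{2m}(q), m at least 1, is {1, -1}: it has order gcd(2, q-1). -/
theorem result {F : Type*} [Field F] [Fintype F] {q : ℕ} (hF : Fintype.card F = q) (m : ℕ) (hm : 1 ≤ m) : Nat.card (Subgroup.center (Matrix.symplecticGroup (Fin m) F)) = Nat.gcd 2 (q - 1) := by
  classical
  obtain ⟨negOne, hnegOne⟩ : ∃ B : Matrix.symplecticGroup (Fin m) F,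
      (B : Matrix (Fin m ⊕ Fin m) (Fin m ⊕ Fin m) F) = -1 :=
    ⟨⟨-1, SymplecticGroup.neg_mem (Submonoid.one_mem _)⟩, rfl⟩
  have hset : ((Subgroup.center (Matrix.symplecticGroup (Fin m) F) : Subgroup _) :
      Set (Matrix.symplecticGroup (Fin m) F)) = {1, negOne} := by
    ext A
    simp only [SetLike.mem_coe, Set.mem_insert_iff, Set.mem_singleton_iff]
    constructor
    · intro hA
      obtain ⟨s, hs⟩ := central_scalar A hA
      have h1 := preserves A (Pi.single (Sum.inr ⟨0, by omega⟩) 1) (Pi.single (Sum.inl ⟨0, by omega⟩) 1)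
      rw [hs, hs, sympForm_smul_left, sympForm_smul_right, sympForm_single_inl] at h1
      simp only [Pi.single_eq_same, mul_one] at h1
      have h2 : (s - 1) * (s + 1) = 0 := by linear_combination h1
      rcases mul_eq_zero.mp h2 with h3 | h3
      · left
        apply ext_mulVec
        intro x
        rw [hs, coe_one_mulVec]
        have : s = 1 := by linear_combination h3
        rw [this, one_smul]
      · right
        apply ext_mulVec
        intro x
        rw [hs, hnegOne]
        have : s = -1 := by linear_combination h3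
        rw [this, Matrix.neg_mulVec, Matrix.one_mulVec, neg_smul, one_smul]
    · rintro (rfl | rfl)
      · exact Subgroup.one_mem _
      · apply mem_center_of_scalar _ (-1)
        intro v
        rw [hnegOne, Matrix.neg_mulVec, Matrix.one_mulVec, neg_smul, one_smul]
  have hcard : Nat.card (Subgroup.center (Matrix.symplecticGroup (Fin m) F)) =
      Set.ncard ({1, negOne} : Set (Matrix.symplecticGroup (Fin m) F)) := by
    rw [← hset]
    rfl
  rw [hcard]
  by_cases h2 : (2 : F) = 0
  · have h1 : negOne = 1 := by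
      apply Subtype.ext
      rw [hnegOne]
      have : (-1 : F) = 1 := by linear_combination -h2
      ext i j
      by_cases hij : i = j
      · simp [hij, this]
      · simp [hij]
    rw [h1]
    simp only [Set.mem_singleton_iff, Set.insert_eq_of_mem, Set.ncard_singleton]
    have hchar : ringChar F = 2 := by
      have hdvd : ringChar F ∣ 2 := by
        apply ringChar.dvd
        exact_mod_cast h2
      rcases (Nat.dvd_prime Nat.prime_two).mp hdvd with h1 | h1
      · exfalso
        have : CharP F 1 := by rw [← h1]; exact ringChar.charP F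
        exact CharP.char_ne_one F 1 rfl
      · exact h1
    have heven := FiniteField.even_card_of_char_two hchar
    have hq1 : 1 < q := hF ▸ Fintype.one_lt_card
    rw [hF] at heven
    have hodd : (q - 1) % 2 = 1 := by omega
    rw [Nat.gcd_rec, hodd]
    simp
  · have h1 : (1 : Matrix.symplecticGroup (Fin m) F) ≠ negOne := by
      intro h
      have h3 := congrArg (fun B : Matrix.symplecticGroup (Fin m) F =>
        (B : Matrix (Fin m ⊕ Fin m) (Fin m ⊕ Fin m) F) (Sum.inl ⟨0, by omega⟩) (Sum.inl ⟨0, by omega⟩)) h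
      simp only [hnegOne] at h3
      simp at h3
      apply h2
      linear_combination h3
    rw [Set.ncard_pair h1]
    have hchar : ringChar F ≠ 2 := by
      intro hc
      apply h2
      have : CharP F 2 := by rw [← hc]; exact ringChar.charP F
      exact_mod_cast CharP.cast_eq_zero F 2
    have hodd := FiniteField.odd_card_of_char_ne_two hchar
    rw [hF] at hodd
    have heven : (q - 1) % 2 = 0 := by omega
    rw [Nat.gcd_rec, heven]
    simp

end Cfsg.Agent.S0246
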