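import Mathlib
import Cfsg.Statements.S0826
import Cfsg.Agent.Lib.Helper5.SymRep
import Cfsg.Agent.Lib.Helper5.SympAbstract

set_option autoImplicit false
open Cfsg

namespace Cfsg.Agent.S0826

open Cfsg.Agent.Lib.Helper5

/-- S_2n ≤ Sp_(2n−2)(2) for n ≥ 3: there is an injective homomorphism from the symmetric group on 2n letters into the symplectic group of degree 2n − 2 over the field with two elements. -/
theorem result (n : ℕ) (hn : 3 ≤ n) : ∃ f : Equiv.Perm (Fin (2 * n)) →* Matrix.symplecticGroup (Fin (n - 1)) (ZMod 2), Function.Injective f := by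
  have hN : Even (2 * n) := even_two_mul n
  have hpos : 0 < 2 * n := by omega
  set l : Fin (2 * n) := ⟨0, hpos⟩ with hl
  have hnd : ((SymRep.Bd (2 * n)).restrict (SymRep.Vs l)).Nondegenerate := by
    have hleft : ((SymRep.Bd (2 * n)).restrict (SymRep.Vs l)).SeparatingLeft := by
      intro x hx
      apply Subtype.ext
      apply SymRep.eq_zero_of_perp hN l x.1 x.2
      intro y hy
      exact hx ⟨y, hy⟩
    refine ⟨hleft, ?_⟩
    intro x hx
    apply hleft
    intro y
    have := hx y
    simp only [LinearMap.BilinForm.restrict_apply, LinearMap.domRestrict_apply] at this ⊢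
    rw [SymRep.Bd_comm]
    exact this
  have hA : ((SymRep.Bd (2 * n)).restrict (SymRep.Vs l)).IsAlt := by
    intro x
    simp only [LinearMap.BilinForm.restrict_apply, LinearMap.domRestrict_apply]
    rw [SymRep.Bd_apply]
    simp only [SymRep.mul_self']
    exact ((SymRep.mem_Vs l x.1).mp x.2).1
  have hm : Module.finrank (ZMod 2) (SymRep.Vs l) = 2 * (n - 1) := by
    rw [SymRep.finrank_Vs (by omega)]
    omega
  apply SympAbstract.exists_hom_of_rep _ hnd hA hm
    (fun σ => (SymRep.T l σ).restrict (SymRep.T_mem hN l σ))
  · intro g h x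
    apply Subtype.ext
    simp only [LinearMap.coe_restrict_apply]
    exact SymRep.T_mul l g h x.1
  · intro g x y
    simp only [LinearMap.BilinForm.restrict_apply, LinearMap.domRestrict_apply,
      LinearMap.coe_restrict_apply]
    exact SymRep.Bd_T hN l g x.1 y.1 x.2 y.2
  · intro g hg
    apply SymRep.faithful (by omega) l g
    intro x hx
    have := hg ⟨x, hx⟩
    exact congrArg Subtype.val this

end Cfsg.Agent.S0826
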