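import Mathlib
import Cfsg.Statements.S0247
import Cfsg.Agent.S0826
import Cfsg.Agent.Lib.Helper5.SympCard

set_option autoImplicit false
open Cfsg

namespace Cfsg.Agent.S0247

open Cfsg.Agent.Lib.Helper5

theorem J_map {l R S : Type*} [DecidableEq l] [CommRing R] [CommRing S] (e : R →+* S) :
    (Matrix.J l R).map e = Matrix.J l S := by
  ext i j
  rcases i with i | i <;> rcases j with j | j <;>
    simp [Matrix.J, Matrix.fromBlocks, Matrix.one_apply, apply_ite e]

/-- base change of symplectic groups -/
def mapSp {l R S : Type*} [DecidableEq l] [Fintype l] [CommRing R] [CommRing S] (e : R →+* S) :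
    Matrix.symplecticGroup l R →* Matrix.symplecticGroup l S where
  toFun A := ⟨A.1.map e, by
    have h := A.2
    rw [SymplecticGroup.mem_iff] at h ⊢
    rw [← J_map e, ← Matrix.transpose_map, ← Matrix.map_mul, ← Matrix.map_mul, h]⟩
  map_one' := by
    apply Subtype.ext
    simp
  map_mul' A B := by
    apply Subtype.ext
    simp [Matrix.map_mul]

theorem mapSp_injective {l R S : Type*} [DecidableEq l] [Fintype l] [CommRing R] [CommRing S]
    (e : R →+* S) (he : Function.Injective e) : Function.Injective (mapSp (l := l) e) := by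
  intro A B h
  apply Subtype.ext
  have h1 : A.1.map e = B.1.map e := congrArg Subtype.val h
  ext i j
  apply he
  exact congrFun (congrFun h1 i) j

/-- Sp_4(2) is isomorphic to the symmetric group S_6. -/
theorem result {F : Type*} [Field F] [Fintype F] (hF : Fintype.card F = 2) : Nonempty (Matrix.symplecticGroup (Fin 2) F ≃* Equiv.Perm (Fin 6)) := by
  obtain ⟨f, hf⟩ := Cfsg.Agent.S0826.result 3 le_rfl
  have : Fact (Nat.Prime 2) := ⟨Nat.prime_two⟩
  let e : ZMod 2 ≃+* F := ZMod.ringEquivOfPrime F Nat.prime_two hF
  let g : Equiv.Perm (Fin 6) →* Matrix.symplecticGroup (Fin 2) F :=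
    (mapSp (l := Fin 2) (e : ZMod 2 →+* F)).comp f
  have hg : Function.Injective g := (mapSp_injective _ e.injective).comp hf
  have hcard : Nat.card (Matrix.symplecticGroup (Fin 2) F) = Nat.card (Equiv.Perm (Fin 6)) := by
    rw [SympCard.card_sp, hF, Nat.card_eq_fintype_card, Fintype.card_perm, Fintype.card_fin]
    decide
  have : Finite (Matrix.symplecticGroup (Fin 2) F) := Nat.finite_of_card_ne_zero (by
    rw [hcard, Nat.card_eq_fintype_card]; exact Fintype.card_ne_zero)
  have hbij : Function.Bijective g :=
    (Nat.bijective_iff_injective_and_card g).mpr ⟨hg, hcard.symm⟩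
  exact ⟨(MulEquiv.ofBijective g hbij).symm⟩

end Cfsg.Agent.S0247
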