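import Mathlib
import Cfsg.Statements.S0250
import Cfsg.Agent.Lib.Helper5.FaithfulSym
import Cfsg.Agent.S0243

set_option autoImplicit false
open Cfsg

namespace Cfsg.Agent.S0250


/-- SL_2(2) is isomorphic to S_3. -/
theorem result {F : Type*} [Field F] [Fintype F] (hF : Fintype.card F = 2) : Nonempty (Matrix.SpecialLinearGroup (Fin 2) F ≃* Equiv.Perm (Fin 3)) := by
  have h1 := Cfsg.Agent.S0243.result hF 2 le_rfl
  rw [Fin.prod_univ_two] at h1
  norm_num at h1
  obtain ⟨e⟩ : Nonempty (Matrix.ProjectiveSpecialLinearGroup (Fin 2) F ≃* Equiv.Perm (Fin 3)) := by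
    apply Cfsg.Agent.Lib.Helper5.FaithfulSym.equiv_perm
      (X := Projectivization F (Fin 2 → F)) (n := 3)
    · rw [Projectivization.card_of_finrank_two (k := F) (V := Fin 2 → F) (by simp), Nat.card_eq_fintype_card, hF]
    · norm_num
    · have : Nat.factorial 3 = 6 := by decide
      rw [this]
      omega
  have hc : Subgroup.center (Matrix.SpecialLinearGroup (Fin 2) F) = ⊥ := by
    apply Subgroup.eq_bot_of_card_eq
    rw [Cfsg.Agent.Lib.Helper5.CardPSL.card_center_SL 2 (by norm_num), hF]
    norm_num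
  exact ⟨((QuotientGroup.quotientBot).symm.trans
    (QuotientGroup.quotientMulEquivOfEq hc.symm)).trans e⟩

end Cfsg.Agent.S0250
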