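import Mathlib
import Cfsg.Statements.S0251
import Cfsg.Agent.Lib.Helper5.FaithfulSym
import Cfsg.Agent.S0243

set_option autoImplicit false
open Cfsg

namespace Cfsg.Agent.S0251


/-- PSL_2(3) is isomorphic to A_4. -/
theorem result {F : Type*} [Field F] [Fintype F] (hF : Fintype.card F = 3) : Nonempty (Matrix.ProjectiveSpecialLinearGroup (Fin 2) F ≃* alternatingGroup (Fin 4)) := by
  have h1 := Cfsg.Agent.S0243.result hF 2 le_rfl
  rw [Fin.prod_univ_two] at h1
  norm_num at h1
  apply Cfsg.Agent.Lib.Helper5.FaithfulSym.equiv_alternating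
    (X := Projectivization F (Fin 2 → F)) (n := 4)
  · rw [Projectivization.card_of_finrank_two (k := F) (V := Fin 2 → F) (by simp), Nat.card_eq_fintype_card, hF]
  · norm_num
  · have : Nat.factorial 4 = 24 := by decide
    rw [this]
    omega

end Cfsg.Agent.S0251
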