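import Mathlib
import Cfsg.Statements.S0494
import Cfsg.Agent.Lib.Helper5.FaithfulSym

set_option autoImplicit false
open Cfsg

namespace Cfsg.Agent.S0494


theorem faithful_of_simple {G : Type*} [Group G] [IsSimpleGroup G] (H : Subgroup G) (hH : H ≠ ⊤) :
    FaithfulSMul G (G ⧸ H) := by
  have h1 : H.normalCore = ⊥ := by
    rcases (Subgroup.normalCore_normal H).eq_bot_or_eq_top with h | h
    · exact h
    · exfalso
      apply hH
      rw [eq_top_iff, ← h]
      exact Subgroup.normalCore_le H
  rw [Subgroup.normalCore_eq_ker] at h1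
  have hinj := (MonoidHom.ker_eq_bot_iff _).mp h1
  exact ⟨fun {a b} hab => hinj (Equiv.ext hab)⟩

/-- A simple group of order 60 is isomorphic to the alternating group of degree 5. -/
theorem result {G : Type*} [Group G] [Finite G] [IsSimpleGroup G]
    (h : Nat.card G = 60) : Nonempty (G ≃* alternatingGroup (Fin 5)) := by
  classical
  have hfact : Fact (Nat.Prime 2) := ⟨Nat.prime_two⟩
  obtain ⟨P⟩ : Nonempty (Sylow 2 G) := inferInstance
  have hPi := Subgroup.card_mul_index (P : Subgroup G)
  rw [h] at hPi
  have hP : Nat.card (P : Subgroup G) = 4 := by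
    obtain ⟨k, hk⟩ := IsPGroup.iff_card.mp P.2
    have hnd := P.not_dvd_index
    rw [hk] at hPi ⊢
    have hk5 : k < 6 := by
      by_contra hcon
      have h1 : 2 ^ 6 ≤ 2 ^ k := Nat.pow_le_pow_right (by norm_num) (by omega)
      have h2 : 0 < (P : Subgroup G).index := Nat.pos_of_ne_zero (by
        intro h0
        rw [h0] at hPi
        omega)
      nlinarith
    interval_cases k <;> omega
  obtain ⟨N, hN⟩ : ∃ N : Subgroup G, N = Subgroup.normalizer ((P : Subgroup G) : Set G) := ⟨_, rfl⟩
  have hPN : (P : Subgroup G) ≤ N := hN ▸ Subgroup.le_normalizer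
  have hNi := Subgroup.card_mul_index N
  rw [h] at hNi
  have hdvd : 4 ∣ Nat.card N := hP ▸ Subgroup.card_dvd_of_le hPN
  obtain ⟨c, hc⟩ := hdvd
  rw [hc] at hNi
  have hci : c * N.index = 15 := by nlinarith
  have hidx : N.index = 1 ∨ N.index = 3 ∨ N.index = 5 ∨ N.index = 15 := by
    have h1 : N.index ∣ 15 := Dvd.intro_left _ hci
    have h2 : N.index ∈ Nat.divisors 15 := Nat.mem_divisors.mpr ⟨h1, by norm_num⟩
    have h3 : Nat.divisors 15 = {1, 3, 5, 15} := by decide
    rw [h3] at h2
    simpa using h2
  rcases hidx with h1 | h3 | h5 | h15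
  · exfalso
    have htop : N = ⊤ := Subgroup.index_eq_one.mp h1
    have hnorm : (P : Subgroup G).Normal := by
      rw [← Subgroup.normalizer_eq_top_iff, ← hN, htop]
    rcases hnorm.eq_bot_or_eq_top with hb | ht
    · rw [hb, Subgroup.card_bot] at hP
      omega
    · rw [ht, Subgroup.card_top, h] at hP
      omega
  · exfalso
    have hne : N ≠ ⊤ := by
      intro ht
      rw [ht, Subgroup.index_top] at h3
      omega
    have := faithful_of_simple N hne
    have hX : Nat.card (G ⧸ N) = 3 := h3
    have hinj := Cfsg.Agent.Lib.Helper5.FaithfulSym.toFin_injective (G := G) hX (by norm_num)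
    have hle := Nat.card_le_card_of_injective _ hinj
    rw [h, Nat.card_eq_fintype_card, Fintype.card_perm, Fintype.card_fin] at hle
    have : Nat.factorial 3 = 6 := by decide
    omega
  · have hne : N ≠ ⊤ := by
      intro ht
      rw [ht, Subgroup.index_top] at h5
      omega
    have := faithful_of_simple N hne
    have hX : Nat.card (G ⧸ N) = 5 := h5
    apply Cfsg.Agent.Lib.Helper5.FaithfulSym.equiv_alternating hX (by norm_num)
    rw [h]
    decide
  · exfalso
    have hc1 : c = 1 := by
      rw [h15] at hci
      omega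
    have hNP : N = (P : Subgroup G) := by
      symm
      apply Subgroup.eq_of_le_of_card_ge hPN
      rw [hc, hc1, hP]
    have hcomm : ∀ a ∈ (P : Subgroup G), ∀ b ∈ (P : Subgroup G), a * b = b * a := by
      intro a ha b hb
      have h4 : Nat.card (P : Subgroup G) = 2 ^ 2 := by rw [hP]; norm_num
      have := IsPGroup.commutative_of_card_eq_prime_sq h4 ⟨a, ha⟩ ⟨b, hb⟩
      exact congrArg Subtype.val this
    have hle : Subgroup.normalizer ((P : Subgroup G) : Set G) ≤
        Subgroup.centralizer ((P : Subgroup G) : Set G) := by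
      rw [← hN, hNP]
      intro a ha
      rw [Subgroup.mem_centralizer_iff]
      intro b hb
      exact hcomm b hb a ha
    have hcompl := MonoidHom.ker_transferSylow_isComplement' P hle
    have hcard := hcompl.card_mul
    rw [hP, h] at hcard
    rcases (MonoidHom.normal_ker (MonoidHom.transferSylow P hle)).eq_bot_or_eq_top with hb | ht
    · rw [hb, Subgroup.card_bot] at hcard
      omega
    · rw [ht, Subgroup.card_top, h] at hcard
      omega

end Cfsg.Agent.S0494
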