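import Mathlib
import Cfsg.Statements.S0302
import Cfsg.Agent.Lib.Helper5.Klein
import Cfsg.Agent.Lib.Helper5.PerfectIndex
import Cfsg.Agent.Lib.Helper5.OrthPlus
import Cfsg.Agent.Lib.Helper5.CardSL
import Cfsg.Agent.Lib.Helper3.SLn

set_option autoImplicit false
open Cfsg

namespace Cfsg.Agent.S0302

open Cfsg.Agent.Lib.Helper5 Matrix

theorem card_sl4 {F : Type*} [Field F] [Fintype F] :
    Nat.card (Matrix.SpecialLinearGroup (Fin 4) F) =
      Fintype.card F ^ 6 * (Fintype.card F ^ 3 - 1) *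
        ((Fintype.card F ^ 2 - 1) * (Fintype.card F ^ 4 - 1)) := by
  have h1 := CardSL.card_GL_eq (F := F) 4 (by norm_num)
  rw [Matrix.card_GL_field, Fin.prod_univ_four] at h1
  have hq : 2 ≤ Fintype.card F := Fintype.one_lt_card
  generalize Fintype.card F = q at *
  generalize Nat.card (Matrix.SpecialLinearGroup (Fin 4) F) = s at *
  simp only [Fin.val_zero, Fin.val_one, Fin.val_two, pow_zero, pow_one] at h1
  have e3 : ((3 : Fin 4) : ℕ) = 3 := rfl
  rw [e3] at h1
  have a1 : q ^ 4 - q = q * (q ^ 3 - 1) := by rw [Nat.mul_sub]; ring_nf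
  have a2 : q ^ 4 - q ^ 2 = q ^ 2 * (q ^ 2 - 1) := by rw [Nat.mul_sub]; ring_nf
  have a3 : q ^ 4 - q ^ 3 = q ^ 3 * (q - 1) := by rw [Nat.mul_sub]; ring_nf
  rw [a1, a2, a3] at h1
  have hpos : 0 < q - 1 := by omega
  apply Nat.eq_of_mul_eq_mul_right hpos
  rw [← h1]
  ring

/-- the central element -/
def negOne {F : Type*} [Field F] : Matrix.SpecialLinearGroup (Fin 4) F :=
  ⟨-1, by rw [Matrix.det_neg, Matrix.det_one]; simp; norm_num⟩

theorem exists_klein_hom {F : Type*} [Field F] [Fintype F] :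
    ∃ f : Matrix.SpecialLinearGroup (Fin 4) F →* ↥(Cfsg.isometryGroup F (Cfsg.quadFormPlus 3 F)),
      ∀ g ∈ f.ker, g = 1 ∨ g = negOne := by
  obtain ⟨Q, hQc, hQ, -, -⟩ := OrthPlus.good_plus (F := F) 3
  have h := Klein.exists_hom_of_rep Q hQ
    (fun g : Matrix.SpecialLinearGroup (Fin 4) F => Klein.act g.1)
    (fun g h x => by
      rw [Matrix.SpecialLinearGroup.coe_mul]
      exact Klein.act_mul _ _ _)
    (fun g x => by rw [hQc, Klein.quad_act, g.2, one_mul])
  rw [hQc] at h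
  obtain ⟨f, hf⟩ := h
  refine ⟨f, ?_⟩
  intro g hg
  rw [MonoidHom.mem_ker] at hg
  have h1 : ∀ u, Klein.act g.1 u = u := by
    intro u
    rw [← hf, hg, OrthCard.mat_one_mulVec]
  rcases Klein.scalar_of_fix g.1 h1 with h2 | h2
  · left
    exact Subtype.ext h2
  · right
    exact Subtype.ext h2

/-- PΩ^+_6(q) is isomorphic to PSL_4(q). -/
theorem result {F : Type*} [Field F] [Fintype F] : Nonempty (Cfsg.POmega F (Cfsg.quadFormPlus 3 F) ≃* Matrix.ProjectiveSpecialLinearGroup (Fin 4) F) := by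
  obtain ⟨f, hf⟩ := exists_klein_hom (F := F)
  have hfin : Finite ↥(Cfsg.isometryGroup F (Cfsg.quadFormPlus 3 F)) := inferInstance
  apply PerfectIndex.main f (Cfsg.Agent.Lib.Helper3.SLn.commutator_eq_top (by simp)) negOne ?_ hf ?_
  · rw [Subgroup.mem_center_iff]
    intro g
    apply Subtype.ext
    rw [Matrix.SpecialLinearGroup.coe_mul, Matrix.SpecialLinearGroup.coe_mul]
    simp [negOne]
  · rw [OrthPlus.card_plus 3 (by norm_num), card_sl4]
    simp only [Finset.prod_range_succ, Finset.prod_range_zero]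
    ring_nf

end Cfsg.Agent.S0302
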