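import Mathlib
import Cfsg.Statements.S0825
import Cfsg.Agent.Lib.Helper5.SymOrth
import Cfsg.Agent.Lib.Helper5.OrthPlus

set_option autoImplicit false
open Cfsg

namespace Cfsg.Agent.S0825

open Cfsg.Agent.Lib.Helper5

/-- explicit hyperbolic coordinates -/
def cvec (a1 a2 a3 b1 b2 b3 : ZMod 2) : Fin 8 → ZMod 2 :=
  ![0, a3 + b3, a2 + b2 + b3, b1 + a2 + b2 + a3, a1 + a2 + b2 + a3, a1 + b1 + a3,
    a1 + b1 + b2 + b3, a1 + b1 + a2 + b3]

/-- the coordinate map -/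
def C : (Fin 3 ⊕ Fin 3 → ZMod 2) →ₗ[ZMod 2] (Fin 8 → ZMod 2) where
  toFun u := cvec (u (.inl 0)) (u (.inl 1)) (u (.inl 2)) (u (.inr 0)) (u (.inr 1)) (u (.inr 2))
  map_add' u v := by
    funext i
    fin_cases i <;> simp [cvec] <;> ring
  map_smul' c u := by
    funext i
    fin_cases i <;> simp [cvec] <;> ring

theorem cvec_sum : ∀ a1 a2 a3 b1 b2 b3 : ZMod 2, ∑ i, cvec a1 a2 a3 b1 b2 b3 i = 0 := by
  decide

theorem cvec_qq : ∀ a1 a2 a3 b1 b2 b3 : ZMod 2,
    SymOrth.qq (cvec a1 a2 a3 b1 b2 b3) = a1 * b1 + a2 * b2 + a3 * b3 := by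
  decide

/-- O⁺_6(2) ≅ S_8: the isometry group of the hyperbolic form x_1y_1 + x_2y_2 + x_3y_3 over the field with 2 elements is isomorphic to the symmetric group on 8 letters. -/
theorem result {F : Type*} [Field F] [Fintype F] (hF : Fintype.card F = 2) : Nonempty (↥(Cfsg.isometryGroup F (Cfsg.quadFormPlus 3 F)) ≃* Equiv.Perm (Fin 8)) := by
  obtain ⟨Q, hQc, hQ, -, -⟩ := OrthPlus.good_plus (F := ZMod 2) 3
  have h1 : ∃ f : Equiv.Perm (Fin 8) →* ↥(Cfsg.isometryGroup (ZMod 2) ⇑Q),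
      Function.Injective f := by
    apply SymOrth.exists_hom Q hQ (by decide) (by norm_num) (0 : Fin 8) (by simp) C ?_ ?_
      (MonoidHom.id _) Function.injective_id (Or.inl (by norm_num))
    · intro u
      rw [SymRep.mem_Vs]
      exact ⟨cvec_sum _ _ _ _ _ _, rfl⟩
    · intro u
      rw [hQc, Cfsg.quadFormPlus, Fin.sum_univ_three]
      exact cvec_qq _ _ _ _ _ _
  rw [hQc] at h1
  obtain ⟨f, hf⟩ := h1
  have : Fact (Nat.Prime 2) := ⟨Nat.prime_two⟩
  let e : ZMod 2 ≃+* F := ZMod.ringEquivOfPrime F Nat.prime_two hF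
  obtain ⟨t, ht⟩ := SymOrth.exists_transport e (Cfsg.quadFormPlus 3 (ZMod 2))
    (Cfsg.quadFormPlus 3 F) (by
      intro w
      simp [Cfsg.quadFormPlus])
  have hg : Function.Injective (t.comp f) := ht.comp hf
  have hcard : Nat.card ↥(Cfsg.isometryGroup F (Cfsg.quadFormPlus 3 F)) =
      Nat.card (Equiv.Perm (Fin 8)) := by
    rw [OrthPlus.card_plus 3 (by norm_num), hF, Nat.card_eq_fintype_card, Fintype.card_perm,
      Fintype.card_fin]
    decide
  have : Finite ↥(Cfsg.isometryGroup F (Cfsg.quadFormPlus 3 F)) := Nat.finite_of_card_ne_zero (by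
    rw [hcard, Nat.card_eq_fintype_card]; exact Fintype.card_ne_zero)
  have hbij : Function.Bijective (t.comp f) :=
    (Nat.bijective_iff_injective_and_card _).mpr ⟨hg, hcard.symm⟩
  exact ⟨(MulEquiv.ofBijective _ hbij).symm⟩

end Cfsg.Agent.S0825
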