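import Mathlib
import Cfsg.Statements.S0256
import Cfsg.Agent.S0302
import Cfsg.Agent.S0825
import Cfsg.Agent.Lib.Helper5.CardPSL

set_option autoImplicit false
open Cfsg

namespace Cfsg.Agent.S0256

open Cfsg.Agent.Lib.Helper5 Matrix

/-- PSL_4(2) is isomorphic to A_8. -/
theorem result {F : Type*} [Field F] [Fintype F] (hF : Fintype.card F = 2) : Nonempty (Matrix.ProjectiveSpecialLinearGroup (Fin 4) F ≃* alternatingGroup (Fin 8)) := by
  obtain ⟨f, hf⟩ := Cfsg.Agent.S0302.exists_klein_hom (F := F)
  obtain ⟨e⟩ := Cfsg.Agent.S0825.result hF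
  have h2 : (2 : F) = 0 := by
    have := Nat.cast_card_eq_zero F
    rw [hF] at this
    exact_mod_cast this
  have hneg : (Cfsg.Agent.S0302.negOne : Matrix.SpecialLinearGroup (Fin 4) F) = 1 := by
    apply Subtype.ext
    change (-1 : Matrix (Fin 4) (Fin 4) F) = 1
    have : (-1 : F) = 1 := by linear_combination - h2
    ext i j
    by_cases hij : i = j
    · subst hij; simp [this]
    · simp [hij]
  have hinj : Function.Injective (e.toMonoidHom.comp f) := by
    apply e.injective.comp
    rw [injective_iff_map_eq_one]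
    intro g hg
    rcases hf g hg with h | h
    · exact h
    · rw [h, hneg]
  set φ := e.toMonoidHom.comp f with hφ
  have hcard : Nat.card (Matrix.SpecialLinearGroup (Fin 4) F) = 20160 := by
    rw [Cfsg.Agent.S0302.card_sl4, hF]; norm_num
  have hidx : φ.range.index = 2 := by
    have h1 := Subgroup.index_mul_card φ.range
    rw [← Nat.card_congr (MonoidHom.ofInjective hinj).toEquiv, hcard, Nat.card_eq_fintype_card,
      Fintype.card_perm, Fintype.card_fin] at h1
    have : Nat.factorial 8 = 2 * 20160 := by decide
    rw [this] at h1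
    exact Nat.eq_of_mul_eq_mul_right (by norm_num) h1
  have hr : φ.range = alternatingGroup (Fin 8) := Equiv.Perm.eq_alternatingGroup_of_index_eq_two hidx
  have hc : Subgroup.center (Matrix.SpecialLinearGroup (Fin 4) F) = ⊥ := by
    rw [← Subgroup.card_eq_one, CardPSL.card_center_SL 4 (by norm_num), hF]
    rfl
  exact ⟨((QuotientGroup.quotientMulEquivOfEq hc).trans QuotientGroup.quotientBot).trans
    ((MonoidHom.ofInjective hinj).trans (MulEquiv.subgroupCongr hr))⟩

end Cfsg.Agent.S0256
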