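import Cfsg.Statements.S0259
import Cfsg.Agent.Lib.Helper4.GL2Syl

set_option autoImplicit false
open Cfsg

namespace Cfsg.Agent.S0259

open Matrix Cfsg.Agent.Lib.Helper4.GL2Syl


/-- Distinct Sylow p-subgroups of GL_2(q), p the characteristic, intersect trivially. -/
theorem result {F : Type*} [Field F] [Fintype F] (p : ℕ) [Fact p.Prime] [CharP F p] (P Q : Sylow p (Matrix.GeneralLinearGroup (Fin 2) F)) (h : P ≠ Q) : (P : Subgroup (Matrix.GeneralLinearGroup (Fin 2) F)) ⊓ (Q : Subgroup (Matrix.GeneralLinearGroup (Fin 2) F)) = ⊥ := by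
  classical
  obtain ⟨g₁, h₁⟩ := exists_conj p P
  obtain ⟨g₂, h₂⟩ := exists_conj p Q
  rw [eq_bot_iff]
  intro x hx
  rw [Subgroup.mem_bot]
  by_contra hx1
  obtain ⟨hxP, hxQ⟩ := Subgroup.mem_inf.1 hx
  have hu₁ := (h₁ x).1 hxP
  have hu₂ := (h₂ x).1 hxQ
  set k := g₁⁻¹ * g₂ with hk
  have hrel : (g₁⁻¹ * x * g₁) * k = k * (g₂⁻¹ * x * g₂) := by rw [hk]; group
  have hne : (g₁⁻¹ * x * g₁).1 0 1 ≠ 0 := by
    intro h0
    have e := eq_u _ hu₁
    rw [h0] at e
    have e1 : (u (0 : F)) = 1 := by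
      apply Units.ext
      rw [u_val]
      ext i j
      fin_cases i <;> fin_cases j <;> simp
    rw [e1] at e
    apply hx1
    have : x = g₁ * (g₁⁻¹ * x * g₁) * g₁⁻¹ := by group
    rw [this, e]; group
  have hkB : k ∈ B F := by
    rw [mem_B]
    have e00 := congr_arg (fun m : GL (Fin 2) F => m.1 0 0) hrel
    simp only [mul_entries _ k, mul_entries k, hu₁.1, hu₂.1, hu₂.2.1] at e00
    rw [one_mul, mul_one, mul_zero, add_zero, add_eq_left] at e00
    exact (mul_eq_zero.1 e00).resolve_left hne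
  rw [← normalizer_U, Subgroup.mem_normalizer_iff''] at hkB
  apply h
  apply Sylow.ext
  ext y
  change y ∈ P ↔ y ∈ Q
  rw [h₁, h₂, hkB]
  have : k⁻¹ * (g₁⁻¹ * y * g₁) * k = g₂⁻¹ * y * g₂ := by rw [hk]; group
  rw [this]
end Cfsg.Agent.S0259
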