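import Cfsg.Statements.S0262
import Cfsg.Agent.Lib.Helper4.SL2Eigen
open Cfsg.Agent.Lib.Helper4.SL2Eigen

set_option autoImplicit false
open Cfsg

namespace Cfsg.Agent.S0262



/-- For an odd prime r different from the characteristic, the Sylow r-subgroups of SL_2(q) are cyclic. -/
theorem result {F : Type*} [Field F] [Fintype F] (p : ℕ) [Fact p.Prime] [CharP F p] (r : ℕ) [Fact r.Prime] (hr : r ≠ 2) (hrp : r ≠ p) (R : Sylow r (Matrix.SpecialLinearGroup (Fin 2) F)) : IsCyclic (R : Subgroup (Matrix.SpecialLinearGroup (Fin 2) F)) := by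
  classical
  have hr' : r.Prime := Fact.out
  have hp' : p.Prime := Fact.out
  have hRp : IsPGroup r (R : Subgroup (Matrix.SpecialLinearGroup (Fin 2) F)) := R.2
  have hord : ∀ g ∈ (R : Subgroup (Matrix.SpecialLinearGroup (Fin 2) F)), ∃ k : ℕ, orderOf g = r ^ k := by
    intro g hg
    obtain ⟨k, hk⟩ := hRp ⟨g, hg⟩
    have h1 : g ^ r ^ k = 1 := congrArg Subtype.val hk
    obtain ⟨j, -, hj⟩ := (Nat.dvd_prime_pow hr').1 (orderOf_dvd_of_pow_eq_one h1)
    exact ⟨j, hj⟩
  by_cases hnt : Nontrivial (R : Subgroup (Matrix.SpecialLinearGroup (Fin 2) F))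
  · have hc := hRp.center_nontrivial
    obtain ⟨z₀, hz₀⟩ := exists_ne (1 : Subgroup.center (R : Subgroup (Matrix.SpecialLinearGroup (Fin 2) F)))
    have hz1 : z₀.1.1 ≠ 1 := by
      intro h
      apply hz₀
      exact Subtype.ext (Subtype.ext h)
    apply isCyclic_of_centralizes p _ _ z₀.1.1
    · intro c hc
      have hdet := z₀.1.1.2
      rw [hc, Matrix.det_smul, Fintype.card_fin, Matrix.det_one, mul_one] at hdet
      have hsq : z₀.1.1 ^ 2 = 1 := by
        apply Subtype.ext
        change z₀.1.1.1 ^ 2 = 1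
        rw [hc, smul_pow, one_pow, hdet, one_smul]
      obtain ⟨k, hk⟩ := hord z₀.1.1 z₀.1.2
      have h2 : r ^ k ∣ 2 := hk ▸ orderOf_dvd_of_pow_eq_one hsq
      have hk0 : k = 0 := by
        by_contra hk0
        have : r ∣ 2 := (dvd_pow_self r hk0).trans h2
        exact hr ((Nat.prime_dvd_prime_iff_eq hr' Nat.prime_two).1 this)
      rw [hk0, pow_zero] at hk
      exact hz1 (orderOf_eq_one_iff.1 hk)
    · intro g hg
      have := Subgroup.mem_center_iff.1 z₀.2 ⟨g, hg⟩
      exact congrArg Subtype.val this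
    · intro g hg
      obtain ⟨k, hk⟩ := hord g hg
      rw [hk]
      exact Nat.Coprime.pow_left k ((Nat.coprime_primes hr' hp').2 hrp)
  · rw [not_nontrivial_iff_subsingleton] at hnt
    exact isCyclic_of_subsingleton
end Cfsg.Agent.S0262
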