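import Mathlib
import Cfsg.Statements.S0265
import Cfsg.Agent.Lib.Helper5.CardSL

set_option autoImplicit false
open Cfsg

namespace Cfsg.Agent.S0265


/-- |PGL_n(q)| = |SL_n(q)|: GL_n modulo its centre (the q-1 non-zero scalars) has the same order as the kernel of det. -/
theorem result {F : Type*} [Field F] [Fintype F] (n : ℕ) : Nat.card (Matrix.ProjGenLinGroup (Fin n) F) = Nat.card (Matrix.SpecialLinearGroup (Fin n) F) := by
  rcases Nat.eq_zero_or_pos n with rfl | hn
  · have h1 : Subsingleton (Matrix.GeneralLinearGroup (Fin 0) F) := ⟨fun a b => Units.ext (Subsingleton.elim _ _)⟩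
    have h2 : Subsingleton (Matrix.SpecialLinearGroup (Fin 0) F) := ⟨fun a b => Subtype.ext (Subsingleton.elim _ _)⟩
    have h3 : Subsingleton (Matrix.ProjGenLinGroup (Fin 0) F) :=
      Matrix.ProjGenLinGroup.mk_surjective.subsingleton
    rw [Nat.card_unique, Nat.card_unique]
  · have h1 := Cfsg.Agent.Lib.Helper5.CardSL.card_GL_eq (F := F) n hn
    have h2 := Cfsg.Agent.Lib.Helper5.CardSL.card_center (F := F) n hn
    have h3 := Subgroup.card_eq_card_quotient_mul_card_subgroup
      (Subgroup.center (Matrix.GeneralLinearGroup (Fin n) F))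
    rw [h1, h2] at h3
    have hq : 0 < Fintype.card F - 1 := by
      have := Fintype.one_lt_card (α := F)
      omega
    exact (Nat.eq_of_mul_eq_mul_right hq h3).symm

end Cfsg.Agent.S0265
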