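import Mathlib
import Cfsg.Statements.S0268

set_option autoImplicit false
open Cfsg

namespace Cfsg.Agent.S0268


/-- For q odd, -1 is the unique involution of SL_2(q). -/
theorem result {F : Type*} [Field F] [Fintype F] (hF : Odd (Fintype.card F)) (g : Matrix.SpecialLinearGroup (Fin 2) F) (h1 : g ≠ 1) (h2 : g * g = 1) : (g : Matrix (Fin 2) (Fin 2) F) = -1 := by
  have h20 : (2 : F) ≠ 0 := by
    intro h
    have hchar : ringChar F = 2 := by
      have hdvd : ringChar F ∣ 2 := by
        apply ringChar.dvd
        exact_mod_cast h
      rcases (Nat.dvd_prime Nat.prime_two).mp hdvd with h1 | h1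
      · exfalso
        have : CharP F 1 := by rw [← h1]; exact ringChar.charP F
        exact CharP.char_ne_one F 1 rfl
      · exact h1
    have := FiniteField.even_card_of_char_two hchar
    rcases hF with ⟨k, hk⟩
    omega
  have hdet : g.1 0 0 * g.1 1 1 - g.1 0 1 * g.1 1 0 = 1 := by
    have := g.2
    rwa [Matrix.det_fin_two] at this
  have hm : g.1 * g.1 = 1 := congrArg Subtype.val h2
  have e00 := congrFun (congrFun hm 0) 0
  have e01 := congrFun (congrFun hm 0) 1
  have e10 := congrFun (congrFun hm 1) 0
  have e11 := congrFun (congrFun hm 1) 1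
  simp only [Matrix.mul_apply, Fin.sum_univ_two, Matrix.one_apply_eq, Matrix.one_apply_ne,
    ne_eq, Fin.reduceEq, not_false_eq_true] at e00 e01 e10 e11
  set a := g.1 0 0
  set b := g.1 0 1
  set c := g.1 1 0
  set d := g.1 1 1
  have ht : a * (a + d) = 2 := by linear_combination e00 + hdet
  have ht0 : a + d ≠ 0 := by
    intro h0
    rw [h0, mul_zero] at ht
    exact h20 ht.symm
  have hb : b = 0 := by
    have : b * (a + d) = 0 := by linear_combination e01
    exact (mul_eq_zero.mp this).resolve_right ht0
  have hc : c = 0 := by
    have : c * (a + d) = 0 := by linear_combination e10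
    exact (mul_eq_zero.mp this).resolve_right ht0
  have ha2 : (a - 1) * (a + 1) = 0 := by
    rw [hb] at e00
    linear_combination e00
  have had : a * d = 1 := by
    rw [hb] at hdet
    linear_combination hdet
  rcases mul_eq_zero.mp ha2 with ha | ha
  · exfalso
    have ha1 : a = 1 := by linear_combination ha
    have hd1 : d = 1 := by rw [ha1] at had; linear_combination had
    apply h1
    apply Subtype.ext
    ext i j
    fin_cases i <;> fin_cases j
    · exact ha1
    · exact hb
    · exact hc
    · exact hd1
  · have ha1 : a = -1 := by linear_combination ha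
    have hd1 : d = -1 := by rw [ha1] at had; linear_combination -had
    ext i j
    fin_cases i <;> fin_cases j
    · simpa using ha1
    · simpa using hb
    · simpa using hc
    · simpa using hd1

end Cfsg.Agent.S0268
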