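import Mathlib
import Cfsg.Statements.S0269
import Cfsg.Agent.Lib.Helper5.SympPerfect

set_option autoImplicit false
open Cfsg

namespace Cfsg.Agent.S0269


/-- Sp_{2m}(q) is perfect except for Sp_2(2), Sp_2(3) and Sp_4(2): stated as m at least 3, or m = 2 and q at least 3, or q at least 4. -/
theorem result {F : Type*} [Field F] [Fintype F] (m : ℕ) (h : 3 ≤ m ∨ (m = 2 ∧ 3 ≤ Fintype.card F) ∨ 4 ≤ Fintype.card F) : commutator (Matrix.symplecticGroup (Fin m) F) = ⊤ := by
  classical
  apply Cfsg.Agent.Lib.Helper5.SympPerfect.commutator_eq_top_of_tv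
  intro w c
  have case4 : 4 ≤ Fintype.card F → Cfsg.Agent.Lib.Helper5.SympGen.tv w c ∈
      commutator (Matrix.symplecticGroup (Fin m) F) := by
    intro h4
    obtain ⟨a, ha, ha2⟩ : ∃ a : F, a ≠ 0 ∧ a ^ 2 ≠ 1 := by
      by_contra hcon
      push Not at hcon
      have hsub : (Finset.univ : Finset F) ⊆ {0, 1, -1} := by
        intro a _
        by_cases ha : a = 0
        · simp [ha]
        · have h1 := hcon a ha
          have h2 : (a - 1) * (a + 1) = 0 := by linear_combination h1
          rcases mul_eq_zero.mp h2 with h3 | h3
          · have : a = 1 := by linear_combination h3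
            simp [this]
          · have : a = -1 := by linear_combination h3
            simp [this]
      have h5 := Finset.card_le_card hsub
      have h3 : ({0, 1, -1} : Finset F).card ≤ 3 := Finset.card_le_three
      rw [Finset.card_univ] at h5
      omega
    exact Cfsg.Agent.Lib.Helper5.SympPerfect.tv_mem_of_sq a ha ha2 w c
  by_cases h2 : (2 : F) = 0
  · rcases h with h | ⟨_, h⟩ | h
    · exact Cfsg.Agent.Lib.Helper5.SympPerfect.tv_mem_of_two_eq h2 h w c
    · apply case4
      have hchar : ringChar F = 2 := by
        have hdvd : ringChar F ∣ 2 := by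
          apply ringChar.dvd
          exact_mod_cast h2
        rcases (Nat.dvd_prime Nat.prime_two).mp hdvd with h1 | h1
        · exfalso
          have : CharP F 1 := by rw [← h1]; exact ringChar.charP F
          exact CharP.char_ne_one F 1 rfl
        · exact h1
      have heven := FiniteField.even_card_of_char_two hchar
      omega
    · exact case4 h
  · rcases h with h | ⟨hm, _⟩ | h
    · exact Cfsg.Agent.Lib.Helper5.SympPerfect.tv_mem_of_two_ne h2 (by omega) w c
    · exact Cfsg.Agent.Lib.Helper5.SympPerfect.tv_mem_of_two_ne h2 (by omega) w c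
    · exact case4 h

end Cfsg.Agent.S0269
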