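import Mathlib
import Cfsg.Statements.S0270
import Cfsg.Agent.Lib.Helper5.SympSimple
import Cfsg.Agent.S0269

set_option autoImplicit false
open Cfsg

namespace Cfsg.Agent.S0270


/-- PSp_{2m}(q) is simple for m at least 2 and (m, q) other than (2, 2). -/
theorem result {F : Type*} [Field F] [Fintype F] (m : ℕ) (hm : 2 ≤ m) (h : m = 2 → 3 ≤ Fintype.card F) : IsSimpleGroup (Cfsg.PSp m F) := by
  classical
  have hperf : commutator (Matrix.symplecticGroup (Fin m) F) = ⊤ := by
    apply Cfsg.Agent.S0269.result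
    rcases Nat.lt_or_ge m 3 with h3 | h3
    · right; left
      have : m = 2 := by omega
      exact ⟨this, h this⟩
    · left; exact h3
  have hnt : Nontrivial (Matrix.symplecticGroup (Fin m) F) := by
    refine ⟨⟨Cfsg.Agent.Lib.Helper5.SympGen.tv (Pi.single (Sum.inl ⟨0, by omega⟩) 1) 1, 1, ?_⟩⟩
    intro h1
    have h2 := congrArg (fun A : Matrix.symplecticGroup (Fin m) F =>
      (A : Matrix (Fin m ⊕ Fin m) (Fin m ⊕ Fin m) F).mulVec (Pi.single (Sum.inr ⟨0, by omega⟩) 1)
        (Sum.inl ⟨0, by omega⟩)) h1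
    simp only [Cfsg.Agent.Lib.Helper5.SympPerfect.tv_mulVec,
      Cfsg.Agent.Lib.Helper5.SympGen.coe_one_mulVec] at h2
    rw [Cfsg.Agent.Lib.Helper5.SympBridge.sympForm_single_inl] at h2
    simp at h2
  exact Cfsg.Agent.Lib.Helper5.SympSimple.simple_quotient_center hperf
    (Cfsg.Agent.Lib.Helper5.SympSimple.normal_le_center_or_top hperf)

end Cfsg.Agent.S0270
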