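import Cfsg.Statements.S0273
import Cfsg.Agent.Lib.Helper4.GL2Syl
import Cfsg.Agent.Lib.Helper4.GLTv2

set_option autoImplicit false
open Cfsg

namespace Cfsg.Agent.S0273

open Matrix Cfsg.Agent.Lib.Helper4.GL2Syl


/-- In GL_2(q) the centraliser of a non-trivial element of a Sylow p-subgroup (p the characteristic) has order q (q-1): the Sylow subgroup times the scalars. -/
theorem result {F : Type*} [Field F] [Fintype F] {q : ℕ} (hF : Fintype.card F = q) (p : ℕ) [Fact p.Prime] [CharP F p] (P : Sylow p (Matrix.GeneralLinearGroup (Fin 2) F)) (a : Matrix.GeneralLinearGroup (Fin 2) F) (ha : a ∈ P) (ha1 : a ≠ 1) : Nat.card (Subgroup.centralizer ({a} : Set (Matrix.GeneralLinearGroup (Fin 2) F))) = q * (q - 1) := by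
  classical
  obtain ⟨g, hg⟩ := exists_conj p P
  have hu := (hg a).1 ha
  have hne : (g⁻¹ * a * g).1 0 1 ≠ 0 := by
    intro h0
    have e := eq_u _ hu
    rw [h0] at e
    have e1 : (u (0 : F)) = 1 := by
      apply Units.ext
      rw [u_val]
      ext i j
      fin_cases i <;> fin_cases j <;> simp
    rw [e1] at e
    apply ha1
    have : a = g * (g⁻¹ * a * g) * g⁻¹ := by group
    rw [this, e]; group
  set b := (g⁻¹ * a * g).1 0 1 with hb
  have htv : Cfsg.IsTransvection (u b).1 := by
    have hx : ((![b, 0], ![0, 1]) : (Fin 2 → F) × (Fin 2 → F)) ∈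
        Cfsg.Agent.Lib.Helper4.GLTv.PP F 2 := by
      refine ⟨?_, ?_, ?_⟩
      · intro h
        exact hne (congr_fun h 0)
      · intro h
        exact one_ne_zero (congr_fun h 1)
      · simp [dotProduct, Fin.sum_univ_two]
    have := Cfsg.Agent.Lib.Helper4.GLTv.isTv_of_pair hx
    convert this using 1
    rw [u_val]
    ext i j
    fin_cases i <;> fin_cases j <;> simp [vecMulVec_apply]
  have hconj : IsConj (u b) a := by
    rw [isConj_iff]
    refine ⟨g, ?_⟩
    rw [← eq_u _ hu]; group
  have hta := Cfsg.Agent.Lib.Helper4.GLTv.isTv_conj htv hconj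
  rw [Cfsg.Agent.Lib.Helper4.GLTv.card_centralizer (by norm_num) a hta, hF]
  simp
end Cfsg.Agent.S0273
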