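import Cfsg.Statements.S0800
import Cfsg.Agent.Lib.Helper4.SL2Eigen
open Cfsg.Agent.Lib.Helper4.SL2Eigen Matrix

set_option autoImplicit false
open Cfsg

namespace Cfsg.Agent.S0800



/-- Tori of SL_2(q): if g ∈ SL_2(q) has order coprime to the characteristic p, then the order of g divides q − 1 or q + 1. -/
theorem result {F : Type*} [Field F] [Fintype F] {q : ℕ} (hF : Fintype.card F = q) (p : ℕ) [Fact p.Prime] [CharP F p] (g : Matrix.SpecialLinearGroup (Fin 2) F) (hg : Nat.Coprime (orderOf g) p) : orderOf g ∣ q - 1 ∨ orderOf g ∣ q + 1 := by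
  classical
  have hp : p.Prime := Fact.out
  let K := AlgebraicClosure F
  let ι : F →+* K := algebraMap F K
  have : CharP K p := charP_of_injective_algebraMap ι.injective p
  obtain ⟨lam, hlam⟩ := Module.End.exists_eigenvalue (K := K) (Matrix.toLin' (g.1.map ι))
  obtain ⟨v, hv⟩ := hlam.exists_hasEigenvector
  have hv0 : v ≠ 0 := hv.2
  have hgv : (g.1.map ι) *ᵥ v = lam • v := by
    have := hv.apply_eq_smul
    rwa [Matrix.toLin'_apply] at this
  -- powers
  have hpow : ∀ n : ℕ, ((g ^ n).1.map ι) *ᵥ v = lam ^ n • v := by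
    intro n
    induction n with
    | zero => simp
    | succ n ih =>
      have : ((g ^ (n + 1)).1).map ι = (g ^ n).1.map ι * g.1.map ι := by
        rw [← Matrix.map_mul]
        congr 1
      rw [this, ← Matrix.mulVec_mulVec, hgv, Matrix.mulVec_smul, ih, smul_smul, pow_succ, mul_comm]
  have key : ∀ n : ℕ, lam ^ n = 1 → g ^ n = 1 := by
    intro n hn
    have h1 := hpow n
    rw [hn, one_smul] at h1
    have hdet : ((g ^ n).1.map ι - 1).det = 0 := by
      rw [← Matrix.exists_mulVec_eq_zero_iff]
      exact ⟨v, hv0, by rw [Matrix.sub_mulVec, h1, Matrix.one_mulVec, sub_self]⟩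
    have hd := (g ^ n).2
    rw [Matrix.det_fin_two] at hd hdet
    simp at hdet
    have htr : (g ^ n).1.trace = 2 := by
      apply ι.injective
      rw [Matrix.trace_fin_two, map_add, map_ofNat]
      have hd' := congrArg ι hd
      simp only [map_sub, map_mul, map_one] at hd'
      linear_combination hd' - hdet
    apply eq_one_of_trace_two p (g ^ n) htr
    exact Nat.Coprime.coprime_dvd_left (orderOf_pow_dvd n) hg
  -- the quadratic equation
  have hquad : lam ^ 2 - ι g.1.trace * lam + 1 = 0 := by
    have hdet : (g.1.map ι - lam • 1).det = 0 := by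
      rw [← Matrix.exists_mulVec_eq_zero_iff]
      exact ⟨v, hv0, by rw [Matrix.sub_mulVec, hgv, Matrix.smul_mulVec, Matrix.one_mulVec, sub_self]⟩
    have hd := g.2
    rw [Matrix.det_fin_two] at hd hdet
    simp at hdet
    rw [Matrix.trace_fin_two, map_add]
    have hd' := congrArg ι hd
    simp only [map_sub, map_mul, map_one] at hd'
    linear_combination hdet - hd'
  have hlam0 : lam ≠ 0 := by
    rintro rfl
    simp at hquad
  obtain ⟨k, -, hk⟩ := FiniteField.card F p
  have hq : q = p ^ (k : ℕ) := by rw [← hF, hk]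
  have hquad' : (lam ^ q) ^ 2 - ι g.1.trace * lam ^ q + 1 = 0 := by
    have := congrArg (iterateFrobenius K p k) hquad
    simp only [map_add, map_sub, map_mul, map_pow, map_one, map_zero, iterateFrobenius_def] at this
    rw [← hq] at this
    have ht : ι g.1.trace ^ q = ι g.1.trace := by
      rw [← map_pow, ← hF, FiniteField.pow_card]
    rw [ht] at this
    exact this
  have hprod : (lam ^ q - lam) * (lam ^ q * lam - 1) = 0 := by
    linear_combination lam * hquad' - lam ^ q * hquad
  have hq1 : 1 ≤ q := by rw [hq]; exact Nat.one_le_pow _ _ hp.pos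
  rcases mul_eq_zero.1 hprod with h | h
  · left
    apply orderOf_dvd_of_pow_eq_one
    apply key
    have : lam ^ (q - 1) * lam = lam := by
      rw [← pow_succ, Nat.sub_add_cancel hq1]; exact sub_eq_zero.1 h
    exact mul_right_cancel₀ hlam0 (by rw [this, one_mul])
  · right
    apply orderOf_dvd_of_pow_eq_one
    apply key
    rw [pow_succ]; exact sub_eq_zero.1 h
end Cfsg.Agent.S0800
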