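import Cfsg.Statements.S0276
import Mathlib
import Cfsg.Agent.S0243
import Cfsg.Agent.S0268
import Cfsg.Agent.S0800

set_option autoImplicit false
open Cfsg

namespace Cfsg.Agent.S0276

open Matrix

/-- the order of `PSL₂(q)` is `4 * odd` when `q ≡ ±3 (mod 8)` -/
theorem card_eq {F : Type*} [Field F] [Fintype F] {q : ℕ} (hF : Fintype.card F = q) (hq : q % 8 = 3 ∨ q % 8 = 5) :
    ∃ m : ℕ, Odd m ∧ Nat.card (Matrix.ProjectiveSpecialLinearGroup (Fin 2) F) = 4 * m := by
  have h := Cfsg.Agent.S0243.result hF 2 le_rfl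
  rw [Fin.prod_univ_two] at h
  simp only [Fin.val_zero, Fin.val_one, pow_zero, pow_one] at h
  set N := Nat.card (Matrix.ProjectiveSpecialLinearGroup (Fin 2) F) with hN
  have hg : Nat.gcd 2 (q - 1) = 2 := by
    apply Nat.gcd_eq_left
    omega
  rw [hg] at h
  rcases hq with hq | hq
  · obtain ⟨j, rfl⟩ : ∃ j, q = 8 * j + 3 := ⟨q / 8, by omega⟩
    refine ⟨(8 * j + 3) * (2 * j + 1) * (4 * j + 1), ?_, ?_⟩
    · apply Odd.mul
      · apply Odd.mul
        · exact ⟨4 * j + 1, by ring⟩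
        · exact ⟨j, by ring⟩
      · exact ⟨2 * j, by ring⟩
    · have e1 : 8 * j + 3 - 1 = 8 * j + 2 := by omega
      have e2 : (8 * j + 3) ^ 2 - 1 = (8 * j + 2) * (8 * j + 4) := by
        have : (8 * j + 3) ^ 2 = (8 * j + 2) * (8 * j + 4) + 1 := by ring
        omega
      have e3 : (8 * j + 3) ^ 2 - (8 * j + 3) = (8 * j + 3) * (8 * j + 2) := by
        have : (8 * j + 3) ^ 2 = (8 * j + 3) * (8 * j + 2) + (8 * j + 3) := by ring
        omega
      rw [e1, e2, e3] at h
      have hpos : 0 < 2 * (8 * j + 2) := by omega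
      apply Nat.eq_of_mul_eq_mul_left hpos
      rw [mul_assoc, h]; ring
  · obtain ⟨j, rfl⟩ : ∃ j, q = 8 * j + 5 := ⟨q / 8, by omega⟩
    refine ⟨(8 * j + 5) * (4 * j + 3) * (2 * j + 1), ?_, ?_⟩
    · apply Odd.mul
      · apply Odd.mul
        · exact ⟨4 * j + 2, by ring⟩
        · exact ⟨2 * j + 1, by ring⟩
      · exact ⟨j, by ring⟩
    · have e1 : 8 * j + 5 - 1 = 8 * j + 4 := by omega
      have e2 : (8 * j + 5) ^ 2 - 1 = (8 * j + 4) * (8 * j + 6) := by
        have : (8 * j + 5) ^ 2 = (8 * j + 4) * (8 * j + 6) + 1 := by ring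
        omega
      have e3 : (8 * j + 5) ^ 2 - (8 * j + 5) = (8 * j + 5) * (8 * j + 4) := by
        have : (8 * j + 5) ^ 2 = (8 * j + 5) * (8 * j + 4) + (8 * j + 5) := by ring
        omega
      rw [e1, e2, e3] at h
      have hpos : 0 < 2 * (8 * j + 4) := by omega
      apply Nat.eq_of_mul_eq_mul_left hpos
      rw [mul_assoc, h]; ring

/-- no element of order four -/
theorem sq_eq_one {F : Type*} [Field F] [Fintype F] {q : ℕ} (hF : Fintype.card F = q) (hq : q % 8 = 3 ∨ q % 8 = 5)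
    (x : Matrix.ProjectiveSpecialLinearGroup (Fin 2) F) (hx : x ^ 4 = 1) : x ^ 2 = 1 := by
  classical
  obtain ⟨p, hp⟩ := CharP.exists F
  obtain ⟨k, hpp, hk⟩ := FiniteField.card F p
  have : Fact p.Prime := ⟨hpp⟩
  have hodd : Odd (Fintype.card F) := by
    rw [hF, Nat.odd_iff]; omega
  have hp2 : p ≠ 2 := by
    rintro rfl
    rw [hk] at hodd
    exact (Nat.not_even_iff_odd.2 hodd) ((Nat.even_pow.2 ⟨even_two, k.ne_zero⟩))
  obtain ⟨g, rfl⟩ := QuotientGroup.mk_surjective x
  rw [← QuotientGroup.mk_pow, QuotientGroup.eq_one_iff, Matrix.SpecialLinearGroup.mem_center_iff] at hx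
  obtain ⟨r, hr, hrg⟩ := hx
  rw [Fintype.card_fin] at hr
  have h8 : g ^ 8 = 1 := by
    have : g ^ 8 = (g ^ 4) ^ 2 := by rw [← pow_mul]
    rw [this]
    apply Subtype.ext
    change ((g ^ 4).1) ^ 2 = 1
    rw [← hrg, ← map_pow, hr, map_one]
  have ho8 : orderOf g ∣ 8 := orderOf_dvd_of_pow_eq_one h8
  have hcop : (orderOf g).Coprime p := by
    apply Nat.Coprime.coprime_dvd_left ho8
    have : Nat.Coprime 2 p := (Nat.coprime_primes Nat.prime_two hpp).2 (Ne.symm hp2)
    exact Nat.Coprime.pow_left 3 this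
  have ho4 : orderOf g ∣ 4 := by
    rcases Cfsg.Agent.S0800.result hF p g hcop with h | h
    · have h1 := Nat.dvd_gcd ho8 h
      have h2 : Nat.gcd 8 (q - 1) ∣ 4 := by
        rcases hq with hq | hq
        · obtain ⟨j, rfl⟩ : ∃ j, q = 8 * j + 3 := ⟨q / 8, by omega⟩
          have : 8 * j + 3 - 1 = 2 + j * 8 := by omega
          rw [this, Nat.gcd_add_mul_right_right]; decide
        · obtain ⟨j, rfl⟩ : ∃ j, q = 8 * j + 5 := ⟨q / 8, by omega⟩
          have : 8 * j + 5 - 1 = 4 + j * 8 := by omega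
          rw [this, Nat.gcd_add_mul_right_right]; decide
      exact h1.trans h2
    · have h1 := Nat.dvd_gcd ho8 h
      have h2 : Nat.gcd 8 (q + 1) ∣ 4 := by
        rcases hq with hq | hq
        · obtain ⟨j, rfl⟩ : ∃ j, q = 8 * j + 3 := ⟨q / 8, by omega⟩
          have : 8 * j + 3 + 1 = 4 + j * 8 := by omega
          rw [this, Nat.gcd_add_mul_right_right]; decide
        · obtain ⟨j, rfl⟩ : ∃ j, q = 8 * j + 5 := ⟨q / 8, by omega⟩
          have : 8 * j + 5 + 1 = 6 + j * 8 := by omega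
          rw [this, Nat.gcd_add_mul_right_right]; decide
      exact h1.trans h2
  have h4 : g ^ 4 = 1 := orderOf_dvd_iff_pow_eq_one.1 ho4
  rw [← QuotientGroup.mk_pow, QuotientGroup.eq_one_iff]
  by_cases h2 : g ^ 2 = 1
  · rw [h2]; exact Subgroup.one_mem _
  · have := Cfsg.Agent.S0268.result hodd (g ^ 2) h2 (by rw [← pow_add]; exact h4)
    rw [Matrix.SpecialLinearGroup.mem_center_iff]
    refine ⟨-1, by simp, ?_⟩
    rw [this, map_neg, map_one]


/-- For q = 3 or 5 mod 8 the Sylow 2-subgroups of PSL_2(q) are elementary abelian of order 4. -/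
theorem result {F : Type*} [Field F] [Fintype F] {q : ℕ} (hF : Fintype.card F = q) (hq : q % 8 = 3 ∨ q % 8 = 5) (P : Sylow 2 (Matrix.ProjectiveSpecialLinearGroup (Fin 2) F)) : IsKleinFour (P : Subgroup (Matrix.ProjectiveSpecialLinearGroup (Fin 2) F)) := by
  classical
  obtain ⟨m, hm, hcard⟩ := card_eq hF hq
  have hP : Nat.card (P : Subgroup (Matrix.ProjectiveSpecialLinearGroup (Fin 2) F)) = 4 := by
    rw [Sylow.card_eq_multiplicity, hcard]
    have hm0 : m ≠ 0 := by rintro rfl; simp at hm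
    rw [Nat.factorization_mul (by norm_num) hm0]
    have h1 : (4 : ℕ).factorization 2 = 2 := by
      have : (4 : ℕ) = 2 ^ 2 := by norm_num
      rw [this, Nat.Prime.factorization_pow Nat.prime_two]; simp
    have h2 : m.factorization 2 = 0 := by
      apply Nat.factorization_eq_zero_of_not_dvd
      rw [← even_iff_two_dvd, Nat.not_even_iff_odd]; exact hm
    simp [h1, h2]
  refine ⟨hP, ?_⟩
  have hall : ∀ x : (P : Subgroup (Matrix.ProjectiveSpecialLinearGroup (Fin 2) F)), x ^ 2 = 1 := by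
    intro x
    apply Subtype.ext
    apply sq_eq_one hF hq x.1
    have : x ^ 4 = 1 := by rw [← hP]; exact pow_card_eq_one'
    exact congrArg Subtype.val this
  have hdvd : Monoid.exponent (P : Subgroup (Matrix.ProjectiveSpecialLinearGroup (Fin 2) F)) ∣ 2 :=
    Monoid.exponent_dvd_of_forall_pow_eq_one hall
  rcases (Nat.dvd_prime Nat.prime_two).1 hdvd with h | h
  · exfalso
    rw [Monoid.exp_eq_one_iff] at h
    have := Nat.card_eq_one_iff_unique.2 ⟨h, ⟨1⟩⟩
    omega
  · exact h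
end Cfsg.Agent.S0276
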