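import Cfsg.Statements.S0285
import Cfsg.Agent.Lib.Helper4.UniCount

set_option autoImplicit false
open Cfsg

namespace Cfsg.Agent.S0285



/-- The standard Hermitian form on F^n, |F| = q^2, has exactly (q^n - (-1)^n)(q^(n-1) + (-1)^n) non-zero isotropic vectors; counting the zero vector too: -/
theorem result {F : Type*} [Field F] [Fintype F] {q : ℕ} (hF : Fintype.card F = q ^ 2) (n : ℕ) : Nat.card {v : Fin n → F // Cfsg.hermForm n F q v v = 0} = (if Even n then (q ^ n - 1) * (q ^ (n - 1) + 1) else (q ^ n + 1) * (q ^ (n - 1) - 1)) + 1 := by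
  have h := Cfsg.Agent.Lib.Helper4.UniCount.A_zero hF n
  unfold Cfsg.Agent.Lib.Helper4.UniCount.A at h
  rw [← h]
  simp only [Cfsg.Agent.Lib.Helper4.UniCount.hermForm_self]
end Cfsg.Agent.S0285
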