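import Mathlib
import Cfsg.Statements.S0286
import Cfsg.Agent.Lib.Helper5.OrthOdd

set_option autoImplicit false
open Cfsg

namespace Cfsg.Agent.S0286


/-- |GO_{2m+1}(q)| = 2 q^(m^2) prod_{i=1}^{m} (q^(2i) - 1) for q odd. -/
theorem result {F : Type*} [Field F] [Fintype F] {q : ℕ} (hF : Fintype.card F = q) (hodd : Odd q) (m : ℕ) : Nat.card (Cfsg.isometryGroup F (Cfsg.quadFormOdd m F)) = 2 * q ^ (m ^ 2) * ∏ i ∈ Finset.range m, (q ^ (2 * (i + 1)) - 1) := by
  rw [← hF]
  apply Cfsg.Agent.Lib.Helper5.OrthOdd.card_odd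
  intro h2
  have hchar : ringChar F = 2 := by
    have hdvd : ringChar F ∣ 2 := by
      apply ringChar.dvd
      exact_mod_cast h2
    rcases (Nat.dvd_prime Nat.prime_two).mp hdvd with h1 | h1
    · exfalso
      have : CharP F 1 := by rw [← h1]; exact ringChar.charP F
      exact CharP.char_ne_one F 1 rfl
    · exact h1
  have heven := FiniteField.even_card_of_char_two hchar
  rw [hF] at heven
  rcases hodd with ⟨t, ht⟩
  omega

end Cfsg.Agent.S0286
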