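import Cfsg.Statements.S0289
import Mathlib
import Cfsg.Agent.Lib.Helper4.QuadCount

set_option autoImplicit false
open Cfsg

namespace Cfsg.Agent.S0289



/-- The hyperbolic quadratic form on F^(2m), m at least 1, has q^(2m-1) + q^m - q^(m-1) zeros (that is, (q^m - 1)(q^(m-1) + 1) non-zero isotropic vectors). -/
theorem result {F : Type*} [Field F] [Fintype F] {q : ℕ} (hF : Fintype.card F = q) (m : ℕ) (hm : 1 ≤ m) : Nat.card {v : Fin m ⊕ Fin m → F // Cfsg.quadFormPlus m F v = 0} = q ^ (2 * m - 1) + q ^ m - q ^ (m - 1) := by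
  rw [Lib.Helper4.QuadCount.card_plus, hF]
  obtain ⟨k, rfl⟩ : ∃ k, m = k + 1 := ⟨m - 1, by omega⟩
  have hq : 0 < q := by rw [← hF]; exact Fintype.card_pos
  have e1 : 2 * (k + 1) - 1 = (k + 1) + k := by omega
  rw [e1, Nat.add_sub_cancel, pow_add q (k + 1) k, Nat.sub_mul, one_mul]
  have h1 : q ^ k ≤ q ^ (k + 1) * q ^ k := Nat.le_mul_of_pos_left _ (pow_pos hq _)
  omega
end Cfsg.Agent.S0289
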