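import Cfsg.Statements.S0290
import Mathlib
import Cfsg.Agent.Lib.Helper4.QuadCount

set_option autoImplicit false
open Cfsg

namespace Cfsg.Agent.S0290



/-- The minus-type quadratic form on F^(2m), m at least 1, has q^(2m-1) + q^(m-1) - q^m zeros (that is, (q^m + 1)(q^(m-1) - 1) non-zero isotropic vectors). -/
theorem result {F : Type*} [Field F] [Fintype F] {q : ℕ} (hF : Fintype.card F = q) (m : ℕ) (hm : 1 ≤ m) (a b : F) (hab : ∀ z₁ z₂ : F, z₁ ^ 2 + a * z₁ * z₂ + b * z₂ ^ 2 = 0 → z₁ = 0 ∧ z₂ = 0) : Nat.card {v : (Fin (m - 1) ⊕ Fin (m - 1)) ⊕ Fin 2 → F // Cfsg.quadFormMinus (m - 1) F a b v = 0} = q ^ (2 * m - 1) + q ^ (m - 1) - q ^ m := by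
  rw [Lib.Helper4.QuadCount.card_minus _ a b hab, hF]
  have hq : 0 < q := by rw [← hF]; exact Fintype.card_pos
  obtain ⟨k, rfl⟩ : ∃ k, m = k + 1 := ⟨m - 1, by omega⟩
  rw [Nat.add_sub_cancel]
  cases k with
  | zero => simp
  | succ j =>
    have e1 : q ^ (2 * (j + 1 + 1) - 1) = q ^ 2 * (q ^ (j + 1) * q ^ j) := by
      have : 2 * (j + 1 + 1) - 1 = 2 + ((j + 1) + j) := by omega
      rw [this, pow_add, pow_add q (j + 1) j]
    have e2 : q ^ (j + 1 + 1) = q ^ 2 * q ^ j := by ring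
    rw [e1, e2, Nat.add_sub_cancel, mul_assoc, Nat.sub_mul, one_mul, Nat.mul_sub]
    have h1 : q ^ 2 * q ^ j ≤ q ^ 2 * (q ^ (j + 1) * q ^ j) :=
      Nat.mul_le_mul_left _ (Nat.le_mul_of_pos_left _ (pow_pos hq _))
    omega
end Cfsg.Agent.S0290
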