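import Cfsg.Statements.S0291
import Mathlib
import Cfsg.Agent.Lib.Helper4.QuadCount

set_option autoImplicit false
open Cfsg

namespace Cfsg.Agent.S0291



/-- For q odd, the form x_0^2 + sum_{i<m} x_i y_i on F^(2m+1) has exactly q^(2m) zeros. -/
theorem result {F : Type*} [Field F] [Fintype F] {q : ℕ} (hF : Fintype.card F = q) (hodd : Odd q) (m : ℕ) : Nat.card {v : Unit ⊕ (Fin m ⊕ Fin m) → F // Cfsg.quadFormOdd m F v = 0} = q ^ (2 * m) := by
  rw [Lib.Helper4.QuadCount.card_odd, hF]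
  have hq : 0 < q := by rw [← hF]; exact Fintype.card_pos
  cases m with
  | zero => simp
  | succ j =>
    rw [Nat.add_sub_cancel, mul_assoc, Nat.sub_mul, one_mul, Nat.mul_sub]
    have e1 : q ^ (2 * (j + 1)) = q * (q ^ (j + 1) * q ^ j) := by ring
    have e2 : q ^ (j + 1) = q * q ^ j := by ring
    rw [e1]
    have h1 : q * q ^ j ≤ q * (q ^ (j + 1) * q ^ j) :=
      Nat.mul_le_mul_left _ (Nat.le_mul_of_pos_left _ (pow_pos hq _))
    rw [← e2] at h1 ⊢
    omega
end Cfsg.Agent.S0291
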