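import Mathlib
import Cfsg.Statements.S0292
import Cfsg.Agent.Lib.Helper5.OrthCenter

set_option autoImplicit false
open Cfsg

namespace Cfsg.Agent.S0292


/-- 2 |PΩ_{2m+1}(q)| = q^(m^2) prod_{i=1}^{m} (q^(2i) - 1), for q odd and m at least 3 (type B_m). -/
theorem result {F : Type*} [Field F] [Fintype F] {q : ℕ} (hF : Fintype.card F = q) (hodd : Odd q) (m : ℕ) (hm : 3 ≤ m) : 2 * Nat.card (Cfsg.POmega F (Cfsg.quadFormOdd m F)) = q ^ (m ^ 2) * ∏ i ∈ Finset.range m, (q ^ (2 * (i + 1)) - 1) := by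
  classical
  have h2 : (2 : F) ≠ 0 := Cfsg.Agent.Lib.Helper5.SpinorDiag.two_ne_zero_of_odd (by rw [hF]; exact hodd)
  obtain ⟨Qf, hQf, hnd, _, _⟩ := Cfsg.Agent.Lib.Helper5.OrthOdd.good_odd (F := F) h2 m
  have hO := Cfsg.Agent.Lib.Helper5.OrthOdd.card_odd (F := F) h2 m
  have H := Cfsg.Agent.Lib.Helper5.SpinorDiag.hyp_odd m Qf hQf
  have hex : Fintype.card F ≠ 2 ∨ Fintype.card (Unit ⊕ (Fin m ⊕ Fin m)) ≠ 4 :=
    Or.inr (by simp; omega)
  have hn : 2 ≤ Fintype.card (Unit ⊕ (Fin m ⊕ Fin m)) := by simp; omega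
  have hidx := Cfsg.Agent.Lib.Helper5.Spinor.index_omega Qf h2 hnd hn
  have hP := Cfsg.Agent.Lib.Helper5.OrthCenter.card_pomega_of_not H hnd hex hn
    (⟨0, by omega⟩ : Fin m) ⟨1, by omega⟩ (by simp) (Or.inl (by
      rintro ⟨g, hg, hgm⟩
      have h3 := Cfsg.Agent.Lib.Helper5.OrthSum.det_eq_one_of_mem_omega g hg
      rw [hgm, Matrix.det_neg, Matrix.det_one, mul_one] at h3
      have hodd' : Odd (Fintype.card (Unit ⊕ (Fin m ⊕ Fin m))) := by
        simp only [Fintype.card_sum, Fintype.card_fin, Fintype.card_unit]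
        exact ⟨m, by ring⟩
      rw [hodd'.neg_one_pow] at h3
      apply h2
      linear_combination -h3))
  have hmul := Subgroup.card_mul_index (Cfsg.Omega F ⇑Qf)
  rw [hidx] at hmul
  rw [hQf] at hP hmul
  rw [hP]
  rw [hO, hF, mul_assoc] at hmul
  omega

end Cfsg.Agent.S0292
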