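import Mathlib
import Cfsg.Statements.S0790
import Cfsg.Agent.Lib.Helper5.SpinorDiag

set_option autoImplicit false
open Cfsg

namespace Cfsg.Agent.S0790


/-- −1 ∈ Ω⁺_2m(q) iff q^m ≡ 1 (mod 4), for q odd and m ≥ 1 (so that in the other case SO⁺_2m(q) = 2 × Ω⁺_2m(q)). -/
theorem result {F : Type*} [Field F] [Fintype F] {q : ℕ} (hF : Fintype.card F = q) (hodd : Odd q) (m : ℕ) (hm : 1 ≤ m) : (∃ g : ↥(Cfsg.isometryGroup F (Cfsg.quadFormPlus m F)), g ∈ Cfsg.Omega F (Cfsg.quadFormPlus m F) ∧ ((g : Matrix.GeneralLinearGroup (Fin m ⊕ Fin m) F) : Matrix (Fin m ⊕ Fin m) (Fin m ⊕ Fin m) F) = -1) ↔ q ^ m % 4 = 1 := by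
  have key := Cfsg.Agent.Lib.Helper5.SpinorDiag.plus_iff hF hodd m hm le_rfl (fun _ => (-1 : F)) (by
    intro k
    rcases k with k | k <;> simp)
  have hd : Matrix.diagonal (fun _ : Fin m ⊕ Fin m => (-1 : F)) = -1 := by
    rw [← Matrix.diagonal_one, ← Matrix.diagonal_neg]
  rw [hd] at key
  exact key

end Cfsg.Agent.S0790
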