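import Mathlib
import Cfsg.Statements.S0791
import Cfsg.Agent.Lib.Helper5.SpinorDiag

set_option autoImplicit false
open Cfsg

namespace Cfsg.Agent.S0791


open Matrix Cfsg.Agent.Lib.Helper5.SpinorDiag Cfsg.Agent.Lib.Helper5.Spinor QuadraticMap

variable {F : Type*} [Field F]

theorem disc_nonsq (h2 : (2 : F) ≠ 0) (a b : F)
    (hab : ∀ z₁ z₂ : F, z₁ ^ 2 + a * z₁ * z₂ + b * z₂ ^ 2 = 0 → z₁ = 0 ∧ z₂ = 0) :
    ¬ IsSquare (a ^ 2 - 4 * b) := by
  rintro ⟨r, hr⟩
  have := (hab ((-a + r) / 2) 1 (by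
    field_simp
    linear_combination -hr)).2
  exact one_ne_zero this

/-- the two extra vectors -/
def zz (n : ℕ) (a : F) : Fin 2 → ((Fin n ⊕ Fin n) ⊕ Fin 2 → F) :=
  ![Pi.single (Sum.inr 0) 1, (-a) • Pi.single (Sum.inr 0) 1 + (2 : F) • Pi.single (Sum.inr 1) 1]

theorem polar_minus_eq (n : ℕ) (a b : F) (x y : (Fin n ⊕ Fin n) ⊕ Fin 2 → F) :
    polar (Cfsg.quadFormMinus n F a b) x y =
      ∑ j : Fin n, (x (.inl (.inl j)) * y (.inl (.inr j)) + y (.inl (.inl j)) * x (.inl (.inr j))) +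
      (2 * x (Sum.inr 0) * y (Sum.inr 0) +
        a * (x (Sum.inr 0) * y (Sum.inr 1) + x (Sum.inr 1) * y (Sum.inr 0)) +
        2 * b * x (Sum.inr 1) * y (Sum.inr 1)) := by
  simp only [polar, Cfsg.quadFormMinus, Pi.add_apply]
  have : ∑ j : Fin n, (x (.inl (.inl j)) + y (.inl (.inl j))) * (x (.inl (.inr j)) + y (.inl (.inr j)))
      = ∑ j : Fin n, x (.inl (.inl j)) * x (.inl (.inr j)) +
        ∑ j : Fin n, y (.inl (.inl j)) * y (.inl (.inr j)) +
        ∑ j : Fin n, (x (.inl (.inl j)) * y (.inl (.inr j)) + y (.inl (.inl j)) * x (.inl (.inr j))) := by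
    rw [← Finset.sum_add_distrib, ← Finset.sum_add_distrib]
    apply Finset.sum_congr rfl
    intro j _
    ring
  rw [this]
  ring

theorem polar_z0 (n : ℕ) (a b : F) (x : (Fin n ⊕ Fin n) ⊕ Fin 2 → F) :
    polar (Cfsg.quadFormMinus n F a b) (zz n a 0) x = 2 * x (Sum.inr 0) + a * x (Sum.inr 1) := by
  rw [polar_minus_eq]
  simp [zz]

theorem polar_z1 (n : ℕ) (a b : F) (x : (Fin n ⊕ Fin n) ⊕ Fin 2 → F) :
    polar (Cfsg.quadFormMinus n F a b) (zz n a 1) x = (4 * b - a ^ 2) * x (Sum.inr 1) := by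
  rw [polar_minus_eq]
  simp [zz]
  ring

theorem Q_z0 (n : ℕ) (a b : F) : Cfsg.quadFormMinus n F a b (zz n a 0) = 1 := by
  simp [Cfsg.quadFormMinus, zz]

theorem Q_z1 (n : ℕ) (a b : F) : Cfsg.quadFormMinus n F a b (zz n a 1) = 4 * b - a ^ 2 := by
  simp [Cfsg.quadFormMinus, zz]
  ring

/-- −1 ∈ Ω⁻_2m(q) iff q^m ≡ −1 (mod 4), for q odd and m ≥ 1; for the minus-type form quadFormMinus (m−1) with anisotropic binary part. -/
theorem result {F : Type*} [Field F] [Fintype F] {q : ℕ} (hF : Fintype.card F = q) (hodd : Odd q) (m : ℕ) (hm : 1 ≤ m) (a b : F) (hab : ∀ z₁ z₂ : F, z₁ ^ 2 + a * z₁ * z₂ + b * z₂ ^ 2 = 0 → z₁ = 0 ∧ z₂ = 0) : (∃ g : ↥(Cfsg.isometryGroup F (Cfsg.quadFormMinus (m - 1) F a b)), g ∈ Cfsg.Omega F (Cfsg.quadFormMinus (m - 1) F a b) ∧ ((g : Matrix.GeneralLinearGroup ((Fin (m - 1) ⊕ Fin (m - 1)) ⊕ Fin 2) F) : Matrix ((Fin (m - 1) ⊕ Fin (m - 1)) ⊕ Fin 2) ((Fin (m - 1) ⊕ Fin (m - 1)) ⊕ Fin 2) F) = -1) ↔ q ^ m % 4 = 3 := by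
  classical
  have h2 : (2 : F) ≠ 0 := two_ne_zero_of_odd (by rw [hF]; exact hodd)
  obtain ⟨Qf, hQf, hnd, _, _⟩ := Cfsg.Agent.Lib.Helper5.OrthMinus.good_minus (F := F) a b hab (m - 1)
  have H := hyp_minus (m - 1) a b Qf hQf
  have hns := disc_nonsq h2 a b hab
  have hd0 : 4 * b - a ^ 2 ≠ 0 := by
    intro h
    apply hns
    exact ⟨0, by linear_combination -h⟩
  have key := neg_family Qf h2 hnd (by simp)
    (Sum.elim (HypCoords.w (F := F) (fun j : Fin (m - 1) => (Sum.inl (Sum.inl j) : (Fin (m - 1) ⊕ Fin (m - 1)) ⊕ Fin 2))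
      (fun j => Sum.inl (Sum.inr j))) (zz (m - 1) a)) ?_ ?_ (-1) ?_ ?_
  · rw [hQf] at key
    rw [key, Fintype.prod_sum_type]
    simp only [Sum.elim_inl, Sum.elim_inr]
    have hp := H.prod_w
    rw [hQf] at hp
    rw [hp, Fin.prod_univ_two, Q_z0, Q_z1, one_mul, Fintype.card_fin]
    have e1 : Even (Fintype.card ((Fin (m - 1) ⊕ Fin (m - 1)) ⊕ Fin 2)) := by
      simp only [Fintype.card_sum, Fintype.card_fin]
      exact ⟨m - 1 + 1, by ring⟩
    have e2 : (-1 : F) ^ (m - 1) * (4 * b - a ^ 2) = (-1) ^ m * (a ^ 2 - 4 * b) := by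
      obtain ⟨k, rfl⟩ : ∃ k, m = k + 1 := ⟨m - 1, by omega⟩
      simp only [Nat.add_sub_cancel, pow_succ]
      ring
    rw [e2, ← qs_eq_one_iff, qs_mul (pow_ne_zero _ (by simp)) (by
      intro h; apply hd0; linear_combination -h), qs_of_not_isSquare hns]
    have e3 := isSquare_neg_one_pow hF hodd m
    have e4 : q ^ m % 4 = 1 ∨ q ^ m % 4 = 3 := by
      have := Nat.odd_iff.mp (hodd.pow (n := m))
      omega
    by_cases hsq : IsSquare ((-1 : F) ^ m)
    · rw [qs_of_isSquare hsq]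
      have := e3.mp hsq
      simp [this]
    · rw [qs_of_not_isSquare hsq]
      have : q ^ m % 4 = 3 := by
        rcases e4 with h | h
        · exact absurd (e3.mpr h) hsq
        · exact h
      exact ⟨fun _ => this, fun _ => ⟨e1, rfl⟩⟩
  · rintro (k | k)
    · exact H.w_ne k
    · simp only [Sum.elim_inr]
      rw [hQf]
      fin_cases k
      · show Cfsg.quadFormMinus (m - 1) F a b (zz (m - 1) a 0) ≠ 0
        rw [Q_z0]; exact one_ne_zero
      · show Cfsg.quadFormMinus (m - 1) F a b (zz (m - 1) a 1) ≠ 0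
        rw [Q_z1]; exact hd0
  · rintro (k | k) (k' | k') hk
    · exact H.w_orth k k' (fun h => hk (by rw [h]))
    · simp only [Sum.elim_inl, Sum.elim_inr]
      rw [polar_comm, hQf]
      fin_cases k'
      · show polar (Cfsg.quadFormMinus (m - 1) F a b) (zz (m - 1) a 0) _ = 0
        rw [polar_z0]
        rcases k with j | j <;> simp [HypCoords.w]
      · show polar (Cfsg.quadFormMinus (m - 1) F a b) (zz (m - 1) a 1) _ = 0
        rw [polar_z1]
        rcases k with j | j <;> simp [HypCoords.w]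
    · simp only [Sum.elim_inl, Sum.elim_inr]
      rw [hQf]
      fin_cases k
      · show polar (Cfsg.quadFormMinus (m - 1) F a b) (zz (m - 1) a 0) _ = 0
        rw [polar_z0]
        rcases k' with j | j <;> simp [HypCoords.w]
      · show polar (Cfsg.quadFormMinus (m - 1) F a b) (zz (m - 1) a 1) _ = 0
        rw [polar_z1]
        rcases k' with j | j <;> simp [HypCoords.w]
    · simp only [Sum.elim_inr]
      rw [hQf]
      fin_cases k <;> fin_cases k'
      · exact absurd rfl hk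
      · show polar (Cfsg.quadFormMinus (m - 1) F a b) (zz (m - 1) a 0) (zz (m - 1) a 1) = 0
        rw [polar_z0]
        simp [zz]
        ring
      · show polar (Cfsg.quadFormMinus (m - 1) F a b) (zz (m - 1) a 1) (zz (m - 1) a 0) = 0
        rw [polar_z1]
        simp [zz]
      · exact absurd rfl hk
  · intro j
    rw [neg_mulVec, one_mulVec]
  · intro x hx
    have h0 := H.zero_of_orth h2 x (fun k => hx (Sum.inl k))
    have h1 := hx (Sum.inr 0)
    have h3 := hx (Sum.inr 1)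
    simp only [Sum.elim_inr] at h1 h3
    rw [hQf, polar_z0] at h1
    rw [hQf, polar_z1] at h3
    have x1 : x (Sum.inr 1) = 0 := (mul_eq_zero.mp h3).resolve_left hd0
    have x0 : x (Sum.inr 0) = 0 := by
      rw [x1, mul_zero, add_zero] at h1
      exact (mul_eq_zero.mp h1).resolve_left h2
    have : x = 0 := by
      funext k
      rcases k with (k | k) | k
      · exact (h0 k).1
      · exact (h0 k).2
      · fin_cases k
        · exact x0
        · exact x1
    rw [this, mulVec_zero]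

end Cfsg.Agent.S0791
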