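import Mathlib
import Cfsg.Statements.S0294
import Cfsg.Agent.Lib.Helper5.OrthCenter
import Cfsg.Agent.S0791

set_option autoImplicit false
open Cfsg

namespace Cfsg.Agent.S0294


theorem gcd_four (N : ℕ) : Nat.gcd 4 N = Nat.gcd (N % 4) 4 := Nat.gcd_rec 4 N

theorem even_card_of_two_eq_zero {F : Type*} [Field F] [Fintype F] (h2 : (2 : F) = 0) :
    Fintype.card F % 2 = 0 := by
  apply FiniteField.even_card_of_char_two
  have hd : ringChar F ∣ 2 := (ringChar.spec F 2).mp (by exact_mod_cast h2)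
  rcases (Nat.dvd_prime Nat.prime_two).mp hd with h3 | h3
  · exact absurd h3 (CharP.ringChar_ne_one)
  · exact h3

theorem odd_card_of_two_ne_zero {F : Type*} [Field F] [Fintype F] (h2 : (2 : F) ≠ 0) :
    Odd (Fintype.card F) := by
  rw [Nat.odd_iff]
  apply FiniteField.odd_card_of_char_ne_two
  intro h
  apply h2
  have := ringChar.Nat.cast_ringChar (R := F)
  rw [h] at this
  exact_mod_cast this

/-- gcd(4, q^m + 1) |PΩ^-_{2m}(q)| = q^(m(m-1)) (q^m + 1) prod_{i=1}^{m-1} (q^(2i) - 1), m at least 4 (type ²D_m). -/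
theorem result {F : Type*} [Field F] [Fintype F] {q : ℕ} (hF : Fintype.card F = q) (m : ℕ) (hm : 4 ≤ m) (a b : F) (hab : ∀ z₁ z₂ : F, z₁ ^ 2 + a * z₁ * z₂ + b * z₂ ^ 2 = 0 → z₁ = 0 ∧ z₂ = 0) : Nat.gcd 4 (q ^ m + 1) * Nat.card (Cfsg.POmega F (Cfsg.quadFormMinus (m - 1) F a b)) = q ^ (m * (m - 1)) * (q ^ m + 1) * ∏ i ∈ Finset.range (m - 1), (q ^ (2 * (i + 1)) - 1) := by
  classical
  obtain ⟨Qf, hQf, hnd, _, _⟩ := Cfsg.Agent.Lib.Helper5.OrthMinus.good_minus (F := F) a b hab (m - 1)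
  have hO := Cfsg.Agent.Lib.Helper5.OrthMinus.card_minus (F := F) a b hab m (by omega)
  have H := Cfsg.Agent.Lib.Helper5.SpinorDiag.hyp_minus (m - 1) a b Qf hQf
  have hex : Fintype.card F ≠ 2 ∨ Fintype.card ((Fin (m - 1) ⊕ Fin (m - 1)) ⊕ Fin 2) ≠ 4 :=
    Or.inr (by simp; omega)
  have hn : 2 ≤ Fintype.card ((Fin (m - 1) ⊕ Fin (m - 1)) ⊕ Fin 2) := by simp
  have hP1 := Cfsg.Agent.Lib.Helper5.OrthCenter.card_pomega_of_not H hnd hex hn
    (⟨0, by omega⟩ : Fin (m - 1)) ⟨1, by omega⟩ (by simp)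
  have hP2 := Cfsg.Agent.Lib.Helper5.OrthCenter.card_pomega_of_neg H hnd hex hn
    (⟨0, by omega⟩ : Fin (m - 1)) ⟨1, by omega⟩ (by simp)
  have hmul := Subgroup.card_mul_index (Cfsg.Omega F ⇑Qf)
  rw [hF, mul_assoc, mul_assoc] at hO
  rw [mul_assoc]
  generalize q ^ (m * (m - 1)) * ((q ^ m + 1) * ∏ i ∈ Finset.range (m - 1), (q ^ (2 * (i + 1)) - 1)) = X at hO ⊢
  by_cases h2 : (2 : F) = 0
  · have hidx := Cfsg.Agent.Lib.Helper5.Dickson.index_omega Qf h2 hnd hex (by omega)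
    rw [hidx] at hmul
    rw [hQf] at hP1 hmul
    rw [hP1 (Or.inr h2)]
    have hq := even_card_of_two_eq_zero h2
    rw [hF] at hq
    have hqm : q ^ m % 2 = 0 := by
      rw [Nat.pow_mod, hq, zero_pow (by omega)]; rfl
    have hg : Nat.gcd 4 (q ^ m + 1) = 1 := by
      rw [gcd_four]
      have : (q ^ m + 1) % 4 = 1 ∨ (q ^ m + 1) % 4 = 3 := by omega
      rcases this with h | h <;> rw [h] <;> rfl
    rw [hg]
    omega
  · have hodd := odd_card_of_two_ne_zero h2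
    rw [hF] at hodd
    have hidx := Cfsg.Agent.Lib.Helper5.Spinor.index_omega Qf h2 hnd hn
    rw [hidx] at hmul
    rw [hQf] at hP1 hP2 hmul
    have key := Cfsg.Agent.S0791.result hF hodd m (by omega) a b hab
    have e4 : q ^ m % 4 = 1 ∨ q ^ m % 4 = 3 := by
      have := Nat.odd_iff.mp (hodd.pow (n := m))
      omega
    rcases e4 with h4 | h4
    · have h5 := hP1 (Or.inl (fun h => by
        have := key.mp h
        omega))
      have hg : Nat.gcd 4 (q ^ m + 1) = 2 := by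
        rw [gcd_four]
        have : (q ^ m + 1) % 4 = 2 := by omega
        rw [this]; rfl
      rw [hg]
      omega
    · have h5 := hP2 (key.mpr h4) h2
      have hg : Nat.gcd 4 (q ^ m + 1) = 4 := by
        rw [gcd_four]
        have : (q ^ m + 1) % 4 = 0 := by omega
        rw [this]; rfl
      rw [hg]
      omega

end Cfsg.Agent.S0294
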