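import Mathlib
import Cfsg.Statements.S0295
import Cfsg.Agent.Lib.Helper5.OrthSimple

set_option autoImplicit false
open Cfsg

namespace Cfsg.Agent.S0295


/-- PΩ_{2m+1}(q) is simple for q odd and m at least 3. -/
theorem result {F : Type*} [Field F] [Fintype F] (hodd : Odd (Fintype.card F)) (m : ℕ) (hm : 3 ≤ m) : IsSimpleGroup (Cfsg.POmega F (Cfsg.quadFormOdd m F)) := by
  classical
  have h2 : (2 : F) ≠ 0 := Cfsg.Agent.Lib.Helper5.SpinorDiag.two_ne_zero_of_odd hodd
  obtain ⟨Qf, hQf, hnd, _, _⟩ := Cfsg.Agent.Lib.Helper5.OrthOdd.good_odd (F := F) h2 m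
  have key := Cfsg.Agent.Lib.Helper5.OrthSimple.simple_of_hyp
    (Cfsg.Agent.Lib.Helper5.SpinorDiag.hyp_odd m Qf hQf) hnd (by simpa using hm)
    (by simp; omega)
  rw [hQf] at key
  exact key

end Cfsg.Agent.S0295
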