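import Mathlib
import Cfsg.Statements.S0296
import Cfsg.Agent.Lib.Helper5.OrthSimple

set_option autoImplicit false
open Cfsg

namespace Cfsg.Agent.S0296


/-- PΩ^+_{2m}(q) is simple for m at least 4. -/
theorem result {F : Type*} [Field F] [Fintype F] (m : ℕ) (hm : 4 ≤ m) : IsSimpleGroup (Cfsg.POmega F (Cfsg.quadFormPlus m F)) := by
  classical
  obtain ⟨Qf, hQf, hnd, _, _⟩ := Cfsg.Agent.Lib.Helper5.OrthPlus.good_plus (F := F) m
  have key := Cfsg.Agent.Lib.Helper5.OrthSimple.simple_of_hyp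
    (Cfsg.Agent.Lib.Helper5.SpinorDiag.hyp_plus m Qf hQf) hnd (by simp; omega)
    (by simp; omega)
  rw [hQf] at key
  exact key

end Cfsg.Agent.S0296
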