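import Mathlib
import Cfsg.Statements.S0298
import Cfsg.Agent.Lib.Helper5.Klein
import Cfsg.Agent.Lib.Helper5.PerfectIndex
import Cfsg.Agent.Lib.Helper5.OrthOdd
import Cfsg.Agent.Lib.Helper5.SL2Aux
import Cfsg.Agent.Lib.Helper3.SLn

set_option autoImplicit false
open Cfsg

namespace Cfsg.Agent.S0298

open Cfsg.Agent.Lib.Helper5 Matrix

variable {F : Type*} [Field F]

/-- the symmetric matrix with given coordinates -/
def toSym (u : Unit ⊕ (Fin 1 ⊕ Fin 1) → F) : Matrix (Fin 2) (Fin 2) F :=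
  !![u (.inr (.inl 0)), u (.inl ()); u (.inl ()), -u (.inr (.inr 0))]

/-- the coordinates of a symmetric matrix -/
def ofSym (X : Matrix (Fin 2) (Fin 2) F) : Unit ⊕ (Fin 1 ⊕ Fin 1) → F :=
  Sum.elim (fun _ => X 0 1) (Sum.elim (fun _ => X 0 0) (fun _ => -X 1 1))

theorem toSym_ofSym_of (X : Matrix (Fin 2) (Fin 2) F) (h : X 1 0 = X 0 1) : toSym (ofSym X) = X := by
  ext i j
  fin_cases i <;> fin_cases j <;> simp [toSym, ofSym, h]

theorem ofSym_toSym (u : Unit ⊕ (Fin 1 ⊕ Fin 1) → F) : ofSym (toSym u) = u := by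
  funext i
  rcases i with i | i | i
  · simp [toSym, ofSym]
  · fin_cases i; simp [toSym, ofSym]
  · fin_cases i; simp [toSym, ofSym]

theorem toSym_add (u v : Unit ⊕ (Fin 1 ⊕ Fin 1) → F) : toSym (u + v) = toSym u + toSym v := by
  ext i j
  fin_cases i <;> fin_cases j <;> simp [toSym]
  ring

theorem toSym_smul (c : F) (u : Unit ⊕ (Fin 1 ⊕ Fin 1) → F) : toSym (c • u) = c • toSym u := by
  ext i j
  fin_cases i <;> fin_cases j <;> simp [toSym]

theorem ofSym_add (X Y : Matrix (Fin 2) (Fin 2) F) : ofSym (X + Y) = ofSym X + ofSym Y := by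
  funext i
  rcases i with i | i | i <;> simp [ofSym]
  ring

theorem ofSym_smul (c : F) (X : Matrix (Fin 2) (Fin 2) F) : ofSym (c • X) = c • ofSym X := by
  funext i
  rcases i with i | i | i <;> simp [ofSym]

theorem conj_symm (g : Matrix (Fin 2) (Fin 2) F) (u : Unit ⊕ (Fin 1 ⊕ Fin 1) → F) :
    (g * toSym u * gᵀ) 1 0 = (g * toSym u * gᵀ) 0 1 := by
  simp [toSym, Matrix.mul_apply, Fin.sum_univ_two]
  ring

theorem quad_conj (g : Matrix (Fin 2) (Fin 2) F) (u : Unit ⊕ (Fin 1 ⊕ Fin 1) → F) :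
    Cfsg.quadFormOdd 1 F (ofSym (g * toSym u * gᵀ)) = g.det ^ 2 * Cfsg.quadFormOdd 1 F u := by
  rw [Matrix.det_fin_two]
  simp [Cfsg.quadFormOdd, toSym, ofSym, Matrix.mul_apply, Fin.sum_univ_two]
  ring

theorem quad_smul (c : F) (u : Unit ⊕ (Fin 1 ⊕ Fin 1) → F) :
    Cfsg.quadFormOdd 1 F (c • u) = c ^ 2 * Cfsg.quadFormOdd 1 F u := by
  simp [Cfsg.quadFormOdd]
  ring

/-- the action on symmetric matrices, normalised -/
def act (g : Matrix (Fin 2) (Fin 2) F) :
    (Unit ⊕ (Fin 1 ⊕ Fin 1) → F) →ₗ[F] (Unit ⊕ (Fin 1 ⊕ Fin 1) → F) where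
  toFun u := g.det⁻¹ • ofSym (g * toSym u * gᵀ)
  map_add' u v := by
    rw [toSym_add, Matrix.mul_add, Matrix.add_mul, ofSym_add, smul_add]
  map_smul' c u := by
    rw [toSym_smul, Matrix.mul_smul, Matrix.smul_mul, ofSym_smul, smul_comm]
    rfl

theorem act_apply (g : Matrix (Fin 2) (Fin 2) F) (u : Unit ⊕ (Fin 1 ⊕ Fin 1) → F) :
    act g u = g.det⁻¹ • ofSym (g * toSym u * gᵀ) := rfl

theorem toSym_act (g : Matrix (Fin 2) (Fin 2) F) (u : Unit ⊕ (Fin 1 ⊕ Fin 1) → F) :
    toSym (act g u) = g.det⁻¹ • (g * toSym u * gᵀ) := by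
  rw [act_apply, toSym_smul, toSym_ofSym_of _ (conj_symm g u)]

theorem act_mul (g h : Matrix (Fin 2) (Fin 2) F) (u : Unit ⊕ (Fin 1 ⊕ Fin 1) → F) :
    act (g * h) u = act g (act h u) := by
  rw [act_apply g, toSym_act, act_apply, Matrix.transpose_mul, Matrix.mul_smul, Matrix.smul_mul,
    ofSym_smul, smul_smul, Matrix.det_mul, mul_inv]
  simp only [Matrix.mul_assoc]

theorem quad_act (g : Matrix (Fin 2) (Fin 2) F) (hg : g.det ≠ 0)
    (u : Unit ⊕ (Fin 1 ⊕ Fin 1) → F) :
    Cfsg.quadFormOdd 1 F (act g u) = Cfsg.quadFormOdd 1 F u := by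
  rw [act_apply, quad_smul, quad_conj]
  field_simp

theorem scalar_of_fix (g : Matrix (Fin 2) (Fin 2) F) (hg : g.det ≠ 0) (h : ∀ u, act g u = u) :
    g 0 1 = 0 ∧ g 1 0 = 0 ∧ g 0 0 = g 1 1 := by
  have key : ∀ u, g * toSym u * gᵀ = g.det • toSym u := by
    intro u
    have h1 := toSym_act g u
    rw [h u] at h1
    conv_rhs => rw [h1, smul_smul, mul_inv_cancel₀ hg, one_smul]
  have k1 := key (Sum.elim (fun _ => 0) (Sum.elim (fun _ => 1) (fun _ => 0)))
  have k2 := key (Sum.elim (fun _ => 0) (Sum.elim (fun _ => 0) (fun _ => 1)))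
  have a1 := congrFun (congrFun k1 1) 1
  have a2 := congrFun (congrFun k1 0) 0
  have b1 := congrFun (congrFun k2 0) 0
  simp [toSym, Matrix.mul_apply, Fin.sum_univ_two] at a1 a2 b1
  rw [Matrix.det_fin_two, a1, b1] at a2
  have hne : g 0 0 ≠ 0 := by
    intro h0
    apply hg
    rw [Matrix.det_fin_two, h0, a1]
    simp
  refine ⟨b1, a1, ?_⟩
  have : g 0 0 * g 0 0 = g 0 0 * g 1 1 := by linear_combination a2
  exact mul_left_cancel₀ hne this

/-- PΩ_3(q) is isomorphic to PSL_2(q) for q odd. -/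
theorem result {F : Type*} [Field F] [Fintype F] (hodd : Odd (Fintype.card F)) : Nonempty (Cfsg.POmega F (Cfsg.quadFormOdd 1 F) ≃* Matrix.ProjectiveSpecialLinearGroup (Fin 2) F) := by
  have h2 : (2 : F) ≠ 0 := by
    intro h
    have hc : ringChar F = 2 := by
      have : ringChar F ∣ 2 := by
        rw [← ringChar.spec]; exact_mod_cast h
      rcases (Nat.dvd_prime Nat.prime_two).mp this with h1 | h1
      · exact absurd h1 (CharP.ringChar_ne_one)
      · exact h1
    have := FiniteField.even_card_of_char_two hc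
    exact (Nat.not_even_iff_odd.mpr hodd) (Nat.even_iff.mpr this)
  obtain ⟨Q, hQc, hQ, -, -⟩ := OrthOdd.good_odd h2 1
  have h := Klein.exists_hom_of_rep Q hQ
    (fun g : Matrix.GeneralLinearGroup (Fin 2) F => act (g : Matrix (Fin 2) (Fin 2) F))
    (fun g h x => by
      rw [Matrix.GeneralLinearGroup.coe_mul]
      exact act_mul _ _ _)
    (fun g x => by
      rw [hQc]
      exact quad_act _ (Matrix.GeneralLinearGroup.det_ne_zero g) _)
  rw [hQc] at h
  obtain ⟨f, hf⟩ := h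
  have hfin : Finite ↥(Cfsg.isometryGroup F (Cfsg.quadFormOdd 1 F)) := inferInstance
  have hfix : ∀ g ∈ f.ker, (g : Matrix (Fin 2) (Fin 2) F) 0 1 = 0 ∧
      (g : Matrix (Fin 2) (Fin 2) F) 1 0 = 0 ∧
      (g : Matrix (Fin 2) (Fin 2) F) 0 0 = (g : Matrix (Fin 2) (Fin 2) F) 1 1 := by
    intro g hg
    rw [MonoidHom.mem_ker] at hg
    apply scalar_of_fix _ (Matrix.GeneralLinearGroup.det_ne_zero g)
    intro u
    rw [← hf, hg, OrthCard.mat_one_mulVec]
  set f₁ := f.comp (Matrix.SpecialLinearGroup.toGL :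
    Matrix.SpecialLinearGroup (Fin 2) F →* Matrix.GeneralLinearGroup (Fin 2) F) with hf₁
  have hker₁ : ∀ g ∈ f₁.ker, g = 1 ∨ g = SL2Aux.negOne := by
    intro g hg
    have hg' : Matrix.SpecialLinearGroup.toGL g ∈ f.ker := hg
    obtain ⟨a, b, c⟩ := hfix _ hg'
    exact SL2Aux.eq_one_or_negOne_of_scalar g a b c
  have hq : 3 ≤ Fintype.card F := by
    have h1 : 2 ≤ Fintype.card F := Fintype.one_lt_card
    rcases hodd with ⟨k, hk⟩
    omega
  have hcO : Nat.card ↥(Cfsg.isometryGroup F (Cfsg.quadFormOdd 1 F)) =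
      2 * Nat.card (Matrix.SpecialLinearGroup (Fin 2) F) := by
    rw [OrthOdd.card_odd h2, SL2Aux.card_sl2]
    simp only [Finset.prod_range_succ, Finset.prod_range_zero]
    ring_nf
  have hmap : (commutator (Matrix.GeneralLinearGroup (Fin 2) F)).map f = f₁.range := by
    rw [Cfsg.Agent.Lib.Helper3.SLn.gl_commutator_eq_ker_det, ← SL2Aux.range_toGL, MonoidHom.map_range]
    intro _
    refine ⟨-1, by simp, ?_⟩
    intro h
    apply h2
    linear_combination -h
  have hkc : f.ker ≤ Subgroup.center (Matrix.GeneralLinearGroup (Fin 2) F) := by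
    intro g hg
    obtain ⟨a, b, c⟩ := hfix g hg
    rw [Subgroup.mem_center_iff]
    intro k
    apply Units.ext
    rw [Matrix.GeneralLinearGroup.coe_mul, Matrix.GeneralLinearGroup.coe_mul]
    ext i j
    fin_cases i <;> fin_cases j <;> simp [Matrix.mul_apply, Fin.sum_univ_two, a, b, c] <;> ring
  have hidx2 : f.range.index = 1 ∨ f.range.index = 2 := by
    have h1 : f.range.index ≤ 2 := by
      apply PerfectIndex.index_range_le
      have h3 := Subgroup.card_le_of_le hkc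
      rw [CardSL.card_center 2 (by norm_num)] at h3
      rw [hcO, CardSL.card_GL_eq 2 (by norm_num)]
      calc 2 * Nat.card (Matrix.SpecialLinearGroup (Fin 2) F) * Nat.card f.ker
          ≤ 2 * Nat.card (Matrix.SpecialLinearGroup (Fin 2) F) * (Fintype.card F - 1) :=
            Nat.mul_le_mul_left _ h3
        _ = _ := by ring
    have h0 : f.range.index ≠ 0 := Subgroup.index_ne_zero_of_finite
    omega
  have hidx4 : f₁.range.index ≤ 4 := by
    apply PerfectIndex.index_range_le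
    rw [hcO]
    have := PerfectIndex.card_ker_le_two f₁ _ hker₁
    nlinarith [Nat.card_pos (α := Matrix.SpecialLinearGroup (Fin 2) F)]
  have hcomm := PerfectIndex.commutator_eq_map f hidx2
    (by rw [hmap]; exact Subgroup.index_ne_zero_of_finite) (by rw [hmap]; exact hidx4)
  apply PerfectIndex.quotient_center_equiv f₁ ?_ (hcomm.trans hmap)
  intro g hg
  exact SL2Aux.central_of_comm_pm g (fun k => hker₁ _ (hg k))

end Cfsg.Agent.S0298
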