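import Mathlib
import Cfsg.Statements.S0299
import Cfsg.Agent.Lib.Helper5.Klein
import Cfsg.Agent.Lib.Helper5.PerfectIndex
import Cfsg.Agent.Lib.Helper5.OrthPlus
import Cfsg.Agent.Lib.Helper5.SL2Aux
import Cfsg.Agent.Lib.Helper3.SLn

set_option autoImplicit false
open Cfsg

namespace Cfsg.Agent.S0299

open Cfsg.Agent.Lib.Helper5 Matrix
open scoped commutatorElement

variable {F : Type*} [Field F]

/-- the matrix with given coordinates -/
def toM (u : Fin 2 ⊕ Fin 2 → F) : Matrix (Fin 2) (Fin 2) F :=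
  !![u (.inl 0), u (.inl 1); -u (.inr 1), u (.inr 0)]

/-- the coordinates of a matrix -/
def ofM (X : Matrix (Fin 2) (Fin 2) F) : Fin 2 ⊕ Fin 2 → F :=
  Sum.elim ![X 0 0, X 0 1] ![X 1 1, -X 1 0]

theorem toM_ofM (X : Matrix (Fin 2) (Fin 2) F) : toM (ofM X) = X := by
  ext i j
  fin_cases i <;> fin_cases j <;> simp [toM, ofM]

theorem ofM_toM (u : Fin 2 ⊕ Fin 2 → F) : ofM (toM u) = u := by
  funext i
  rcases i with i | i <;> fin_cases i <;> simp [toM, ofM]

theorem toM_add (u v : Fin 2 ⊕ Fin 2 → F) : toM (u + v) = toM u + toM v := by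
  ext i j
  fin_cases i <;> fin_cases j <;> simp [toM]
  ring

theorem toM_smul (c : F) (u : Fin 2 ⊕ Fin 2 → F) : toM (c • u) = c • toM u := by
  ext i j
  fin_cases i <;> fin_cases j <;> simp [toM]

theorem ofM_add (X Y : Matrix (Fin 2) (Fin 2) F) : ofM (X + Y) = ofM X + ofM Y := by
  funext i
  rcases i with i | i <;> fin_cases i <;> simp [ofM]
  ring

theorem ofM_smul (c : F) (X : Matrix (Fin 2) (Fin 2) F) : ofM (c • X) = c • ofM X := by
  funext i
  rcases i with i | i <;> fin_cases i <;> simp [ofM]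

theorem quad_eq_det (u : Fin 2 ⊕ Fin 2 → F) : Cfsg.quadFormPlus 2 F u = (toM u).det := by
  rw [Matrix.det_fin_two]
  simp [Cfsg.quadFormPlus, toM, Fin.sum_univ_two]

/-- the two sided action -/
def act (g h : Matrix (Fin 2) (Fin 2) F) : (Fin 2 ⊕ Fin 2 → F) →ₗ[F] (Fin 2 ⊕ Fin 2 → F) where
  toFun u := ofM (g * toM u * hᵀ)
  map_add' u v := by
    rw [toM_add, Matrix.mul_add, Matrix.add_mul, ofM_add]
  map_smul' c u := by
    rw [toM_smul, Matrix.mul_smul, Matrix.smul_mul, ofM_smul]
    rfl

theorem act_apply (g h : Matrix (Fin 2) (Fin 2) F) (u : Fin 2 ⊕ Fin 2 → F) :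
    act g h u = ofM (g * toM u * hᵀ) := rfl

theorem toM_act (g h : Matrix (Fin 2) (Fin 2) F) (u : Fin 2 ⊕ Fin 2 → F) :
    toM (act g h u) = g * toM u * hᵀ := by
  rw [act_apply, toM_ofM]

theorem act_mul (g h g' h' : Matrix (Fin 2) (Fin 2) F) (u : Fin 2 ⊕ Fin 2 → F) :
    act (g * g') (h * h') u = act g h (act g' h' u) := by
  rw [act_apply g h, toM_act, act_apply, Matrix.transpose_mul]
  simp only [Matrix.mul_assoc]

theorem quad_act (g h : Matrix (Fin 2) (Fin 2) F) (u : Fin 2 ⊕ Fin 2 → F) :
    Cfsg.quadFormPlus 2 F (act g h u) = g.det * h.det * Cfsg.quadFormPlus 2 F u := by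
  rw [quad_eq_det, quad_eq_det, toM_act, Matrix.det_mul, Matrix.det_mul, Matrix.det_transpose]
  ring

theorem entries_of_fix (g h : Matrix (Fin 2) (Fin 2) F) (hfix : ∀ u, act g h u = u)
    (a i b j : Fin 2) : g a i * h b j = if a = i ∧ b = j then 1 else 0 := by
  have h1 := toM_act g h (ofM (Matrix.single i j 1))
  rw [hfix, toM_ofM] at h1
  have h2 := congrFun (congrFun h1 a) b
  have h3 : (g * Matrix.single i j (1 : F) * hᵀ) a b = g a i * h b j := by
    simp [Matrix.mul_apply, Matrix.single_apply, ite_and, ite_mul]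
  rw [h3, Matrix.single_apply] at h2
  rw [← h2]
  simp only [eq_comm]

theorem scalar_of_fix (g h : Matrix (Fin 2) (Fin 2) F) (hfix : ∀ u, act g h u = u) :
    (g 0 1 = 0 ∧ g 1 0 = 0 ∧ g 0 0 = g 1 1) ∧ (h 0 1 = 0 ∧ h 1 0 = 0 ∧ h 0 0 = h 1 1) ∧
      g 0 0 * h 0 0 = 1 := by
  have hE := entries_of_fix g h hfix
  have e00 := hE 0 0 0 0
  have e1 := hE 0 1 0 0
  have e2 := hE 1 0 0 0
  have e3 := hE 1 1 0 0
  have e4 := hE 0 0 0 1
  have e5 := hE 0 0 1 0
  have e6 := hE 0 0 1 1
  simp at e00 e1 e2 e3 e4 e5 e6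
  have hg : g 0 0 ≠ 0 := fun hz => by rw [hz, zero_mul] at e00; exact zero_ne_one e00
  have hh : h 0 0 ≠ 0 := fun hz => by rw [hz, mul_zero] at e00; exact zero_ne_one e00
  refine ⟨⟨e1.resolve_right hh, e2.resolve_right hh, ?_⟩, ⟨e4.resolve_left hg, e5.resolve_left hg, ?_⟩,
    e00⟩
  · exact mul_right_cancel₀ hh (e00.trans e3.symm)
  · exact mul_left_cancel₀ hg (e00.trans e6.symm)

/-- product of the determinants -/
def phi : Matrix.GeneralLinearGroup (Fin 2) F × Matrix.GeneralLinearGroup (Fin 2) F →* Fˣ :=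
  MonoidHom.coprod Matrix.GeneralLinearGroup.det Matrix.GeneralLinearGroup.det

theorem phi_apply (p : Matrix.GeneralLinearGroup (Fin 2) F × Matrix.GeneralLinearGroup (Fin 2) F) :
    phi p = Matrix.GeneralLinearGroup.det p.1 * Matrix.GeneralLinearGroup.det p.2 := rfl

/-- the inclusion of the pairs of determinant one -/
def incl : Matrix.SpecialLinearGroup (Fin 2) F × Matrix.SpecialLinearGroup (Fin 2) F →*
    (phi (F := F)).ker :=
  (MonoidHom.prodMap Matrix.SpecialLinearGroup.toGL Matrix.SpecialLinearGroup.toGL).codRestrict _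
    (by
      intro p
      rw [MonoidHom.mem_ker, phi_apply]
      apply Units.ext
      simp)

theorem incl_coe (p : Matrix.SpecialLinearGroup (Fin 2) F × Matrix.SpecialLinearGroup (Fin 2) F) :
    ((incl p : (phi (F := F)).ker) :
      Matrix.GeneralLinearGroup (Fin 2) F × Matrix.GeneralLinearGroup (Fin 2) F) =
      (Matrix.SpecialLinearGroup.toGL p.1, Matrix.SpecialLinearGroup.toGL p.2) := rfl

theorem card_gam [Fintype F] : Nat.card (phi (F := F)).ker * (Fintype.card F - 1) =
    Nat.card (Matrix.GeneralLinearGroup (Fin 2) F) * Nat.card (Matrix.GeneralLinearGroup (Fin 2) F) := by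
  classical
  have hs : Function.Surjective (phi (F := F)) := by
    intro u
    obtain ⟨g, hg⟩ := CardSL.det_surjective (F := F) 2 (by norm_num) u
    exact ⟨(g, 1), by rw [phi_apply, hg]; simp⟩
  have h1 := Subgroup.card_mul_index (phi (F := F)).ker
  rw [Subgroup.index_ker, MonoidHom.range_eq_top.mpr hs, Subgroup.card_top,
    Nat.card_eq_fintype_card (α := Fˣ), Fintype.card_units, Nat.card_prod] at h1
  exact h1

theorem mem_range_incl (γ : (phi (F := F)).ker)
    (h1 : Matrix.GeneralLinearGroup.det γ.1.1 = 1) (h2 : Matrix.GeneralLinearGroup.det γ.1.2 = 1) :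
    γ ∈ (incl (F := F)).range := by
  have a1 : γ.1.1 ∈ (Matrix.GeneralLinearGroup.det :
      Matrix.GeneralLinearGroup (Fin 2) F →* Fˣ).ker := h1
  have a2 : γ.1.2 ∈ (Matrix.GeneralLinearGroup.det :
      Matrix.GeneralLinearGroup (Fin 2) F →* Fˣ).ker := h2
  rw [← SL2Aux.range_toGL] at a1 a2
  obtain ⟨A, hA⟩ := a1
  obtain ⟨B, hB⟩ := a2
  refine ⟨(A, B), ?_⟩
  apply Subtype.ext
  rw [incl_coe]
  exact Prod.ext hA hB

theorem commutator_gam (hF : ∃ a : F, a ≠ 0 ∧ a ≠ 1) :
    commutator (phi (F := F)).ker = (incl (F := F)).range := by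
  apply le_antisymm
  · rw [commutator_def, Subgroup.commutator_le]
    intro γ _ δ _
    apply mem_range_incl
    · change Matrix.GeneralLinearGroup.det ⁅γ.1.1, δ.1.1⁆ = 1
      rw [map_commutatorElement]
      exact commutatorElement_eq_one_iff_commute.mpr (Commute.all _ _)
    · change Matrix.GeneralLinearGroup.det ⁅γ.1.2, δ.1.2⁆ = 1
      rw [map_commutatorElement]
      exact commutatorElement_eq_one_iff_commute.mpr (Commute.all _ _)
  · obtain ⟨a, ha0, ha1⟩ := hF
    have hleft : ∀ A : Matrix.SpecialLinearGroup (Fin 2) F,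
        incl (A, 1) ∈ commutator (phi (F := F)).ker := by
      intro A
      refine Cfsg.Agent.Lib.Helper3.SLn.transvection_induction
        (fun A => incl (A, (1 : Matrix.SpecialLinearGroup (Fin 2) F)) ∈
          commutator (phi (F := F)).ker) ?_ ?_ A
      · intro i j hij c
        have hc : c = (a - 1) * ((a - 1)⁻¹ * c) := by
          rw [← mul_assoc, mul_inv_cancel₀ (sub_ne_zero.2 ha1), one_mul]
        have key := Cfsg.Agent.Lib.Helper3.SLn.toGL_transvection_eq_commutator hij a ha0
          ((a - 1)⁻¹ * c)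
        rw [← hc] at key
        let d := Cfsg.Agent.Lib.Helper3.SLn.dilation (F := F) i a ha0
        let γ : (phi (F := F)).ker := ⟨(d, d⁻¹), by
          rw [MonoidHom.mem_ker, phi_apply, map_inv]; simp⟩
        have : incl (Matrix.SpecialLinearGroup.transvection hij c,
            (1 : Matrix.SpecialLinearGroup (Fin 2) F)) =
            ⁅γ, incl (Matrix.SpecialLinearGroup.transvection hij ((a - 1)⁻¹ * c), 1)⁆ := by
          apply Subtype.ext
          rw [incl_coe]
          apply Prod.ext
          · exact key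
          · change Matrix.SpecialLinearGroup.toGL 1 = ⁅d⁻¹, Matrix.SpecialLinearGroup.toGL 1⁆
            rw [map_one]; simp
        rw [this]
        exact Subgroup.commutator_mem_commutator (Subgroup.mem_top _) (Subgroup.mem_top _)
      · intro A B hA hB
        have : incl (A * B, (1 : Matrix.SpecialLinearGroup (Fin 2) F)) =
            incl (A, 1) * incl (B, 1) := by
          rw [← map_mul]; simp
        rw [this]
        exact mul_mem hA hB
    have hright : ∀ A : Matrix.SpecialLinearGroup (Fin 2) F,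
        incl (1, A) ∈ commutator (phi (F := F)).ker := by
      intro A
      refine Cfsg.Agent.Lib.Helper3.SLn.transvection_induction
        (fun A => incl ((1 : Matrix.SpecialLinearGroup (Fin 2) F), A) ∈
          commutator (phi (F := F)).ker) ?_ ?_ A
      · intro i j hij c
        have hc : c = (a - 1) * ((a - 1)⁻¹ * c) := by
          rw [← mul_assoc, mul_inv_cancel₀ (sub_ne_zero.2 ha1), one_mul]
        have key := Cfsg.Agent.Lib.Helper3.SLn.toGL_transvection_eq_commutator hij a ha0
          ((a - 1)⁻¹ * c)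
        rw [← hc] at key
        let d := Cfsg.Agent.Lib.Helper3.SLn.dilation (F := F) i a ha0
        let γ : (phi (F := F)).ker := ⟨(d⁻¹, d), by
          rw [MonoidHom.mem_ker, phi_apply, map_inv]; simp⟩
        have : incl ((1 : Matrix.SpecialLinearGroup (Fin 2) F),
            Matrix.SpecialLinearGroup.transvection hij c) =
            ⁅γ, incl (1, Matrix.SpecialLinearGroup.transvection hij ((a - 1)⁻¹ * c))⁆ := by
          apply Subtype.ext
          rw [incl_coe]
          apply Prod.ext
          · change Matrix.SpecialLinearGroup.toGL 1 = ⁅d⁻¹, Matrix.SpecialLinearGroup.toGL 1⁆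
            rw [map_one]; simp
          · exact key
        rw [this]
        exact Subgroup.commutator_mem_commutator (Subgroup.mem_top _) (Subgroup.mem_top _)
      · intro A B hA hB
        have : incl ((1 : Matrix.SpecialLinearGroup (Fin 2) F), A * B) =
            incl (1, A) * incl (1, B) := by
          rw [← map_mul]; simp
        rw [this]
        exact mul_mem hA hB
    rintro _ ⟨⟨A, B⟩, rfl⟩
    have : incl (A, B) = incl (A, 1) * incl (1, B) := by
      rw [← map_mul]; simp
    rw [this]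
    exact mul_mem (hleft A) (hright B)

theorem prod_quotient_center (G H : Type*) [Group G] [Group H] :
    Nonempty (((G × H) ⧸ Subgroup.center (G × H)) ≃*
      (G ⧸ Subgroup.center G) × (H ⧸ Subgroup.center H)) := by
  let π : G × H →* (G ⧸ Subgroup.center G) × (H ⧸ Subgroup.center H) :=
    MonoidHom.prodMap (QuotientGroup.mk' _) (QuotientGroup.mk' _)
  have hs : Function.Surjective π := by
    rintro ⟨a, b⟩
    obtain ⟨x, rfl⟩ := QuotientGroup.mk'_surjective _ a
    obtain ⟨y, rfl⟩ := QuotientGroup.mk'_surjective _ b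
    exact ⟨(x, y), rfl⟩
  have hk : π.ker = Subgroup.center (G × H) := by
    ext p
    rw [Subgroup.center_prod, Subgroup.mem_prod, MonoidHom.mem_ker]
    change ((p.1 : G ⧸ Subgroup.center G), (p.2 : H ⧸ Subgroup.center H)) = (1, 1) ↔ _
    rw [Prod.mk.injEq, QuotientGroup.eq_one_iff, QuotientGroup.eq_one_iff]
  exact ⟨(QuotientGroup.quotientMulEquivOfEq hk).symm.trans
    (QuotientGroup.quotientKerEquivOfSurjective π hs)⟩

theorem negOne_eq_one (h : (-1 : F) = 1) :
    (SL2Aux.negOne : Matrix.SpecialLinearGroup (Fin 2) F) = 1 := by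
  apply Subtype.ext
  rw [SL2Aux.negOne_coe]
  ext i j
  fin_cases i <;> fin_cases j <;> simp [h]

/-- PΩ^+_4(q) is isomorphic to PSL_2(q) x PSL_2(q) for q at least 3. -/
theorem result {F : Type*} [Field F] [Fintype F] (hF : 3 ≤ Fintype.card F) : Nonempty (Cfsg.POmega F (Cfsg.quadFormPlus 2 F) ≃* Matrix.ProjectiveSpecialLinearGroup (Fin 2) F × Matrix.ProjectiveSpecialLinearGroup (Fin 2) F) := by
  classical
  obtain ⟨Q, hQc, hQ, -, -⟩ := OrthPlus.good_plus (F := F) 2
  have h := Klein.exists_hom_of_rep Q hQ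
    (fun γ : (phi (F := F)).ker => act (γ.1.1 : Matrix (Fin 2) (Fin 2) F)
      (γ.1.2 : Matrix (Fin 2) (Fin 2) F))
    (fun γ δ x => act_mul _ _ _ _ _)
    (fun γ x => by
      rw [hQc, quad_act]
      have h1 := γ.2
      rw [MonoidHom.mem_ker, phi_apply] at h1
      have h2 := congrArg Units.val h1
      rw [Units.val_mul, Matrix.GeneralLinearGroup.val_det_apply,
        Matrix.GeneralLinearGroup.val_det_apply] at h2
      rw [h2]; simp)
  rw [hQc] at h
  obtain ⟨f, hf⟩ := h
  have hfin : Finite ↥(Cfsg.isometryGroup F (Cfsg.quadFormPlus 2 F)) := inferInstance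
  have hfix : ∀ γ ∈ f.ker, _ := fun γ hγ =>
    scalar_of_fix (γ.1.1 : Matrix (Fin 2) (Fin 2) F) (γ.1.2 : Matrix (Fin 2) (Fin 2) F) (by
      intro u
      rw [MonoidHom.mem_ker] at hγ
      rw [← hf, hγ, OrthCard.mat_one_mulVec])
  set f₁ := f.comp (incl (F := F)) with hf₁
  have hker₁ : ∀ p ∈ f₁.ker, p = 1 ∨ p = (SL2Aux.negOne, SL2Aux.negOne) := by
    intro p hp
    have hp' : incl p ∈ f.ker := hp
    obtain ⟨⟨a1, a2, a3⟩, ⟨b1, b2, b3⟩, c⟩ := hfix _ hp'
    have c' : p.1.1 0 0 * p.2.1 0 0 = 1 := c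
    rcases SL2Aux.eq_one_or_negOne_of_scalar p.1 a1 a2 a3 with h1 | h1 <;>
      rcases SL2Aux.eq_one_or_negOne_of_scalar p.2 b1 b2 b3 with h2 | h2
    · left; exact Prod.ext h1 h2
    · left
      rw [h1, h2, SL2Aux.negOne_coe] at c'
      have : (-1 : F) = 1 := by simpa using c'
      rw [negOne_eq_one this] at h2
      exact Prod.ext h1 h2
    · left
      rw [h1, h2, SL2Aux.negOne_coe] at c'
      have : (-1 : F) = 1 := by simpa using c'
      rw [negOne_eq_one this] at h1
      exact Prod.ext h1 h2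
    · right; exact Prod.ext h1 h2
  have hq1 : 0 < Fintype.card F - 1 := by omega
  have hcO : Nat.card ↥(Cfsg.isometryGroup F (Cfsg.quadFormPlus 2 F)) =
      2 * (Nat.card (Matrix.SpecialLinearGroup (Fin 2) F) *
        Nat.card (Matrix.SpecialLinearGroup (Fin 2) F)) := by
    rw [OrthPlus.card_plus 2 (by norm_num), SL2Aux.card_sl2]
    simp only [Finset.prod_range_succ, Finset.prod_range_zero]
    ring_nf
  have hcΓ : Nat.card (phi (F := F)).ker = Nat.card (Matrix.SpecialLinearGroup (Fin 2) F) *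
        Nat.card (Matrix.SpecialLinearGroup (Fin 2) F) * (Fintype.card F - 1) := by
    have h1 := card_gam (F := F)
    rw [CardSL.card_GL_eq 2 (by norm_num)] at h1
    apply Nat.eq_of_mul_eq_mul_right hq1
    rw [h1]; ring
  have hex : ∃ a : F, a ≠ 0 ∧ a ≠ 1 := by
    by_contra hcon
    push Not at hcon
    have : Fintype.card F ≤ ({0, 1} : Finset F).card := by
      rw [← Finset.card_univ]
      apply Finset.card_le_card
      intro x _
      by_cases hx : x = 0
      · simp [hx]
      · simp [hcon x hx]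
    have h2 : ({0, 1} : Finset F).card ≤ 2 := Finset.card_le_two
    omega
  have hmap : (commutator (phi (F := F)).ker).map f = f₁.range := by
    rw [commutator_gam hex, MonoidHom.map_range]
  have hkcard : Nat.card f.ker ≤ Fintype.card F - 1 := by
    rw [← CardSL.card_center (F := F) 2 (by norm_num)]
    have hcen : ∀ γ : f.ker, γ.1.1.1 ∈ Subgroup.center (Matrix.GeneralLinearGroup (Fin 2) F) := by
      intro γ
      obtain ⟨⟨a, b, c⟩, -, -⟩ := hfix γ.1 γ.2
      rw [Subgroup.mem_center_iff]
      intro k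
      apply Units.ext
      rw [Matrix.GeneralLinearGroup.coe_mul, Matrix.GeneralLinearGroup.coe_mul]
      ext i j
      fin_cases i <;> fin_cases j <;> simp [Matrix.mul_apply, Fin.sum_univ_two, a, b, c] <;> ring
    apply Nat.card_le_card_of_injective (fun γ : f.ker => (⟨γ.1.1.1, hcen γ⟩ :
      Subgroup.center (Matrix.GeneralLinearGroup (Fin 2) F)))
    intro γ δ hγδ
    have h1 : γ.1.1.1 = δ.1.1.1 := congrArg Subtype.val hγδ
    obtain ⟨-, ⟨b1, b2, b3⟩, c⟩ := hfix γ.1 γ.2
    obtain ⟨-, ⟨b1', b2', b3'⟩, c'⟩ := hfix δ.1 δ.2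
    rw [← h1] at c'
    have hne : (γ.1.1.1 : Matrix (Fin 2) (Fin 2) F) 0 0 ≠ 0 := by
      intro hz
      rw [hz, zero_mul] at c
      exact zero_ne_one c
    have h00 := mul_left_cancel₀ hne (c.trans c'.symm)
    apply Subtype.ext
    apply Subtype.ext
    apply Prod.ext h1
    apply Units.ext
    ext i j
    fin_cases i <;> fin_cases j
    · exact h00
    · exact b1.trans b1'.symm
    · exact b2.trans b2'.symm
    · exact (b3.symm.trans h00).trans b3'
  have hidx2 : f.range.index = 1 ∨ f.range.index = 2 := by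
    have h1 : f.range.index ≤ 2 := by
      apply PerfectIndex.index_range_le
      rw [hcO, hcΓ]
      calc _ ≤ 2 * (Nat.card (Matrix.SpecialLinearGroup (Fin 2) F) *
            Nat.card (Matrix.SpecialLinearGroup (Fin 2) F)) * (Fintype.card F - 1) :=
            Nat.mul_le_mul_left _ hkcard
        _ = _ := by ring
    have h0 : f.range.index ≠ 0 := Subgroup.index_ne_zero_of_finite
    omega
  have hidx4 : f₁.range.index ≤ 4 := by
    apply PerfectIndex.index_range_le
    rw [hcO, Nat.card_prod]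
    have := PerfectIndex.card_ker_le_two f₁ _ hker₁
    nlinarith [Nat.card_pos (α := Matrix.SpecialLinearGroup (Fin 2) F)]
  have hcomm := PerfectIndex.commutator_eq_map f hidx2
    (by rw [hmap]; exact Subgroup.index_ne_zero_of_finite) (by rw [hmap]; exact hidx4)
  obtain ⟨e1⟩ := PerfectIndex.quotient_center_equiv f₁ (by
    intro g hg
    rw [Subgroup.center_prod, Subgroup.mem_prod]
    constructor
    · apply SL2Aux.central_of_comm_pm
      intro k
      rcases hker₁ _ (hg (k, 1)) with h1 | h1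
      · left; exact congrArg Prod.fst h1
      · right; exact congrArg Prod.fst h1
    · apply SL2Aux.central_of_comm_pm
      intro k
      rcases hker₁ _ (hg (1, k)) with h1 | h1
      · left; exact congrArg Prod.snd h1
      · right; exact congrArg Prod.snd h1) (hcomm.trans hmap)
  obtain ⟨e2⟩ := prod_quotient_center (Matrix.SpecialLinearGroup (Fin 2) F)
    (Matrix.SpecialLinearGroup (Fin 2) F)
  exact ⟨e1.trans e2⟩

end Cfsg.Agent.S0299
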