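import Mathlib
import Cfsg.Statements.S0300
import Cfsg.Agent.Lib.Helper5.Klein
import Cfsg.Agent.Lib.Helper5.PerfectIndex
import Cfsg.Agent.Lib.Helper5.OrthMinus
import Cfsg.Agent.Lib.Helper5.SL2Aux

set_option autoImplicit false
open Cfsg

namespace Cfsg.Agent.S0300

open Cfsg.Agent.Lib.Helper5 Matrix

variable {F : Type*} [Field F] (a b : F)

/-- the quadratic extension -/
abbrev L := QuadraticAlgebra F (-b) a

/-- index type -/
abbrev I4 := (Fin 1 ⊕ Fin 1) ⊕ Fin 2

/-- the Hermitian matrix with given coordinates -/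
def toH (u : I4 → F) : Matrix (Fin 2) (Fin 2) (L a b) :=
  !![algebraMap F (L a b) (u (.inl (.inl 0))), ⟨u (.inr 0), u (.inr 1)⟩;
     star (⟨u (.inr 0), u (.inr 1)⟩ : L a b), - algebraMap F (L a b) (u (.inl (.inr 0)))]

/-- the coordinates of a Hermitian matrix -/
def ofH (X : Matrix (Fin 2) (Fin 2) (L a b)) : I4 → F :=
  Sum.elim (Sum.elim (fun _ => (X 0 0).re) (fun _ => -(X 1 1).re)) ![(X 0 1).re, (X 0 1).im]

theorem toH_add (u v : I4 → F) : toH a b (u + v) = toH a b u + toH a b v := by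
  ext i j <;> fin_cases i <;> fin_cases j <;> simp [toH] <;> ring

theorem toH_smul (c : F) (u : I4 → F) : toH a b (c • u) = c • toH a b u := by
  ext i j <;> fin_cases i <;> fin_cases j <;> simp [toH] <;> ring

theorem ofH_add (X Y : Matrix (Fin 2) (Fin 2) (L a b)) :
    ofH a b (X + Y) = ofH a b X + ofH a b Y := by
  funext i
  rcases i with (i | i) | i
  · simp [ofH]
  · simp [ofH]; ring
  · fin_cases i <;> simp [ofH]

theorem ofH_smul (c : F) (X : Matrix (Fin 2) (Fin 2) (L a b)) :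
    ofH a b (c • X) = c • ofH a b X := by
  funext i
  rcases i with (i | i) | i
  · simp [ofH]
  · simp [ofH]
  · fin_cases i <;> simp [ofH]

theorem toH_isHermitian (u : I4 → F) : (toH a b u).IsHermitian := by
  ext i j <;> fin_cases i <;> fin_cases j <;> simp [toH, Matrix.conjTranspose_apply]

theorem det_toH (u : I4 → F) :
    (toH a b u).det = - algebraMap F (L a b) (Cfsg.quadFormMinus 1 F a b u) := by
  rw [Matrix.det_fin_two]
  ext <;> simp [toH, Cfsg.quadFormMinus, pow_two] <;> ring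

theorem im_eq_zero_of_star (hd : a ^ 2 - 4 * b ≠ 0) (z : L a b) (h : star z = z) : z.im = 0 := by
  have h1 := congrArg QuadraticAlgebra.re h
  have h2 := congrArg QuadraticAlgebra.im h
  simp at h1 h2
  by_contra hne
  have ha : a = 0 := h1.resolve_right hne
  have h2' : (2 : F) * z.im = 0 := by linear_combination -h2
  have h22 : (2 : F) = 0 := (mul_eq_zero.mp h2').resolve_right hne
  apply hd
  rw [ha]
  linear_combination (-2 * b) * h22

theorem toH_ofH (hd : a ^ 2 - 4 * b ≠ 0) (X : Matrix (Fin 2) (Fin 2) (L a b))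
    (hX : X.IsHermitian) : toH a b (ofH a b X) = X := by
  have h00 : star (X 0 0) = X 0 0 := hX.apply 0 0
  have h11 : star (X 1 1) = X 1 1 := hX.apply 1 1
  have h10 : star (X 0 1) = X 1 0 := hX.apply 1 0
  have i00 := im_eq_zero_of_star a b hd _ h00
  have i11 := im_eq_zero_of_star a b hd _ h11
  ext i j <;> fin_cases i <;> fin_cases j <;> simp [toH, ofH, i00, i11, ← h10]

/-- the action on coordinates -/
def act (g : Matrix (Fin 2) (Fin 2) (L a b)) : (I4 → F) →ₗ[F] (I4 → F) where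
  toFun u := ofH a b (g * toH a b u * gᴴ)
  map_add' u v := by
    rw [toH_add, Matrix.mul_add, Matrix.add_mul, ofH_add]
  map_smul' c u := by
    rw [toH_smul, Matrix.mul_smul, Matrix.smul_mul, ofH_smul]
    rfl

theorem act_apply (g : Matrix (Fin 2) (Fin 2) (L a b)) (u : I4 → F) :
    act a b g u = ofH a b (g * toH a b u * gᴴ) := rfl

theorem toH_act (hd : a ^ 2 - 4 * b ≠ 0) (g : Matrix (Fin 2) (Fin 2) (L a b)) (u : I4 → F) :
    toH a b (act a b g u) = g * toH a b u * gᴴ := by
  rw [act_apply, toH_ofH a b hd]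
  exact Matrix.isHermitian_mul_mul_conjTranspose g (toH_isHermitian a b u)

theorem act_mul (hd : a ^ 2 - 4 * b ≠ 0) (g h : Matrix (Fin 2) (Fin 2) (L a b)) (u : I4 → F) :
    act a b (g * h) u = act a b g (act a b h u) := by
  rw [act_apply a b g, toH_act a b hd, act_apply, Matrix.conjTranspose_mul]
  simp only [Matrix.mul_assoc]

theorem quad_act (hd : a ^ 2 - 4 * b ≠ 0) (g : Matrix (Fin 2) (Fin 2) (L a b)) (hg : g.det = 1)
    (u : I4 → F) :
    Cfsg.quadFormMinus 1 F a b (act a b g u) = Cfsg.quadFormMinus 1 F a b u := by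
  apply QuadraticAlgebra.algebraMap_injective (a := -b) (b := a)
  apply neg_injective
  rw [← det_toH, ← det_toH, toH_act a b hd, Matrix.det_mul, Matrix.det_mul,
    Matrix.det_conjTranspose, hg]
  simp

theorem scalar_of_fix [Fact (∀ r : F, r ^ 2 ≠ -b + a * r)] (hd : a ^ 2 - 4 * b ≠ 0)
    (g : Matrix (Fin 2) (Fin 2) (L a b)) (hg : g.det = 1) (hfix : ∀ u, act a b g u = u) :
    g 0 1 = 0 ∧ g 1 0 = 0 ∧ g 0 0 = g 1 1 := by
  have key : ∀ u, g * toH a b u * gᴴ = toH a b u := by
    intro u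
    rw [← toH_act a b hd, hfix]
  have k1 := key (Sum.elim (Sum.elim (fun _ => 1) (fun _ => 0)) ![0, 0])
  have k2 := key (Sum.elim (Sum.elim (fun _ => 0) (fun _ => 1)) ![0, 0])
  have k3 := key (Sum.elim (Sum.elim (fun _ => 0) (fun _ => 0)) ![1, 0])
  have z0 : (⟨0, 0⟩ : L a b) = 0 := rfl
  have z1 : (⟨1, 0⟩ : L a b) = 1 := rfl
  have a1 := congrFun (congrFun k1 1) 1
  have a2 := congrFun (congrFun k1 0) 0
  have b1 := congrFun (congrFun k2 0) 0
  have c1 := congrFun (congrFun k3 0) 1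
  simp [toH, Matrix.mul_apply, Fin.sum_univ_two, Matrix.conjTranspose_apply, z0, z1] at a1 a2 b1 c1
  rw [Matrix.det_fin_two, a1, b1] at hg
  rw [b1] at c1
  simp at hg c1
  have hne : g 0 0 ≠ 0 := by
    intro h0
    rw [h0, zero_mul] at hg
    exact zero_ne_one hg
  have e1 : star (g 0 0) = g 1 1 := mul_left_cancel₀ hne (a2.trans hg.symm)
  rw [← e1, star_star] at c1
  refine ⟨b1, a1, ?_⟩
  exact mul_left_cancel₀ hne (c1.trans hg.symm)

/-- PΩ^-_4(q) is isomorphic to PSL_2(q^2). -/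
theorem result {F K : Type*} [Field F] [Fintype F] [Field K] [Fintype K] {q : ℕ} (hF : Fintype.card F = q) (hK : Fintype.card K = q ^ 2) (a b : F) (hab : ∀ z₁ z₂ : F, z₁ ^ 2 + a * z₁ * z₂ + b * z₂ ^ 2 = 0 → z₁ = 0 ∧ z₂ = 0) : Nonempty (Cfsg.POmega F (Cfsg.quadFormMinus 1 F a b) ≃* Matrix.ProjectiveSpecialLinearGroup (Fin 2) K) := by
  classical
  have hd := NormTwo.disc_ne_zero a b hab
  have : Fact (∀ r : F, r ^ 2 ≠ -b + a * r) := ⟨fun r hr => by
    have := hab r (-1) (by linear_combination hr)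
    exact one_ne_zero (neg_eq_zero.mp this.2)⟩
  let _ : Fintype (L a b) := Fintype.ofEquiv _ (QuadraticAlgebra.equivProd (-b) a).symm
  have hcL : Fintype.card (L a b) = q ^ 2 := by
    rw [Fintype.card_congr (QuadraticAlgebra.equivProd (-b) a), Fintype.card_prod, hF]; ring
  let e : K ≃+* L a b := FiniteField.ringEquivOfCardEq (by rw [hK, hcL])
  obtain ⟨Q, hQc, hQ, -, -⟩ := OrthMinus.good_minus a b hab 1
  have h := Klein.exists_hom_of_rep Q hQ
    (fun g : Matrix.SpecialLinearGroup (Fin 2) (L a b) => act a b g.1)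
    (fun g h x => by
      rw [Matrix.SpecialLinearGroup.coe_mul]
      exact act_mul a b hd _ _ _)
    (fun g x => by
      rw [hQc]
      exact quad_act a b hd _ g.2 _)
  rw [hQc] at h
  obtain ⟨f, hf⟩ := h
  have hfin : Finite ↥(Cfsg.isometryGroup F (Cfsg.quadFormMinus 1 F a b)) := inferInstance
  let m : Matrix.SpecialLinearGroup (Fin 2) K →* Matrix.SpecialLinearGroup (Fin 2) (L a b) :=
    Matrix.SpecialLinearGroup.map (e : K →+* L a b)
  have hq : 2 ≤ q := by rw [← hF]; exact Fintype.one_lt_card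
  have hex : ∃ x : K, x ≠ 0 ∧ x ^ 2 ≠ 1 := by
    by_contra hcon
    push Not at hcon
    have : Fintype.card K ≤ ({0, 1, -1} : Finset K).card := by
      rw [← Finset.card_univ]
      apply Finset.card_le_card
      intro x _
      by_cases hx : x = 0
      · simp [hx]
      · have := hcon x hx
        rcases sq_eq_one_iff.mp this with h | h <;> simp [h]
    have h2 : ({0, 1, -1} : Finset K).card ≤ 3 := Finset.card_le_three
    rw [hK] at this
    nlinarith
  obtain ⟨x, hx0, hx1⟩ := hex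
  apply PerfectIndex.main (f.comp m) (Matrix.SL2.commutator_eq_top hx0 hx1) SL2Aux.negOne
    SL2Aux.negOne_mem_center
  · intro g hg
    have hg' : f (m g) = 1 := hg
    obtain ⟨c1, c2, c3⟩ := scalar_of_fix a b hd (m g).1 (m g).2 (by
      intro u
      rw [← hf, hg', OrthCard.mat_one_mulVec])
    have d1 : e (g.1 0 1) = 0 := c1
    have d2 : e (g.1 1 0) = 0 := c2
    have d3 : e (g.1 0 0) = e (g.1 1 1) := c3
    apply SL2Aux.eq_one_or_negOne_of_scalar g
    · simpa using d1
    · simpa using d2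
    · exact e.injective d3
  · rw [OrthMinus.card_minus a b hab 2 (by norm_num), SL2Aux.card_sl2, hF, hK]
    simp only [Finset.prod_range_succ, Finset.prod_range_zero]
    have : (q ^ 2) ^ 2 - 1 = (q ^ 2 + 1) * (q ^ 2 - 1) := by
      have := Nat.sq_sub_sq (q ^ 2) 1
      simpa using this
    rw [this]
    ring_nf

end Cfsg.Agent.S0300
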