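import Mathlib
import Cfsg.Statements.S0301
import Cfsg.Agent.Lib.Helper5.Klein
import Cfsg.Agent.Lib.Helper5.PerfectIndex
import Cfsg.Agent.Lib.Helper5.OrthOdd
import Cfsg.Agent.Lib.Helper5.SympPerfect
import Cfsg.Agent.Lib.Helper5.SympCard

set_option autoImplicit false
open Cfsg

namespace Cfsg.Agent.S0301

open Cfsg.Agent.Lib.Helper5 Matrix

variable {F : Type*} [Field F]

/-- index bijection -/
def ee : Fin 4 → Fin 2 ⊕ Fin 2 := ![.inl 0, .inl 1, .inr 0, .inr 1]

theorem ee_bij : Function.Bijective ee := by decide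

/-- reindexing -/
def re (g : Matrix (Fin 2 ⊕ Fin 2) (Fin 2 ⊕ Fin 2) F) : Matrix (Fin 4) (Fin 4) F :=
  g.submatrix ee ee

theorem re_mul (g h : Matrix (Fin 2 ⊕ Fin 2) (Fin 2 ⊕ Fin 2) F) : re (g * h) = re g * re h :=
  (Matrix.submatrix_mul g h ee ee ee ee_bij)

theorem re_transpose (g : Matrix (Fin 2 ⊕ Fin 2) (Fin 2 ⊕ Fin 2) F) : re gᵀ = (re g)ᵀ := rfl

theorem re_injective : Function.Injective (re : Matrix (Fin 2 ⊕ Fin 2) (Fin 2 ⊕ Fin 2) F → _) := by
  intro g h hgh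
  ext i j
  obtain ⟨a, rfl⟩ := ee_bij.2 i
  obtain ⟨b, rfl⟩ := ee_bij.2 j
  exact congrFun (congrFun hgh a) b

theorem re_one : re (1 : Matrix (Fin 2 ⊕ Fin 2) (Fin 2 ⊕ Fin 2) F) = 1 :=
  Matrix.submatrix_one ee ee_bij.1

theorem re_neg_one : re (-1 : Matrix (Fin 2 ⊕ Fin 2) (Fin 2 ⊕ Fin 2) F) = -1 := by
  rw [← re_one]; rfl

/-- coordinates of the symplectic form -/
def j0 : Fin 3 ⊕ Fin 3 → F := Sum.elim ![0, -1, 0] ![0, 1, 0]

theorem toAlt_j0 : Klein.toAlt (j0 : Fin 3 ⊕ Fin 3 → F) = re (Matrix.J (Fin 2) F) := by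
  ext i j
  fin_cases i <;> fin_cases j <;> simp [Klein.toAlt, j0, re, ee, Matrix.J, Matrix.fromBlocks]

theorem act_j0 (g : Matrix.symplecticGroup (Fin 2) F) : Klein.act (re g.1) j0 = j0 := by
  have h := g.2
  rw [SymplecticGroup.mem_iff] at h
  rw [Klein.act_apply, toAlt_j0, ← re_transpose, ← re_mul, ← re_mul, h, ← toAlt_j0,
    Klein.ofAlt_toAlt]

theorem quad_j0 : Cfsg.quadFormPlus 3 F (j0 : Fin 3 ⊕ Fin 3 → F) = -1 := by
  simp [Cfsg.quadFormPlus, Fin.sum_univ_three, j0]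

theorem det_re (g : Matrix.symplecticGroup (Fin 2) F) : (re g.1).det = 1 := by
  have h := Klein.quad_act (re g.1) (j0 : Fin 3 ⊕ Fin 3 → F)
  rw [act_j0, quad_j0] at h
  linear_combination h

theorem polar_j0 (w : Fin 3 ⊕ Fin 3 → F) : Cfsg.quadFormPlus 3 F (w + j0) -
    Cfsg.quadFormPlus 3 F w - Cfsg.quadFormPlus 3 F (j0 : Fin 3 ⊕ Fin 3 → F) =
      w (.inl 1) - w (.inr 1) := by
  simp [Cfsg.quadFormPlus, Fin.sum_univ_three, j0]
  ring

theorem act_perp (g : Matrix.symplecticGroup (Fin 2) F) (u : Fin 3 ⊕ Fin 3 → F) :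
    Klein.act (re g.1) u (.inl 1) - Klein.act (re g.1) u (.inr 1) = u (.inl 1) - u (.inr 1) := by
  rw [← polar_j0, ← polar_j0]
  conv_lhs => rw [← act_j0 g, ← map_add]
  rw [Klein.quad_act, Klein.quad_act, Klein.quad_act, det_re]
  ring

/-- the embedding of the five dimensional space -/
def C : (Unit ⊕ (Fin 2 ⊕ Fin 2) → F) →ₗ[F] (Fin 3 ⊕ Fin 3 → F) where
  toFun v := Sum.elim ![v (.inr (.inl 0)), v (.inl ()), v (.inr (.inl 1))]
    ![v (.inr (.inr 0)), v (.inl ()), v (.inr (.inr 1))]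
  map_add' u v := by
    funext i
    rcases i with i | i <;> fin_cases i <;> simp
  map_smul' c v := by
    funext i
    rcases i with i | i <;> fin_cases i <;> simp

/-- the projection -/
def D : (Fin 3 ⊕ Fin 3 → F) →ₗ[F] (Unit ⊕ (Fin 2 ⊕ Fin 2) → F) where
  toFun u := Sum.elim (fun _ => u (.inl 1))
    (Sum.elim ![u (.inl 0), u (.inl 2)] ![u (.inr 0), u (.inr 2)])
  map_add' u v := by
    funext i
    rcases i with i | i | i
    · simp
    · fin_cases i <;> simp
    · fin_cases i <;> simp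
  map_smul' c v := by
    funext i
    rcases i with i | i | i
    · simp
    · fin_cases i <;> simp
    · fin_cases i <;> simp

theorem D_C (v : Unit ⊕ (Fin 2 ⊕ Fin 2) → F) : D (C v) = v := by
  funext i
  rcases i with i | i | i
  · rfl
  · fin_cases i <;> rfl
  · fin_cases i <;> rfl

theorem C_D (u : Fin 3 ⊕ Fin 3 → F) (h : u (.inl 1) = u (.inr 1)) : C (D u) = u := by
  funext i
  rcases i with i | i
  · fin_cases i <;> rfl
  · fin_cases i
    · rfl
    · exact h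
    · rfl

theorem quad_C (v : Unit ⊕ (Fin 2 ⊕ Fin 2) → F) :
    Cfsg.quadFormPlus 3 F (C v) = Cfsg.quadFormOdd 2 F v := by
  simp [Cfsg.quadFormPlus, Cfsg.quadFormOdd, Fin.sum_univ_three, Fin.sum_univ_two, C]
  ring

theorem C_perp (v : Unit ⊕ (Fin 2 ⊕ Fin 2) → F) : C v (.inl 1) = C v (.inr 1) := rfl

theorem act_C_perp (g : Matrix.symplecticGroup (Fin 2) F) (v : Unit ⊕ (Fin 2 ⊕ Fin 2) → F) :
    Klein.act (re g.1) (C v) (.inl 1) = Klein.act (re g.1) (C v) (.inr 1) := by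
  have := act_perp g (C v)
  rw [C_perp, sub_self] at this
  exact sub_eq_zero.mp this

/-- the five dimensional representation -/
def rho (g : Matrix.symplecticGroup (Fin 2) F) :
    (Unit ⊕ (Fin 2 ⊕ Fin 2) → F) →ₗ[F] (Unit ⊕ (Fin 2 ⊕ Fin 2) → F) :=
  D ∘ₗ Klein.act (re g.1) ∘ₗ C

theorem rho_apply (g : Matrix.symplecticGroup (Fin 2) F) (v : Unit ⊕ (Fin 2 ⊕ Fin 2) → F) :
    rho g v = D (Klein.act (re g.1) (C v)) := rfl

theorem C_rho (g : Matrix.symplecticGroup (Fin 2) F) (v : Unit ⊕ (Fin 2 ⊕ Fin 2) → F) :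
    C (rho g v) = Klein.act (re g.1) (C v) := by
  rw [rho_apply, C_D _ (act_C_perp g v)]

theorem rho_mul (g h : Matrix.symplecticGroup (Fin 2) F) (v : Unit ⊕ (Fin 2 ⊕ Fin 2) → F) :
    rho (g * h) v = rho g (rho h v) := by
  rw [rho_apply g, C_rho, rho_apply]
  have : ((g * h : Matrix.symplecticGroup (Fin 2) F) : Matrix _ _ F) = g.1 * h.1 := rfl
  rw [this, re_mul, Klein.act_mul]

theorem rho_quad (g : Matrix.symplecticGroup (Fin 2) F) (v : Unit ⊕ (Fin 2 ⊕ Fin 2) → F) :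
    Cfsg.quadFormOdd 2 F (rho g v) = Cfsg.quadFormOdd 2 F v := by
  rw [← quad_C, C_rho, Klein.quad_act, det_re, one_mul, quad_C]

theorem fix_of_rho (h2 : (2 : F) ≠ 0) (g : Matrix.symplecticGroup (Fin 2) F)
    (h : ∀ v, rho g v = v) (u : Fin 3 ⊕ Fin 3 → F) : Klein.act (re g.1) u = u := by
  set c : F := (u (.inr 1) - u (.inl 1)) / 2 with hc
  have h1 : (u - c • j0 : Fin 3 ⊕ Fin 3 → F) (.inl 1) =
      (u - c • j0 : Fin 3 ⊕ Fin 3 → F) (.inr 1) := by
    simp [j0, hc]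
    field_simp
    ring
  have h3 : Klein.act (re g.1) (u - c • j0) = u - c • j0 := by
    rw [← C_D _ h1, ← C_rho, h]
  have h4 : u = (u - c • j0) + c • j0 := by simp
  rw [h4, map_add, h3, map_smul, act_j0]

/-- the central element -/
def negOne : Matrix.symplecticGroup (Fin 2) F := ⟨-1, SymplecticGroup.neg_mem (one_mem _)⟩

/-- PΩ_5(q) is isomorphic to PSp_4(q) for q odd. -/
theorem result {F : Type*} [Field F] [Fintype F] (hodd : Odd (Fintype.card F)) : Nonempty (Cfsg.POmega F (Cfsg.quadFormOdd 2 F) ≃* Cfsg.PSp 2 F) := by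
  have h2 : (2 : F) ≠ 0 := by
    intro h
    have hc : ringChar F = 2 := by
      have : ringChar F ∣ 2 := by
        rw [← ringChar.spec]; exact_mod_cast h
      rcases (Nat.dvd_prime Nat.prime_two).mp this with h1 | h1
      · exact absurd h1 (CharP.ringChar_ne_one)
      · exact h1
    have := FiniteField.even_card_of_char_two hc
    exact (Nat.not_even_iff_odd.mpr hodd) (Nat.even_iff.mpr this)
  obtain ⟨Q, hQc, hQ, -, -⟩ := OrthOdd.good_odd h2 2
  have h := Klein.exists_hom_of_rep Q hQ (fun g : Matrix.symplecticGroup (Fin 2) F => rho g)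
    rho_mul (fun g x => by rw [hQc, rho_quad])
  rw [hQc] at h
  obtain ⟨f, hf⟩ := h
  have hfin : Finite ↥(Cfsg.isometryGroup F (Cfsg.quadFormOdd 2 F)) := inferInstance
  have hfin2 : Finite (Matrix.symplecticGroup (Fin 2) F) := inferInstance
  apply PerfectIndex.main f (SympPerfect.commutator_eq_top_of_tv
    (SympPerfect.tv_mem_of_two_ne h2 le_rfl)) negOne ?_ ?_ ?_
  · rw [Subgroup.mem_center_iff]
    intro g
    apply Subtype.ext
    change g.1 * (-1) = (-1) * g.1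
    simp
  · intro g hg
    rw [MonoidHom.mem_ker] at hg
    have h1 : ∀ v, rho g v = v := by
      intro v
      rw [← hf, hg, OrthCard.mat_one_mulVec]
    rcases Klein.scalar_of_fix (re g.1) (fix_of_rho h2 g h1) with h3 | h3
    · left
      apply Subtype.ext
      apply re_injective
      rw [h3]; exact re_one.symm
    · right
      apply Subtype.ext
      apply re_injective
      rw [h3]; exact re_neg_one.symm
  · rw [OrthOdd.card_odd h2, SympCard.card_sp]
    ring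

end Cfsg.Agent.S0301
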