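import Mathlib
import Cfsg.Statements.S0304
import Cfsg.Agent.Lib.Helper5.OrthCard
import Cfsg.Agent.Lib.Helper5.SympCard

set_option autoImplicit false
open Cfsg

namespace Cfsg.Agent.S0304


open Cfsg.Agent.Lib.Helper5 Matrix Cfsg.Agent.Lib.Helper5.Orth Cfsg.Agent.Lib.Helper5.OrthGen
  Cfsg.Agent.Lib.Helper5.OrthCard Cfsg.Agent.Lib.Helper5.Symp Cfsg.Agent.Lib.Helper5.SympGen
  Cfsg.Agent.Lib.Helper5.SympBridge

section aux

variable {F : Type*} [Field F] {m : ℕ}

def mk (x0 : F) (w : Fin m ⊕ Fin m → F) : Unit ⊕ (Fin m ⊕ Fin m) → F := Sum.elim (fun _ => x0) w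

def pr (v : Unit ⊕ (Fin m ⊕ Fin m) → F) : Fin m ⊕ Fin m → F := fun i => v (Sum.inr i)

@[simp] theorem mk_inl (x0 : F) (w : Fin m ⊕ Fin m → F) : mk x0 w (Sum.inl ()) = x0 := rfl
@[simp] theorem pr_mk (x0 : F) (w : Fin m ⊕ Fin m → F) : pr (mk x0 w) = w := rfl

theorem v_ext {v v' : Unit ⊕ (Fin m ⊕ Fin m) → F} (h0 : v (Sum.inl ()) = v' (Sum.inl ()))
    (h1 : pr v = pr v') : v = v' := by
  funext i
  rcases i with i | i
  · exact h0
  · exact congrFun h1 i

theorem mk_eta (v : Unit ⊕ (Fin m ⊕ Fin m) → F) : mk (v (Sum.inl ())) (pr v) = v :=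
  v_ext rfl rfl

theorem pr_add (v v' : Unit ⊕ (Fin m ⊕ Fin m) → F) : pr (v + v') = pr v + pr v' := rfl
theorem pr_smul (c : F) (v : Unit ⊕ (Fin m ⊕ Fin m) → F) : pr (c • v) = c • pr v := rfl

theorem mk_add (x y : F) (w w' : Fin m ⊕ Fin m → F) : mk (x + y) (w + w') = mk x w + mk y w' :=
  v_ext rfl rfl

theorem mk_smul (c x : F) (w : Fin m ⊕ Fin m → F) : mk (c * x) (c • w) = c • mk x w :=
  v_ext rfl rfl

theorem form_eq (v : Unit ⊕ (Fin m ⊕ Fin m) → F) :
    Cfsg.quadFormOdd m F v = v (Sum.inl ()) ^ 2 + Cfsg.quadFormPlus m F (pr v) := rfl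

theorem plus_add [CharP F 2] (w w' : Fin m ⊕ Fin m → F) :
    Cfsg.quadFormPlus m F (w + w') =
      Cfsg.quadFormPlus m F w + Cfsg.quadFormPlus m F w' + Cfsg.sympForm m F w w' := by
  rw [sympForm_explicit]
  simp only [Cfsg.quadFormPlus, ← Finset.sum_add_distrib]
  apply Finset.sum_congr rfl
  intro i _
  simp only [Pi.add_apply]
  have h2 : (2 : F) = 0 := CharTwo.two_eq_zero
  linear_combination (w (Sum.inl i) * w' (Sum.inr i)) * h2

theorem plus_smul (c : F) (w : Fin m ⊕ Fin m → F) :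
    Cfsg.quadFormPlus m F (c • w) = c ^ 2 * Cfsg.quadFormPlus m F w := by
  simp only [Cfsg.quadFormPlus, Finset.mul_sum]
  apply Finset.sum_congr rfl
  intro i _
  simp only [Pi.smul_apply, smul_eq_mul]
  ring

theorem polar_eq [CharP F 2] (v v' : Unit ⊕ (Fin m ⊕ Fin m) → F) :
    QuadraticMap.polar (Cfsg.quadFormOdd m F) v v' = Cfsg.sympForm m F (pr v) (pr v') := by
  simp only [QuadraticMap.polar, form_eq, pr_add, plus_add, Pi.add_apply]
  have h2 : (2 : F) = 0 := CharTwo.two_eq_zero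
  linear_combination (v (Sum.inl ()) * v' (Sum.inl ())) * h2

theorem sq_inj [CharP F 2] {x y : F} (h : x ^ 2 = y ^ 2) : x = y := by
  have h2 : (2 : F) = 0 := CharTwo.two_eq_zero
  have : (x - y) ^ 2 = 0 := by linear_combination h + (y ^ 2 - x * y) * h2
  have h3 := pow_eq_zero_iff (two_ne_zero) |>.mp this
  linear_combination h3

theorem mat_surj {Q : (Unit ⊕ (Fin m ⊕ Fin m) → F) → F} (g : ↥(Cfsg.isometryGroup F Q))
    (v : Unit ⊕ (Fin m ⊕ Fin m) → F) : ∃ v', mat g *ᵥ v' = v :=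
  ⟨mat g⁻¹ *ᵥ v, by rw [mulVec_mulVec, mat_mul_inv, one_mulVec]⟩

/-- isometries fix the radical vector -/
theorem fix_e [CharP F 2] (g : ↥(Cfsg.isometryGroup F (Cfsg.quadFormOdd m F))) :
    mat g *ᵥ mk 1 0 = mk 1 0 := by
  have h1 : pr (mat g *ᵥ mk 1 0) = 0 := by
    apply eq_zero_of_forall
    intro y
    obtain ⟨v', hv'⟩ := mat_surj g (mk 0 y)
    have h2 := mat_polar g (mk 1 0) v'
    rw [hv', polar_eq, polar_eq, pr_mk, pr_mk] at h2
    rw [h2]
    have := sympForm_smul_left (0 : F) (0 : Fin m ⊕ Fin m → F) (pr v')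
    simpa using this
  have h3 := mat_preserves g (mk 1 0)
  rw [form_eq, form_eq, h1, pr_mk, mk_inl] at h3
  have h4 : (mat g *ᵥ mk 1 0) (Sum.inl ()) = 1 := by
    apply sq_inj
    linear_combination h3
  apply v_ext
  · rw [h4]; rfl
  · rw [h1]; rfl

theorem pr_mat [CharP F 2] (g : ↥(Cfsg.isometryGroup F (Cfsg.quadFormOdd m F)))
    (v : Unit ⊕ (Fin m ⊕ Fin m) → F) : pr (mat g *ᵥ v) = pr (mat g *ᵥ mk 0 (pr v)) := by
  have h1 : v = v (Sum.inl ()) • mk 1 0 + mk 0 (pr v) := by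
    apply v_ext
    · simp
    · simp [pr_add, pr_smul]
  conv_lhs => rw [h1]
  rw [mulVec_add, mulVec_smul, fix_e, pr_add, pr_smul, pr_mk, smul_zero, zero_add]

theorem exists_image [CharP F 2] (g : ↥(Cfsg.isometryGroup F (Cfsg.quadFormOdd m F))) :
    ∃ A : Matrix.symplecticGroup (Fin m) F, ∀ w,
      (A : Matrix (Fin m ⊕ Fin m) (Fin m ⊕ Fin m) F) *ᵥ w = pr (mat g *ᵥ mk 0 w) := by
  apply SympCard.exists_sp_of_linearMap
    { toFun := fun w => pr (mat g *ᵥ mk 0 w)
      map_add' := by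
        intro x y
        rw [← pr_add, ← mulVec_add, ← mk_add, add_zero]
      map_smul' := by
        intro c x
        rw [RingHom.id_apply, ← pr_smul, ← mulVec_smul, ← mk_smul, mul_zero] }
  intro u v
  simp only [LinearMap.coe_mk, AddHom.coe_mk]
  rw [← polar_eq, mat_polar, polar_eq, pr_mk, pr_mk]

theorem exists_preimage [Finite F] [CharP F 2] (A : Matrix.symplecticGroup (Fin m) F) :
    ∃ g : ↥(Cfsg.isometryGroup F (Cfsg.quadFormOdd m F)), ∀ w,
      pr (mat g *ᵥ mk 0 w) = (A : Matrix (Fin m ⊕ Fin m) (Fin m ⊕ Fin m) F) *ᵥ w := by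
  classical
  have := Fintype.ofFinite F
  have h2 : (2 : F) = 0 := CharTwo.two_eq_zero
  have hsq : ∀ c : F, ∃ s : F, s ^ 2 = c := by
    intro c
    obtain ⟨s, hs⟩ := FiniteField.isSquare_of_char_two (ringChar.eq F 2) c
    exact ⟨s, by rw [hs, sq]⟩
  choose lam hlam using fun w : Fin m ⊕ Fin m → F => hsq (Cfsg.quadFormPlus m F w +
    Cfsg.quadFormPlus m F ((A : Matrix (Fin m ⊕ Fin m) (Fin m ⊕ Fin m) F) *ᵥ w))
  have hlam_add : ∀ w w', lam (w + w') = lam w + lam w' := by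
    intro w w'
    apply sq_inj
    rw [hlam, mulVec_add, plus_add, plus_add, preserves]
    have e1 := hlam w
    have e2 := hlam w'
    linear_combination (Cfsg.sympForm m F w w' - lam w * lam w') * h2 - e1 - e2
  have hlam_smul : ∀ (c : F) w, lam (c • w) = c * lam w := by
    intro c w
    apply sq_inj
    rw [hlam, mulVec_smul, plus_smul, plus_smul]
    have e1 := hlam w
    linear_combination (- c ^ 2) * e1
  let G : (Unit ⊕ (Fin m ⊕ Fin m) → F) →ₗ[F] (Unit ⊕ (Fin m ⊕ Fin m) → F) :=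
    { toFun := fun v => mk (v (Sum.inl ()) + lam (pr v))
        ((A : Matrix (Fin m ⊕ Fin m) (Fin m ⊕ Fin m) F) *ᵥ pr v)
      map_add' := by
        intro x y
        rw [pr_add, mulVec_add, hlam_add, ← mk_add]
        congr 1
        simp only [Pi.add_apply]
        ring
      map_smul' := by
        intro c x
        rw [pr_smul, mulVec_smul, hlam_smul, RingHom.id_apply, ← mk_smul]
        congr 1
        simp only [Pi.smul_apply, smul_eq_mul]
        ring }
  have hG : ∀ v, G v = mk (v (Sum.inl ()) + lam (pr v))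
        ((A : Matrix (Fin m ⊕ Fin m) (Fin m ⊕ Fin m) F) *ᵥ pr v) := fun _ => rfl
  have hmv : ∀ x, LinearMap.toMatrix' G *ᵥ x = G x := by
    intro x
    rw [← Matrix.toLin'_apply, Matrix.toLin'_toMatrix']
  have hM : ∀ x, Cfsg.quadFormOdd m F (LinearMap.toMatrix' G *ᵥ x) = Cfsg.quadFormOdd m F x := by
    intro x
    rw [hmv, hG, form_eq, form_eq, mk_inl, pr_mk]
    have e1 := hlam (pr x)
    linear_combination e1 + (x (Sum.inl ()) * lam (pr x) +
      Cfsg.quadFormPlus m F ((A : Matrix (Fin m ⊕ Fin m) (Fin m ⊕ Fin m) F) *ᵥ pr x)) * h2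
  have hinj : Function.Injective (LinearMap.toMatrix' G).mulVec := by
    intro x y hxy
    rw [hmv, hmv, hG, hG] at hxy
    have h3 := congrArg pr hxy
    rw [pr_mk, pr_mk] at h3
    have h4 : pr x = pr y := by
      rw [← inv_mul_mulVec A (pr x), h3, inv_mul_mulVec]
    have h5 := congrFun hxy (Sum.inl ())
    rw [mk_inl, mk_inl, h4] at h5
    exact v_ext (add_right_cancel h5) h4
  have hdet : (LinearMap.toMatrix' G).det ≠ 0 := by
    have h3 := Matrix.mulVec_injective_iff_isUnit.mp hinj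
    exact ((Matrix.isUnit_iff_isUnit_det _).mp h3).ne_zero
  refine ⟨ofMat _ hdet hM, ?_⟩
  intro w
  rw [mat_ofMat, hmv, hG, pr_mk, pr_mk]

end aux

/-- In characteristic 2, O_{2m+1}(q) is isomorphic to Sp_{2m}(q). -/
theorem result {F : Type*} [Field F] [Fintype F] [CharP F 2] (m : ℕ) : Nonempty (Cfsg.isometryGroup F (Cfsg.quadFormOdd m F) ≃* Matrix.symplecticGroup (Fin m) F) := by
  classical
  choose φ hφ using (exists_image (F := F) (m := m))
  have hmul : ∀ g g', φ (g * g') = φ g * φ g' := by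
    intro g g'
    apply SympPerfect.ext_mulVec
    intro w
    rw [coe_mul_mulVec, hφ, hφ, hφ, mat_mul_mulVec, pr_mat]
  refine ⟨MulEquiv.ofBijective (MonoidHom.mk' φ hmul) ⟨?_, ?_⟩⟩
  · rw [injective_iff_map_eq_one]
    intro g hg
    have hg' : φ g = 1 := hg
    have h1 : ∀ w, pr (mat g *ᵥ mk 0 w) = w := by
      intro w
      rw [← hφ, hg', coe_one_mulVec]
    have h2 : ∀ w, mat g *ᵥ mk 0 w = mk 0 w := by
      intro w
      have h3 := mat_preserves g (mk 0 w)
      rw [form_eq, form_eq, h1, pr_mk, mk_inl] at h3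
      apply v_ext
      · apply sq_inj
        rw [mk_inl]
        linear_combination h3
      · rw [h1, pr_mk]
    apply OrthCard.ext_mulVec
    intro v
    have h4 : v = v (Sum.inl ()) • mk 1 0 + mk 0 (pr v) := by
      apply v_ext
      · simp
      · simp [pr_add, pr_smul]
    rw [mat_one_mulVec]
    conv_lhs => rw [h4]
    rw [mulVec_add, mulVec_smul, fix_e, h2, ← h4]
  · intro A
    obtain ⟨g, hg⟩ := exists_preimage A
    refine ⟨g, ?_⟩
    apply SympPerfect.ext_mulVec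
    intro w
    show (φ g : Matrix (Fin m ⊕ Fin m) (Fin m ⊕ Fin m) F) *ᵥ w = _
    rw [hφ, hg]

end Cfsg.Agent.S0304
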