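import Mathlib
import Cfsg.Statements.S0305
import Cfsg.Agent.Lib.Helper5.OrthPlus
import Cfsg.Agent.S0206

set_option autoImplicit false
open Cfsg

namespace Cfsg.Agent.S0305


open Cfsg.Agent.Lib.Helper5 Matrix Cfsg.Agent.Lib.Helper5.Orth Cfsg.Agent.Lib.Helper5.OrthGen
  Cfsg.Agent.Lib.Helper5.OrthCard Cfsg.Agent.Lib.Helper5.OrthSplit
  Cfsg.Agent.Lib.Helper5.OrthPlus

section aux

variable {F : Type*} [Field F]

def vec2 (p : F × F) : Fin 1 ⊕ Fin 1 → F := Sum.elim (fun _ => p.1) (fun _ => p.2)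

omit [Field F] in
theorem vec2_ext {x y : Fin 1 ⊕ Fin 1 → F} (h0 : x (Sum.inl 0) = y (Sum.inl 0))
    (h1 : x (Sum.inr 0) = y (Sum.inr 0)) : x = y := by
  funext i
  rcases i with i | i
  · rw [Subsingleton.elim i 0]; exact h0
  · rw [Subsingleton.elim i 0]; exact h1

omit [Field F] in
@[simp] theorem vec2_inl (p : F × F) : vec2 p (Sum.inl 0) = p.1 := rfl
omit [Field F] in
@[simp] theorem vec2_inr (p : F × F) : vec2 p (Sum.inr 0) = p.2 := rfl

theorem form2_eq (x : Fin 1 ⊕ Fin 1 → F) :
    Cfsg.quadFormPlus 1 F x = x (Sum.inl 0) * x (Sum.inr 0) := by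
  simp [Cfsg.quadFormPlus]

theorem exists_diag [Fintype F] (t : Fˣ) :
    ∃ A : ↥(Cfsg.isometryGroup F (Cfsg.quadFormPlus 1 F)), ∀ x,
      mat A *ᵥ x = vec2 ((t : F) * x (Sum.inl 0), ((t⁻¹ : Fˣ) : F) * x (Sum.inr 0)) := by
  obtain ⟨Qf, hQf, hnd, _, _⟩ := good_plus (F := F) 1
  have := exists_iso_of_linearMap Qf hnd
    { toFun := fun x => vec2 ((t : F) * x (Sum.inl 0), ((t⁻¹ : Fˣ) : F) * x (Sum.inr 0))
      map_add' := by
        intro x y
        apply vec2_ext <;> simp <;> ring
      map_smul' := by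
        intro c x
        apply vec2_ext <;> simp <;> ring }
    (by
      intro x
      simp only [LinearMap.coe_mk, AddHom.coe_mk, hQf, form2_eq, vec2_inl, vec2_inr]
      have : (t : F) * ((t⁻¹ : Fˣ) : F) = 1 := by simp
      linear_combination (x (Sum.inl 0) * x (Sum.inr 0)) * this)
  rw [hQf] at this
  exact this

theorem exists_swap [Fintype F] :
    ∃ A : ↥(Cfsg.isometryGroup F (Cfsg.quadFormPlus 1 F)), ∀ x,
      mat A *ᵥ x = vec2 (x (Sum.inr 0), x (Sum.inl 0)) := by
  obtain ⟨Qf, hQf, hnd, _, _⟩ := good_plus (F := F) 1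
  have := exists_iso_of_linearMap Qf hnd
    { toFun := fun x => vec2 (x (Sum.inr 0), x (Sum.inl 0))
      map_add' := by
        intro x y
        apply vec2_ext <;> simp
      map_smul' := by
        intro c x
        apply vec2_ext <;> simp }
    (by
      intro x
      simp only [LinearMap.coe_mk, AddHom.coe_mk, hQf, form2_eq, vec2_inl, vec2_inr]
      ring)
  rw [hQf] at this
  exact this

end aux

/-- GO^+_2(q) is dihedral of order 2(q-1). -/
theorem result {F : Type*} [Field F] [Fintype F] {q : ℕ} (hF : Fintype.card F = q) : Nonempty (Cfsg.isometryGroup F (Cfsg.quadFormPlus 1 F) ≃* DihedralGroup (q - 1)) := by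
  classical
  subst hF
  have hq2 : 2 ≤ Fintype.card F := Fintype.one_lt_card
  have hcard : Nat.card ↥(Cfsg.isometryGroup F (Cfsg.quadFormPlus 1 F)) =
      2 * (Fintype.card F - 1) := by
    rw [card_plus 1 le_rfl]
    simp
  by_cases hq : Fintype.card F = 2
  · rw [hq] at hcard ⊢
    have : Fact (Nat.Prime 2) := ⟨Nat.prime_two⟩
    exact ⟨mulEquivOfPrimeCardEq (p := 2) hcard (by rw [DihedralGroup.nat_card])⟩
  obtain ⟨u, hg⟩ := IsCyclic.exists_generator (α := Fˣ)
  have hou : orderOf u = Fintype.card F - 1 := by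
    rw [orderOf_eq_card_of_forall_mem_zpowers hg, Nat.card_eq_fintype_card, Fintype.card_units]
  obtain ⟨ρ, hρ⟩ := exists_diag u
  obtain ⟨r, hr⟩ := exists_swap (F := F)
  have hρpow : ∀ (k : ℕ) x, mat (ρ ^ k) *ᵥ x =
      vec2 (((u ^ k : Fˣ) : F) * x (Sum.inl 0), (((u ^ k)⁻¹ : Fˣ) : F) * x (Sum.inr 0)) := by
    intro k
    induction k with
    | zero =>
      intro x
      rw [pow_zero, pow_zero, mat_one_mulVec]
      apply vec2_ext <;> simp
    | succ k ih =>
      intro x
      rw [pow_succ, mat_mul_mulVec, ih, hρ]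
      apply vec2_ext
      · simp only [vec2_inl, pow_succ, Units.val_mul]
        ring
      · simp only [vec2_inr, pow_succ, _root_.mul_inv_rev, Units.val_mul]
        ring
  have hoρ : orderOf ρ = Fintype.card F - 1 := by
    rw [← hou]
    apply orderOf_eq_orderOf_iff.mpr
    intro k
    constructor
    · intro h1
      have h2 := hρpow k (vec2 (1, 1))
      rw [h1, mat_one_mulVec] at h2
      have h3 := congrFun h2 (Sum.inl 0)
      simp only [vec2_inl, mul_one] at h3
      apply Units.ext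
      rw [← h3, Units.val_one]
    · intro h1
      apply ext_mulVec
      intro x
      rw [hρpow, h1, mat_one_mulVec]
      apply vec2_ext <;> simp
  have hrr : r * r = 1 := by
    apply ext_mulVec
    intro x
    rw [mat_mul_mulVec, hr, hr, mat_one_mulVec]
    apply vec2_ext <;> simp
  have hyy : (r * ρ) * (r * ρ) = 1 := by
    apply ext_mulVec
    intro x
    rw [mat_mul_mulVec, mat_mul_mulVec, mat_mul_mulVec, hρ, hr, hρ, hr, mat_one_mulVec]
    apply vec2_ext <;> simp
  have hρ1 : ρ ≠ 1 := by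
    intro h
    rw [h, orderOf_one] at hoρ
    omega
  have hr1 : r ≠ 1 := by
    intro h
    have h3 := hr (vec2 (0, 1))
    rw [h, mat_one_mulVec] at h3
    have h4 := congrFun h3 (Sum.inl 0)
    simp at h4
  have hy1 : r * ρ ≠ 1 := by
    intro h
    have h3 := mat_mul_mulVec r ρ (vec2 ((0 : F), 1))
    rw [hρ, hr, h, mat_one_mulVec] at h3
    have h4 := congrFun h3 (Sum.inl 0)
    simp at h4
    exact u.ne_zero h4.symm
  have hox : orderOf r = 2 := orderOf_eq_prime (by rw [pow_two, hrr]) hr1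
  have hoy : orderOf (r * ρ) = 2 := orderOf_eq_prime (by rw [pow_two, hyy]) hy1
  have hxy : r ≠ r * ρ := by
    intro h
    apply hρ1
    have := mul_left_cancel (a := r) (b := 1) (c := ρ) (by rw [mul_one]; exact h)
    exact this.symm
  obtain ⟨e⟩ := Cfsg.Agent.S0206.result r (r * ρ) hox hoy hxy
  have hprod : r * (r * ρ) = ρ := by rw [← mul_assoc, hrr, one_mul]
  rw [hprod, hoρ] at e
  have htop : Subgroup.closure ({r, r * ρ} : Set ↥(Cfsg.isometryGroup F (Cfsg.quadFormPlus 1 F)))
      = ⊤ := by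
    apply Subgroup.eq_top_of_card_eq
    rw [Nat.card_congr e.toEquiv, DihedralGroup.nat_card, hcard]
  rw [htop] at e
  exact ⟨Subgroup.topEquiv.symm.trans e⟩

end Cfsg.Agent.S0305
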