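import Mathlib
import Cfsg.Statements.S0306
import Cfsg.Agent.Lib.Helper5.OrthMinus
import Cfsg.Agent.S0206

set_option autoImplicit false
open Cfsg

namespace Cfsg.Agent.S0306


open Cfsg.Agent.Lib.Helper5 Matrix Cfsg.Agent.Lib.Helper5.Orth Cfsg.Agent.Lib.Helper5.OrthGen
  Cfsg.Agent.Lib.Helper5.OrthCard Cfsg.Agent.Lib.Helper5.OrthSplit Cfsg.Agent.Lib.Helper5.NormTwo
  Cfsg.Agent.Lib.Helper5.OrthMinus

section aux

variable {F : Type*} [Field F]

/-- the quadratic algebra attached to the binary form -/
abbrev KK (a b : F) := QuadraticAlgebra F (-b) a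

def toK (a b : F) (x : I2 → F) : KK a b := ⟨x (Sum.inr 0), x (Sum.inr 1)⟩

def ofK {a b : F} (z : KK a b) : I2 → F := vec (z.re, z.im)

theorem form_ofK {a b : F} (z : KK a b) :
    Cfsg.quadFormMinus 0 F a b (ofK z) = QuadraticAlgebra.norm z := by
  rw [form_eq]
  simp only [N, ofK, QuadraticAlgebra.norm_def, OrthMinus.vec_zero, OrthMinus.vec_one]
  ring

theorem form_toK {a b : F} (x : I2 → F) :
    QuadraticAlgebra.norm (toK a b x) = Cfsg.quadFormMinus 0 F a b x := by
  rw [form_eq]
  simp only [N, toK, QuadraticAlgebra.norm_def]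
  ring

theorem toK_ofK {a b : F} (z : KK a b) : toK a b (ofK z) = z := rfl

theorem ofK_injective {a b : F} {z w : KK a b} (h : ofK z = ofK w) : z = w := by
  rw [← toK_ofK z, h, toK_ofK]

theorem exists_rot {a b : F} (hnd : (QuadraticMap.polarBilin (Q2 a b)).Nondegenerate)
    (w : KK a b) (hw : QuadraticAlgebra.norm w = 1) :
    ∃ A : ↥(Cfsg.isometryGroup F (Cfsg.quadFormMinus 0 F a b)), ∀ x,
      mat A *ᵥ x = ofK (w * toK a b x) := by
  have := exists_iso_of_linearMap (Q2 a b) hnd
    { toFun := fun x => ofK (w * toK a b x)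
      map_add' := by
        intro x y
        apply vec_ext <;> simp [ofK, toK] <;> ring
      map_smul' := by
        intro c x
        apply vec_ext <;> simp [ofK, toK] <;> ring }
    (by
      intro x
      simp only [LinearMap.coe_mk, AddHom.coe_mk, Q2_coe]
      rw [form_ofK, map_mul, hw, one_mul, form_toK])
  rw [Q2_coe] at this
  exact this

theorem exists_conj {a b : F} (hnd : (QuadraticMap.polarBilin (Q2 a b)).Nondegenerate) :
    ∃ A : ↥(Cfsg.isometryGroup F (Cfsg.quadFormMinus 0 F a b)), ∀ x,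
      mat A *ᵥ x = ofK (star (toK a b x)) := by
  have := exists_iso_of_linearMap (Q2 a b) hnd
    { toFun := fun x => ofK (star (toK a b x))
      map_add' := by
        intro x y
        apply vec_ext <;> simp [ofK, toK] <;> ring
      map_smul' := by
        intro c x
        apply vec_ext <;> simp [ofK, toK] <;> ring }
    (by
      intro x
      simp only [LinearMap.coe_mk, AddHom.coe_mk, Q2_coe]
      rw [form_ofK, QuadraticAlgebra.norm_star, form_toK])
  rw [Q2_coe] at this
  exact this

end aux

/-- GO^-_2(q) is dihedral of order 2(q+1). -/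
theorem result {F : Type*} [Field F] [Fintype F] {q : ℕ} (hF : Fintype.card F = q) (a b : F) (hab : ∀ z₁ z₂ : F, z₁ ^ 2 + a * z₁ * z₂ + b * z₂ ^ 2 = 0 → z₁ = 0 ∧ z₂ = 0) : Nonempty (Cfsg.isometryGroup F (Cfsg.quadFormMinus 0 F a b) ≃* DihedralGroup (q + 1)) := by
  classical
  subst hF
  have hd := disc_ne_zero a b hab
  have hnd := Q2_nondeg a b hd
  have hfact : Fact (∀ r : F, r ^ 2 ≠ -b + a * r) := ⟨by
    intro r hr
    have := hab r (-1) (by linear_combination hr)
    have h1 : (-1 : F) = 0 := this.2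
    simp at h1⟩
  have : Finite (KK a b) := Finite.of_equiv _ (QuadraticAlgebra.equivProd (-b) a).symm
  have : Fintype (KK a b) := Fintype.ofFinite _
  have hq2 : 2 ≤ Fintype.card F := Fintype.one_lt_card
  have hcardK : Fintype.card (KK a b) = Fintype.card F * Fintype.card F := by
    rw [Fintype.card_congr (QuadraticAlgebra.equivProd (-b) a), Fintype.card_prod]
  -- an element of order `q + 1` and norm one
  obtain ⟨g, hg⟩ := IsCyclic.exists_generator (α := (KK a b)ˣ)
  have hog : orderOf g = Fintype.card F * Fintype.card F - 1 := by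
    rw [orderOf_eq_card_of_forall_mem_zpowers hg, Nat.card_eq_fintype_card, Fintype.card_units,
      hcardK]
  obtain ⟨u, hu⟩ : ∃ u : (KK a b)ˣ, u = g ^ (Fintype.card F - 1) := ⟨_, rfl⟩
  have hfac : Fintype.card F * Fintype.card F - 1 = (Fintype.card F - 1) * (Fintype.card F + 1) := by
    obtain ⟨r, hr⟩ : ∃ r, Fintype.card F = r + 1 := ⟨Fintype.card F - 1, by omega⟩
    rw [hr, Nat.add_sub_cancel]
    have : (r + 1) * (r + 1) = r * (r + 1 + 1) + 1 := by ring
    omega
  have hou : orderOf u = Fintype.card F + 1 := by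
    rw [hu, orderOf_pow, hog, hfac, Nat.gcd_eq_right (Dvd.intro _ rfl)]
    exact Nat.mul_div_cancel_left _ (by omega)
  have hnu : QuadraticAlgebra.norm (u : KK a b) = 1 := by
    rw [hu, Units.val_pow_eq_pow_val, map_pow]
    apply FiniteField.pow_card_sub_one_eq_one
    intro h0
    rw [QuadraticAlgebra.norm_eq_zero_iff_eq_zero] at h0
    exact g.ne_zero h0
  have hnpow : ∀ k : ℕ, QuadraticAlgebra.norm ((u : KK a b) ^ k) = 1 := by
    intro k
    rw [map_pow, hnu, one_pow]
  obtain ⟨ρ, hρ⟩ := exists_rot hnd (u : KK a b) hnu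
  obtain ⟨r, hr⟩ := exists_conj hnd
  have hρpow : ∀ (k : ℕ) x, mat (ρ ^ k) *ᵥ x = ofK ((u : KK a b) ^ k * toK a b x) := by
    intro k
    induction k with
    | zero =>
      intro x
      rw [pow_zero, pow_zero, one_mul, mat_one_mulVec]
      exact (vec_coords x).symm
    | succ k ih =>
      intro x
      rw [pow_succ, mat_mul_mulVec, ih, hρ, toK_ofK, pow_succ, mul_assoc]
  have hoρ : orderOf ρ = Fintype.card F + 1 := by
    rw [← hou]
    apply orderOf_eq_orderOf_iff.mpr
    intro k
    constructor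
    · intro h1
      have h2 := hρpow k (ofK (1 : KK a b))
      rw [h1, mat_one_mulVec, toK_ofK, mul_one] at h2
      have h3 := ofK_injective h2
      apply Units.ext
      rw [Units.val_pow_eq_pow_val, ← h3, Units.val_one]
    · intro h1
      apply ext_mulVec
      intro x
      have h2 : (u : KK a b) ^ k = 1 := by
        rw [← Units.val_pow_eq_pow_val, h1, Units.val_one]
      rw [hρpow, h2, one_mul, mat_one_mulVec]
      exact vec_coords x
  have hrr : r * r = 1 := by
    apply ext_mulVec
    intro x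
    rw [mat_mul_mulVec, hr, hr, toK_ofK, star_star, mat_one_mulVec]
    exact vec_coords x
  have hyy : (r * ρ) * (r * ρ) = 1 := by
    apply ext_mulVec
    intro x
    rw [mat_mul_mulVec, mat_mul_mulVec, mat_mul_mulVec, hρ, hr, hρ, hr, toK_ofK, toK_ofK, toK_ofK,
      star_mul, star_star, mat_one_mulVec]
    have h1 : star (u : KK a b) * (u : KK a b) = 1 := by
      have := QuadraticAlgebra.algebraMap_norm_eq_mul_star (u : KK a b)
      rw [hnu, map_one] at this
      rw [mul_comm, ← this]
    rw [mul_comm, ← mul_assoc, h1, one_mul]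
    exact vec_coords x
  have hρ1 : ρ ≠ 1 := by
    intro h
    rw [h, orderOf_one] at hoρ
    omega
  have hr1 : r ≠ 1 := by
    intro h
    have h3 := hr (vec (0, 1))
    rw [h, mat_one_mulVec] at h3
    have h4 := congrFun h3 (Sum.inr 0)
    have h5 := congrFun h3 (Sum.inr 1)
    simp only [ofK, toK, OrthMinus.vec_zero, OrthMinus.vec_one, QuadraticAlgebra.re_star, QuadraticAlgebra.im_star] at h4 h5
    apply hd
    have h6 : (2 : F) = 0 := by linear_combination h5
    have h7 : a = 0 := by linear_combination -h4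
    rw [h7]
    linear_combination (-2 * b) * h6
  have hy1 : r * ρ ≠ 1 := by
    intro h
    have h2 : ρ = r := by
      calc ρ = (r * r) * ρ := by rw [hrr, one_mul]
        _ = r * (r * ρ) := by rw [mul_assoc]
        _ = r := by rw [h, mul_one]
    have h3 : ρ ^ 2 = 1 := by rw [pow_two, h2, hrr]
    have h4 := orderOf_dvd_of_pow_eq_one h3
    rw [hoρ] at h4
    have := Nat.le_of_dvd (by norm_num) h4
    omega
  have hox : orderOf r = 2 := orderOf_eq_prime (by rw [pow_two, hrr]) hr1
  have hoy : orderOf (r * ρ) = 2 := orderOf_eq_prime (by rw [pow_two, hyy]) hy1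
  have hxy : r ≠ r * ρ := by
    intro h
    apply hρ1
    have := mul_left_cancel (a := r) (b := 1) (c := ρ) (by rw [mul_one]; exact h)
    exact this.symm
  obtain ⟨e⟩ := Cfsg.Agent.S0206.result r (r * ρ) hox hoy hxy
  have hprod : r * (r * ρ) = ρ := by rw [← mul_assoc, hrr, one_mul]
  rw [hprod, hoρ] at e
  have htop : Subgroup.closure ({r, r * ρ} : Set ↥(Cfsg.isometryGroup F (Cfsg.quadFormMinus 0 F a b)))
      = ⊤ := by
    apply Subgroup.eq_top_of_card_eq
    rw [Nat.card_congr e.toEquiv, DihedralGroup.nat_card, card_base a b hab]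
  rw [htop] at e
  exact ⟨Subgroup.topEquiv.symm.trans e⟩

end Cfsg.Agent.S0306
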