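import Cfsg.Statements.S0319
import Cfsg.Agent.Lib.Helper3.BNPair

set_option autoImplicit false
open Cfsg
open Cfsg.Agent.Lib.Helper3.BNPair

namespace Cfsg.Agent.S0319

/-- Simplicity criterion for groups with a (B,N)-pair: if the distinguished generators admit no
splitting into two non-empty mutually commuting parts, `B` is solvable, `G` is perfect and the intersection
of all conjugates of `B` is trivial, then `G` is simple. -/
theorem result {G : Type*} [Group G] [Nontrivial G]
    (P : Cfsg.BNPair G) (hirr : P.Irreducible) (hsolv : Group.IsSolvable P.B) (hperf : commutator G = ⊤)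
    (hcore : P.B.normalCore = ⊥) : IsSimpleGroup G := by
  refine ⟨fun H hH => ?_⟩
  have hM : P.B ≤ P.B ⊔ H := le_sup_left
  have hMeq := eq_parabolic (P.B ⊔ H) hM
  set M := P.B ⊔ H with hMdef
  have dcM : ∀ {g k : G}, DC P g k → g ∈ M → k ∈ M := by
    rintro g k ⟨b, hb, b', hb', rfl⟩ hg
    have : k = b⁻¹ * (b * k * b') * b'⁻¹ := by group
    rw [this]
    exact M.mul_mem (M.mul_mem (M.inv_mem (hM hb)) hg) (M.inv_mem (hM hb'))
  have hcomm : ∀ s1 ∈ P.S ∩ (M : Set G), ∀ s2 ∈ P.S \ (P.S ∩ (M : Set G)),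
      s1 * s2 * s1⁻¹ * s2⁻¹ ∈ P.B := by
    rintro s1 ⟨hs1, hs1M⟩ s2 ⟨hs2, hs2X⟩
    have hs2M : s2 ∉ M := fun h => hs2X ⟨hs2, h⟩
    have hs1N := S_mem_N hs1
    have hs2N := S_mem_N hs2
    obtain ⟨b0, hb0, h0, hh0, e0⟩ := Subgroup.mem_sup_of_normal_right.1 hs1M
    have hh : s1 * b0⁻¹ ∈ H := by
      have : s1 * b0⁻¹ = b0 * h0 * b0⁻¹ := by rw [← e0]
      rw [this]; exact hH.conj_mem h0 hh0 b0
    have hh2 : (s2 * s1) * b0⁻¹ * s2⁻¹ ∈ M := by
      have : (s2 * s1) * b0⁻¹ * s2⁻¹ = s2 * (s1 * b0⁻¹) * s2⁻¹ := by group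
      rw [this]; exact Subgroup.mem_sup_right (hH.conj_mem _ hh s2)
    have hn' : s2 * (s1 * s2) ∈ M := by
      rcases t3r' hs2 (P.N.mul_mem hs2N hs1N) (P.B.inv_mem hb0) with h | h
      · have h1 := dcM h hh2
        have : s2 * (s1 * s2) = (s2 * s1 * s2⁻¹) * (s2 * s2) := by group
        rw [this]; exact M.mul_mem h1 (hM (P.sq_mem s2 hs2))
      · exfalso
        have h1 := dcM h hh2
        apply hs2M
        have : s2 = (s2 * s1) * s1⁻¹ := by group
        rw [this]; exact M.mul_mem h1 (M.inv_mem hs1M)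
    have hmN : s1 * s2 ∈ P.N := P.N.mul_mem hs1N hs2N
    have up2 : ∀ b ∈ P.B, DC P (s2 * b * (s2 * (s1 * s2))) (s2 * (s2 * (s1 * s2))) := by
      intro b hb
      rcases t3 hs2 (P.N.mul_mem hs2N hmN) hb with h | h
      · exact h
      · exfalso
        obtain ⟨b1, hb1, b2, hb2, e⟩ := h
        apply hs2M
        have : s2 = (s2 * b * (s2 * (s1 * s2))) * (s2 * (s1 * s2))⁻¹ * b⁻¹ := by group
        rw [this, e]
        exact M.mul_mem (M.mul_mem (M.mul_mem (M.mul_mem (hM hb1) hn') (hM hb2)) (M.inv_mem hn'))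
          (M.inv_mem (hM hb))
    have hnot : ¬ ∀ b ∈ P.B, DC P (s2 * b * (s1 * s2)) (s2 * (s1 * s2)) :=
      fun h1 => not_up_up hs2 hmN h1 up2
    push Not at hnot
    obtain ⟨b, hb, hb'⟩ := hnot
    have hd : Down P s2 [s1, s2].prod := by
      have e : [s1, s2].prod = s1 * s2 := by simp
      rw [e]
      rcases t3 hs2 hmN hb with h1 | h1
      · exact absurd h1 hb'
      · exact ⟨b, hb, h1⟩
    obtain ⟨A, y, C, e, hB⟩ := exchange [s1, s2] (by
      intro x hx
      simp only [List.mem_cons, List.not_mem_nil, or_false] at hx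
      rcases hx with rfl | rfl
      · exact hs1
      · exact hs2) hs2 hd
    have hcases : (A = [] ∧ C = [s2]) ∨ (A = [s1] ∧ C = []) := by
      cases A with
      | nil => left; simp at e; exact ⟨rfl, e.2.symm⟩
      | cons a A =>
        cases A with
        | nil => right; simp at e; exact ⟨by rw [e.1], e.2.2⟩
        | cons a' A => simp at e
    rcases hcases with ⟨rfl, rfl⟩ | ⟨rfl, rfl⟩
    · exfalso
      simp only [List.prod_cons, List.prod_nil, mul_one, List.nil_append] at hB
      have h3 : s1⁻¹ * s2 ∈ P.B := by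
        have : s1⁻¹ * s2 = (s1 * s1)⁻¹ * ((s2 * (s1 * s2))⁻¹ * s2)⁻¹ := by group
        rw [this]; exact P.B.mul_mem (sq_inv_mem hs1) (P.B.inv_mem hB)
      have := P.inj s1 hs1 s2 hs2 h3
      exact hs2M (this ▸ hs1M)
    · simp only [List.prod_cons, List.prod_nil, mul_one, List.append_nil] at hB
      have hBN : (s2 * (s1 * s2))⁻¹ * s1 ∈ P.N :=
        P.N.mul_mem (P.N.inv_mem (P.N.mul_mem hs2N hmN)) hs1N
      have h4 := conj_mem₁ hs1N
        (P.B.mul_mem (P.B.inv_mem hB) (sq_inv_mem hs2))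
        (P.N.mul_mem (P.N.inv_mem hBN) (P.N.inv_mem (P.N.mul_mem hs2N hs2N)))
      have : s1 * s2 * s1⁻¹ * s2⁻¹ =
          (s1 * (((s2 * (s1 * s2))⁻¹ * s1)⁻¹ * (s2 * s2)⁻¹) * s1⁻¹)⁻¹ := by group
      rw [this]; exact P.B.inv_mem h4
  by_cases hX : (P.S ∩ (M : Set G)).Nonempty
  · by_cases hX' : (P.S \ (P.S ∩ (M : Set G))).Nonempty
    · exfalso
      obtain ⟨s, hs, s', hs', hn⟩ := hirr _ Set.inter_subset_left hX hX'
      exact hn (hcomm s hs s' hs')
    · right
      rw [Set.not_nonempty_iff_eq_empty, Set.sdiff_eq_empty] at hX'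
      have hMtop : M = ⊤ := by
        rw [eq_top_iff, ← parabolic_S (P := P), hMeq]
        exact parabolic_mono hX'
      have hsurj : Function.Surjective ((QuotientGroup.mk' H).comp P.B.subtype) := by
        intro q
        obtain ⟨g, rfl⟩ := QuotientGroup.mk'_surjective H q
        have hg : g ∈ M := by rw [hMtop]; trivial
        obtain ⟨b, hb, h, hh, rfl⟩ := Subgroup.mem_sup_of_normal_right.1 hg
        refine ⟨⟨b, hb⟩, ?_⟩
        show (QuotientGroup.mk' H) b = (QuotientGroup.mk' H) (b * h)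
        have h1 : (QuotientGroup.mk' H) h = 1 := (QuotientGroup.eq_one_iff h).2 hh
        rw [map_mul, h1, mul_one]
      have hsol : Group.IsSolvable (G ⧸ H) := Group.isSolvable_of_surjective hsurj
      have hperfQ : commutator (G ⧸ H) = ⊤ := by
        rw [commutator_def, ← (Subgroup.map_top_of_surjective _ (QuotientGroup.mk'_surjective H)),
          ← Subgroup.map_commutator, ← commutator_def, hperf]
      by_contra hne
      have : Nontrivial (G ⧸ H) := by
        rw [← not_subsingleton_iff_nontrivial]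
        intro hsub
        apply hne
        rw [eq_top_iff]
        intro g _
        rw [← QuotientGroup.eq_one_iff]
        exact Subsingleton.elim _ _
      exact (Group.IsSolvable.commutator_lt_top_of_nontrivial (G ⧸ H)).ne hperfQ
  · left
    rw [Set.not_nonempty_iff_eq_empty] at hX
    rw [hX, parabolic_empty] at hMeq
    have hHB : H ≤ P.B := by rw [← hMeq]; exact le_sup_right
    have := Subgroup.normal_le_normalCore.2 hHB
    rw [hcore] at this
    exact le_bot_iff.1 this

end Cfsg.Agent.S0319
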