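import Cfsg.Statements.S0322
import Cfsg.Agent.Lib.Helper3.BNPair

set_option autoImplicit false
open Cfsg
open Cfsg.Agent.Lib.Helper3.BNPair

namespace Cfsg.Agent.S0322

/-- A group with a (B,N)-pair of rank one acts doubly transitively on the left cosets of `B`. -/
theorem result {G : Type*} [Group G] (P : Cfsg.BNPair G) (h : P.rank = 1) : MulAction.IsMultiplyPretransitive G (G ⧸ P.B) 2 := by
  have hcard : Nat.card P.S = 1 := h
  obtain ⟨hsub, ⟨s⟩⟩ := Nat.card_eq_one_iff_unique.1 hcard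
  have hS : P.S = {(s : G)} := by
    ext x
    constructor
    · intro hx
      have : (⟨x, hx⟩ : P.S) = s := Subsingleton.elim _ _
      exact congrArg Subtype.val this
    · rintro rfl; exact s.2
  have hall : ∀ g : G, g ∈ P.B ∨ DC P g s := by
    intro g
    rw [← parabolic_singleton s.2, ← hS, parabolic_S]
    trivial
  rw [MulAction.is_two_pretransitive_iff]
  intro a b c d hab hcd
  induction a using QuotientGroup.induction_on with | H x => ?_
  induction b using QuotientGroup.induction_on with | H y => ?_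
  induction c using QuotientGroup.induction_on with | H z => ?_
  induction d using QuotientGroup.induction_on with | H w => ?_
  have h1 : x⁻¹ * y ∉ P.B := fun hh => hab (QuotientGroup.eq.2 hh)
  have h2 : z⁻¹ * w ∉ P.B := fun hh => hcd (QuotientGroup.eq.2 hh)
  obtain ⟨b1, hb1, b2, hb2, e1⟩ := (hall _).resolve_left h1
  obtain ⟨c1, hc1, c2, hc2, e2⟩ := (hall _).resolve_left h2
  refine ⟨z * c1 * b1⁻¹ * x⁻¹, ?_, ?_⟩
  · show ((z * c1 * b1⁻¹ * x⁻¹ * x : G) : G ⧸ P.B) = z
    rw [QuotientGroup.eq]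
    have : (z * c1 * b1⁻¹ * x⁻¹ * x)⁻¹ * z = b1 * c1⁻¹ := by group
    rw [this]; exact P.B.mul_mem hb1 (P.B.inv_mem hc1)
  · show ((z * c1 * b1⁻¹ * x⁻¹ * y : G) : G ⧸ P.B) = w
    rw [QuotientGroup.eq]
    have : (z * c1 * b1⁻¹ * x⁻¹ * y)⁻¹ * w = (x⁻¹ * y)⁻¹ * b1 * c1⁻¹ * (z⁻¹ * w) := by group
    rw [this, e1, e2]
    have : (b1 * ↑s * b2)⁻¹ * b1 * c1⁻¹ * (c1 * ↑s * c2) = b2⁻¹ * c2 := by group
    rw [this]; exact P.B.mul_mem (P.B.inv_mem hb2) hc2

end Cfsg.Agent.S0322
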