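import Cfsg.Statements.S0323
-- import your own Cfsg.Agent.* helpers here

set_option autoImplicit false
open scoped Pointwise
open Cfsg

namespace Cfsg.Agent.S0323

/-- A doubly transitive action on a set with at least three points yields a (B,N)-pair of rank one:
`B` is the stabiliser of a point `x`, `N` the setwise stabiliser of a pair `{x, y}`. -/
theorem result {G Ω : Type*} [Group G] [MulAction G Ω]
    (h2 : MulAction.IsMultiplyPretransitive G Ω 2) {x y z : Ω} (hxy : x ≠ y) (hyz : y ≠ z) (hxz : x ≠ z) :
    ∃ P : Cfsg.BNPair G, P.B = MulAction.stabilizer G x ∧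
      P.N = MulAction.stabilizer G ({x, y} : Set Ω) ∧ P.rank = 1 := by
  have h2' : ∀ {a b c d : Ω}, a ≠ b → c ≠ d → ∃ g : G, g • a = c ∧ g • b = d :=
    fun hab hcd => MulAction.is_two_pretransitive_iff.1 h2 hab hcd
  obtain ⟨s, hsx, hsy⟩ := h2' hxy hxy.symm
  have memN : ∀ g : G, g ∈ MulAction.stabilizer G ({x, y} : Set Ω) ↔
      (g • x = x ∧ g • y = y) ∨ (g • x = y ∧ g • y = x) := by
    intro g
    rw [MulAction.mem_stabilizer_iff, Set.smul_set_insert, Set.smul_set_singleton,
      Set.pair_eq_pair_iff]
  have memB : ∀ g : G, g ∈ MulAction.stabilizer G x ↔ g • x = x := fun g => MulAction.mem_stabilizer_iff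
  have hsinvy : s⁻¹ • y = x := by rw [← hsx, inv_smul_smul]
  have hsinvx : s⁻¹ • x = y := by rw [← hsy, inv_smul_smul]
  -- double cosets
  have dcB : ∀ g h : G, g • x = x → h • x = x →
      g ∈ DoubleCoset.doubleCoset h (MulAction.stabilizer G x : Set G) (MulAction.stabilizer G x) := by
    intro g h hg hh
    rw [DoubleCoset.mem_doubleCoset]
    refine ⟨g * h⁻¹, ?_, 1, Subgroup.one_mem _, by group⟩
    show g * h⁻¹ ∈ MulAction.stabilizer G x
    rw [memB, mul_smul]
    have : h⁻¹ • x = x := by conv_lhs => rw [← hh, inv_smul_smul]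
    rw [this, hg]
  have dcN : ∀ g h : G, g • x ≠ x → h • x ≠ x →
      g ∈ DoubleCoset.doubleCoset h (MulAction.stabilizer G x : Set G) (MulAction.stabilizer G x) := by
    intro g h hg hh
    obtain ⟨b, hbx, hb⟩ := h2' (Ne.symm hh) (Ne.symm hg)
    rw [DoubleCoset.mem_doubleCoset]
    refine ⟨b, (memB b).2 hbx, (b * h)⁻¹ * g, ?_, by group⟩
    show (b * h)⁻¹ * g ∈ MulAction.stabilizer G x
    rw [memB, mul_smul, ← hb, ← mul_smul b h, inv_smul_smul]
  refine ⟨{ B := MulAction.stabilizer G x
            N := MulAction.stabilizer G ({x, y} : Set Ω)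
            S := {s}
            sup_eq_top := ?_
            conj_mem := ?_
            subset := ?_
            sq_mem := ?_
            inj := ?_
            closure_sup := ?_
            mul_mem_union := ?_
            conj_ne := ?_ }, rfl, rfl, ?_⟩
  · rw [eq_top_iff]
    intro g _
    by_cases hg : g • x = x
    · exact Subgroup.mem_sup_left ((memB g).2 hg)
    · obtain ⟨b, hbx, hb⟩ := h2' (Ne.symm hg) hxy
      have hc : s * b * g ∈ MulAction.stabilizer G x := by
        rw [memB, mul_smul, mul_smul, hb, hsy]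
      have e : g = b⁻¹ * s⁻¹ * (s * b * g) := by group
      rw [e]
      refine Subgroup.mul_mem _ (Subgroup.mul_mem _ ?_ ?_) (Subgroup.mem_sup_left hc)
      · exact Subgroup.mem_sup_left (Subgroup.inv_mem _ ((memB b).2 hbx))
      · exact Subgroup.mem_sup_right (Subgroup.inv_mem _ ((memN s).2 (Or.inr ⟨hsx, hsy⟩)))
  · rintro n hn t ⟨htB, htN⟩
    have htx : t • x = x := (memB t).1 htB
    have hty : t • y = y := by
      rcases (memN t).1 htN with h | h
      · exact h.2
      · exact absurd (htx.symm.trans h.1) hxy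
    rw [memB, mul_smul, mul_smul]
    rcases (memN n).1 hn with h | h
    · have : n⁻¹ • x = x := by conv_lhs => rw [← h.1, inv_smul_smul]
      rw [this, htx, h.1]
    · have : n⁻¹ • x = y := by conv_lhs => rw [← h.2, inv_smul_smul]
      rw [this, hty, h.2]
  · rintro _ rfl
    exact (memN _).2 (Or.inr ⟨hsx, hsy⟩)
  · rintro _ rfl
    rw [memB, mul_smul, hsx, hsy]
  · rintro _ rfl _ rfl _
    rfl
  · apply le_antisymm
    · refine sup_le ?_ inf_le_right
      rw [Subgroup.closure_le, Set.singleton_subset_iff]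
      exact (memN _).2 (Or.inr ⟨hsx, hsy⟩)
    · intro n hn
      rcases (memN n).1 hn with h | h
      · exact Subgroup.mem_sup_right ⟨(memB n).2 h.1, hn⟩
      · have e : n = s * (s⁻¹ * n) := by group
        rw [e]
        refine Subgroup.mul_mem _ (Subgroup.mem_sup_left (Subgroup.subset_closure rfl))
          (Subgroup.mem_sup_right ⟨?_, ?_⟩)
        · show s⁻¹ * n ∈ MulAction.stabilizer G x
          rw [memB, mul_smul, h.1, hsinvy]
        · show s⁻¹ * n ∈ MulAction.stabilizer G ({x, y} : Set Ω)
          rw [memN]; left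
          rw [mul_smul, mul_smul, h.1, h.2, hsinvy, hsinvx]
          exact ⟨rfl, rfl⟩
  · rintro s rfl n hn b hb
    have hbx : b • x = x := (memB b).1 hb
    rcases (memN n).1 hn with h | h
    · left
      apply dcN
      · rw [mul_smul, mul_smul, h.1, hbx, hsx]; exact hxy.symm
      · rw [mul_smul, h.1, hsx]; exact hxy.symm
    · by_cases hc : (s * b * n) • x = x
      · left
        apply dcB _ _ hc
        rw [mul_smul, h.1, hsy]
      · right
        apply dcN _ _ hc
        rw [h.1]; exact hxy.symm
  · rintro s rfl hcon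
    obtain ⟨b, hbx, hby⟩ := h2' hxy hxz
    have h1 : s * b * s ∈ (MulAction.stabilizer G x : Set G) := by
      rw [← hcon]; exact ⟨b, (memB b).2 hbx, rfl⟩
    have h3 : (s * b * s) • x = x := (memB _).1 h1
    rw [mul_smul, mul_smul, hsx, hby] at h3
    have : s • z = s • y := by rw [h3, hsy]
    exact hyz (smul_left_cancel s this).symm
  · show Nat.card ({s} : Set G) = 1
    simp

end Cfsg.Agent.S0323
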