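import Mathlib
import Cfsg.Statements.S0326

set_option autoImplicit false
open Cfsg

namespace Cfsg.Agent.S0326


/-- The Suzuki–Tits ovoid over a finite field with `q` elements has `q² + 1` points. -/
theorem result {F : Type*} [Field F] [Fintype F] (m : ℕ) :
    Nat.card (Cfsg.suzukiOvoid F m) = Fintype.card F ^ 2 + 1 := by
  classical
  let vec : F × F → (Fin 4 → F) := fun p =>
    ![p.1 * p.2 + p.1 ^ (2 ^ (m + 1) + 2) + p.2 ^ (2 ^ (m + 1)), p.2, p.1, 1]
  have hvec : ∀ p, vec p ≠ 0 := fun p h => by
    have := congrFun h 3
    simp [vec] at this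
  have hinf : (![1, 0, 0, 0] : Fin 4 → F) ≠ 0 := fun h => by
    have := congrFun h 0
    simp at this
  let f : Option (F × F) → Projectivization F (Fin 4 → F) := fun o => match o with
    | none => Projectivization.mk F _ hinf
    | some p => Projectivization.mk F _ (hvec p)
  have hrange : Cfsg.suzukiOvoid F m = Set.range f := by
    ext p
    constructor
    · rintro ⟨v, hv, rfl, (rfl | ⟨x, y, rfl⟩)⟩
      · exact ⟨none, rfl⟩
      · exact ⟨some (x, y), rfl⟩
    · rintro ⟨o, rfl⟩
      cases o with
      | none => exact ⟨_, hinf, rfl, Or.inl rfl⟩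
      | some p => exact ⟨_, hvec p, rfl, Or.inr ⟨p.1, p.2, rfl⟩⟩
  have hinj : Function.Injective f := by
    intro o o' h
    cases o with
    | none =>
      cases o' with
      | none => rfl
      | some p =>
        exfalso
        obtain ⟨a, ha⟩ := (Projectivization.mk_eq_mk_iff F _ _ hinf (hvec p)).mp h
        have := congrFun ha 3
        simp [vec, Units.smul_def] at this
    | some p =>
      cases o' with
      | none =>
        exfalso
        obtain ⟨a, ha⟩ := (Projectivization.mk_eq_mk_iff F _ _ (hvec p) hinf).mp h
        have := congrFun ha 3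
        simp [vec] at this
      | some p' =>
        obtain ⟨a, ha⟩ := (Projectivization.mk_eq_mk_iff F _ _ (hvec p) (hvec p')).mp h
        have h3 := congrFun ha 3
        have h2 := congrFun ha 2
        have h1 := congrFun ha 1
        simp [vec, Units.smul_def] at h3 h2 h1
        rw [h3] at h1 h2
        congr 1
        apply Prod.ext
        · simpa using h2.symm
        · simpa using h1.symm
  rw [hrange, Nat.card_range_of_injective hinj, Nat.card_eq_fintype_card, Fintype.card_option,
    Fintype.card_prod]
  ring

end Cfsg.Agent.S0326
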