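import Cfsg.Statements.S0355
import Cfsg.Agent.Lib.Helper8.Steiner

set_option autoImplicit false
open scoped Pointwise
open Cfsg

namespace Cfsg.Agent.S0355

/-- In a Steiner system S(4, 7, 23), two distinct blocks intersect in 1 or 3 points. -/
theorem result {α : Type*} [Fintype α] [DecidableEq α] (hα : Fintype.card α = 23) {B : Set (Finset α)} (hB : Cfsg.IsSteinerSystem 4 7 B) {b c : Finset α} (hb : b ∈ B) (hc : c ∈ B) (hbc : b ≠ c) : (b ∩ c).card = 1 ∨ (b ∩ c).card = 3 := by
  open Cfsg.Agent.Lib.Helper8.St in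
  have h := inter_pos hB hb hc (by norm_num)
  rw [hα] at h
  rcases k23 _ (inter_le hB hb c) h with h' | h' | h'
  · exact Or.inl h'
  · exact Or.inr h'
  · exact absurd (eq_of_inter_card hB hb hc h') hbc

end Cfsg.Agent.S0355
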