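import Cfsg.Statements.S0357
import Cfsg.Agent.Lib.Helper8.Steiner

set_option autoImplicit false
open scoped Pointwise
open Cfsg

namespace Cfsg.Agent.S0357

/-- In a Steiner system S(5, 6, 12), the complement of every block is again a block. -/
theorem result {α : Type*} [Fintype α] [DecidableEq α] (hα : Fintype.card α = 12) {B : Set (Finset α)} (hB : Cfsg.IsSteinerSystem 5 6 B) {b : Finset α} (hb : b ∈ B) : bᶜ ∈ B := by
  open Cfsg.Agent.Lib.Helper8.St in
  have h := disjoint_count hB hb (by norm_num)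
  rw [hα, k12'.1] at h
  obtain ⟨c, hc⟩ := Set.ncard_eq_one.mp h
  have hc' : c ∈ {c : Finset α | c ∈ B ∧ Disjoint b c} := by rw [hc]; rfl
  obtain ⟨hcB, hd⟩ := hc'
  have hsub : c ⊆ bᶜ := by
    intro x hx
    rw [Finset.mem_compl]
    exact fun hxb => Finset.disjoint_left.mp hd hxb hx
  have : c = bᶜ := Finset.eq_of_subset_of_card_le hsub (by
    rw [Finset.card_compl, hα, hB.1 b hb, hB.1 c hcB])
  rw [← this]; exact hcB

end Cfsg.Agent.S0357
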