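import Cfsg.Statements.S0376
import Cfsg.Agent.Lib.Helper8.Norm

set_option autoImplicit false
open Cfsg

namespace Cfsg.Agent.S0376

/-- A point stabiliser in the group of the length-24 code has order 10200960 = 2^7·3^2·5·7·11·23. -/
theorem result (p : Cfsg.GolayPt) : Nat.card (MulAction.stabilizer Cfsg.M24 p) = 10200960 := by
  open Cfsg.Agent.Lib.Helper8 in
  obtain ⟨g, hg, h⟩ := move1 p
  rw [card_eq_card_GInv _ [2 ^ 23] hg, card_P1]
  intro k
  rw [mem_GInv, conj_mem_M24_iff hg]
  simp only [List.mem_singleton, forall_eq, inv_conj_pt_iff (show 23 < 24 by norm_num) h,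
    MulAction.mem_stabilizer_iff, k.2, true_and]
  rfl

end Cfsg.Agent.S0376
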