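import Cfsg.Statements.S0377
import Cfsg.Agent.Lib.Helper8.SimpleM

set_option autoImplicit false
open scoped Pointwise
open Cfsg

namespace Cfsg.Agent.S0377

/-- A point stabiliser in the group of the length-24 code is simple. -/
theorem result (p : Cfsg.GolayPt) : IsSimpleGroup (MulAction.stabilizer Cfsg.M24 p) := by
  open Cfsg.Agent.Lib.Helper8 in
  obtain ⟨g, hg, h⟩ := move1 p
  open Cfsg.Agent.Lib.Helper8 in
  have := simple_M23'
  open Cfsg.Agent.Lib.Helper8 in
  refine (mulEquivGInv _ [2 ^ 23] hg ?_).isSimpleGroup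
  intro k
  open Cfsg.Agent.Lib.Helper8 in
  rw [mem_GInv, conj_mem_M24_iff hg]
  open Cfsg.Agent.Lib.Helper8 in
  simp only [List.mem_singleton, forall_eq, inv_conj_pt_iff (show 23 < 24 by norm_num) h,
    MulAction.mem_stabilizer_iff, k.2, true_and]
  rfl

end Cfsg.Agent.S0377
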