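import Cfsg.Statements.S0378
import Cfsg.Agent.Lib.Helper8.Norm

set_option autoImplicit false
open Cfsg

namespace Cfsg.Agent.S0378

/-- A two-point stabiliser in the group of the length-24 code has order 443520 = 2^7·3^2·5·7·11. -/
theorem result (p q : Cfsg.GolayPt) (hpq : p ≠ q) : Nat.card ↥(MulAction.stabilizer Cfsg.M24 p ⊓ MulAction.stabilizer Cfsg.M24 q) = 443520 := by
  open Cfsg.Agent.Lib.Helper8 in
  obtain ⟨g, hg, h, h'⟩ := move2 hpq
  rw [card_eq_card_GInv _ [2 ^ 0, 2 ^ 23] hg, card_P2]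
  intro k
  rw [mem_GInv, conj_mem_M24_iff hg]
  simp only [List.mem_cons, List.not_mem_nil, or_false, forall_eq_or_imp, forall_eq,
    inv_conj_pt_iff (show 23 < 24 by norm_num) h, inv_conj_pt_iff (show 0 < 24 by norm_num) h',
    Subgroup.mem_inf, MulAction.mem_stabilizer_iff, k.2, true_and]
  exact and_comm

end Cfsg.Agent.S0378
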