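import Cfsg.Statements.S0379
import Cfsg.Agent.Lib.Helper8.SimpleM

set_option autoImplicit false
open scoped Pointwise
open Cfsg

namespace Cfsg.Agent.S0379

/-- A two-point stabiliser in the group of the length-24 code is simple. -/
theorem result (p q : Cfsg.GolayPt) (hpq : p ≠ q) : IsSimpleGroup ↥(MulAction.stabilizer Cfsg.M24 p ⊓ MulAction.stabilizer Cfsg.M24 q) := by
  open Cfsg.Agent.Lib.Helper8 in
  obtain ⟨g, hg, h, h'⟩ := move2 hpq
  open Cfsg.Agent.Lib.Helper8 in
  have := simple_M22'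
  open Cfsg.Agent.Lib.Helper8 in
  refine (mulEquivGInv _ [2 ^ 0, 2 ^ 23] hg ?_).isSimpleGroup
  intro k
  open Cfsg.Agent.Lib.Helper8 in
  rw [mem_GInv, conj_mem_M24_iff hg]
  open Cfsg.Agent.Lib.Helper8 in
  simp only [List.mem_cons, List.not_mem_nil, or_false, forall_eq_or_imp, forall_eq,
    inv_conj_pt_iff (show 23 < 24 by norm_num) h, inv_conj_pt_iff (show 0 < 24 by norm_num) h',
    Subgroup.mem_inf, MulAction.mem_stabilizer_iff, k.2, true_and]
  exact and_comm

end Cfsg.Agent.S0379
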