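import Cfsg.Statements.S0381
import Cfsg.Agent.Lib.Helper8.Oct16
import Cfsg.Agent.Lib.Helper8.M12

set_option autoImplicit false
open scoped Pointwise
open Cfsg

namespace Cfsg.Agent.S0381

/-- The pointwise stabiliser of an octad in the group of the length-24 code has order 16 and every element of it squares to the identity. -/
theorem result (o : Finset Cfsg.GolayPt) (ho : o ∈ Cfsg.octads) : Nat.card ↥(Cfsg.M24 ⊓ fixingSubgroup (Equiv.Perm Cfsg.GolayPt) (o : Set Cfsg.GolayPt)) = 16 ∧ ∀ g ∈ Cfsg.M24 ⊓ fixingSubgroup (Equiv.Perm Cfsg.GolayPt) (o : Set Cfsg.GolayPt), g * g = 1 := by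
  open Cfsg.Agent.Lib.Helper8 in
  obtain ⟨g, hg, hgo⟩ := norm_O ho
  have hL : ptsL 8536111 = [2 ^ 0, 2 ^ 1, 2 ^ 2, 2 ^ 3, 2 ^ 5, 2 ^ 14, 2 ^ 17, 2 ^ 23] := by
    decide +kernel
  have hcard : Nat.card (GInv [2 ^ 0, 2 ^ 1, 2 ^ 2, 2 ^ 3, 2 ^ 5, 2 ^ 14, 2 ^ 17, 2 ^ 23]) = 16 := by
    rw [level_card o16lev, GInv_eq_bot o16rig, Subgroup.card_bot]
    decide +kernel
  have hmem : ∀ k, k ∈ Cfsg.M24 ⊓ fixingSubgroup (Equiv.Perm Cfsg.GolayPt) (o : Set Cfsg.GolayPt) ↔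
      g * k * g⁻¹ ∈ GInv [2 ^ 0, 2 ^ 1, 2 ^ 2, 2 ^ 3, 2 ^ 5, 2 ^ 14, 2 ^ 17, 2 ^ 23] := by
    intro k
    rw [mem_GInv_conj hg, ← hL, fix_conj_iff hgo, Subgroup.mem_inf, mem_fixingSubgroup_iff]
    rfl
  refine ⟨by rw [card_eq_card_GInv' _ _ g hmem, hcard], ?_⟩
  intro k hk
  have h1 := forall_of_list hcard o16_mem o16_inc (fun x => x * x = 1) sqOne
    (fun T hT hs => toPerm_sq hT hs) (by decide +kernel) _ ((hmem k).mp hk)
  have h2 : k * k = g⁻¹ * ((g * k * g⁻¹) * (g * k * g⁻¹)) * g := by group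
  rw [h2, h1]
  group

end Cfsg.Agent.S0381
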