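import Cfsg.Statements.S0382
import Cfsg.Agent.Lib.Helper8.Norm

set_option autoImplicit false
open scoped Pointwise
open Cfsg

namespace Cfsg.Agent.S0382

/-- A dodecad stabiliser in the group of the length-24 code has order 95040 = 2^6·3^3·5·11. -/
theorem result (d : Finset Cfsg.GolayPt) (hd : d ∈ Cfsg.dodecads) : Nat.card (MulAction.stabilizer Cfsg.M24 d) = 95040 := by
  open Cfsg.Agent.Lib.Helper8 in
  obtain ⟨g, hg, h⟩ := norm_D hd
  rw [card_eq_card_GInv _ [340831] hg, card_D]
  intro k
  rw [mem_GInv, conj_mem_M24_iff hg]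
  simp only [List.mem_singleton, forall_eq, inv_conj_iff h,
    MulAction.mem_stabilizer_iff, k.2, true_and]
  rfl

end Cfsg.Agent.S0382
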