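import Cfsg.Statements.S0383
import Cfsg.Agent.Lib.Helper8.SimpleM

set_option autoImplicit false
open scoped Pointwise
open Cfsg

namespace Cfsg.Agent.S0383

/-- A dodecad stabiliser in the group of the length-24 code is simple. -/
theorem result (d : Finset Cfsg.GolayPt) (hd : d ∈ Cfsg.dodecads) : IsSimpleGroup (MulAction.stabilizer Cfsg.M24 d) := by
  open Cfsg.Agent.Lib.Helper8 in
  obtain ⟨g, hg, h⟩ := norm_D hd
  open Cfsg.Agent.Lib.Helper8 in
  have := simple_M12'
  open Cfsg.Agent.Lib.Helper8 in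
  refine (mulEquivGInv _ [340831] hg ?_).isSimpleGroup
  intro k
  open Cfsg.Agent.Lib.Helper8 in
  rw [mem_GInv, conj_mem_M24_iff hg]
  open Cfsg.Agent.Lib.Helper8 in
  simp only [List.mem_singleton, forall_eq, inv_conj_iff h,
    MulAction.mem_stabilizer_iff, k.2, true_and]
  rfl

end Cfsg.Agent.S0383
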