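import Cfsg.Statements.S0384
import Cfsg.Agent.Lib.Helper8.M12

set_option autoImplicit false
open scoped Pointwise
open Cfsg

namespace Cfsg.Agent.S0384

/-- A dodecad stabiliser is sharply 5-transitive on the dodecad. -/
theorem result (d : Finset Cfsg.GolayPt) (hd : d ∈ Cfsg.dodecads) (x y : Fin 5 ↪ Cfsg.GolayPt) (hx : ∀ i, x i ∈ d) (hy : ∀ i, y i ∈ d) : ∃! g : MulAction.stabilizer Cfsg.M24 d, ∀ i, ((g : Cfsg.M24) : Equiv.Perm Cfsg.GolayPt) (x i) = y i := by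
  open Cfsg.Agent.Lib.Helper8 in
  obtain ⟨k, hk, hkd, hkx⟩ := sharp5 hd x y hx hy
  refine ⟨⟨⟨k, hk⟩, hkd⟩, hkx, ?_⟩
  intro k1 hk1
  have h1 : (k⁻¹ * ((k1 : Cfsg.M24) : Equiv.Perm Cfsg.GolayPt)) = 1 := by
    apply eq_one_of_fix5 hd x hx (Cfsg.M24.mul_mem (Cfsg.M24.inv_mem hk) k1.1.2)
    · rw [mul_smul, inv_smul_eq_iff, hkd]
      exact k1.2
    · intro i
      rw [Equiv.Perm.mul_apply, hk1 i, Equiv.Perm.inv_eq_iff_eq, hkx i]
  apply Subtype.ext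
  apply Subtype.ext
  exact (inv_mul_eq_one.mp h1).symm

end Cfsg.Agent.S0384
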