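import Cfsg.Statements.S0385
import Cfsg.Agent.Lib.Helper8.M12

set_option autoImplicit false
open scoped Pointwise
open Cfsg

namespace Cfsg.Agent.S0385

/-- The 6-point intersections of octads with a fixed dodecad form a Steiner system S(5, 6, 12) on the dodecad. -/
theorem result (d : Finset Cfsg.GolayPt) (hd : d ∈ Cfsg.dodecads) : Cfsg.IsSteinerSystem 5 6 {h : Finset {p : Cfsg.GolayPt // p ∈ d} | ∃ o ∈ Cfsg.octads, (o ∩ d).card = 6 ∧ h = Finset.subtype (fun p => p ∈ d) o} := by
  open Cfsg.Agent.Lib.Helper8 in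
  constructor
  · rintro b ⟨o, ho, h6, rfl⟩
    rw [Finset.card_subtype, Finset.filter_mem_eq_inter, h6]
  · intro s hs
    have hs' : (s.map (Function.Embedding.subtype _)).card = 5 := by rw [Finset.card_map, hs]
    obtain ⟨o, ⟨ho, hso⟩, huniq⟩ := steiner_octads.2 _ hs'
    have h6 : (o ∩ d).card = 6 := by
      have h1 := card_of_mem_supports (symmDiff_mem_supports ho.1 hd.1)
      have h3 := card_symmDiff_add o d
      rw [ho.2, hd.2] at h3
      have h5 : 5 ≤ (o ∩ d).card := by
        rw [← hs']
        apply Finset.card_le_card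
        intro x hx
        rw [Finset.mem_inter]
        refine ⟨hso hx, ?_⟩
        rw [Finset.mem_map] at hx
        obtain ⟨y, _, rfl⟩ := hx
        exact y.2
      have h8 : (o ∩ d).card ≤ 8 := by
        rw [← ho.2]; exact Finset.card_le_card Finset.inter_subset_left
      omega
    refine ⟨Finset.subtype _ o, ⟨⟨o, ho, h6, rfl⟩, ?_⟩, ?_⟩
    · intro x hx
      rw [Finset.mem_subtype]
      exact hso (Finset.mem_map_of_mem _ hx)
    · rintro b ⟨⟨o', ho', _, rfl⟩, hsub⟩
      have : o' = o := huniq o' ⟨ho', fun x hx => by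
        rw [Finset.mem_map] at hx
        obtain ⟨y, hy, rfl⟩ := hx
        exact Finset.mem_subtype.mp (hsub hy)⟩
      rw [this]

end Cfsg.Agent.S0385
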