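import Cfsg.Statements.S0386
import Cfsg.Agent.Lib.Helper8.Pair

set_option autoImplicit false
open scoped Pointwise
open Cfsg

namespace Cfsg.Agent.S0386

/-- For a fixed dodecad, 132 octads meet it in 6 points, 132 in 2 points and 495 in 4 points. -/
theorem result (d : Finset Cfsg.GolayPt) (hd : d ∈ Cfsg.dodecads) : {o : Finset Cfsg.GolayPt | o ∈ Cfsg.octads ∧ (o ∩ d).card = 6}.ncard = 132 ∧ {o : Finset Cfsg.GolayPt | o ∈ Cfsg.octads ∧ (o ∩ d).card = 2}.ncard = 132 ∧ {o : Finset Cfsg.GolayPt | o ∈ Cfsg.octads ∧ (o ∩ d).card = 4}.ncard = 495 := by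
  open Cfsg.Agent.Lib.Helper8 in
  obtain ⟨g, hg, hgo⟩ := norm_D hd
  have tr : ∀ n, {o : Finset Cfsg.GolayPt | o ∈ Cfsg.octads ∧ (o ∩ d).card = n}.ncard =
      cntOct (fun m => Nat.beq (popF (m &&& 340831)) n) := by
    intro n
    rw [count_transport g _ (fun s => s ∈ Cfsg.octads ∧ (s ∩ setOf 340831).card = n)
      (fun s => by rw [smul_mem_octads_iff hg, ← hgo, card_smul_inter])]
    exact ncard_oct _ _ (fun m => by rw [Nat.beq_eq, card_inter_setOf])
  rw [tr, tr, tr]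
  decide +kernel

end Cfsg.Agent.S0386
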