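import Cfsg.Statements.S0387
import Cfsg.Agent.Lib.Helper8.Norm

set_option autoImplicit false
open scoped Pointwise
open Cfsg

namespace Cfsg.Agent.S0387

/-- The stabiliser of a dodecad and a point on it has order 7920 = 2^4·3^2·5·11. -/
theorem result (d : Finset Cfsg.GolayPt) (hd : d ∈ Cfsg.dodecads) (p : Cfsg.GolayPt) (hp : p ∈ d) : Nat.card ↥(MulAction.stabilizer Cfsg.M24 d ⊓ MulAction.stabilizer Cfsg.M24 p) = 7920 := by
  open Cfsg.Agent.Lib.Helper8 in
  obtain ⟨g, hg, h, h'⟩ := norm_PD_in hd hp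
  rw [card_eq_card_GInv _ [16436384, 2 ^ 23] hg, card_PD]
  intro k
  rw [mem_GInv, conj_mem_M24_iff hg]
  simp only [List.mem_cons, List.not_mem_nil, or_false, forall_eq_or_imp, forall_eq,
    inv_conj_pt_iff (show 23 < 24 by norm_num) h, inv_conj_iff h',
    Subgroup.mem_inf, MulAction.mem_stabilizer_iff, k.2, true_and]
  rfl

end Cfsg.Agent.S0387
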