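import Cfsg.Statements.S0389
import Cfsg.Agent.Lib.Helper8.M12

set_option autoImplicit false
open scoped Pointwise
open Cfsg

namespace Cfsg.Agent.S0389

/-- The stabiliser of a dodecad and a point on it is 3-transitive on the complementary dodecad. -/
theorem result (d : Finset Cfsg.GolayPt) (hd : d ∈ Cfsg.dodecads) (p : Cfsg.GolayPt) (hp : p ∈ d) (x y : Fin 3 ↪ Cfsg.GolayPt) (hx : ∀ i, x i ∉ d) (hy : ∀ i, y i ∉ d) : ∃ g ∈ MulAction.stabilizer Cfsg.M24 d ⊓ MulAction.stabilizer Cfsg.M24 p, ∀ i, (g : Equiv.Perm Cfsg.GolayPt) (x i) = y i := by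
  open Cfsg.Agent.Lib.Helper8 in
  obtain ⟨w, hw, hwd, wp⟩ := normD1 hd hp
  have hmem : ∀ k : Cfsg.M24, k ∈ (MulAction.stabilizer Cfsg.M24 d ⊓ MulAction.stabilizer Cfsg.M24 p) ↔
      w * (k : Equiv.Perm Cfsg.GolayPt) * w⁻¹ ∈ GInv [2 ^ 0, 340831] := by
    intro k
    rw [mem_GInv_conj hw]
    simp only [List.mem_cons, List.not_mem_nil, or_false, forall_eq_or_imp, forall_eq,
      inv_conj_iff hwd, inv_conj_pt_iff (show 0 < 24 by norm_num) wp,
      Subgroup.mem_inf, MulAction.mem_stabilizer_iff, k.2, true_and]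
    exact and_comm
  have nm : ∀ z, z ∉ d → w z ∉ setOf 340831 := fun z hz => by
    rw [← hwd, apply_mem_smul_iff]; exact hz
  have inj : ∀ (u : Fin 3 ↪ Cfsg.GolayPt) i j, i ≠ j → w (u i) ≠ w (u j) := fun u i j hij h =>
    hij (u.injective (w.injective h))
  obtain ⟨a, ha, a0, a1, a2⟩ := moveO3 (nm _ (hx 0)) (nm _ (hx 1)) (nm _ (hx 2))
    (inj x 0 1 (by decide)) (inj x 0 2 (by decide)) (inj x 1 2 (by decide))
  obtain ⟨b, hb, b0, b1, b2⟩ := moveO3 (nm _ (hy 0)) (nm _ (hy 1)) (nm _ (hy 2))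
    (inj y 0 1 (by decide)) (inj y 0 2 (by decide)) (inj y 1 2 (by decide))
  have hh : b⁻¹ * a ∈ GInv [2 ^ 0, 340831] := Subgroup.mul_mem _ (Subgroup.inv_mem _ hb) ha
  refine ⟨⟨w⁻¹ * (b⁻¹ * a) * w, conj_mem hw hh.1⟩, ?_, ?_⟩
  · rw [hmem]
    have : w * (w⁻¹ * (b⁻¹ * a) * w) * w⁻¹ = b⁻¹ * a := by group
    show w * (w⁻¹ * (b⁻¹ * a) * w) * w⁻¹ ∈ _
    rw [this]; exact hh
  · intro i
    apply conj_apply
    rw [Equiv.Perm.mul_apply, Equiv.Perm.inv_eq_iff_eq]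
    fin_cases i
    · exact a0.trans b0.symm
    · exact a1.trans b1.symm
    · exact a2.trans b2.symm

end Cfsg.Agent.S0389
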