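import Cfsg.Statements.S0395
import Cfsg.Agent.Lib.Helper8.Leech4

set_option autoImplicit false
open scoped Pointwise
open Cfsg

namespace Cfsg.Agent.S0395

/-- Exactly 16773120 lattice vectors have sum of squares 48. -/
theorem result : {x : Cfsg.GolayPt → ℤ | x ∈ Cfsg.leechLattice ∧ Cfsg.sqNorm x = 48}.ncard = 16773120 := by
  have h := Cfsg.Agent.Lib.Helper8.ncard_norm 48 (by norm_num)
  rw [Cfsg.Agent.Lib.Helper8.cnt48] at h
  exact_mod_cast h

end Cfsg.Agent.S0395
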