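import Cfsg.Statements.S0419
import Cfsg.Agent.Lib.Helper8.SharpSimple

set_option autoImplicit false
open scoped Pointwise
open Cfsg

namespace Cfsg.Agent.S0419

/-- A sharply 5-transitive group of degree 12 is simple of order 95040. -/
theorem result {α : Type*} [Fintype α] [DecidableEq α] (hα : Fintype.card α = 12) (G : Subgroup (Equiv.Perm α)) [MulAction.IsMultiplyPretransitive G α 5] (hsharp : ∀ x : Fin 5 ↪ α, MulAction.stabilizer G x = ⊥) : Cfsg.IsM12 G := by
  open Cfsg.Agent.Lib.Helper8 in
  have hc : Nat.card G = 95040 := by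
    rw [card_of_sharp G 5 (by rw [hα]; norm_num) hsharp, hα]; rfl
  open Cfsg.Agent.Lib.Helper8 in
  refine ⟨simple_of_perm G hc (by rw [hα]) (by norm_num) (by norm_num) ?_ (by norm_num)
    (by norm_num), hc⟩
  intro m s hm hn hs
  have hm22 : m ≤ 10 := Nat.le_of_dvd (by norm_num) hm
  interval_cases m <;> first | rfl | (exfalso; omega)

end Cfsg.Agent.S0419
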