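import Cfsg.Statements.S0427
import Cfsg.Agent.Lib.Helper8.Steiner4

set_option autoImplicit false
open scoped Pointwise
open Cfsg

namespace Cfsg.Agent.S0427

/-- The block graph (adjacent = disjoint) of an S(3, 6, 22) is strongly regular with parameters (77, 16, 0, 4). -/
theorem result {α : Type*} [Fintype α] (hα : Fintype.card α = 22) {B : Set (Finset α)} (hB : Cfsg.IsSteinerSystem 3 6 B) [Fintype B] [DecidableRel (Cfsg.blockGraph B).Adj] : (Cfsg.blockGraph B).IsSRGWith 77 16 0 4 := by
  classical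
  open Cfsg.Agent.Lib.Helper8.St in
  have hne : ∀ b ∈ B, ¬ Disjoint b b := by
    intro b hb h
    rw [disjoint_self] at h
    have h6 := hB.1 b hb
    rw [h] at h6
    simp at h6
  have hadj : ∀ v w : B, (blockGraph B).Adj v w ↔ Disjoint (v : Finset α) (w : Finset α) := by
    intro v w
    rw [blockGraph, SimpleGraph.fromRel_adj]
    constructor
    · rintro ⟨_, h | h⟩
      · exact h
      · exact h.symm
    · intro h
      refine ⟨fun e => hne v v.2 ?_, Or.inl h⟩
      rw [← e] at h
      exact h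
  have glue : ∀ (S : Set B) [Fintype S], Fintype.card S = (Subtype.val '' S).ncard := by
    intro S _
    rw [Set.ncard_image_of_injective _ Subtype.val_injective, ← Nat.card_coe_set_eq,
      Nat.card_eq_fintype_card]
  have hcn : ∀ v w : B, Subtype.val '' ((blockGraph B).commonNeighbors v w) =
      {e : Finset α | e ∈ B ∧ Disjoint (v : Finset α) e ∧ Disjoint (w : Finset α) e} := by
    intro v w
    ext c
    simp only [Set.mem_image, SimpleGraph.mem_commonNeighbors, hadj, Set.mem_ofPred_eq]
    constructor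
    · rintro ⟨u, hu, rfl⟩; exact ⟨u.2, hu⟩
    · rintro ⟨h1, h2⟩; exact ⟨⟨c, h1⟩, h2, rfl⟩
  refine ⟨?_, ?_, ?_, ?_⟩
  · rw [← Nat.card_eq_fintype_card, Nat.card_coe_set_eq]; exact s22_card hα hB
  · intro v
    rw [← SimpleGraph.card_neighborSet_eq_degree, glue, ← s22_deg hα hB v.2]
    congr 1
    ext c
    simp only [Set.mem_image, SimpleGraph.mem_neighborSet, hadj, Set.mem_ofPred_eq]
    constructor
    · rintro ⟨w, hw, rfl⟩; exact ⟨w.2, hw⟩
    · rintro ⟨h1, h2⟩; exact ⟨⟨c, h1⟩, h2, rfl⟩
  · intro v w hvw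
    rw [glue, hcn]
    have hd := (hadj v w).mp hvw
    exact (s22_common hα hB v.2 w.2 (fun e => hne v v.2 (by rw [← e] at hd; exact hd))).1 hd
  · intro v w hvw hnadj
    rw [glue, hcn]
    exact (s22_common hα hB v.2 w.2 (fun e => hvw (Subtype.ext e))).2
      (fun hd => hnadj ((hadj v w).mpr hd))

end Cfsg.Agent.S0427
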