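import Cfsg.Statements.S0428
import Cfsg.Agent.Lib.Helper8.Steiner5

set_option autoImplicit false
open scoped Pointwise
open Cfsg

namespace Cfsg.Agent.S0428

/-- The point-block graph of an S(3, 6, 22) is strongly regular with parameters (100, 22, 0, 6). -/
theorem result {α : Type*} [Fintype α] (hα : Fintype.card α = 22) {B : Set (Finset α)} (hB : Cfsg.IsSteinerSystem 3 6 B) [Fintype B] [DecidableRel (Cfsg.pointBlockGraph B).Adj] : (Cfsg.pointBlockGraph B).IsSRGWith 100 22 0 6 := by
  classical
  open Cfsg.Agent.Lib.Helper8.St in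
  have hne : ∀ b ∈ B, ¬ Disjoint b b := by
    intro b hb h
    rw [disjoint_self] at h
    have h6 := hB.1 b hb
    rw [h] at h6
    simp at h6
  have B1 : ∀ a, (pointBlockGraph B).Adj none (some (Sum.inl a)) ↔ True := by
    intro a; simp [pointBlockGraph, SimpleGraph.fromRel_adj, pointBlockRel]
  have B2 : ∀ b, (pointBlockGraph B).Adj none (some (Sum.inr b)) ↔ False := by
    intro b; simp [pointBlockGraph, SimpleGraph.fromRel_adj, pointBlockRel]
  have B3 : (pointBlockGraph B).Adj none none ↔ False := by simp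
  have B4 : ∀ a, (pointBlockGraph B).Adj (some (Sum.inl a)) none ↔ True := by
    intro a; rw [(pointBlockGraph B).adj_comm]; exact B1 a
  have B5 : ∀ a a', (pointBlockGraph B).Adj (some (Sum.inl a)) (some (Sum.inl a')) ↔ False := by
    intro a a'; simp [pointBlockGraph, SimpleGraph.fromRel_adj, pointBlockRel]
  have B6 : ∀ a (b : B), (pointBlockGraph B).Adj (some (Sum.inl a)) (some (Sum.inr b)) ↔ a ∈ b.1 := by
    intro a b; simp [pointBlockGraph, SimpleGraph.fromRel_adj, pointBlockRel]
  have B7 : ∀ b, (pointBlockGraph B).Adj (some (Sum.inr b)) none ↔ False := by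
    intro b; rw [(pointBlockGraph B).adj_comm]; exact B2 b
  have B8 : ∀ (b : B) a, (pointBlockGraph B).Adj (some (Sum.inr b)) (some (Sum.inl a)) ↔ a ∈ b.1 := by
    intro b a; rw [(pointBlockGraph B).adj_comm]; exact B6 a b
  have B9 : ∀ b c : B, (pointBlockGraph B).Adj (some (Sum.inr b)) (some (Sum.inr c)) ↔ Disjoint b.1 c.1 := by
    intro b c
    rw [pointBlockGraph, SimpleGraph.fromRel_adj]
    simp only [pointBlockRel]
    constructor
    · rintro ⟨_, h | h⟩
      · exact h
      · exact h.symm
    · intro h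
      refine ⟨fun e => hne b b.2 ?_, Or.inl h⟩
      have e' : b = c := by simpa using e
      rw [← e'] at h
      exact h
  have glue : ∀ (S : Set (Option (α ⊕ B))) [Fintype S], Fintype.card S = S.ncard := by
    intro S _
    rw [← Nat.card_coe_set_eq, Nat.card_eq_fintype_card]
  have hT : {_a : α | True}.ncard = 22 := by
    have : {_a : α | True} = Set.univ := by ext; simp
    rw [this, Set.ncard_univ, Nat.card_eq_fintype_card, hα]
  have hcardB : Fintype.card B = 77 := by
    rw [← Nat.card_eq_fintype_card, Nat.card_coe_set_eq]; exact s22_card hα hB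
  have hcn : ∀ v w, (pointBlockGraph B).commonNeighbors v w = {u | (pointBlockGraph B).Adj v u ∧ (pointBlockGraph B).Adj w u} := by
    intro v w; ext u; simp [SimpleGraph.mem_commonNeighbors]
  have hsymm : ∀ v w, {u | (pointBlockGraph B).Adj v u ∧ (pointBlockGraph B).Adj w u} = {u | (pointBlockGraph B).Adj w u ∧ (pointBlockGraph B).Adj v u} := by
    intro v w; ext u; exact and_comm
  have c_na : ∀ a, {u | (pointBlockGraph B).Adj none u ∧ (pointBlockGraph B).Adj (some (Sum.inl a)) u}.ncard = 0 := by
    intro a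
    rw [ncard_split]
    simp only [B1, B2, B3, B4, B5, B6, and_true, true_and, and_false, false_and, ncard_false]
  have c_nb : ∀ b : B, {u | (pointBlockGraph B).Adj none u ∧ (pointBlockGraph B).Adj (some (Sum.inr b)) u}.ncard = 6 := by
    intro b
    rw [ncard_split]
    simp only [B1, B2, B3, B7, B8, B9, and_true, true_and, and_false, false_and, ncard_false,
      ncard_mem, hB.1 b.1 b.2]
  have c_aa : ∀ a a', a ≠ a' →
      {u | (pointBlockGraph B).Adj (some (Sum.inl a)) u ∧ (pointBlockGraph B).Adj (some (Sum.inl a')) u}.ncard = 6 := by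
    intro a a' haa
    rw [ncard_split]
    simp only [B4, B5, B6, and_true, true_and, and_false, false_and, ncard_false, ncard_unit_true]
    rw [ncard_B (fun c => a ∈ c ∧ a' ∈ c), s22_l2 hα hB haa]
  have c_ab : ∀ a (b : B), (a ∈ b.1 →
      {u | (pointBlockGraph B).Adj (some (Sum.inl a)) u ∧ (pointBlockGraph B).Adj (some (Sum.inr b)) u}.ncard = 0) ∧ (a ∉ b.1 →
      {u | (pointBlockGraph B).Adj (some (Sum.inl a)) u ∧ (pointBlockGraph B).Adj (some (Sum.inr b)) u}.ncard = 6) := by
    intro a b
    rw [ncard_split]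
    simp only [B4, B5, B6, B7, B8, B9, and_true, true_and, and_false, false_and, ncard_false]
    rw [ncard_B (fun c => a ∈ c ∧ Disjoint b.1 c)]
    constructor
    · intro hab
      rw [zero_add, zero_add, Set.ncard_eq_zero (Set.toFinite _), Set.eq_empty_iff_forall_notMem]
      rintro c ⟨_, h1, h2⟩
      exact Finset.disjoint_left.mp h2 hab h1
    · intro hab
      rw [s22_pt hα hB b.2 hab]
  have c_bc : ∀ b c : B, b ≠ c → (Disjoint b.1 c.1 →
      {u | (pointBlockGraph B).Adj (some (Sum.inr b)) u ∧ (pointBlockGraph B).Adj (some (Sum.inr c)) u}.ncard = 0) ∧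
      (¬ Disjoint b.1 c.1 →
      {u | (pointBlockGraph B).Adj (some (Sum.inr b)) u ∧ (pointBlockGraph B).Adj (some (Sum.inr c)) u}.ncard = 6) := by
    intro b c hbc
    have hbc' : b.1 ≠ c.1 := fun e => hbc (Subtype.ext e)
    rw [ncard_split]
    simp only [B7, B8, B9, and_true, true_and, and_false, false_and, ncard_false]
    rw [ncard_B (fun e => Disjoint b.1 e ∧ Disjoint c.1 e)]
    have hpts : {a : α | a ∈ b.1 ∧ a ∈ c.1}.ncard = (b.1 ∩ c.1).card := by
      rw [← ncard_mem]
      congr 1
      ext a
      simp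
    rw [hpts]
    constructor
    · intro hd
      rw [(s22_common hα hB b.2 c.2 hbc').1 hd, Finset.disjoint_iff_inter_eq_empty.mp hd]
      simp
    · intro hd
      rw [(s22_common hα hB b.2 c.2 hbc').2 hd]
      have h := inter_pos hB b.2 c.2 (by norm_num)
      rw [hα] at h
      rcases k22 _ (inter_le hB b.2 c.1) h with h' | h' | h'
      · exact absurd (by rw [Finset.disjoint_iff_inter_eq_empty, ← Finset.card_eq_zero]; exact h') hd
      · rw [h']
      · exact absurd (eq_of_inter_card hB b.2 c.2 h') hbc'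
  refine ⟨?_, ?_, ?_, ?_⟩
  · rw [Fintype.card_option, Fintype.card_sum, hα, hcardB]
  · intro v
    rw [← SimpleGraph.card_neighborSet_eq_degree, glue]
    show {u | (pointBlockGraph B).Adj v u}.ncard = 22
    rw [ncard_split]
    rcases v with _ | a | b
    · simp only [B1, B2, B3, ncard_false, hT]
    · simp only [B4, B5, B6, ncard_false, ncard_unit_true]
      rw [ncard_B (fun c => a ∈ c), s22_l1 hα hB a]
    · simp only [B7, B8, B9, ncard_false, ncard_mem, hB.1 b.1 b.2]
      rw [ncard_B (fun c => Disjoint b.1 c), s22_deg hα hB b.2]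
  · intro v w hvw
    rw [glue, hcn]
    rcases v with _ | a | b <;> rcases w with _ | a' | c
    · exact absurd hvw (by rw [B3]; exact id)
    · exact c_na a'
    · exact absurd hvw (by rw [B2]; exact id)
    · rw [hsymm]; exact c_na a
    · exact absurd hvw (by rw [B5]; exact id)
    · exact (c_ab a c).1 ((B6 a c).mp hvw)
    · exact absurd hvw (by rw [B7]; exact id)
    · rw [hsymm]; exact (c_ab a' b).1 ((B8 b a').mp hvw)
    · have hd := (B9 b c).mp hvw
      exact (c_bc b c (fun e => hne b.1 b.2 (by rw [← e] at hd; exact hd))).1 hd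
  · intro v w hvw hnadj
    rw [glue, hcn]
    rcases v with _ | a | b <;> rcases w with _ | a' | c
    · exact absurd rfl hvw
    · exact absurd ((B1 a').mpr trivial) hnadj
    · exact c_nb c
    · exact absurd ((B4 a).mpr trivial) hnadj
    · exact c_aa a a' (fun e => hvw (by rw [e]))
    · exact (c_ab a c).2 (fun h => hnadj ((B6 a c).mpr h))
    · rw [hsymm]; exact c_nb b
    · rw [hsymm]; exact (c_ab a' b).2 (fun h => hnadj ((B8 b a').mpr h))
    · exact (c_bc b c (fun e => hvw (by rw [e]))).2 (fun h => hnadj ((B9 b c).mpr h))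

end Cfsg.Agent.S0428
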