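import Mathlib
import Cfsg.Statements.S0439

set_option autoImplicit false
open Cfsg

namespace Cfsg.Agent.S0439


theorem same_pt {α : Type*} [DecidableEq α] [Fintype α] (a b x : α) (hab : a ≠ b) (hax : a ≠ x) :
    (Equiv.swap a b * Equiv.swap a x) ^ 2 = 1 ∨ (Equiv.swap a b * Equiv.swap a x) ^ 3 = 1 := by
  by_cases hbx : b = x
  · left
    rw [hbx, Equiv.swap_mul_self, one_pow]
  · right
    have h := (Equiv.Perm.isThreeCycle_swap_mul_swap_same hab hax hbx).orderOf
    rw [← h]
    exact pow_orderOf_eq_one _

/-- In the symmetric group of degree n ≥ 2, the set of transpositions is a conjugacy class of 3-transpositions which generates the group. -/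
theorem result (n : ℕ) (hn : 2 ≤ n) : Cfsg.IsThreeTranspositionClass {σ : Equiv.Perm (Fin n) | σ.IsSwap} := by
  refine ⟨⟨?_, ?_⟩, ?_, Equiv.Perm.closure_isSwap⟩
  · rintro d ⟨a, b, hab, rfl⟩
    exact orderOf_eq_prime (by rw [pow_two, Equiv.swap_mul_self]) (by
      intro h
      apply hab
      have := congrArg (fun σ : Equiv.Perm (Fin n) => σ a) h
      simpa using this.symm)
  · rintro d ⟨a, b, hab, rfl⟩ e ⟨c, x, hcx, rfl⟩
    by_cases h1 : c = a
    · subst h1
      exact same_pt c b x hab hcx
    by_cases h2 : c = b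
    · subst h2
      rw [Equiv.swap_comm a c]
      exact same_pt c a x hab.symm hcx
    by_cases h3 : x = a
    · subst h3
      rw [Equiv.swap_comm c x]
      exact same_pt x b c hab hcx.symm
    by_cases h4 : x = b
    · subst h4
      rw [Equiv.swap_comm c x, Equiv.swap_comm a x]
      exact same_pt x a c hab.symm hcx.symm
    · left
      have hd : Equiv.Perm.Disjoint (Equiv.swap a b) (Equiv.swap c x) := by
        intro y
        by_cases hya : y = a
        · right
          rw [hya]
          exact Equiv.swap_apply_of_ne_of_ne (Ne.symm h1) (Ne.symm h3)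
        by_cases hyb : y = b
        · right
          rw [hyb]
          exact Equiv.swap_apply_of_ne_of_ne (Ne.symm h2) (Ne.symm h4)
        · left
          exact Equiv.swap_apply_of_ne_of_ne hya hyb
      rw [hd.commute.mul_pow, pow_two, pow_two, Equiv.swap_mul_self, Equiv.swap_mul_self, one_mul]
  · have h01 : (⟨0, by omega⟩ : Fin n) ≠ ⟨1, by omega⟩ := by
      intro h
      simp [Fin.ext_iff] at h
    refine ⟨Equiv.swap ⟨0, by omega⟩ ⟨1, by omega⟩, ⟨_, _, h01, rfl⟩, ?_⟩
    ext g
    show g.IsSwap ↔ IsConj _ g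
    constructor
    · rintro ⟨a, b, hab, rfl⟩
      exact Equiv.Perm.isConj_swap h01 hab
    · intro h
      rw [isConj_iff] at h
      obtain ⟨c, rfl⟩ := h
      refine ⟨c ⟨0, by omega⟩, c ⟨1, by omega⟩, fun h => h01 (c.injective h), ?_⟩
      rw [Equiv.swap_apply_apply]

end Cfsg.Agent.S0439
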