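import Mathlib
import Cfsg.Statements.S0440
import Cfsg.Agent.Lib.Helper5.SympTrans
import Cfsg.Agent.Lib.Helper5.SympPrim

set_option autoImplicit false
open Cfsg

namespace Cfsg.Agent.S0440


open Matrix Cfsg.Agent.Lib.Helper5.Symp Cfsg.Agent.Lib.Helper5.SympGen
  Cfsg.Agent.Lib.Helper5.SympBridge Cfsg.Agent.Lib.Helper5.SympPerfect
  Cfsg.Agent.Lib.Helper5.SympTrans

theorem zmod2_cases (c : ZMod 2) : c = 0 ∨ c = 1 := by
  revert c
  decide

theorem mem_iff {n : ℕ} (g : Matrix.symplecticGroup (Fin n) (ZMod 2)) :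
    ((g : Matrix (Fin n ⊕ Fin n) (Fin n ⊕ Fin n) (ZMod 2)) - 1).rank = 1 ↔
      ∃ w : Fin n ⊕ Fin n → ZMod 2, w ≠ 0 ∧ g = tv w 1 := by
  constructor
  · intro h
    obtain ⟨a, c, ha, hc, hg⟩ := eq_tv_of_rank g h
    rcases zmod2_cases c with h0 | h1
    · exact absurd h0 hc
    · exact ⟨a, ha, by rw [hg, h1]⟩
  · rintro ⟨w, hw, rfl⟩
    exact rank_tv hw one_ne_zero

theorem tv_sq {n : ℕ} (w : Fin n ⊕ Fin n → ZMod 2) : tv w 1 * tv w 1 = 1 := by
  rw [tv_mul]
  have : (1 : ZMod 2) + 1 = 0 := by decide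
  rw [this, tv_zero_right]

theorem tv_inv' {n : ℕ} (w : Fin n ⊕ Fin n → ZMod 2) : (tv w 1)⁻¹ = tv w 1 :=
  inv_eq_of_mul_eq_one_right (tv_sq w)

/-- In the symplectic group in dimension 2n ≥ 2 over the field with two elements, the elements g for which g - 1 has rank one (the symplectic transvections) form a conjugacy class of 3-transpositions generating the group. -/
theorem result (n : ℕ) (hn : 1 ≤ n) : Cfsg.IsThreeTranspositionClass {g : Matrix.symplecticGroup (Fin n) (ZMod 2) | ((g : Matrix (Fin n ⊕ Fin n) (Fin n ⊕ Fin n) (ZMod 2)) - 1).rank = 1} := by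
  refine ⟨⟨?_, ?_⟩, ?_, ?_⟩
  · intro d hd
    obtain ⟨w, hw, rfl⟩ := (mem_iff d).mp hd
    exact orderOf_eq_prime (by rw [pow_two, tv_sq]) (tv_ne_one hw one_ne_zero)
  · intro d hd e he
    obtain ⟨u, hu, rfl⟩ := (mem_iff d).mp hd
    obtain ⟨v, hv, rfl⟩ := (mem_iff e).mp he
    have h1 := conj_tv (tv u 1) v 1
    have h2 := conj_tv (tv v 1) u 1
    rw [tv_inv', tv_mulVec] at h1 h2
    rcases zmod2_cases (Cfsg.sympForm n (ZMod 2) v u) with h0 | h0
    · left
      rw [h0, mul_zero, zero_smul, add_zero] at h1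
      rw [pow_two]
      calc tv u 1 * tv v 1 * (tv u 1 * tv v 1) = (tv u 1 * tv v 1 * tv u 1) * tv v 1 := by group
        _ = 1 := by rw [h1, tv_sq]
    · right
      have h3 : Cfsg.sympForm n (ZMod 2) u v = 1 := by
        rw [sympForm_swap, h0]; decide
      rw [h0, mul_one, one_smul] at h1
      rw [h3, mul_one, one_smul, add_comm] at h2
      rw [pow_succ, pow_two]
      calc tv u 1 * tv v 1 * (tv u 1 * tv v 1) * (tv u 1 * tv v 1)
          = (tv u 1 * tv v 1 * tv u 1) * (tv v 1 * tv u 1 * tv v 1) := by group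
        _ = 1 := by rw [h1, h2, tv_sq]
  · obtain ⟨w0, hw0⟩ : ∃ w0 : Fin n ⊕ Fin n → ZMod 2, w0 ≠ 0 := by
      refine ⟨Pi.single (Sum.inl ⟨0, hn⟩) 1, ?_⟩
      intro h
      have := congrFun h (Sum.inl ⟨0, hn⟩)
      simp at this
    refine ⟨tv w0 1, (mem_iff _).mpr ⟨w0, hw0, rfl⟩, ?_⟩
    ext g
    show _ ↔ IsConj (tv w0 1) g
    rw [Set.mem_ofPred_eq, mem_iff, isConj_iff]
    constructor
    · rintro ⟨w, hw, rfl⟩
      obtain ⟨A, hA⟩ := exists_sp_vec w0 w hw0 hw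
      exact ⟨A, by rw [conj_tv, hA]⟩
    · rintro ⟨A, rfl⟩
      exact ⟨_, Cfsg.Agent.Lib.Helper5.SympPrim.mulVec_ne_zero A hw0, conj_tv A w0 1⟩
  · rw [eq_top_iff, ← closure_eq_top, Subgroup.closure_le]
    rintro A ⟨w, c, hA⟩
    have hA' : A = tv w c := Subtype.ext hA
    by_cases hw : w = 0
    · rw [hA', hw, tv_zero_left]
      exact Subgroup.one_mem _
    rcases zmod2_cases c with h0 | h0
    · rw [hA', h0, tv_zero_right]
      exact Subgroup.one_mem _
    · apply Subgroup.subset_closure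
      exact (mem_iff A).mpr ⟨w, hw, by rw [hA', h0]⟩

end Cfsg.Agent.S0440
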