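import Mathlib
import Cfsg.Statements.S0442

set_option autoImplicit false
open Cfsg

namespace Cfsg.Agent.S0442

theorem inv_conj {G : Type*} [Group G] {a c : G} (ha : a * a = 1) (hc : c * c = 1) (m : ℕ) :
    a * (a * c) ^ m * a = ((a * c) ^ m)⁻¹ := by
  have hai : a⁻¹ = a := inv_eq_of_mul_eq_one_left ha
  have hci : c⁻¹ = c := inv_eq_of_mul_eq_one_left hc
  have h1 : a * (a * c) ^ m * a⁻¹ = (a * (a * c) * a⁻¹) ^ m := (conj_pow).symm
  rw [hai] at h1
  rw [h1, ← inv_pow]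
  congr 1
  rw [mul_inv_rev, hai, hci, ← mul_assoc, ha, one_mul]

theorem comm_of_even {G : Type*} [Group G] {a c : G} (ha : a * a = 1) (hc : c * c = 1) (m : ℕ)
    (h : (a * c) ^ (2 * m) = 1) : Commute ((a * c) ^ m) a := by
  have h1 := inv_conj ha hc m
  have h2 : ((a * c) ^ m)⁻¹ = (a * c) ^ m := by
    apply inv_eq_of_mul_eq_one_left
    rw [← pow_add, ← two_mul]; exact h
  rw [h2] at h1
  have h3 : a * (a * (a * c) ^ m * a) = a * (a * c) ^ m := by rw [h1]
  have h4 : a * (a * (a * c) ^ m * a) = (a * a) * ((a * c) ^ m * a) := by simp only [mul_assoc]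
  rw [h4, ha, one_mul] at h3
  exact h3

theorem result {G : Type*} [Group G] (a g : G) (ha : orderOf a = 2) : (∀ m : ℕ, orderOf (a * (g⁻¹ * a * g)) = 2 * m + 1 → Commute (g * (a * (g⁻¹ * a * g)) ^ m) a) ∧ (∀ m : ℕ, orderOf (a * (g⁻¹ * a * g)) = 2 * m → Commute ((a * (g⁻¹ * a * g)) ^ m) a ∧ Commute ((a * (g * a * g⁻¹)) ^ m) a) := by
  have ha2 : a * a = 1 := by
    have := pow_orderOf_eq_one a
    rw [ha, pow_two] at this
    exact this
  have hai : a⁻¹ = a := inv_eq_of_mul_eq_one_left ha2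
  have hb2 : (g⁻¹ * a * g) * (g⁻¹ * a * g) = 1 := by
    have : (g⁻¹ * a * g) * (g⁻¹ * a * g) = g⁻¹ * (a * a) * g := by group
    rw [this, ha2]; group
  have hc2 : (g * a * g⁻¹) * (g * a * g⁻¹) = 1 := by
    have : (g * a * g⁻¹) * (g * a * g⁻¹) = g * (a * a) * g⁻¹ := by group
    rw [this, ha2]; group
  constructor
  · intro m hm
    set b := g⁻¹ * a * g with hb
    set r := a * b with hr
    have hr1 : r ^ (2 * m + 1) = 1 := by rw [← hm]; exact pow_orderOf_eq_one r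
    have h1 : a * r ^ m * a = (r ^ m)⁻¹ := inv_conj ha2 hb2 m
    -- r^m * a * (r^m)⁻¹ = b
    have h2 : r ^ m * a * (r ^ m)⁻¹ = b := by
      rw [← h1]
      have e1 : r ^ m * a * (a * r ^ m * a) = r ^ m * (a * a) * r ^ m * a := by simp only [mul_assoc]
      rw [e1, ha2, mul_one, ← pow_add, ← two_mul]
      have e2 : r ^ (2 * m) * r = 1 := by rw [← pow_succ]; exact hr1
      have e3 : r ^ (2 * m) = r⁻¹ := eq_inv_of_mul_eq_one_left e2
      rw [e3, hr, mul_inv_rev, hai, mul_assoc, ha2, mul_one]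
      exact inv_eq_of_mul_eq_one_left hb2
    have h3 : r ^ m * a = b * r ^ m := by
      rw [← h2]; group
    show g * r ^ m * a = a * (g * r ^ m)
    rw [mul_assoc, h3, hb]; group
  · intro m hm
    refine ⟨comm_of_even ha2 hb2 m (by rw [← hm]; exact pow_orderOf_eq_one _), comm_of_even ha2 hc2 m ?_⟩
    have h1 : (a * (g⁻¹ * a * g)) ^ (2 * m) = 1 := by rw [← hm]; exact pow_orderOf_eq_one _
    have h2 : (a * (g * a * g⁻¹))⁻¹ = g * (a * (g⁻¹ * a * g)) * g⁻¹ := by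
      rw [mul_inv_rev, mul_inv_rev, mul_inv_rev, hai]; group
    have h3 : ((a * (g * a * g⁻¹))⁻¹) ^ (2 * m) = 1 := by
      rw [h2, conj_pow, h1]; group
    rw [inv_pow, inv_eq_one] at h3
    exact h3

end Cfsg.Agent.S0442
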