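import Cfsg.Statements.S0443

set_option autoImplicit false
open Cfsg

namespace Cfsg.Agent.S0443

theorem result {G : Type*} [Group G] [Finite G] (t : G) (ht : orderOf t = 2) : Cfsg.IsTwoCentralInvolution t ↔ ∃ P : Sylow 2 G, (P : Subgroup G) ≤ Subgroup.centralizer ({t} : Set G) := by
  have : Fact (Nat.Prime 2) := ⟨Nat.prime_two⟩
  constructor
  · rintro ⟨_, P, htP, hP⟩
    refine ⟨P, fun x hx => ?_⟩
    rw [Subgroup.mem_centralizer_singleton_iff]
    exact hP x hx
  · rintro ⟨P, hP⟩
    have hcomm : ∀ x ∈ P, x * t = t * x := fun x hx => by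
      have := hP hx
      rwa [Subgroup.mem_centralizer_singleton_iff] at this
    refine ⟨ht, P, ?_, hcomm⟩
    have hz : IsPGroup 2 (Subgroup.zpowers t) := by
      rw [IsPGroup.iff_card]
      exact ⟨1, by rw [Nat.card_zpowers, ht, pow_one]⟩
    have hn : Subgroup.zpowers t ≤ Subgroup.normalizer ((P : Subgroup G) : Set G) := by
      rw [Subgroup.zpowers_le, Subgroup.mem_normalizer_iff]
      intro h
      constructor
      · intro hh
        have := hcomm h hh
        rw [← this, mul_assoc, mul_inv_cancel, mul_one]; exact hh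
      · intro hh
        have h1 := hcomm _ hh
        have h2 : t * h * t⁻¹ * t = t * h := by group
        rw [h2] at h1
        have h3 : h = t * h * t⁻¹ := mul_left_cancel h1
        rw [h3]; exact hh
    have hsup : IsPGroup 2 (Subgroup.zpowers t ⊔ (P : Subgroup G) : Subgroup G) :=
      hz.to_sup_of_normal_right' P.isPGroup' hn
    have heq := P.is_maximal' hsup le_sup_right
    have : t ∈ (Subgroup.zpowers t ⊔ (P : Subgroup G) : Subgroup G) :=
      Subgroup.mem_sup_left (Subgroup.mem_zpowers t)
    rw [heq] at this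
    exact this

end Cfsg.Agent.S0443
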