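import Cfsg.Statements.S0444
import Mathlib
import Cfsg.Agent.Lib.Helper3.Invol

set_option autoImplicit false
open Cfsg

namespace Cfsg.Agent.S0444

/-- Two members of a set of 3-transpositions which do not commute generate a subgroup isomorphic to the symmetric group on three letters. -/
theorem result {G : Type*} [Group G] {E : Set G} (hE : Cfsg.IsThreeTranspositionSet E) {d e : G} (hd : d ∈ E) (he : e ∈ E) (h : ¬ Commute d e) : Nonempty (Subgroup.closure ({d, e} : Set G) ≃* Equiv.Perm (Fin 3)) := by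
  classical
  haveI : Fact (Nat.Prime 2) := ⟨Nat.prime_two⟩
  haveI : Fact (Nat.Prime 3) := ⟨Nat.prime_three⟩
  have hdo := hE.1 d hd
  have heo := hE.1 e he
  have hd2 : d * d = 1 := by
    have := pow_orderOf_eq_one d
    rwa [hdo, pow_two] at this
  have he2 : e * e = 1 := by
    have := pow_orderOf_eq_one e
    rwa [heo, pow_two] at this
  have hdinv : d⁻¹ = d := inv_eq_of_mul_eq_one_left hd2
  have heinv : e⁻¹ = e := inv_eq_of_mul_eq_one_left he2
  have hde3 : orderOf (d * e) = 3 := by
    rcases hE.2 d hd e he with h2 | h3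
    · exfalso
      apply h
      rw [pow_two] at h2
      have h4 : d * e = (d * e)⁻¹ := eq_inv_of_mul_eq_one_left h2
      rw [mul_inv_rev, hdinv, heinv] at h4
      exact h4
    · apply orderOf_eq_prime h3
      intro h1
      apply h
      have h4 : d = e⁻¹ := eq_inv_of_mul_eq_one_left h1
      rw [heinv] at h4
      rw [h4]
  have e1 := Cfsg.Agent.Lib.Helper3.Invol.dihedral_equiv hdo heo
  rw [hde3] at e1
  obtain ⟨e1⟩ := e1
  have hx : orderOf (Equiv.swap (0 : Fin 3) 1) = 2 := orderOf_eq_prime (by decide) (by decide)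
  have hy : orderOf (Equiv.swap (1 : Fin 3) 2) = 2 := orderOf_eq_prime (by decide) (by decide)
  have hxy : orderOf (Equiv.swap (0 : Fin 3) 1 * Equiv.swap (1 : Fin 3) 2) = 3 :=
    orderOf_eq_prime (by decide) (by decide)
  have e2 := Cfsg.Agent.Lib.Helper3.Invol.dihedral_equiv hx hy
  rw [hxy] at e2
  obtain ⟨e2⟩ := e2
  have htop : Subgroup.closure ({Equiv.swap (0 : Fin 3) 1, Equiv.swap (1 : Fin 3) 2} :
      Set (Equiv.Perm (Fin 3))) = ⊤ := by
    apply Subgroup.eq_top_of_card_eq
    rw [Nat.card_congr e2.toEquiv, DihedralGroup.nat_card, Nat.card_perm]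
    simp [Nat.factorial]
  exact ⟨e1.trans (e2.symm.trans ((MulEquiv.subgroupCongr htop).trans Subgroup.topEquiv))⟩

end Cfsg.Agent.S0444
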