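import Cfsg.Statements.S0445
import Cfsg.Agent.Lib.Helper4.GLTv2

set_option autoImplicit false
open Cfsg

namespace Cfsg.Agent.S0445



/-- In the special linear group of dimension 5 over the field with two elements, the centraliser of a transvection has order 21504 = 2 ^ 7 · 168 (it is an extension of an extraspecial group of order 2 ^ 7 by the simple group of order 168). -/
theorem result (s : Matrix.SpecialLinearGroup (Fin 5) (ZMod 2)) (hs : (s : Matrix (Fin 5) (Fin 5) (ZMod 2)) = Matrix.transvection 0 1 1) : Nat.card (Subgroup.centralizer ({s} : Set (Matrix.SpecialLinearGroup (Fin 5) (ZMod 2)))) = 21504 := by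
  classical
  have hsurj : Function.Surjective (Matrix.SpecialLinearGroup.toGL :
      Matrix.SpecialLinearGroup (Fin 5) (ZMod 2) →* GL (Fin 5) (ZMod 2)) := by
    intro g
    have hdet : g.1.det = 1 := by
      have h0 : g.1.det ≠ 0 := ((Matrix.isUnit_iff_isUnit_det _).1 g.isUnit).ne_zero
      generalize g.1.det = d at h0
      revert h0
      revert d
      decide
    refine ⟨⟨g.1, hdet⟩, ?_⟩
    apply Units.ext
    exact Matrix.SpecialLinearGroup.coe_GL_coe_matrix (⟨g.1, hdet⟩ : Matrix.SpecialLinearGroup (Fin 5) (ZMod 2))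
  have hinj : Function.Injective (Matrix.SpecialLinearGroup.toGL :
      Matrix.SpecialLinearGroup (Fin 5) (ZMod 2) →* GL (Fin 5) (ZMod 2)) := by
    intro a b h
    apply Subtype.ext
    exact congrArg (fun g : GL (Fin 5) (ZMod 2) => g.1) h
  let e : Matrix.SpecialLinearGroup (Fin 5) (ZMod 2) ≃ GL (Fin 5) (ZMod 2) := Equiv.ofBijective _ ⟨hinj, hsurj⟩
  have h1 : Nat.card (Subgroup.centralizer ({s} : Set (Matrix.SpecialLinearGroup (Fin 5) (ZMod 2)))) =
      Nat.card (Subgroup.centralizer ({Matrix.SpecialLinearGroup.toGL s} : Set (GL (Fin 5) (ZMod 2)))) := by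
    apply Nat.card_congr
    apply Equiv.subtypeEquiv e
    intro g
    change g ∈ Subgroup.centralizer _ ↔ Matrix.SpecialLinearGroup.toGL g ∈ Subgroup.centralizer _
    rw [Subgroup.mem_centralizer_singleton_iff, Subgroup.mem_centralizer_singleton_iff, ← map_mul, ← map_mul]
    exact ⟨fun h => by rw [h], fun h => hinj h⟩
  have ht : Cfsg.IsTransvection (Matrix.SpecialLinearGroup.toGL s).1 := by
    change Cfsg.IsTransvection s.1
    have h2 : s.1 = 1 + Matrix.vecMulVec (Pi.single 0 1 : Fin 5 → ZMod 2) (Pi.single 1 1) := by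
      rw [hs, Matrix.transvection]
      congr 1
      decide
    rw [h2]
    apply Cfsg.Agent.Lib.Helper4.GLTv.isTv_of_pair (x := ((Pi.single 0 1 : Fin 5 → ZMod 2), (Pi.single 1 1 : Fin 5 → ZMod 2)))
    refine ⟨?_, ?_, ?_⟩
    · decide
    · decide
    · decide
  rw [h1, Cfsg.Agent.Lib.Helper4.GLTv.card_centralizer (by norm_num) _ ht, ZMod.card]
  simp [Fin.prod_univ_succ]
end Cfsg.Agent.S0445
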