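import Cfsg.Statements.S0499
import Cfsg.Agent.Lib.Helper3.Small2
open Cfsg.Agent.Lib.Helper3

set_option autoImplicit false
open Cfsg

namespace Cfsg.Agent.S0499

/-- A non-abelian finite simple group of even order has order divisible by 12, 16 or 56. -/
theorem result {G : Type*} [Group G] [Finite G] [IsSimpleGroup G]
    (hG : ¬ IsMulCommutative G) (h2 : Even (Nat.card G)) :
    12 ∣ Nat.card G ∨ 16 ∣ Nat.card G ∨ 56 ∣ Nat.card G := by
  by_contra hcon
  push Not at hcon
  obtain ⟨h12, h16, h56⟩ := hcon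
  have hF : Cfsg.Agent.Lib.Helper1.FrobHyp 2 G := by
    intro Q hQ g hg hcop
    obtain ⟨k, hk⟩ := hQ.exists_card_eq
    have hd : 2 ^ k ∣ Nat.card G := hk ▸ Subgroup.card_subgroup_dvd_card Q
    have hog : orderOf g ∣ Nat.card G := orderOf_dvd_natCard g
    have hk3 : k ≤ 3 := by
      by_contra h
      exact h16 ((pow_dvd_pow 2 (show 4 ≤ k by omega)).trans hd)
    refine Small2.odd_centralizes Q k hk3 hk hg hcop ?_ ?_
    · intro h2k h3
      apply h12
      have h4 : 4 ∣ Nat.card G := (pow_dvd_pow 2 h2k).trans hd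
      exact Nat.Coprime.mul_dvd_of_dvd_of_dvd (by norm_num : Nat.Coprime 3 4) (h3.trans hog) h4
    · intro h3k h7
      apply h56
      have h8 : 8 ∣ Nat.card G := by
        rw [h3k] at hd
        exact hd
      exact Nat.Coprime.mul_dvd_of_dvd_of_dvd (by norm_num : Nat.Coprime 7 8) (h7.trans hog) h8
  obtain ⟨P, N, hN, hc⟩ := Cfsg.Agent.Lib.Helper1.pn_iff_frobHyp.2 hF
  rcases hN.eq_bot_or_eq_top with rfl | rfl
  · have hP : (P : Subgroup G) = ⊤ := Subgroup.isComplement'_bot_left.1 hc
    have hG2 : IsPGroup 2 G := by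
      have := P.2
      rw [hP] at this
      exact this.of_equiv Subgroup.topEquiv
    haveI := hG2.center_nontrivial
    rcases (inferInstance : (Subgroup.center G).Normal).eq_bot_or_eq_top with h | h
    · exact (Subgroup.nontrivial_iff_ne_bot _).1 inferInstance h
    · apply hG
      refine ⟨⟨fun a b => ?_⟩⟩
      have hb : b ∈ Subgroup.center G := by rw [h]; trivial
      exact (Subgroup.mem_center_iff.1 hb) a
  · have hP : (P : Subgroup G) = ⊥ := Subgroup.isComplement'_top_left.1 hc
    exact P.ne_bot_of_dvd_card h2.two_dvd hP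

end Cfsg.Agent.S0499
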