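import Cfsg.Statements.S0505
import Cfsg.Agent.Lib.Helper1.FittingSolv
import Cfsg.Agent.Lib.Helper6.CharP

set_option autoImplicit false
open Cfsg

namespace Cfsg.Agent.S0505

open Cfsg.Agent.Lib.Helper1 Cfsg.Agent.Lib.Helper6.CharP

/-- Let G be a finite group of even order in which the centralizer of every involution is solvable and has trivial
core (no nontrivial normal subgroup of odd order). Then G is of characteristic 2 type. -/
theorem result {G : Type*} [Group G] [Finite G]
    (h2 : Even (Nat.card G))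
    (hs : ∀ t : G, orderOf t = 2 → Group.IsSolvable (Subgroup.centralizer ({t} : Set G)))
    (hc : ∀ t : G, orderOf t = 2 → Cfsg.oddCore (Subgroup.centralizer ({t} : Set G)) = ⊥) :
    Cfsg.IsCharacteristicTwoType G := by
  have h2f : Fact (Nat.Prime 2) := ⟨Nat.prime_two⟩
  refine ⟨h2, ?_⟩
  intro T hT hT1
  unfold Cfsg.IsOfCharacteristicTwo
  rw [chP_bridge]
  have h1 := inf_Cz_ne_bot (T := T) (R := T) hT.isNilpotent le_rfl Subgroup.le_normalizer hT1
  obtain ⟨z, hz, hzo⟩ := exists_orderOf_eq_prime (p := 2) (hT.to_le inf_le_left) h1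
  apply ChP.of_central hT hz.1 hz.2
  rw [← chP_bridge]
  have := hs z hzo
  have h3 := fitting_eq_pCore_of_pPrimeCore_eq_bot (G := Subgroup.centralizer ({z} : Set G)) 2 (hc z hzo)
  rw [← h3]
  exact centralizer_fitting_le

end Cfsg.Agent.S0505
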