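import Mathlib
import Cfsg.Statements.S0524
import Cfsg.Agent.Lib.Helper2.Supersolvable

set_option autoImplicit false
open Cfsg

namespace Cfsg.Agent.S0524

open Cfsg.Agent.Lib.Helper2.Supersolvable

theorem result {G : Type*} [Group G] [Finite G] (hG : Cfsg.IsSupersolvable G) (H N : Subgroup G) [N.Normal] : Cfsg.IsSupersolvable H ∧ Cfsg.IsSupersolvable (G ⧸ N) := by
  exact ⟨isSupersolvable_subgroup hG H, isSupersolvable_of_surjective (QuotientGroup.mk'_surjective N) hG⟩

end Cfsg.Agent.S0524
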