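import Mathlib
import Cfsg.Statements.S0528
import Cfsg.Agent.Lib.Helper2.Supersolvable

set_option autoImplicit false
open Cfsg

namespace Cfsg.Agent.S0528

open Cfsg.Agent.Lib.Helper2.Supersolvable

theorem result {G : Type*} [Group G] [Finite G] (N : Subgroup G) [N.Normal] [IsCyclic N] (h : Cfsg.IsSupersolvable (G ⧸ N)) : Cfsg.IsSupersolvable G := by
  exact isSupersolvable_of_quotient_cyclic N h

end Cfsg.Agent.S0528
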