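import Mathlib
import Cfsg.Statements.S0530
import Cfsg.Agent.Lib.Helper2.Supersolvable2

set_option autoImplicit false
open Cfsg

namespace Cfsg.Agent.S0530

open Cfsg.Agent.Lib.Helper2.Supersolvable

universe u

theorem isSupersolvable_of_isCyclic {G : Type*} [Group G] [IsCyclic G] : Cfsg.IsSupersolvable G := by
  obtain ⟨g, hg⟩ := IsCyclic.exists_generator (α := G)
  have e : Subgroup.zpowers g = ⊤ := eq_top_iff.mpr fun x _ => hg x
  rw [isSupersolvable_iff, ← e]
  exact reach_zpowers g (e ▸ inferInstance)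

theorem zpowers_normal_of_conj {G : Type*} [Group G] (c : G)
    (h : ∀ g : G, g * c * g⁻¹ = c ∨ g * c * g⁻¹ = c⁻¹) : (Subgroup.zpowers c).Normal := by
  constructor
  intro y hy g
  obtain ⟨k, rfl⟩ := Subgroup.mem_zpowers_iff.mp hy
  rw [← conj_zpow]
  rcases h g with h1 | h1
  · rw [h1]; exact Subgroup.zpow_mem_zpowers c k
  · rw [h1]; exact zpow_mem (inv_mem (Subgroup.mem_zpowers c)) k

theorem exists_elt {G : Type*} [Group G] [Finite G] {p : ℕ} [Fact p.Prime] (P : Subgroup G)
    (hPn : P.Normal) (hP : IsPGroup p P) (hi : P.index ≤ 2) (hne : P ≠ ⊥) :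
    ∃ c ∈ P, c ≠ 1 ∧ ∀ g : G, g * c * g⁻¹ = c ∨ g * c * g⁻¹ = c⁻¹ := by
  haveI : Nontrivial P := (Subgroup.nontrivial_iff_ne_bot P).mpr hne
  have hc := hP.center_nontrivial
  obtain ⟨⟨z', hz'c⟩, hz'1⟩ := exists_ne (1 : Subgroup.center P)
  have hz1 : (z' : G) ≠ 1 := by
    intro h
    apply hz'1
    apply Subtype.ext
    apply Subtype.ext
    exact h
  have hzc : ∀ x ∈ P, x * (z' : G) = z' * x := by
    intro x hx
    have := Subgroup.mem_center_iff.mp hz'c ⟨x, hx⟩
    exact congrArg Subtype.val this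
  set z : G := (z' : G) with hz
  have hzP : z ∈ P := z'.2
  by_cases htop : P = ⊤
  · refine ⟨z, hzP, hz1, fun g => Or.inl ?_⟩
    rw [hzc g (htop ▸ Subgroup.mem_top g)]; group
  have hi2 : P.index = 2 := by
    have h0 : P.index ≠ 0 := Subgroup.index_ne_zero_of_finite
    have h1 : P.index ≠ 1 := fun h => htop (Subgroup.index_eq_one.mp h)
    omega
  obtain ⟨t, ht⟩ : ∃ t, t ∉ P := by
    by_contra hcon
    push Not at hcon
    exact htop (eq_top_iff.mpr fun y _ => hcon y)
  have hdec : ∀ g : G, g ∈ P ∨ ∃ x ∈ P, g = t * x := by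
    intro g
    by_cases hg : g ∈ P
    · exact Or.inl hg
    · right
      refine ⟨t⁻¹ * g, ?_, by group⟩
      rw [Subgroup.mul_mem_iff_of_index_two hi2, inv_mem_iff]
      exact ⟨fun h => absurd h ht, fun h => absurd h hg⟩
  have ht2 : t * t ∈ P := by
    rw [Subgroup.mul_mem_iff_of_index_two hi2]
  set z₁ := t * z * t⁻¹ with hz₁
  have hz₁P : z₁ ∈ P := hPn.conj_mem z hzP t
  have hz₁c : ∀ x ∈ P, x * z₁ = z₁ * x := by
    intro x hx
    have h1 : t⁻¹ * x * t ∈ P := by
      have := hPn.conj_mem x hx t⁻¹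
      simpa using this
    have h2 := hzc _ h1
    calc x * z₁ = t * ((t⁻¹ * x * t) * z) * t⁻¹ := by rw [hz₁]; group
      _ = t * (z * (t⁻¹ * x * t)) * t⁻¹ := by rw [h2]
      _ = z₁ * x := by rw [hz₁]; group
  by_cases hw : z * z₁ = 1
  · -- t inverts z
    have hinv : t * z * t⁻¹ = z⁻¹ := by
      rw [← hz₁]; exact (eq_inv_of_mul_eq_one_right hw)
    refine ⟨z, hzP, hz1, fun g => ?_⟩
    rcases hdec g with hg | ⟨x, hx, rfl⟩
    · left; rw [hzc g hg]; group
    · right
      calc t * x * z * (t * x)⁻¹ = t * (x * z) * x⁻¹ * t⁻¹ := by group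
        _ = t * (z * x) * x⁻¹ * t⁻¹ := by rw [hzc x hx]
        _ = t * z * t⁻¹ := by group
        _ = z⁻¹ := hinv
  · refine ⟨z * z₁, mul_mem hzP hz₁P, hw, fun g => Or.inl ?_⟩
    have hwc : ∀ x ∈ P, x * (z * z₁) = (z * z₁) * x := by
      intro x hx
      calc x * (z * z₁) = (x * z) * z₁ := (mul_assoc _ _ _).symm
        _ = (z * x) * z₁ := by rw [hzc x hx]
        _ = z * (x * z₁) := mul_assoc _ _ _
        _ = z * (z₁ * x) := by rw [hz₁c x hx]
        _ = (z * z₁) * x := (mul_assoc _ _ _).symm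
    have htw : t * (z * z₁) * t⁻¹ = z * z₁ := by
      have h1 : t * z₁ * t⁻¹ = z := by
        have := hzc _ ht2
        calc t * z₁ * t⁻¹ = (t * t * z) * (t * t)⁻¹ := by rw [hz₁]; group
          _ = (z * (t * t)) * (t * t)⁻¹ := by rw [this]
          _ = z := by group
      calc t * (z * z₁) * t⁻¹ = (t * z * t⁻¹) * (t * z₁ * t⁻¹) := by group
        _ = z₁ * z := by rw [h1]
        _ = z * z₁ := (hz₁c z hzP).symm
    rcases hdec g with hg | ⟨x, hx, rfl⟩
    · rw [hwc g hg]; group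
    · calc t * x * (z * z₁) * (t * x)⁻¹ = t * (x * (z * z₁)) * x⁻¹ * t⁻¹ := by group
        _ = t * ((z * z₁) * x) * x⁻¹ * t⁻¹ := by rw [hwc x hx]
        _ = t * (z * z₁) * t⁻¹ := by group
        _ = z * z₁ := htw

theorem aux (p : ℕ) [Fact p.Prime] : ∀ (n : ℕ) (G : Type u) [Group G] [Finite G], Nat.card G = n →
    ∀ P : Subgroup G, P.Normal → IsPGroup p P → P.index ≤ 2 → Cfsg.IsSupersolvable G := by
  intro n
  induction n using Nat.strong_induction_on with
  | _ n ih =>
  intro G _ _ hn P hPn hP hi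
  by_cases hne : P = ⊥
  · subst hne
    rw [Subgroup.index_bot] at hi
    have h0 : 0 < Nat.card G := Nat.card_pos
    have : Nat.card G = 1 ∨ Nat.card G = 2 := by omega
    rcases this with h | h
    · haveI : Subsingleton G := (Nat.card_eq_one_iff_unique.mp h).1
      exact isSupersolvable_of_subsingleton
    · haveI : Fact (Nat.Prime 2) := ⟨Nat.prime_two⟩
      haveI := isCyclic_of_prime_card h
      exact isSupersolvable_of_isCyclic
  · obtain ⟨c, hcP, hc1, hconj⟩ := exists_elt P hPn hP hi hne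
    haveI hcn := zpowers_normal_of_conj c hconj
    apply isSupersolvable_of_quotient_zpowers c
    have h1 : 1 < Nat.card (Subgroup.zpowers c) := by
      rw [Nat.card_zpowers]
      have h2 : orderOf c ≠ 1 := fun h => hc1 (orderOf_eq_one_iff.mp h)
      have h3 := orderOf_pos c
      omega
    refine ih _ (hn ▸ card_quotient_lt _ h1) _ rfl (P.map (QuotientGroup.mk' _))
      (hPn.map _ (QuotientGroup.mk'_surjective _)) (hP.map _) ?_
    have h4 : (P.map (QuotientGroup.mk' (Subgroup.zpowers c))).index ∣ P.index :=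
      Subgroup.index_map_dvd P (QuotientGroup.mk'_surjective _)
    exact (Nat.le_of_dvd (Nat.pos_of_ne_zero Subgroup.index_ne_zero_of_finite) h4).trans hi

theorem result {G : Type*} [Group G] [Finite G] (p n : ℕ) (hp : p.Prime) (hG : Nat.card G = 2 * p ^ n) : Cfsg.IsSupersolvable G := by
  haveI : Fact p.Prime := ⟨hp⟩
  obtain ⟨P⟩ : Nonempty (Sylow p G) := inferInstance
  have h1 : (P : Subgroup G).index ∣ 2 := by
    have h2 : (P : Subgroup G).index ∣ 2 * p ^ n := hG ▸ Subgroup.index_dvd_card _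
    have h3 : Nat.Coprime (P : Subgroup G).index (p ^ n) :=
      Nat.Coprime.pow_right n ((Nat.Prime.coprime_iff_not_dvd hp).mpr P.not_dvd_index).symm
    exact h3.dvd_of_dvd_mul_right h2
  have h2 : (P : Subgroup G).index ≤ 2 := Nat.le_of_dvd (by norm_num) h1
  have hPn : (P : Subgroup G).Normal := by
    rcases (Nat.dvd_prime Nat.prime_two).mp h1 with h | h
    · rw [Subgroup.index_eq_one.mp h]; infer_instance
    · exact Subgroup.normal_of_index_eq_two h
  exact aux p _ G rfl P hPn P.isPGroup' h2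

end Cfsg.Agent.S0530
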