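import Mathlib
import Cfsg.Statements.S0531
import Cfsg.Agent.Lib.Helper2.Supersolvable2

set_option autoImplicit false
open Cfsg

namespace Cfsg.Agent.S0531

open Cfsg.Agent.Lib.Helper2.Supersolvable Cfsg.Agent.Lib.Helper1

universe u

theorem aux : ∀ (n : ℕ) (G : Type u) [Group G] [Finite G], Nat.card G = n →
    Cfsg.IsSupersolvable G → Cfsg.HasSubgroupOfEveryOrder G := by
  intro n
  induction n using Nat.strong_induction_on with
  | _ n ih =>
  intro G _ _ hn hG d hd
  rcases subsingleton_or_nontrivial G with hs | hnt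
  · refine ⟨⊥, ?_⟩
    rw [Nat.card_eq_one_iff_unique.mpr ⟨hs, ⟨1⟩⟩] at hd
    rw [Subgroup.card_bot, Nat.dvd_one.mp hd]
  obtain ⟨g, hgn, hgp⟩ := exists_normal_prime_card hG
  set N := Subgroup.zpowers g with hN
  set p := Nat.card N with hp
  have hlt := card_quotient_lt N hgp.one_lt
  have hQ : Cfsg.IsSupersolvable (G ⧸ N) :=
    isSupersolvable_of_surjective (QuotientGroup.mk'_surjective N) hG
  have hcard : Nat.card (G ⧸ N) * p = Nat.card G := card_quotient_mul_card N
  by_cases hpd : p ∣ d
  · obtain ⟨d', rfl⟩ := hpd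
    have hd' : d' ∣ Nat.card (G ⧸ N) := by
      rw [← hcard, mul_comm] at hd
      exact Nat.dvd_of_mul_dvd_mul_right hgp.pos hd
    obtain ⟨H, hH⟩ := ih _ (hn ▸ hlt) (G ⧸ N) rfl hQ d' hd'
    exact ⟨H.comap (QuotientGroup.mk' N), by rw [card_comap_mk', hH]⟩
  · have hcop : Nat.Coprime d p := ((Nat.Prime.coprime_iff_not_dvd hgp).mpr hpd).symm
    have hd' : d ∣ Nat.card (G ⧸ N) := by
      rw [← hcard] at hd
      exact hcop.dvd_of_dvd_mul_right hd
    obtain ⟨H, hH⟩ := ih _ (hn ▸ hlt) (G ⧸ N) rfl hQ d hd'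
    set L := H.comap (QuotientGroup.mk' N) with hL
    have hLc : Nat.card L = p * d := by rw [hL, card_comap_mk', hH]
    by_cases hLtop : L = ⊤
    · have hi : N.index = d := by
        have h1 := Subgroup.card_mul_index N
        have h2 : Nat.card G = p * d := by
          rw [← hLc, hLtop, Subgroup.card_top]
        rw [h2] at h1
        exact Nat.eq_of_mul_eq_mul_left hgp.pos h1
      obtain ⟨C, hC⟩ := Subgroup.exists_right_complement'_of_coprime (N := N) (by rw [hi]; exact hcop.symm)
      exact ⟨C, by rw [← hC.symm.index_eq_card, hi]⟩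
    · have hLlt : Nat.card L < n := by
        rw [← hn]
        exact Nat.lt_of_le_of_ne (Subgroup.card_le_card_group L)
          (fun h => hLtop (Subgroup.eq_top_of_card_eq L h))
      obtain ⟨C, hC⟩ := ih _ hLlt L rfl (isSupersolvable_subgroup hG L) d (by rw [hLc]; exact Dvd.intro_left _ rfl)
      exact ⟨C.map L.subtype, by rw [Subgroup.card_map_of_injective L.subtype_injective, hC]⟩

theorem result {G : Type*} [Group G] [Finite G] (hG : Cfsg.IsSupersolvable G) : Cfsg.HasSubgroupOfEveryOrder G := by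
  exact aux _ G rfl hG

end Cfsg.Agent.S0531
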