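import Mathlib
import Cfsg.Statements.S0532

set_option autoImplicit false
open Cfsg

namespace Cfsg.Agent.S0532

universe u

theorem has_of_equiv {A B : Type*} [Group A] [Group B] (e : A ≃* B)
    (h : Cfsg.HasSubgroupOfEveryOrder A) : Cfsg.HasSubgroupOfEveryOrder B := by
  intro d hd
  rw [← Nat.card_congr e.toEquiv] at hd
  obtain ⟨K, hK⟩ := h d hd
  exact ⟨K.map e.toMonoidHom, by rw [Subgroup.card_map_of_injective e.injective, hK]⟩

theorem aux : ∀ (n : ℕ) (G : Type u) [Group G] [Finite G], Nat.card G = n →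
    (∀ H : Subgroup G, Cfsg.HasSubgroupOfEveryOrder H) → ∀ (p : ℕ) [Fact p.Prime],
    p ∣ Nat.card G → (∀ q : ℕ, q.Prime → q ∣ Nat.card G → q ≤ p) → ∀ P : Sylow p G,
    (P : Subgroup G).Normal := by
  intro n
  induction n using Nat.strong_induction_on with
  | _ n ih =>
  intro G _ _ hn h p _ hdvd hmax P
  have hp : p.Prime := Fact.out
  have hc1 : Nat.card G ≠ 1 := by
    intro h1
    rw [h1] at hdvd
    exact hp.one_lt.ne' (Nat.dvd_one.mp hdvd)
  set q := (Nat.card G).minFac with hq
  have hqp : q.Prime := Nat.minFac_prime hc1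
  have hqd : q ∣ Nat.card G := Nat.minFac_dvd _
  by_cases hqe : q = p
  · -- G is a p-group
    have hpow : Nat.card G = p ^ (Nat.card G).primeFactorsList.length := by
      apply Nat.eq_prime_pow_of_unique_prime_dvd Nat.card_pos.ne'
      intro d hd hdd
      have h1 := hmax d hd hdd
      have h2 : q ≤ d := Nat.minFac_le_of_dvd hd.two_le hdd
      omega
    have hpg : IsPGroup p G := IsPGroup.of_card hpow
    have : (⊤ : Subgroup G) = P := P.3 (hpg.to_subgroup ⊤) le_top
    rw [← this]; infer_instance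
  · obtain ⟨m, hm⟩ := hqd
    have hm0 : 0 < m := by
      rcases Nat.eq_zero_or_pos m with h0 | h0
      · rw [h0, mul_zero] at hm; exact absurd hm Nat.card_pos.ne'
      · exact h0
    obtain ⟨M', hM'⟩ := has_of_equiv Subgroup.topEquiv (h ⊤) m (Dvd.intro_left _ hm.symm)
    have hMi : M'.index = q := by
      have h1 := Subgroup.card_mul_index M'
      rw [hM', hm, mul_comm q m] at h1
      exact Nat.eq_of_mul_eq_mul_left hm0 h1
    haveI hMn : M'.Normal := Subgroup.normal_of_index_eq_minFac_card hMi
    have hPM : (P : Subgroup G) ≤ M' := by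
      rw [← Subgroup.relIndex_eq_one]
      have h1 : M'.relIndex P ∣ q := hMi ▸ Subgroup.relIndex_dvd_index_of_normal M' P
      obtain ⟨k, hk⟩ := IsPGroup.iff_card.mp P.isPGroup'
      have h2 : M'.relIndex P ∣ p ^ k := hk ▸ Subgroup.relIndex_dvd_card M' P
      have h3 : Nat.Coprime q (p ^ k) := Nat.Coprime.pow_right k ((Nat.coprime_primes hqp hp).mpr hqe)
      exact Nat.eq_one_of_dvd_coprimes h3 h1 h2
    have hlt : Nat.card M' < n := by
      rw [← hn, hM', hm]
      have := hqp.two_le
      nlinarith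
    have hpM : p ∣ Nat.card M' := by
      rw [hM']
      rw [hm] at hdvd
      exact (((Nat.coprime_primes hp hqp).mpr (Ne.symm hqe))).dvd_of_dvd_mul_left hdvd
    have hnorm := ih _ hlt M' rfl
      (fun H => has_of_equiv (Subgroup.equivMapOfInjective H M'.subtype M'.subtype_injective).symm
        (h (H.map M'.subtype))) p hpM
      (fun r hr hrd => hmax r hr (hrd.trans (Subgroup.card_subgroup_dvd_card M'))) (P.subtype hPM)
    haveI := Sylow.characteristic_of_normal _ hnorm
    have h5 : (((P.subtype hPM : Sylow p M') : Subgroup M').map M'.subtype).Normal :=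
      ConjAct.normal_of_characteristic_of_normal
    rw [Sylow.coe_subtype, Subgroup.map_subgroupOf_eq_of_le hPM] at h5
    exact h5

theorem result {G : Type*} [Group G] [Finite G] (h : ∀ H : Subgroup G, Cfsg.HasSubgroupOfEveryOrder H) (p : ℕ) [Fact p.Prime] (hdvd : p ∣ Nat.card G) (hmax : ∀ q : ℕ, q.Prime → q ∣ Nat.card G → q ≤ p) (P : Sylow p G) : (P : Subgroup G).Normal := by
  exact aux _ G rfl h p hdvd hmax P

end Cfsg.Agent.S0532
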