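import Cfsg.Statements.S0534
import Mathlib
import Cfsg.Agent.S0531
import Cfsg.Agent.Lib.Helper1.Hall
import Cfsg.Agent.Lib.Helper2.Supersolvable2

set_option autoImplicit false
open Cfsg

namespace Cfsg.Agent.S0534


open Cfsg.Agent.Lib.Helper2.Supersolvable

universe u

theorem supersolvable_of_comm : ∀ (n : ℕ) (A : Type u) [CommGroup A] [Finite A], Nat.card A = n →
    Cfsg.IsSupersolvable A := by
  intro n
  induction n using Nat.strong_induction_on with
  | _ n ih =>
  intro A _ _ hn
  rcases subsingleton_or_nontrivial A with hs | hnt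
  · exact isSupersolvable_of_subsingleton
  obtain ⟨g, hg⟩ := exists_ne (1 : A)
  have hn1 : (Subgroup.zpowers g).Normal := inferInstance
  have h1 : 1 < Nat.card (Subgroup.zpowers g) := by
    rw [Subgroup.one_lt_card_iff_ne_bot]
    intro h
    exact hg (Subgroup.zpowers_eq_bot.mp h)
  exact isSupersolvable_of_quotient_zpowers g
    (ih _ (hn ▸ card_quotient_lt _ h1) (A ⧸ Subgroup.zpowers g) rfl)

/-- the arithmetic splitting -/
theorem split (g a d : ℕ) (hg : g ≠ 0) (ha : a ≠ 0) (hd : d ∣ g * a)
    (hA : ∀ p : ℕ, p.Prime → p ∣ a → p ∣ g)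
    (hexp : ∀ p : ℕ, p.Prime → p ∣ g → a.factorization p + 1 = g.factorization p) :
    ∃ m k e : ℕ, g = m * k ∧ m.Coprime k ∧ d = m * e ∧ e ∣ a := by
  classical
  have hd0 : d ≠ 0 := by
    rintro rfl
    exact (mul_ne_zero hg ha) (zero_dvd_iff.mp hd)
  set fm : ℕ →₀ ℕ := g.factorization.filter (fun p => g.factorization p ≤ d.factorization p)
    with hfm
  set fk : ℕ →₀ ℕ := g.factorization.filter (fun p => ¬ g.factorization p ≤ d.factorization p)
    with hfk
  have hsm : ∀ p ∈ fm.support, Nat.Prime p := by
    intro p hp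
    have : p ∈ g.factorization.support := by
      rw [Finsupp.support_filter] at hp
      exact (Finset.mem_filter.mp hp).1
    exact Nat.prime_of_mem_primeFactors (by simpa using this)
  have hsk : ∀ p ∈ fk.support, Nat.Prime p := by
    intro p hp
    have : p ∈ g.factorization.support := by
      rw [Finsupp.support_filter] at hp
      exact (Finset.mem_filter.mp hp).1
    exact Nat.prime_of_mem_primeFactors (by simpa using this)
  have em := Nat.prod_pow_factorization_eq_self hsm
  have ek := Nat.prod_pow_factorization_eq_self hsk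
  have hm0 : (fm.prod fun x1 x2 => x1 ^ x2) ≠ 0 := by
    rw [Finsupp.prod_ne_zero_iff]
    intro p hp
    exact pow_ne_zero _ (hsm p hp).ne_zero
  have hk0 : (fk.prod fun x1 x2 => x1 ^ x2) ≠ 0 := by
    rw [Finsupp.prod_ne_zero_iff]
    intro p hp
    exact pow_ne_zero _ (hsk p hp).ne_zero
  have hmd : (fm.prod fun x1 x2 => x1 ^ x2) ∣ d := by
    rw [← Nat.factorization_le_iff_dvd hm0 hd0, em]
    intro p
    rw [hfm, Finsupp.filter_apply]
    split_ifs with h
    · exact h
    · exact Nat.zero_le _
  refine ⟨fm.prod fun x1 x2 => x1 ^ x2, fk.prod fun x1 x2 => x1 ^ x2,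
    d / (fm.prod fun x1 x2 => x1 ^ x2), ?_, ?_, (Nat.mul_div_cancel' hmd).symm, ?_⟩
  · apply Nat.eq_of_factorization_eq hg (mul_ne_zero hm0 hk0)
    intro p
    rw [Nat.factorization_mul hm0 hk0, em, ek, hfm, hfk, Finsupp.filter_add_filter_not]
  · apply Nat.coprime_of_dvd
    intro p hp h1 h2
    rw [hp.dvd_iff_one_le_factorization hm0, em, hfm, Finsupp.filter_apply] at h1
    rw [hp.dvd_iff_one_le_factorization hk0, ek, hfk, Finsupp.filter_apply] at h2
    split_ifs at h1 h2 <;> omega
  · have he0 : d / (fm.prod fun x1 x2 => x1 ^ x2) ≠ 0 := by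
      intro h
      have := Nat.mul_div_cancel' hmd
      rw [h, mul_zero] at this
      exact hd0 this.symm
    rw [← Nat.factorization_le_iff_dvd he0 ha, Nat.factorization_div hmd, em]
    intro p
    rw [Finsupp.coe_tsub, Pi.sub_apply, hfm, Finsupp.filter_apply]
    have h1 : d.factorization p ≤ g.factorization p + a.factorization p := by
      have := (Nat.factorization_le_iff_dvd hd0 (mul_ne_zero hg ha)).mpr hd p
      rwa [Nat.factorization_mul hg ha] at this
    have h2 : (g.factorization p = 0 ∧ a.factorization p = 0) ∨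
        a.factorization p + 1 = g.factorization p := by
      by_cases hp : p.Prime
      · by_cases hpg : p ∣ g
        · exact Or.inr (hexp p hp hpg)
        · exact Or.inl ⟨Nat.factorization_eq_zero_of_not_dvd hpg,
            Nat.factorization_eq_zero_of_not_dvd (fun h => hpg (hA p hp h))⟩
      · exact Or.inl ⟨Nat.factorization_eq_zero_of_not_prime _ hp,
          Nat.factorization_eq_zero_of_not_prime _ hp⟩
    split_ifs with h <;> omega

/-- Let G be a finite solvable group and A a finite abelian group such that every prime dividing the order of A divides the order of G and, for each prime p dividing the order of G, the exponent of p in the order of A is one less than its exponent in the order of G. Then G × A has a subgroup of every order dividing its order. -/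
theorem result {G A : Type*} [Group G] [CommGroup A] [Finite G] [Finite A] [Group.IsSolvable G] (hA : ∀ p : ℕ, p.Prime → p ∣ Nat.card A → p ∣ Nat.card G) (hexp : ∀ p : ℕ, p.Prime → p ∣ Nat.card G → (Nat.card A).factorization p + 1 = (Nat.card G).factorization p) : Cfsg.HasSubgroupOfEveryOrder (G × A) := by
  intro d hd
  rw [Nat.card_prod] at hd
  obtain ⟨m, k, e, h1, h2, h3, h4⟩ := split (Nat.card G) (Nat.card A) d Nat.card_pos.ne'
    Nat.card_pos.ne' hd hA hexp
  obtain ⟨H, hH⟩ := Cfsg.Agent.Lib.Helper1.hall_exists m k h1 h2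
  obtain ⟨B, hB⟩ := Cfsg.Agent.S0531.result (supersolvable_of_comm _ A rfl) e h4
  refine ⟨H.prod B, ?_⟩
  rw [Nat.card_congr (Subgroup.prodEquiv H B).toEquiv, Nat.card_prod, hH, hB, h3]

end Cfsg.Agent.S0534
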