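import Mathlib
import Cfsg.Statements.S0535
import Cfsg.Agent.S0003
import Cfsg.Agent.S0006

set_option autoImplicit false
open Cfsg

namespace Cfsg.Agent.S0535

/-- statement -/
theorem result {G : Type*} [Group G] [Finite G] (h : ∀ H : Subgroup G, H ≠ ⊥ → ∀ p : ℕ, p.Prime → p ∣ Nat.card H → ∃ K : Subgroup H, K ≠ ⊤ ∧ ∃ k : ℕ, K.index = p ^ k) : Group.IsSolvable G := by
  classical
  have key : ∀ n : ℕ, ∀ L : Subgroup G, Nat.card L = n → Group.IsSolvable L := by
    intro n
    induction n using Nat.strong_induction_on with
    | _ n ih =>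
      intro L hL
      apply S0006.result
      intro p hp
      by_cases hpd : p ∣ Nat.card L
      · have hLne : L ≠ ⊥ := by
          rintro rfl
          rw [Subgroup.card_bot] at hpd
          exact hp.one_lt.ne' (Nat.dvd_one.1 hpd)
        obtain ⟨K, hKne, k, hk⟩ := h L hLne p hp hpd
        have hcardK : Nat.card K * p ^ k = Nat.card L := by
          rw [← hk]; exact K.card_mul_index
        have hlt : Nat.card K < Nat.card L := by
          have h1 : K.index ≠ 1 := fun h1 => hKne (Subgroup.index_eq_one.1 h1)
          have h2 : 0 < K.index := Nat.pos_of_ne_zero K.index_ne_zero_of_finite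
          have h3 : 0 < Nat.card K := Nat.card_pos
          have h4 : 2 ≤ K.index := by omega
          rw [← K.card_mul_index]
          nlinarith
        have e : K ≃* K.map L.subtype := K.equivMapOfInjective _ L.subtype_injective
        have hsK' : Group.IsSolvable (K.map L.subtype) :=
          ih _ (by rw [← hL]; rw [← Nat.card_congr e.toEquiv]; exact hlt) _ rfl
        haveI hsK : Group.IsSolvable K :=
          Group.isSolvable_of_isSolvable_injective (f := e.toMonoidHom) e.injective
        have hK0 : Nat.card K ≠ 0 := Nat.card_pos.ne'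
        obtain ⟨H, hH⟩ := S0003.result (G := K) (ordCompl[p] (Nat.card K)) (ordProj[p] (Nat.card K))
          (by rw [mul_comm]; exact (Nat.ordProj_mul_ordCompl_eq_self _ _).symm)
          ((Nat.Coprime.pow_left _ (Nat.coprime_ordCompl hp hK0)).symm)
        refine ⟨H.map K.subtype, ?_⟩
        have h1 : Nat.card (H.map K.subtype) = ordCompl[p] (Nat.card L) := by
          rw [Subgroup.card_map_of_injective K.subtype_injective, hH, ← hcardK, Nat.ordCompl_mul,
            Nat.ordCompl_self_pow hp, mul_one]
        have h2 := (H.map K.subtype).card_mul_index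
        rw [h1] at h2
        have h3 := Nat.ordProj_mul_ordCompl_eq_self (Nat.card L) p
        have h4 : 0 < ordCompl[p] (Nat.card L) := Nat.ordCompl_pos p Nat.card_pos.ne'
        apply Nat.eq_of_mul_eq_mul_left h4
        rw [h2, mul_comm, h3]
      · refine ⟨⊤, ?_⟩
        rw [Subgroup.index_top, Nat.factorization_eq_zero_of_not_dvd hpd, pow_zero]
  have := key _ ⊤ rfl
  exact Group.isSolvable_of_isSolvable_injective (f := (Subgroup.topEquiv (G := G)).symm.toMonoidHom)
    (Subgroup.topEquiv (G := G)).symm.injective

end Cfsg.Agent.S0535
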