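import Mathlib
import Cfsg.Statements.S0537
import Cfsg.Agent.Lib.Helper2.Schmidt2
import Cfsg.Agent.Lib.Helper2.Frattini2
import Cfsg.Agent.Lib.Helper2.Solvable
import Cfsg.Agent.Lib.Helper1.NormMap

set_option autoImplicit false
open Cfsg

namespace Cfsg.Agent.S0537

open Cfsg.Agent.Lib.Helper2.Schmidt Cfsg.Agent.Lib.Helper2.Frattini Cfsg.Agent.Lib.Helper2.Solvable
  Cfsg.Agent.Lib.Helper1

theorem nilpotent_case {G : Type*} [Group G] [Finite G] (hna : ¬ IsMulCommutative G)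
    (h : ∀ H : Subgroup G, H ≠ ⊤ → IsMulCommutative H) (hnil : Group.IsNilpotent G) :
    ∃ p : ℕ, p.Prime ∧ IsPGroup p G := by
  by_contra hcon
  push Not at hcon
  apply hna
  have hprop : ∀ (p : ℕ) [Fact p.Prime] (P : Sylow p G), (P : Subgroup G) ≠ ⊤ := by
    intro p hp P htop
    apply hcon p hp.out
    have := P.isPGroup'
    rw [htop] at this
    exact this.of_equiv Subgroup.topEquiv
  let T : Set G := {x | ∃ (p : ℕ) (_ : Fact p.Prime) (P : Sylow p G), x ∈ P}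
  have hT : Subgroup.closure T = ⊤ := by
    apply eq_top_of_sylow_le
    intro p hp
    obtain ⟨P⟩ : Nonempty (Sylow p G) := inferInstance
    exact ⟨P, fun x hx => Subgroup.subset_closure ⟨p, hp, P, hx⟩⟩
  have hc : IsMulCommutative (Subgroup.closure T) := by
    apply Subgroup.isMulCommutative_closure
    rintro x ⟨p, hp, P, hx⟩ y ⟨q, hq, Q, hy⟩
    by_cases hpq : p = q
    · subst hpq
      haveI := Sylow.unique_of_normal P inferInstance
      have hQP : Q = P := Subsingleton.elim _ _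
      rw [hQP] at hy
      haveI := h P (hprop p P)
      exact congrArg Subtype.val (mul_comm' (⟨x, hx⟩ : (P : Subgroup G)) ⟨y, hy⟩)
    · exact commute_of_isNilpotent hpq P.2 Q.2 hx hy
  refine ⟨⟨fun a b => ?_⟩⟩
  have ha : a ∈ Subgroup.closure T := hT ▸ Subgroup.mem_top a
  have hb : b ∈ Subgroup.closure T := hT ▸ Subgroup.mem_top b
  exact congrArg Subtype.val (mul_comm' (⟨a, ha⟩ : Subgroup.closure T) ⟨b, hb⟩)

theorem result {G : Type*} [Group G] [Finite G] (hna : ¬ IsMulCommutative G) (h : ∀ H : Subgroup G, H ≠ ⊤ → IsMulCommutative H) : (∃ p : ℕ, p.Prime ∧ IsPGroup p G) ∨ ∃ p q : ℕ, p.Prime ∧ q.Prime ∧ p ≠ q ∧ ∃ (P : Sylow p G) (Q : Sylow q G), IsCyclic P ∧ (Q : Subgroup G).Normal ∧ Cfsg.IsElementaryAbelian q (Q : Subgroup G) ∧ (P : Subgroup G) ⊔ Q = ⊤ := by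
  by_cases hnil : Group.IsNilpotent G
  · exact Or.inl (nilpotent_case hna h hnil)
  right
  obtain ⟨p, q, hp, hq, hpq, P, Q, hPc, hQn, hPQ, hPn⟩ := schmidt_structure hnil
    (fun H hH => by haveI := h H hH; exact isNilpotent_of_isMulCommutative)
  refine ⟨p, q, hp, hq, hpq, P, Q, hPc, hQn, ?_, hPQ⟩
  haveI : Fact p.Prime := ⟨hp⟩
  haveI : Fact q.Prime := ⟨hq⟩
  have hdis : (P : Subgroup G) ⊓ Q = ⊥ := (IsPGroup.disjoint_of_ne p q hpq _ _ P.2 Q.2).eq_bot
  have hQt : (Q : Subgroup G) ≠ ⊤ := by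
    intro ht
    rw [ht, inf_top_eq] at hdis
    apply hPn
    rw [hdis]; infer_instance
  haveI hQc := h Q hQt
  refine ⟨hQc, ?_⟩
  have hab : ∀ x ∈ (Q : Subgroup G), ∀ y ∈ (Q : Subgroup G), x * y = y * x := fun x hx y hy =>
    congrArg Subtype.val (mul_comm' (⟨x, hx⟩ : (Q : Subgroup G)) ⟨y, hy⟩)
  by_contra hcon
  push Not at hcon
  obtain ⟨a, haQ, ha⟩ := hcon
  set Q₁ := omegaAb (Q : Subgroup G) hab q with hQ₁
  have hQ₁Q : Q₁ ≤ Q := fun x hx => hx.1
  haveI hQ₁n : Q₁.Normal := by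
    constructor
    intro x hx g
    refine ⟨hQn.conj_mem x hx.1 g, ?_⟩
    rw [conj_pow, hx.2]; group
  have hlt : Nat.card Q₁ < Nat.card (Q : Subgroup G) := by
    refine Nat.lt_of_le_of_ne (Subgroup.card_le_of_le hQ₁Q) ?_
    intro he
    have := Subgroup.eq_of_le_of_card_ge hQ₁Q he.ge
    have haQ₁ : a ∈ Q₁ := this ▸ haQ
    exact ha haQ₁.2
  have hPQ₁ : (P : Subgroup G) ⊔ Q₁ ≠ ⊤ := by
    intro ht
    have c1 := card_sup_mul_card_inf (P : Subgroup G) (Q : Subgroup G)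
    have c2 := card_sup_mul_card_inf (P : Subgroup G) Q₁
    have hdis' : (P : Subgroup G) ⊓ Q₁ = ⊥ := le_bot_iff.mp (hdis ▸ inf_le_inf_left _ hQ₁Q)
    rw [hPQ, hdis] at c1
    rw [ht, hdis'] at c2
    have := Nat.eq_of_mul_eq_mul_left Nat.card_pos (c1.symm.trans c2)
    omega
  haveI hcomm := h _ hPQ₁
  have hQ₁C : Q₁ ≤ Subgroup.centralizer ((P : Subgroup G) : Set G) := by
    intro x hx
    rw [Subgroup.mem_centralizer_iff]
    intro y hy
    exact congrArg Subtype.val (mul_comm' (⟨y, Subgroup.mem_sup_left hy⟩ : ((P : Subgroup G) ⊔ Q₁ : Subgroup G))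
      ⟨x, Subgroup.mem_sup_right hx⟩)
  have hPNQ : (P : Subgroup G) ≤ Subgroup.normalizer ((Q : Subgroup G) : Set G) := by
    rw [Subgroup.normalizer_eq_top]; exact le_top
  have hcop : (Nat.card (P : Subgroup G)).Coprime (Nat.card (Q : Subgroup G)) := by
    obtain ⟨i, hi⟩ := IsPGroup.iff_card.mp P.2
    obtain ⟨j, hj⟩ := IsPGroup.iff_card.mp Q.2
    rw [hi, hj]
    exact Nat.Coprime.pow i j ((Nat.coprime_primes hp hq).mpr hpq)
  have hfix := fixed_inf_commutator_eq_bot (P : Subgroup G) (Q : Subgroup G) hPNQ hcop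
  set C : Subgroup G := ⁅(Q : Subgroup G), (P : Subgroup G)⁆ with hC
  have hcomQ : C ≤ Q := Subgroup.commutator_le_left _ _
  have hbot : C = ⊥ := by
    by_contra hne
    have hq' : IsPGroup q C := Q.2.to_le hcomQ
    obtain ⟨k, hk⟩ := IsPGroup.iff_card.mp hq'
    have hk0 : k ≠ 0 := by
      rintro rfl
      rw [pow_zero] at hk
      exact hne ((Subgroup.card_le_one_iff_eq_bot _).mp hk.le)
    have hdvd : q ∣ Nat.card C := by
      rw [hk]; exact dvd_pow_self q hk0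
    obtain ⟨z, hz⟩ := exists_prime_orderOf_dvd_card' q hdvd
    have hz1 : (z : G) ^ q = 1 := by
      have := pow_orderOf_eq_one z
      rw [hz] at this
      exact congrArg Subtype.val this
    have hzQ₁ : (z : G) ∈ Q₁ := ⟨hcomQ z.2, hz1⟩
    have hzb : (z : G) ∈ ((Q : Subgroup G) ⊓ Subgroup.centralizer ((P : Subgroup G) : Set G)) ⊓
        C := ⟨⟨hcomQ z.2, hQ₁C hzQ₁⟩, z.2⟩
    rw [hfix, Subgroup.mem_bot] at hzb
    have : z = 1 := Subtype.ext hzb
    rw [this, orderOf_one] at hz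
    exact hq.one_lt.ne hz
  apply hPn
  rw [← Subgroup.normalizer_eq_top_iff, eq_top_iff, ← hPQ]
  refine sup_le Subgroup.le_normalizer ?_
  rw [hC, Subgroup.commutator_eq_bot_iff_le_centralizer] at hbot
  exact hbot.trans (Subgroup.centralizer_le_normalizer _)

end Cfsg.Agent.S0537
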