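import Mathlib
import Cfsg.Statements.S0539
import Cfsg.Agent.Lib.Helper2.Subnormal

set_option autoImplicit false
open Pointwise
open Cfsg

namespace Cfsg.Agent.S0539

open Cfsg.Agent.Lib.Helper2.Subnormal Cfsg.Agent.Lib.Helper2.Conj

theorem result {G : Type*} [Group G] [Finite G] (S S₀ : Set (Subgroup G)) (hS : ∀ U ∈ S, U.IsSubnormal) (hconj : ∀ U ∈ S, ∀ g : G, MulAut.conj g • U ∈ S) (h₀ : S₀ ⊂ S) : ∃ X ∈ S, X ∉ S₀ ∧ X ≤ Subgroup.normalizer ((sSup S₀ : Subgroup G) : Set G) := by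
  have hsub : (sSup S₀).IsSubnormal := isSubnormal_sSup S₀ fun U hU => hS U (h₀.1 hU)
  rcases exists_conj_le_normalizer hsub with hn | ⟨g, hne, hle⟩
  · obtain ⟨X, hX, hX0⟩ := Set.exists_of_ssubset h₀
    refine ⟨X, hX, hX0, ?_⟩
    rw [Subgroup.normalizer_eq_top]
    exact le_top
  · by_contra hcon
    push Not at hcon
    apply hne
    apply conj_smul_eq_of_ge
    rw [smul_eq_map, Subgroup.map_le_iff_le_comap]
    refine sSup_le fun U hU => ?_
    rw [← Subgroup.map_le_iff_le_comap, ← smul_eq_map]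
    by_contra hU2
    have h1 : MulAut.conj g • U ∉ S₀ := fun h => hU2 (le_sSup h)
    exact hcon _ (hconj U (h₀.1 hU) g) h1 ((conj_smul_mono (le_sSup hU)).trans hle)

end Cfsg.Agent.S0539
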