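import Cfsg.Statements.S0540
import Cfsg.Agent.Lib.Helper1.Subn1
open Cfsg.Agent.Lib.Helper1
open Cfsg.Agent.Lib.Helper6.Basic Cfsg.Agent.Lib.Helper6.Subn Cfsg.Agent.Lib.Helper6.Rad Cfsg.Agent.Lib.Helper6.Nil
open scoped Pointwise

set_option autoImplicit false
open Pointwise
open Cfsg

namespace Cfsg.Agent.S0540

theorem aux0540 {G : Type*} [Group G] [Finite G] (A : Subgroup G) (U : Set (Subgroup G))
    (S : Subgroup G → Set (Subgroup G))
    (hS : ∀ V B : Subgroup G, B ∈ S V ↔ (∃ g : G, B = cj g A) ∧ SN B V)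
    (h2 : ∀ V ∈ U, ∀ W ∈ U, ∀ B ∈ S W, B ≤ V → B ∈ S V)
    (M1 M2 M3 : Subgroup G) (hM1 : M1 ∈ U) (hM3 : M3 ∈ U) (hmax1 : ∀ V ∈ U, M1 ≤ V → V = M1)
    (hN : Nz (sSup (S M1 ∩ S M2)) ≤ M3)
    (hpair : M3 ≠ M1 → (S M1 ∩ S M3).ncard ≤ (S M1 ∩ S M2).ncard) : M3 = M1 := by
  by_contra hne
  have hpair := hpair hne
  obtain ⟨D, hD⟩ : ∃ D, D = sSup (S M1 ∩ S M2) := ⟨_, rfl⟩
  rw [← hD] at hN
  have hDM3 : D ≤ M3 := Subgroup.le_normalizer.trans hN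
  have hle : ∀ C ∈ S M1 ∩ S M2, C ≤ D := fun C hC => hD ▸ le_sSup hC
  have hsub : S M1 ∩ S M2 ⊆ S M1 ∩ S M3 := by
    intro C hC
    exact ⟨hC.1, h2 M3 hM3 M1 hM1 C hC.1 ((hle C hC).trans hDM3)⟩
  have hDsn : SN D M1 := by
    rw [hD]
    exact SN_sSup _ fun C hC => ((hS M1 C).mp hC.1).2
  have hconj : ∀ m ∈ M1, ∀ B ∈ S M1, cj m B ∈ S M1 := by
    intro m hm B hB
    obtain ⟨⟨g, rfl⟩, hsn⟩ := (hS M1 B).mp hB
    refine (hS M1 _).mpr ⟨⟨m * g, cj_cj _ _ _⟩, ?_⟩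
    have := hsn.cj m
    rwa [cj_eq_self_of_mem hm] at this
  -- a new member normalising `D`
  have hex : ∃ B ∈ S M1, B ∉ S M2 ∧ B ≤ Nz D := by
    rcases SN_exists_conj hDsn with h | ⟨g, hg, hne', hle'⟩
    · by_cases hall : S M1 ⊆ S M2
      · exfalso
        exact hne (hmax1 M3 hM3 (h.trans hN))
      · obtain ⟨B, hB1, hB2⟩ := Set.not_subset.mp hall
        exact ⟨B, hB1, hB2, (((hS M1 B).mp hB1).2.le).trans h⟩
    · have h3 : ¬ cj g D ≤ D := fun hc =>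
        hne' (Subgroup.eq_of_le_of_card_ge hc (le_of_eq (card_cj g D).symm))
      have h4 : ∃ C ∈ S M1 ∩ S M2, ¬ cj g C ≤ D := by
        by_contra hc
        push Not at hc
        apply h3
        rw [cj_le_iff, hD]
        apply sSup_le
        intro C hC
        rw [← hD, ← cj_le_iff]
        exact hc C hC
      obtain ⟨C, hC, hCD⟩ := h4
      refine ⟨cj g C, hconj g hg C hC.1, ?_, (cj_mono (hle C hC)).trans hle'⟩
      intro hc
      exact hCD (hle _ ⟨hconj g hg C hC.1, hc⟩)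
  obtain ⟨B, hB1, hB2, hBN⟩ := hex
  have hB3 : B ∈ S M1 ∩ S M3 := ⟨hB1, h2 M3 hM3 M1 hM1 B hB1 (hBN.trans hN)⟩
  have hlt : (S M1 ∩ S M2).ncard < (S M1 ∩ S M3).ncard := by
    apply Set.ncard_lt_ncard _ (Set.toFinite _)
    exact ⟨hsub, fun hc => hB2 (hc hB3).2⟩
  omega

/-- A uniqueness lemma of zipper type. Let A be a subgroup of a finite group G and U a nonempty family of subgroups. For V in U write S(V) for the set of conjugates of A that lie in V and are subnormal in V. Assume: A belongs to S(V) for every V in U; a member of some S(W) that lies in V belongs to S(V); and for all V, W in U the normalizer of the join of S(V) ∩ S(W) lies in some member of U. Then U has a greatest element. -/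
theorem result {G : Type*} [Group G] [Finite G] (A : Subgroup G) (U : Set (Subgroup G)) (hU : U.Nonempty) (S : Subgroup G → Set (Subgroup G)) (hS : ∀ V B : Subgroup G, B ∈ S V ↔ (∃ g : G, B = MulAut.conj g • A) ∧ B ≤ V ∧ (B.subgroupOf V).IsSubnormal) (h1 : ∀ V ∈ U, A ∈ S V) (h2 : ∀ V ∈ U, ∀ W ∈ U, ∀ B ∈ S W, B ≤ V → B ∈ S V) (h3 : ∀ V ∈ U, ∀ W ∈ U, ∃ X ∈ U, Subgroup.normalizer ((sSup (S V ∩ S W) : Subgroup G) : Set G) ≤ X) : ∃ M ∈ U, ∀ V ∈ U, V ≤ M := by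
  have hS' : ∀ V B : Subgroup G, B ∈ S V ↔ (∃ g : G, B = cj g A) ∧ SN B V := by
    intro V B
    rw [hS]
    constructor
    · rintro ⟨hg, hle, hsn⟩
      exact ⟨hg, (subgroupOf_isSubnormal_iff hle).mp hsn⟩
    · rintro ⟨hg, hsn⟩
      exact ⟨hg, hsn.le, hsn.subgroupOf⟩
  -- maximal members
  have hexmax : ∀ V ∈ U, ∃ M ∈ U, V ≤ M ∧ ∀ W ∈ U, M ≤ W → W = M := by
    intro V hV
    obtain ⟨M, hM, hmax⟩ := (Set.toFinite {W | W ∈ U ∧ V ≤ W}).exists_maximal ⟨V, hV, le_rfl⟩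
    refine ⟨M, hM.1, hM.2, fun W hW hMW => ?_⟩
    exact le_antisymm (hmax ⟨hW, hM.2.trans hMW⟩ hMW) hMW
  by_contra hcon
  push Not at hcon
  -- the set of pairs of distinct maximal members
  set PP : Set (Subgroup G × Subgroup G) := {P | P.1 ∈ U ∧ P.2 ∈ U ∧ (∀ W ∈ U, P.1 ≤ W → W = P.1) ∧
    (∀ W ∈ U, P.2 ≤ W → W = P.2) ∧ P.1 ≠ P.2} with hPP
  have hne : PP.Nonempty := by
    obtain ⟨V, hV⟩ := hU
    obtain ⟨M1, hM1, _, hmax1⟩ := hexmax V hV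
    obtain ⟨W, hW, hWM⟩ := hcon M1 hM1
    obtain ⟨M2, hM2, hWM2, hmax2⟩ := hexmax W hW
    exact ⟨(M1, M2), hM1, hM2, hmax1, hmax2, fun he => hWM (by
      have he' : M1 = M2 := he
      rw [he']; exact hWM2)⟩
  obtain ⟨⟨M1, M2⟩, hP, hPmax⟩ := Set.exists_max_image PP (fun P => (S P.1 ∩ S P.2).ncard)
    (Set.toFinite _) hne
  obtain ⟨hM1, hM2, hmax1, hmax2, hne12⟩ := hP
  obtain ⟨X, hX, hNX⟩ := h3 M1 hM1 M2 hM2
  obtain ⟨M3, hM3, hXM3, hmax3⟩ := hexmax X hX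
  have e1 : M3 = M1 := by
    apply aux0540 A U S hS' h2 M1 M2 M3 hM1 hM3 hmax1 (hNX.trans hXM3)
    intro hne
    exact hPmax (M1, M3) ⟨hM1, hM3, hmax1, hmax3, hne.symm⟩
  have e2 : M3 = M2 := by
    apply aux0540 A U S hS' h2 M2 M1 M3 hM2 hM3 hmax2 (by rw [Set.inter_comm]; exact hNX.trans hXM3)
    intro hne
    have := hPmax (M2, M3) ⟨hM2, hM3, hmax2, hmax3, hne.symm⟩
    simp only at this
    rwa [Set.inter_comm (S M1) (S M2)] at this
  exact hne12 (e1.symm.trans e2)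

end Cfsg.Agent.S0540
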