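import Cfsg.Statements.S0541
import Mathlib
import Cfsg.Agent.Lib.Helper1.SZQuot
import Cfsg.Agent.Lib.Helper1.FixedCount
import Cfsg.Agent.Lib.Helper1.Frobenius
import Cfsg.Agent.Lib.Helper9.SylowIn

set_option autoImplicit false
open Pointwise
open Cfsg

namespace Cfsg.Agent.S0541

open Cfsg.Agent.Lib.Helper1 Pointwise

variable {G : Type*} [Group G]

/-- the weak closure of `Z` in `D` -/
def wc (Z D : Subgroup G) : Subgroup G :=
  ⨆ g ∈ {g : G | MulAut.conj g • Z ≤ D}, MulAut.conj g • Z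

theorem wc_le (Z D : Subgroup G) : wc Z D ≤ D := iSup₂_le (fun _ hg => hg)

theorem le_wc {Z D : Subgroup G} {g : G} (h : MulAut.conj g • Z ≤ D) :
    MulAut.conj g • Z ≤ wc Z D :=
  le_iSup₂ (f := fun g (_ : g ∈ {g : G | MulAut.conj g • Z ≤ D}) => MulAut.conj g • Z) g h

theorem wc_mono {Z D E : Subgroup G} (h : D ≤ E) : wc Z D ≤ wc Z E :=
  iSup₂_le (fun _ hg => le_wc (le_trans hg h))

theorem mem_normalizer_of_smul_le [Finite G] {x : G} {H : Subgroup G}
    (h : MulAut.conj x • H ≤ H) : x ∈ Subgroup.normalizer (H : Set G) := by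
  apply mem_normalizer_of_conj_smul_eq
  exact Subgroup.eq_of_le_of_card_ge h (by rw [card_conj_smul])

theorem smul_wc_le (Z D : Subgroup G) (x : G) :
    MulAut.conj x • wc Z D ≤ wc Z (MulAut.conj x • D) := by
  rw [Subgroup.pointwise_smul_subset_iff]
  apply iSup₂_le
  intro g hg
  rw [← Subgroup.pointwise_smul_subset_iff, ← mul_smul, ← map_mul]
  apply le_wc
  rw [map_mul, mul_smul]
  exact Subgroup.pointwise_smul_le_pointwise_smul_iff.mpr hg

theorem normalizer_le_normalizer_wc [Finite G] (Z D : Subgroup G) :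
    Subgroup.normalizer (D : Set G) ≤ Subgroup.normalizer (wc Z D : Set G) := by
  intro x hx
  apply mem_normalizer_of_smul_le
  have := smul_wc_le Z D x
  rwa [conj_smul_eq_of_mem_normalizer hx] at this


/-- Let Z and Y be subgroups of a finite group G and p a prime. Suppose that for every g in G the subgroup generated by the conjugates of g Z g⁻¹ under Y is a p-group. Then there is a Sylow p-subgroup P of G such that Y normalizes the subgroup generated by all conjugates of Z contained in P. -/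
theorem result {G : Type*} [Group G] [Finite G] (p : ℕ) [Fact p.Prime] (Z Y : Subgroup G) (h : ∀ g : G, IsPGroup p ↥(⨆ y ∈ Y, MulAut.conj (y * g) • Z)) : ∃ P : Sylow p G, Y ≤ Subgroup.normalizer ((⨆ g ∈ {g : G | MulAut.conj g • Z ≤ (P : Subgroup G)}, MulAut.conj g • Z : Subgroup G) : Set G) := by
  classical
  let 𝒟 : Set (Subgroup G) :=
    {D | IsPGroup p D ∧ Y ≤ Subgroup.normalizer (D : Set G) ∧ wc Z D = D}
  have hbot : (⊥ : Subgroup G) ∈ 𝒟 := by
    refine ⟨IsPGroup.of_bot, ?_, le_antisymm (wc_le _ _) bot_le⟩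
    intro y _
    apply mem_normalizer_of_smul_le
    simp
  obtain ⟨D, hD, hmax⟩ : ∃ D ∈ 𝒟, ∀ E ∈ 𝒟, Nat.card E ≤ Nat.card D :=
    Set.exists_max_image 𝒟 (fun E => Nat.card E) (Set.toFinite _) ⟨⊥, hbot⟩
  obtain ⟨hDp, hDY, hDw⟩ := hD
  obtain ⟨P, hDP⟩ := hDp.exists_le_sylow
  refine ⟨P, ?_⟩
  show Y ≤ Subgroup.normalizer (wc Z P : Set G)
  obtain ⟨M, hM⟩ : ∃ M : Subgroup G, M = (P : Subgroup G) ⊓ Subgroup.normalizer (D : Set G) :=
    ⟨_, rfl⟩
  have hDM : D ≤ M := hM ▸ le_inf hDP Subgroup.le_normalizer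
  have hB : ∀ g : G, MulAut.conj g • Z ≤ M → MulAut.conj g • Z ≤ D := by
    intro g hg
    obtain ⟨X, hX⟩ : ∃ X : Subgroup G, X = ⨆ y ∈ Y, MulAut.conj (y * g) • Z := ⟨_, rfl⟩
    have hle : ∀ y ∈ Y, MulAut.conj (y * g) • Z ≤ X := by
      intro y hy
      rw [hX]
      exact le_iSup₂ (f := fun y (_ : y ∈ Y) => MulAut.conj (y * g) • Z) y hy
    have hXp : IsPGroup p X := hX ▸ h g
    have hXY : Y ≤ Subgroup.normalizer (X : Set G) := by
      intro y' hy'
      apply mem_normalizer_of_smul_le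
      rw [Subgroup.pointwise_smul_subset_iff]
      conv_lhs => rw [hX]
      apply iSup₂_le
      intro y hy
      rw [← Subgroup.pointwise_smul_subset_iff, ← mul_smul, ← map_mul, ← mul_assoc]
      exact hle (y' * y) (Y.mul_mem hy' hy)
    have hXD : X ≤ Subgroup.normalizer (D : Set G) := by
      rw [hX]
      apply iSup₂_le
      intro y hy
      rw [map_mul, mul_smul]
      have h1 : MulAut.conj y • (MulAut.conj g • Z) ≤
          MulAut.conj y • Subgroup.normalizer (D : Set G) :=
        Subgroup.pointwise_smul_le_pointwise_smul_iff.mpr (hg.trans (hM ▸ inf_le_right))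
      rwa [conj_smul_normalizer, conj_smul_eq_of_mem_normalizer (hDY hy)] at h1
    have hE : (X ⊔ D) ∈ 𝒟 := by
      refine ⟨IsPGroup.to_sup_of_normal_right' hXp hDp hXD, le_normalizer_sup hXY hDY,
        le_antisymm (wc_le _ _) ?_⟩
      apply sup_le
      · conv_lhs => rw [hX]
        apply iSup₂_le
        intro y hy
        exact le_wc ((hle y hy).trans le_sup_left)
      · calc D = wc Z D := hDw.symm
          _ ≤ _ := wc_mono le_sup_right
    have heq : D = X ⊔ D := Subgroup.eq_of_le_of_card_ge le_sup_right (hmax _ hE)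
    rw [heq]
    have h1 := hle 1 Y.one_mem
    rw [one_mul] at h1
    exact h1.trans le_sup_left
  have hwM : wc Z M = D :=
    le_antisymm (iSup₂_le hB) (by conv_lhs => rw [← hDw]
                                  exact wc_mono hDM)
  have hMP : M = P := by
    by_contra hne
    have hlt : M < P := lt_of_le_of_ne (hM ▸ inf_le_left) hne
    obtain ⟨x, hxP, hxM, hxN⟩ := Cfsg.Agent.Lib.Helper9.SylowIn.exists_normalizer_of_lt P.2 hlt
    apply hxM
    rw [hM]
    refine ⟨hxP, ?_⟩
    have := normalizer_le_normalizer_wc Z M hxN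
    rwa [hwM] at this
  rw [← hMP, hwM]; exact hDY

end Cfsg.Agent.S0541
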