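import Mathlib
import Cfsg.Statements.S0544
import Cfsg.Agent.S0543

set_option autoImplicit false
open Cfsg
open scoped Pointwise

namespace Cfsg.Agent.S0544

theorem nilpotent_of_normal_complements {X : Type*} [Group X] [Finite X]
    (C : Nat.Primes → Subgroup X) (hn : ∀ p, (C p).Normal)
    (hidx : ∀ p : Nat.Primes, ∃ k, (C p).index = (p : ℕ) ^ k)
    (hcop : ∀ p : Nat.Primes, ¬ (p : ℕ) ∣ Nat.card (C p)) : Group.IsNilpotent X := by
  classical
  let s : Finset Nat.Primes := (Nat.card X).primeFactors.subtype Nat.Prime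
  let f : X →* ∀ i : s, X ⧸ C i := MonoidHom.pi (fun i => QuotientGroup.mk' (C i))
  have hf : Function.Injective f := by
    rw [injective_iff_map_eq_one]
    intro x hx
    by_contra hx1
    have h1 : orderOf x ≠ 1 := fun h => hx1 (orderOf_eq_one_iff.1 h)
    obtain ⟨p, hp, hpx⟩ := Nat.exists_prime_and_dvd h1
    have hpX : p ∣ Nat.card X := hpx.trans (orderOf_dvd_natCard x)
    have hps : (⟨p, hp⟩ : Nat.Primes) ∈ s :=
      Finset.mem_subtype.2 (Nat.mem_primeFactors.2 ⟨hp, hpX, Nat.card_pos.ne'⟩)
    have h2 : f x ⟨⟨p, hp⟩, hps⟩ = 1 := by rw [hx]; rfl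
    haveI := hn ⟨p, hp⟩
    have h3 : x ∈ C ⟨p, hp⟩ := (QuotientGroup.eq_one_iff x).1 h2
    have h4 : orderOf x ∣ Nat.card (C ⟨p, hp⟩) := by
      have := orderOf_dvd_natCard (⟨x, h3⟩ : C ⟨p, hp⟩)
      rwa [Subgroup.orderOf_mk] at this
    exact hcop ⟨p, hp⟩ (hpx.trans h4)
  haveI : ∀ i : s, Group.IsNilpotent (X ⧸ C i) := by
    intro i
    haveI : Fact ((i : Nat.Primes) : ℕ).Prime := ⟨(i : Nat.Primes).2⟩
    obtain ⟨k, hk⟩ := hidx i
    have : IsPGroup ((i : Nat.Primes) : ℕ) (X ⧸ C i) := by
      apply IsPGroup.of_card (n := k)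
      rw [← Subgroup.index_eq_card, hk]
    exact this.isNilpotent
  have h5 : Group.IsNilpotent f.range := inferInstance
  exact Group.nilpotent_of_mulEquiv (MonoidHom.ofInjective hf).symm

/-- statement -/
theorem result {G : Type*} [Group G] [Finite G] [Group.IsSolvable G] (K : Nat.Primes → Subgroup G) (hK : Cfsg.IsComplementSystem K) : Group.IsNilpotent (Cfsg.systemNormalizer K) := by
  classical
  set D := Cfsg.systemNormalizer K with hD
  have hDle : ∀ p, D ≤ Subgroup.normalizer (K p : Set G) := fun p => iInf_le _ p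
  apply nilpotent_of_normal_complements (fun p => (K p).subgroupOf D)
  · intro p
    exact Subgroup.normal_subgroupOf_of_le_normalizer (hDle p)
  · intro p
    have h1 : (K p).relIndex D ∣ (K p).index := by
      haveI : ((K p).subgroupOf (Subgroup.normalizer (K p : Set G))).Normal :=
        Subgroup.normal_subgroupOf_of_le_normalizer le_rfl
      have h2 := Subgroup.relIndex_dvd_index_of_normal
        ((K p).subgroupOf (Subgroup.normalizer (K p : Set G)))
        (D.subgroupOf (Subgroup.normalizer (K p : Set G)))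
      rw [Subgroup.relIndex_subgroupOf (hDle p)] at h2
      exact h2.trans (Subgroup.relIndex_dvd_index_of_le Subgroup.le_normalizer)
    rw [hK p] at h1
    obtain ⟨k, _, hk⟩ := (Nat.dvd_prime_pow p.2).1 h1
    exact ⟨k, hk⟩
  · intro p hp
    have h1 : Nat.card ((K p).subgroupOf D) ∣ Nat.card (K p) := by
      have hinj : Function.Injective
          ((D.subtype.subgroupComap (K p)) : (K p).subgroupOf D →* K p) := by
        intro a b hab
        have := congrArg Subtype.val hab
        exact Subtype.ext (Subtype.ext this)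
      exact Subgroup.card_dvd_of_injective _ hinj
    rw [S0543.card_of_index (K p) p (hK p)] at h1
    exact Nat.not_dvd_ordCompl p.2 Nat.card_pos.ne' (hp.trans h1)

end Cfsg.Agent.S0544
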