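import Mathlib
import Cfsg.Statements.S0546
import Cfsg.Agent.S0545

set_option autoImplicit false
open Cfsg
open scoped Pointwise commutatorElement

namespace Cfsg.Agent.S0546

/-- statement -/
theorem result {G : Type*} [Group G] [Finite G] [Group.IsSolvable G] (K : Nat.Primes → Subgroup G) (hK : Cfsg.IsComplementSystem K) : Subgroup.normalClosure ((Cfsg.systemNormalizer K : Subgroup G) : Set G) = ⊤ := by
  classical
  set M : Subgroup G := Subgroup.normalClosure ((Cfsg.systemNormalizer K : Subgroup G) : Set G) with hM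
  have hDM : Cfsg.systemNormalizer K ≤ M := Subgroup.le_normalClosure
  haveI hMn : M.Normal := Subgroup.normalClosure_normal
  have hsup : M ⊔ commutator G = ⊤ := by
    have h1 := (S0545.result K hK (M ⊔ commutator G)).2
    have h2 : (Cfsg.systemNormalizer K).map (QuotientGroup.mk' (M ⊔ commutator G)) = ⊥ := by
      rw [eq_bot_iff]
      rintro _ ⟨d, hd, rfl⟩
      rw [Subgroup.mem_bot]
      exact (QuotientGroup.eq_one_iff d).2 (Subgroup.mem_sup_left (hDM hd))
    have hcomm : ∀ a b : G ⧸ (M ⊔ commutator G), a * b = b * a := by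
      intro a b
      obtain ⟨x, rfl⟩ := QuotientGroup.mk'_surjective _ a
      obtain ⟨y, rfl⟩ := QuotientGroup.mk'_surjective _ b
      have h3 : ⁅x, y⁆ ∈ M ⊔ commutator G := Subgroup.mem_sup_right
        (Subgroup.commutator_mem_commutator (Subgroup.mem_top x) (Subgroup.mem_top y))
      have h4 : QuotientGroup.mk' (M ⊔ commutator G) ⁅x, y⁆ = 1 := (QuotientGroup.eq_one_iff _).2 h3
      rw [map_commutatorElement, commutatorElement_eq_one_iff_mul_comm] at h4
      exact h4
    have h5 : Cfsg.systemNormalizer (fun p => (K p).map (QuotientGroup.mk' (M ⊔ commutator G))) = ⊤ := by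
      rw [eq_top_iff]
      intro a _
      unfold Cfsg.systemNormalizer
      rw [Subgroup.mem_iInf]
      intro p
      rw [Subgroup.mem_normalizer_iff]
      intro h
      rw [hcomm a h, mul_inv_cancel_right]
    rw [h5, h2] at h1
    -- the quotient is trivial
    rw [eq_top_iff]
    intro g _
    have h6 : QuotientGroup.mk' (M ⊔ commutator G) g ∈ (⊤ : Subgroup (G ⧸ (M ⊔ commutator G))) :=
      Subgroup.mem_top _
    rw [h1, Subgroup.mem_bot] at h6
    exact (QuotientGroup.eq_one_iff g).1 h6
  by_contra hne
  haveI : Nontrivial (G ⧸ M) := by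
    rw [← not_subsingleton_iff_nontrivial]
    intro hs
    exact hne (QuotientGroup.subgroup_eq_top_of_subsingleton M hs)
  have h7 := Group.IsSolvable.commutator_lt_top_of_nontrivial (G ⧸ M)
  apply h7.ne
  have h8 : (commutator G).map (QuotientGroup.mk' M) = commutator (G ⧸ M) := by
    rw [commutator_def, commutator_def, Subgroup.map_commutator,
      Subgroup.map_top_of_surjective _ (QuotientGroup.mk'_surjective M)]
  rw [← h8, eq_top_iff]
  intro y _
  obtain ⟨g, rfl⟩ := QuotientGroup.mk'_surjective M y
  have hg : g ∈ M ⊔ commutator G := by rw [hsup]; trivial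
  rw [Subgroup.mem_sup_of_normal_left] at hg
  obtain ⟨m, hm, c, hc, rfl⟩ := hg
  refine ⟨c, hc, ?_⟩
  have h9 : QuotientGroup.mk' M m = 1 := (QuotientGroup.eq_one_iff m).2 hm
  rw [map_mul, h9, one_mul]

end Cfsg.Agent.S0546
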