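import Cfsg.Statements.S0547
import Cfsg.Agent.S0043
import Cfsg.Agent.Lib.Helper2.Solvable

set_option autoImplicit false
open Cfsg

namespace Cfsg.Agent.S0547

theorem trans {G : Type*} [Group G] {Ω : Type*} [MulAction G Ω] [FaithfulSMul G Ω]
    (hprim : MulAction.IsPreprimitive G Ω) (M : Subgroup G) [M.Normal] (hM : M ≠ ⊥) :
    MulAction.IsPretransitive M Ω := by
  haveI := hprim
  apply MulAction.IsQuasiPreprimitive.isPretransitive_of_normal (G := G)
  intro h
  apply hM
  rw [eq_bot_iff]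
  intro m hm
  rw [Subgroup.mem_bot]
  apply FaithfulSMul.eq_of_smul_eq_smul (α := Ω)
  intro ω
  have : ω ∈ MulAction.fixedPoints M Ω := by rw [h]; trivial
  rw [one_smul]
  exact this ⟨m, hm⟩

theorem fix_all {G : Type*} [Group G] {Ω : Type*} [MulAction G Ω] [FaithfulSMul G Ω]
    (M : Subgroup G) (htr : MulAction.IsPretransitive M Ω) (ω : Ω) (h : G) (hω : h • ω = ω)
    (hc : ∀ m ∈ M, h * m = m * h) : h = 1 := by
  apply FaithfulSMul.eq_of_smul_eq_smul (α := Ω)
  intro ω'
  obtain ⟨m, rfl⟩ := htr.exists_smul_eq ω ω'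
  rw [one_smul]
  show h • ((m : G) • ω) = (m : G) • ω
  rw [← mul_smul, hc m m.2, mul_smul, hω]

/-- Let a finite solvable group G act faithfully and primitively on a set, and let M be a minimal normal subgroup of G. Then M is transitive with trivial point stabilizers, and the number of points equals the order of M, which is a prime power p ^ d with d ≥ 1. -/
theorem result {G : Type*} [Group G] [Finite G] [Group.IsSolvable G] {Ω : Type*} [Nonempty Ω] [MulAction G Ω] [FaithfulSMul G Ω] (hprim : MulAction.IsPreprimitive G Ω) (M : Subgroup G) [M.Normal] (hM : M ≠ ⊥) (hmin : ∀ K : Subgroup G, K.Normal → K ≤ M → K = ⊥ ∨ K = M) : MulAction.IsPretransitive M Ω ∧ (∀ ω : Ω, MulAction.stabilizer M ω = ⊥) ∧ ∃ p d : ℕ, p.Prime ∧ 0 < d ∧ Nat.card Ω = p ^ d ∧ Nat.card M = p ^ d := by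
  obtain ⟨hab, p, hp, hexp⟩ := S0043.result M hM hmin
  have htr := trans hprim M hM
  have hstab : ∀ ω : Ω, MulAction.stabilizer M ω = ⊥ := by
    intro ω
    rw [eq_bot_iff]
    intro m hm
    rw [Subgroup.mem_bot]
    apply Subtype.ext
    apply fix_all M htr ω (m : G) hm
    intro n hn
    exact congrArg Subtype.val (hab.is_comm.comm m ⟨n, hn⟩)
  refine ⟨htr, hstab, ?_⟩
  have hpg : IsPGroup p M := Cfsg.Agent.Lib.Helper2.Solvable.isPGroup_of_pow_eq_one hexp
  haveI : Fact p.Prime := ⟨hp⟩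
  obtain ⟨d, hd⟩ := IsPGroup.iff_card.1 hpg
  obtain ⟨ω⟩ := ‹Nonempty Ω›
  have hcard : Nat.card Ω = Nat.card M := by
    symm
    refine Nat.card_congr (Equiv.ofBijective (fun m : M => m • ω) ⟨?_, ?_⟩)
    · intro a b hab'
      have hab'' : a • ω = b • ω := hab'
      have : a⁻¹ * b ∈ MulAction.stabilizer M ω := by
        rw [MulAction.mem_stabilizer_iff, mul_smul, ← hab'', inv_smul_smul]
      rw [hstab, Subgroup.mem_bot] at this
      exact (inv_mul_eq_one.1 this)
    · intro ω'
      exact htr.exists_smul_eq ω ω'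
  refine ⟨p, d, hp, ?_, by rw [hcard, hd], hd⟩
  rcases Nat.eq_zero_or_pos d with h0 | h0
  · exfalso
    rw [h0, pow_zero] at hd
    exact hM (Subgroup.card_eq_one.1 hd)
  · exact h0

end Cfsg.Agent.S0547
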