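import Cfsg.Statements.S0548
import Cfsg.Agent.S0547

set_option autoImplicit false
open Cfsg

namespace Cfsg.Agent.S0548

/-- Let a finite solvable group G act faithfully and primitively on a set, let M be a minimal normal subgroup and H the stabilizer of a point. Then H is a complement to M, no non-identity element of H centralizes M, and the only subgroups of M normalized by H are the trivial subgroup and M. -/
theorem result {G : Type*} [Group G] [Finite G] [Group.IsSolvable G] {Ω : Type*} [MulAction G Ω] [FaithfulSMul G Ω] (hprim : MulAction.IsPreprimitive G Ω) (M : Subgroup G) [M.Normal] (hM : M ≠ ⊥) (hmin : ∀ K : Subgroup G, K.Normal → K ≤ M → K = ⊥ ∨ K = M) (ω : Ω) : Subgroup.IsComplement' M (MulAction.stabilizer G ω) ∧ MulAction.stabilizer G ω ⊓ Subgroup.centralizer (M : Set G) = ⊥ ∧ ∀ K : Subgroup G, K ≤ M → MulAction.stabilizer G ω ≤ Subgroup.normalizer (K : Set G) → K = ⊥ ∨ K = M := by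
  obtain ⟨hab, p, hp, hexp⟩ := S0043.result M hM hmin
  have htr := S0547.trans hprim M hM
  have hcomm : ∀ m ∈ M, ∀ n ∈ M, m * n = n * m := by
    intro m hm n hn
    exact congrArg Subtype.val (hab.is_comm.comm ⟨m, hm⟩ ⟨n, hn⟩)
  have hdisj : M ⊓ MulAction.stabilizer G ω = ⊥ := by
    rw [eq_bot_iff]
    rintro m ⟨hm, hs⟩
    rw [Subgroup.mem_bot]
    exact S0547.fix_all M htr ω m hs (fun n hn => hcomm m hm n hn)
  have hmul : ∀ g : G, ∃ m ∈ M, ∃ h ∈ MulAction.stabilizer G ω, g = m * h := by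
    intro g
    obtain ⟨m, hm⟩ := htr.exists_smul_eq ω (g • ω)
    have hm' : (m : G) • ω = g • ω := hm
    refine ⟨m, m.2, (m : G)⁻¹ * g, ?_, by group⟩
    rw [MulAction.mem_stabilizer_iff, mul_smul, ← hm', inv_smul_smul]
  refine ⟨?_, ?_, ?_⟩
  · apply Subgroup.isComplement'_of_disjoint_and_mul_eq_univ (disjoint_iff.2 hdisj)
    apply Set.eq_univ_of_forall
    intro g
    obtain ⟨m, hm, h, hh, rfl⟩ := hmul g
    exact Set.mul_mem_mul hm hh
  · rw [eq_bot_iff]
    rintro h ⟨hs, hc⟩
    rw [Subgroup.mem_bot]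
    exact S0547.fix_all M htr ω h hs (fun n hn => ((Subgroup.mem_centralizer_iff.1 hc) n hn).symm)
  · intro K hKM hK
    apply hmin K _ hKM
    constructor
    intro k hk g
    obtain ⟨m, hm, h, hh, rfl⟩ := hmul g
    have h1 : h * k * h⁻¹ ∈ K := (Subgroup.mem_normalizer_iff.1 (hK hh) k).1 hk
    have h2 : m * h * k * (m * h)⁻¹ = h * k * h⁻¹ := by
      have := hcomm m hm _ (hKM h1)
      calc m * h * k * (m * h)⁻¹ = (m * (h * k * h⁻¹)) * m⁻¹ := by group
        _ = h * k * h⁻¹ := by rw [this, mul_inv_cancel_right]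
    rw [h2]
    exact h1

end Cfsg.Agent.S0548
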