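import Mathlib
import Cfsg.Statements.S0549
import Cfsg.Agent.Lib.Helper2.Frattini

set_option autoImplicit false
open Cfsg

namespace Cfsg.Agent.S0549

open Cfsg.Agent.Lib.Helper2.Frattini

theorem sup_eq_top {G : Type*} [Group G] (U : Subgroup G) (hU : IsCoatom U) (hcore : U.normalCore = ⊥)
    (N : Subgroup G) (hNn : N.Normal) (hN : N ≠ ⊥) : N ⊔ U = ⊤ := by
  refine hU.2 _ (lt_of_le_of_ne le_sup_right ?_)
  intro h
  have h1 : N ≤ U := h ▸ le_sup_left
  have h2 : N ≤ U.normalCore := (Subgroup.normal_le_normalCore).mpr h1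
  exact hN (le_bot_iff.mp (hcore ▸ h2))

theorem result {G : Type*} [Group G] [Finite G] (U : Subgroup G) (hU : IsCoatom U) (hcore : U.normalCore = ⊥) (N : Subgroup G) [N.Normal] (hN : N ≠ ⊥) : Subgroup.centralizer (N : Set G) ⊓ U = ⊥ ∧ (Subgroup.centralizer (N : Set G) = ⊥ ∨ (Subgroup.centralizer (N : Set G) ≠ ⊥ ∧ ∀ K : Subgroup G, K.Normal → K ≤ Subgroup.centralizer (N : Set G) → K = ⊥ ∨ K = Subgroup.centralizer (N : Set G))) := by
  have hNU := sup_eq_top U hU hcore N inferInstance hN
  have hCn : (Subgroup.centralizer (N : Set G)).Normal := inferInstance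
  have h1 : Subgroup.centralizer (N : Set G) ⊓ U = ⊥ := by
    have hn : (Subgroup.centralizer (N : Set G) ⊓ U).Normal := by
      rw [← Subgroup.normalizer_eq_top_iff, eq_top_iff, ← hNU]
      refine sup_le ?_ ?_
      · rw [Subgroup.le_normalizer_iff]
        intro a ha x hx
        have : a * x = x * a := (Subgroup.mem_centralizer_iff.mp hx.1 a ha)
        rw [this]; simpa using hx
      · rw [Subgroup.le_normalizer_iff]
        intro h hh x hx
        exact Subgroup.mem_inf.mpr ⟨hCn.conj_mem x hx.1 h,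
          mul_mem (mul_mem hh hx.2) (inv_mem hh)⟩
    have h2 : Subgroup.centralizer (N : Set G) ⊓ U ≤ U.normalCore :=
      (Subgroup.normal_le_normalCore).mpr inf_le_right
    exact le_bot_iff.mp (hcore ▸ h2)
  refine ⟨h1, ?_⟩
  by_cases hC : Subgroup.centralizer (N : Set G) = ⊥
  · exact Or.inl hC
  · refine Or.inr ⟨hC, fun K hKn hK => ?_⟩
    by_cases hKb : K = ⊥
    · exact Or.inl hKb
    · right
      have := dedekind hKn hK (sup_eq_top U hU hcore K hKn hKb)
      rw [h1, sup_bot_eq] at this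
      exact this

end Cfsg.Agent.S0549
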