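import Mathlib
import Cfsg.Statements.S0550
import Cfsg.Agent.S0549

set_option autoImplicit false
open Cfsg

namespace Cfsg.Agent.S0550

theorem iso_aux {G : Type*} [Group G] (A B U : Subgroup G) [A.Normal] [B.Normal]
    (hAB : A ⊓ B = ⊥) (hBU' : B ⊓ U = ⊥) (hBU : B ⊔ U = ⊤) :
    Nonempty (A ≃* ↥((A ⊔ B) ⊓ U)) := by
  classical
  set D : Subgroup G := (A ⊔ B) ⊓ U with hD
  let π := QuotientGroup.mk' B
  let fA : A →* G ⧸ B := π.comp A.subtype
  let fD : D →* G ⧸ B := π.comp D.subtype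
  have hπ : ∀ x : G, π x = 1 ↔ x ∈ B := fun x => QuotientGroup.eq_one_iff x
  have hfA : Function.Injective fA := by
    rw [injective_iff_map_eq_one]
    intro a ha
    have h1 : (a : G) ∈ B := (hπ _).1 ha
    have h2 : (a : G) ∈ A ⊓ B := ⟨a.2, h1⟩
    rw [hAB, Subgroup.mem_bot] at h2
    exact Subtype.ext h2
  have hfD : Function.Injective fD := by
    rw [injective_iff_map_eq_one]
    intro a ha
    have h1 : (a : G) ∈ B := (hπ _).1 ha
    have h2 : (a : G) ∈ B ⊓ U := ⟨h1, a.2.2⟩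
    rw [hBU', Subgroup.mem_bot] at h2
    exact Subtype.ext h2
  have hrange : fA.range = fD.range := by
    ext y
    constructor
    · rintro ⟨a, rfl⟩
      have h1 : (a : G) ∈ B ⊔ U := by rw [hBU]; trivial
      rw [Subgroup.mem_sup_of_normal_left] at h1
      obtain ⟨b, hb, u, hu, hbu⟩ := h1
      have hu' : u ∈ D := by
        refine ⟨?_, hu⟩
        have : u = b⁻¹ * (a : G) := by rw [← hbu]; group
        rw [this]
        exact Subgroup.mul_mem _ (Subgroup.mem_sup_right (B.inv_mem hb)) (Subgroup.mem_sup_left a.2)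
      refine ⟨⟨u, hu'⟩, ?_⟩
      show π u = π (a : G)
      rw [← hbu, map_mul, (hπ b).2 hb, one_mul]
    · rintro ⟨d, rfl⟩
      have h1 : (d : G) ∈ A ⊔ B := d.2.1
      rw [Subgroup.mem_sup_of_normal_left] at h1
      obtain ⟨a, ha, b, hb, hab⟩ := h1
      refine ⟨⟨a, ha⟩, ?_⟩
      show π a = π (d : G)
      rw [← hab, map_mul, (hπ b).2 hb, mul_one]
  exact ⟨(MonoidHom.ofInjective hfA).trans
    ((MulEquiv.subgroupCongr hrange).trans (MonoidHom.ofInjective hfD).symm)⟩

theorem cent_aux {G : Type*} [Group G] (A B U : Subgroup G) [B.Normal]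
    (hBle : B ≤ Subgroup.centralizer (A : Set G)) (hCA : Subgroup.centralizer (A : Set G) ⊓ U = ⊥)
    (hBU : B ⊔ U = ⊤) : Subgroup.centralizer (A : Set G) = B := by
  apply le_antisymm _ hBle
  intro x hx
  have h1 : x ∈ B ⊔ U := by rw [hBU]; trivial
  rw [Subgroup.mem_sup_of_normal_left] at h1
  obtain ⟨b, hb, u, hu, hbu⟩ := h1
  have h2 : u ∈ Subgroup.centralizer (A : Set G) ⊓ U := by
    refine ⟨?_, hu⟩
    have : u = b⁻¹ * x := by rw [← hbu]; group
    rw [this]
    exact Subgroup.mul_mem _ (Subgroup.inv_mem _ (hBle hb)) hx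
  rw [hCA, Subgroup.mem_bot] at h2
  rw [← hbu, h2, mul_one]
  exact hb

theorem sup_aux {G : Type*} [Group G] (U : Subgroup G) (hU : IsCoatom U)
    (hcore : U.normalCore = ⊥) (A : Subgroup G) [A.Normal] (hA : A ≠ ⊥) : A ⊔ U = ⊤ := by
  by_contra hne
  have h1 : U ≤ A ⊔ U := le_sup_right
  rcases eq_or_lt_of_le h1 with h2 | h2
  · have h3 : A ≤ U := h2 ▸ le_sup_left
    have h4 : A ≤ U.normalCore := (Subgroup.normal_le_normalCore).2 h3
    rw [hcore] at h4
    exact hA (le_bot_iff.1 h4)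
  · exact hne (hU.2 _ h2)

theorem compl_aux {G : Type*} [Group G] (A U : Subgroup G) [A.Normal] (h1 : A ⊓ U = ⊥)
    (h2 : A ⊔ U = ⊤) : Subgroup.IsComplement' A U := by
  apply Subgroup.isComplement'_of_disjoint_and_mul_eq_univ (disjoint_iff.2 h1)
  rw [← Subgroup.normal_mul, h2]
  rfl

/-- statement -/
theorem result {G : Type*} [Group G] [Finite G] (U : Subgroup G) (hU : IsCoatom U) (hcore : U.normalCore = ⊥) (A B : Subgroup G) [A.Normal] [B.Normal] (hA : A ≠ ⊥) (hB : B ≠ ⊥) (hAmin : ∀ K : Subgroup G, K.Normal → K ≤ A → K = ⊥ ∨ K = A) (hBmin : ∀ K : Subgroup G, K.Normal → K ≤ B → K = ⊥ ∨ K = B) (hAB : A ≠ B) : Subgroup.centralizer (B : Set G) = A ∧ Subgroup.centralizer (A : Set G) = B ∧ Subgroup.IsComplement' A U ∧ Subgroup.IsComplement' B U ∧ ¬ IsMulCommutative A ∧ Nonempty (A ≃* B) ∧ Nonempty (A ≃* ↥((A ⊔ B) ⊓ U)) := by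
  classical
  have hAU := sup_aux U hU hcore A hA
  have hBU := sup_aux U hU hcore B hB
  have hABbot : A ⊓ B = ⊥ := by
    rcases hAmin (A ⊓ B) inferInstance inf_le_left with h | h
    · exact h
    · exfalso
      have h1 : A ≤ B := h ▸ inf_le_right
      rcases hBmin A inferInstance h1 with h2 | h2
      · exact hA h2
      · exact hAB h2
  have hcomm : ∀ a ∈ A, ∀ b ∈ B, a * b = b * a := fun a ha b hb =>
    Subgroup.commute_of_normal_of_disjoint A B inferInstance inferInstance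
      (disjoint_iff.2 hABbot) a b ha hb
  have hBle : B ≤ Subgroup.centralizer (A : Set G) := by
    intro b hb
    rw [Subgroup.mem_centralizer_iff]
    intro a ha
    exact hcomm a ha b hb
  have hAle : A ≤ Subgroup.centralizer (B : Set G) := by
    intro a ha
    rw [Subgroup.mem_centralizer_iff]
    intro b hb
    exact (hcomm a ha b hb).symm
  have hCA := (S0549.result U hU hcore A hA).1
  have hCB := (S0549.result U hU hcore B hB).1
  have hCAeq := cent_aux A B U hBle hCA hBU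
  have hCBeq := cent_aux B A U hAle hCB hAU
  have hAU' : A ⊓ U = ⊥ := by rw [← hCBeq]; exact hCB
  have hBU' : B ⊓ U = ⊥ := by rw [← hCAeq]; exact hCA
  obtain ⟨e1⟩ := iso_aux A B U hABbot hBU' hBU
  obtain ⟨e2⟩ := iso_aux B A U (by rw [inf_comm]; exact hABbot) hAU' hAU
  have hsup : (B ⊔ A) ⊓ U = (A ⊔ B) ⊓ U := by rw [sup_comm]
  refine ⟨hCBeq, hCAeq, compl_aux A U hAU' hAU, compl_aux B U hBU' hBU, ?_,
    ⟨e1.trans ((MulEquiv.subgroupCongr hsup).symm.trans e2.symm)⟩, ⟨e1⟩⟩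
  intro hc
  have h1 : A ≤ Subgroup.centralizer (A : Set G) := by
    intro a ha
    rw [Subgroup.mem_centralizer_iff]
    intro a' ha'
    have := hc.is_comm.comm ⟨a', ha'⟩ ⟨a, ha⟩
    exact congrArg Subtype.val this
  rw [hCAeq] at h1
  rcases hBmin A inferInstance h1 with h2 | h2
  · exact hA h2
  · exact hAB h2

end Cfsg.Agent.S0550
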