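import Mathlib
import Cfsg.Statements.S0551
import Cfsg.Agent.S0549
import Cfsg.Agent.Lib.Helper2.Solvable
import Cfsg.Agent.Lib.Helper2.Conj
import Cfsg.Agent.Lib.Helper1.SZQuot

set_option autoImplicit false
open Pointwise
open Cfsg

namespace Cfsg.Agent.S0551

open Cfsg.Agent.Lib.Helper2.Frattini Cfsg.Agent.Lib.Helper2.Solvable Cfsg.Agent.Lib.Helper2.Conj

theorem prim {G : Type*} [Group G] [Finite G] (U : Subgroup G) (hU : IsCoatom U)
    (hcore : U.normalCore = ⊥) (N : Subgroup G) (hNn : N.Normal) (hN : N ≠ ⊥)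
    (hab : ∀ x ∈ N, ∀ y ∈ N, x * y = y * x) :
    N ⊔ U = ⊤ ∧ N ⊓ U = ⊥ ∧ Subgroup.centralizer (N : Set G) = N := by
  have h1 := Cfsg.Agent.S0549.sup_eq_top U hU hcore N hNn hN
  have h2 := (Cfsg.Agent.S0549.result U hU hcore N hN).1
  have h3 : N ≤ Subgroup.centralizer (N : Set G) := by
    intro x hx
    rw [Subgroup.mem_centralizer_iff]
    intro y hy
    exact hab y hy x hx
  refine ⟨h1, ?_, ?_⟩
  · rw [← le_bot_iff, ← h2]
    exact inf_le_inf_right U h3
  · have := dedekind hNn h3 h1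
    rw [h2, sup_bot_eq] at this
    exact this.symm

theorem card_compl {G : Type*} [Group G] [Finite G] (N U : Subgroup G) [N.Normal]
    (h1 : N ⊔ U = ⊤) (h2 : N ⊓ U = ⊥) : Nat.card U * Nat.card N = Nat.card G := by
  have := Cfsg.Agent.Lib.Helper1.card_sup_mul_card_inf U N
  rw [sup_comm, h1, inf_comm, h2, Subgroup.card_bot, mul_one, Subgroup.card_top] at this
  exact this.symm

theorem result {G : Type*} [Group G] [Finite G] [Group.IsSolvable G] (U V : Subgroup G) (hU : IsCoatom U) (hV : IsCoatom V) (hUc : U.normalCore = ⊥) (hVc : V.normalCore = ⊥) : ∃ g : G, MulAut.conj g • U = V := by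
  haveI : Nontrivial G := by
    by_contra h
    rw [not_nontrivial_iff_subsingleton] at h
    exact hU.1 (Subsingleton.elim _ _)
  obtain ⟨p, N, hp, hNn, hN1, hNp, hNab⟩ := exists_normal_elementary_abelian (G := G)
  obtain ⟨hNU, hNiU, hCN⟩ := prim U hU hUc N hNn hN1 hNab
  obtain ⟨hNV, hNiV, -⟩ := prim V hV hVc N hNn hN1 hNab
  have hcU := card_compl N U hNU hNiU
  have hcV := card_compl N V hNV hNiV
  have hcUV : Nat.card U = Nat.card V :=
    Nat.eq_of_mul_eq_mul_right Nat.card_pos (hcU.trans hcV.symm)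
  by_cases hNtop : N = ⊤
  · refine ⟨1, ?_⟩
    rw [hNtop, top_inf_eq] at hNiU hNiV
    rw [conj_one_smul, hNiU, hNiV]
  haveI : Nontrivial (G ⧸ N) := by
    rw [← Finite.one_lt_card_iff_nontrivial, ← Subgroup.index_eq_card]
    have h0 : N.index ≠ 0 := Subgroup.index_ne_zero_of_finite
    have h1 : N.index ≠ 1 := fun h => hNtop (Subgroup.index_eq_one.mp h)
    omega
  obtain ⟨q, Lb, hq, hLbn, hLb1, hLbq, hLbab⟩ := exists_normal_elementary_abelian (G := G ⧸ N)
  set L := Lb.comap (QuotientGroup.mk' N) with hL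
  have hLn : L.Normal := hLbn.comap _
  have hNL : N ≤ L := by
    have := Subgroup.ker_le_comap (QuotientGroup.mk' N) Lb
    rwa [QuotientGroup.ker_mk'] at this
  have hLc : Nat.card L = Nat.card N * Nat.card Lb := Cfsg.Agent.Lib.Helper1.card_comap_mk' N Lb
  haveI : Fact p.Prime := ⟨hp⟩
  haveI : Fact q.Prime := ⟨hq⟩
  obtain ⟨a, ha⟩ := IsPGroup.iff_card.mp (isPGroup_of_pow_eq_one hNp)
  obtain ⟨k, hk⟩ := IsPGroup.iff_card.mp (isPGroup_of_pow_eq_one hLbq)
  have hLb1' : 1 < Nat.card Lb := by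
    rw [Finite.one_lt_card_iff_nontrivial]
    exact (Subgroup.nontrivial_iff_ne_bot Lb).mpr hLb1
  have hqp : q ≠ p := by
    intro hqp
    subst hqp
    have hLp : IsPGroup q L := IsPGroup.of_card (n := a + k) (by rw [hLc, ha, hk, pow_add])
    haveI : Nontrivial L := by
      rw [← Finite.one_lt_card_iff_nontrivial, hLc]
      have : 0 < Nat.card N := Nat.card_pos
      nlinarith
    have hZnt := hLp.center_nontrivial
    set Z := (Subgroup.center L).map L.subtype with hZ
    have hZn : Z.Normal := ConjAct.normal_of_characteristic_of_normal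
    have hZ1 : Z ≠ ⊥ := by
      intro h
      rw [hZ, Subgroup.map_eq_bot_iff_of_injective _ L.subtype_injective] at h
      exact (Subgroup.nontrivial_iff_ne_bot _).mp hZnt h
    have hZc : ∀ z ∈ Z, ∀ y ∈ L, z * y = y * z := by
      rintro _ ⟨z, hz, rfl⟩ y hy
      have := Subgroup.mem_center_iff.mp hz ⟨y, hy⟩
      exact (congrArg Subtype.val this).symm
    have hZL : Z ≤ L := Subgroup.map_subtype_le _
    obtain ⟨-, -, hCZ⟩ := prim U hU hUc Z hZn hZ1 (fun x hx y hy => hZc x hx y (hZL hy))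
    have hLZ : L ≤ Z := by
      rw [← hCZ]
      intro y hy
      rw [Subgroup.mem_centralizer_iff]
      intro z hz
      exact hZc z hz y hy
    have hLN : L ≤ N := by
      rw [← hCN]
      intro y hy
      rw [Subgroup.mem_centralizer_iff]
      intro z hz
      exact (hZc y (hLZ hy) z (hNL hz)).symm
    have : Nat.card L ≤ Nat.card N := Subgroup.card_le_of_le hLN
    rw [hLc] at this
    have h0 : 0 < Nat.card N := Nat.card_pos
    nlinarith
  -- the intersections with L
  have hD : ∀ W : Subgroup G, N ⊔ W = ⊤ → N ⊓ W = ⊥ → Nat.card (L ⊓ W : Subgroup G) = q ^ k := by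
    intro W h1 h2
    have h3 := dedekind hNn hNL h1
    have h4 := Cfsg.Agent.Lib.Helper1.card_sup_mul_card_inf (L ⊓ W) N
    have h5 : (L ⊓ W) ⊓ N = ⊥ := by
      rw [← le_bot_iff, ← h2]
      exact le_inf inf_le_right (inf_le_left.trans inf_le_right)
    rw [sup_comm, h3, h5, Subgroup.card_bot, mul_one, hLc, mul_comm, hk] at h4
    exact (Nat.eq_of_mul_eq_mul_right Nat.card_pos h4).symm
  have hfac : (Nat.card L).factorization q = k := by
    rw [hLc, ha, hk, Nat.factorization_mul (pow_ne_zero _ hp.ne_zero) (pow_ne_zero _ hq.ne_zero),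
      Finsupp.add_apply, Nat.factorization_pow, Nat.factorization_pow, Finsupp.smul_apply,
      Finsupp.smul_apply, hq.factorization_self,
      Nat.factorization_eq_zero_of_not_dvd (fun h => hqp ((Nat.prime_dvd_prime_iff_eq hq hp).mp h))]
    simp
  obtain ⟨l, -, hl⟩ := Cfsg.Agent.Lib.Helper1.sylow_conj_in (p := q) L (L ⊓ U) (L ⊓ V) inf_le_left inf_le_left
    (by rw [hfac]; exact hD U hNU hNiU) (by rw [hfac]; exact hD V hNV hNiV)
  have hnorm : ∀ W : Subgroup G, W ≤ Subgroup.normalizer ((L ⊓ W : Subgroup G) : Set G) := by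
    intro W
    rw [Subgroup.le_normalizer_iff]
    intro w hw x hx
    exact Subgroup.mem_inf.mpr ⟨hLn.conj_mem x hx.1 w, mul_mem (mul_mem hw hx.2) (inv_mem hw)⟩
  have hVN : Subgroup.normalizer ((L ⊓ V : Subgroup G) : Set G) = V := by
    by_contra hne
    have h1 := hV.2 _ (lt_of_le_of_ne (hnorm V) (Ne.symm hne))
    have h2 : (L ⊓ V).Normal := Subgroup.normalizer_eq_top_iff.mp h1
    have h3 : L ⊓ V ≤ V.normalCore := Subgroup.normal_le_normalCore.mpr inf_le_right
    rw [hVc, le_bot_iff] at h3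
    have h4 := hD V hNV hNiV
    rw [h3, Subgroup.card_bot, ← hk] at h4
    omega
  refine ⟨l, Subgroup.eq_of_le_of_card_ge ?_ ?_⟩
  · rw [← hVN]
    intro x hx
    rw [mem_conj_smul] at hx
    rw [← conj_smul_eq_iff_mem_normalizer, ← hl, ← conj_mul_smul]
    have h1 : x * l = l * (l⁻¹ * x * l) := by group
    rw [h1, conj_mul_smul, conj_smul_eq_iff_mem_normalizer.mpr (hnorm U hx)]
  · rw [card_conj_smul, hcUV]

end Cfsg.Agent.S0551
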