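import Cfsg.Statements.S0552
import Cfsg.Agent.Lib.Helper1.FittingSolv

set_option autoImplicit false
open Cfsg

namespace Cfsg.Agent.S0552

open Cfsg.Agent.Lib.Helper1

/-- Let σ be an automorphism of a finite solvable group G fixing every element of the Fitting subgroup. If σ is not the identity then the order of σ and the order of G have a common prime factor. -/
theorem result {G : Type*} [Group G] [Finite G] [Group.IsSolvable G] (σ : G ≃* G) (hσ : ∀ x ∈ Cfsg.fittingSubgroup G, σ x = x) (hne : σ ≠ MulEquiv.refl G) : ¬ (orderOf σ).Coprime (Nat.card G) := by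
  intro hcop
  apply hne
  ext g
  show σ g = g
  have hFn : (Cfsg.fittingSubgroup G).Normal := fitting_normal
  have h1 : g⁻¹ * σ g ∈ Cfsg.fittingSubgroup G := by
    apply centralizer_fitting_le
    rw [Subgroup.mem_centralizer_iff]
    intro x hx
    have h2 := hσ _ (hFn.conj_mem x hx g)
    rw [map_mul, map_mul, hσ x hx, map_inv] at h2
    have h3 : σ g * x = g * x * g⁻¹ * σ g := by
      rw [← h2]; group
    calc x * (g⁻¹ * σ g) = g⁻¹ * (g * x * g⁻¹ * σ g) := by group
      _ = g⁻¹ * (σ g * x) := by rw [h3]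
      _ = g⁻¹ * σ g * x := by group
  have h4 : ∀ k : ℕ, (σ ^ k) g = g * (g⁻¹ * σ g) ^ k := by
    intro k
    induction k with
    | zero => simp
    | succ k ih =>
      rw [pow_succ', MulAut.mul_apply, ih, map_mul, map_pow, hσ _ h1, pow_succ', ← mul_assoc,
        mul_inv_cancel_left]
  have h5 := h4 (orderOf σ)
  rw [pow_orderOf_eq_one, MulAut.one_apply] at h5
  have h6 : (g⁻¹ * σ g) ^ orderOf σ = 1 := by
    have := h5.symm
    rwa [mul_eq_left] at this
  have h7 : orderOf (g⁻¹ * σ g) ∣ orderOf σ := orderOf_dvd_of_pow_eq_one h6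
  have h8 : orderOf (g⁻¹ * σ g) ∣ Nat.card G := orderOf_dvd_natCard _
  have h9 := Nat.eq_one_of_dvd_coprimes hcop h7 h8
  rw [orderOf_eq_one_iff, inv_mul_eq_one] at h9
  exact h9.symm

end Cfsg.Agent.S0552
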