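import Mathlib
import Cfsg.Statements.S0553
import Cfsg.Agent.Lib.Helper2.Basic
import Cfsg.Agent.Lib.Helper2.Solvable

set_option autoImplicit false
open Cfsg
open Cfsg.Agent.Lib.Helper2.Basic Cfsg.Agent.Lib.Helper2.Solvable

namespace Cfsg.Agent.S0553

universe u

theorem aux : ∀ (n : ℕ) (G : Type u) [Group G] [Finite G] [Group.IsSolvable G] [Nontrivial G], Nat.card G = n →
    (∀ M : Subgroup G, IsCoatom M → (Nat.card M).Coprime M.index) →
    ∃ p : ℕ, p.Prime ∧ p ∣ Nat.card G ∧ ∀ P : Sylow p G, (P : Subgroup G).Normal := by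
  intro n
  induction n using Nat.strong_induction_on with
  | _ n ih =>
  intro G _ _ _ _ hn h
  obtain ⟨p, N, hp, hNn, hN1, hNp, -⟩ := exists_normal_elementary_abelian (G := G)
  have : Fact p.Prime := ⟨hp⟩
  have hNpg : IsPGroup p N := isPGroup_of_pow_eq_one hNp
  have hNcard : 1 < Nat.card N := by
    rw [Finite.one_lt_card_iff_nontrivial]
    exact (Subgroup.nontrivial_iff_ne_bot N).mpr hN1
  have hpN : p ∣ Nat.card N := by
    obtain ⟨k, hk⟩ := IsPGroup.iff_card.mp hNpg
    rw [hk] at hNcard ⊢
    cases k with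
    | zero => simp at hNcard
    | succ k => exact dvd_pow_self p (Nat.succ_ne_zero k)
  have hpG : p ∣ Nat.card G := hpN.trans (Subgroup.card_subgroup_dvd_card N)
  by_cases hcase : ∃ M : Subgroup G, IsCoatom M ∧ ¬ N ≤ M
  · obtain ⟨M, hM, hNM⟩ := hcase
    have hsup : N ⊔ M = ⊤ := by
      apply hM.2
      refine lt_of_le_of_ne le_sup_right ?_
      intro he
      apply hNM
      rw [he]; exact le_sup_left
    -- index of M is a power of p
    have hrel : M.relIndex N = M.index := relIndex_eq_index_of_sup_eq_top N M hsup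
    have hdvd : M.index ∣ Nat.card N := by
      rw [← hrel]; exact Subgroup.relIndex_dvd_card M N
    obtain ⟨k, hk⟩ := IsPGroup.iff_card.mp hNpg
    rw [hk] at hdvd
    obtain ⟨j, -, hj⟩ := (Nat.dvd_prime_pow hp).mp hdvd
    have hj0 : j ≠ 0 := by
      intro h0
      rw [h0, pow_zero, Subgroup.index_eq_one] at hj
      exact hM.1 hj
    have hpM : ¬ p ∣ Nat.card M := by
      intro hd
      have hc := h M hM
      rw [hj] at hc
      have : p ∣ Nat.gcd (Nat.card M) (p ^ j) := Nat.dvd_gcd hd (dvd_pow_self p hj0)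
      rw [hc] at this
      exact hp.one_lt.ne' (Nat.dvd_one.mp this)
    have hNidx : ¬ p ∣ N.index := by
      intro hd
      apply hpM
      -- N.index divides card M
      have h1 : N.relIndex M = N.index := by
        rw [← Subgroup.relIndex_sup_left, hsup, Subgroup.relIndex_top_right]
      rw [← h1] at hd
      exact hd.trans (Subgroup.relIndex_dvd_card N M)
    refine ⟨p, hp, hpG, ?_⟩
    let P0 : Sylow p G := hNpg.toSylow hNidx
    have hP0 : (P0 : Subgroup G).Normal := by
      rw [IsPGroup.toSylow_coe]; exact hNn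
    have := Sylow.unique_of_normal P0 hP0
    intro P
    rw [Subsingleton.elim P P0]; exact hP0
  · push Not at hcase
    have hNfr : N ≤ frattini G := by
      unfold frattini Order.radical
      exact le_iInf₂ (fun M hM => hcase M hM)
    have hNtop : N ≠ ⊤ := by
      intro he
      obtain ⟨M, hM, -⟩ := exists_isCoatom_ge (G := G) (H := ⊥) bot_ne_top
      apply hM.1
      exact top_le_iff.mp (he ▸ hcase M hM)
    have hQnt : Nontrivial (G ⧸ N) := by
      rw [← Finite.one_lt_card_iff_nontrivial, ← Subgroup.index_eq_card]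
      have h0 : N.index ≠ 0 := Subgroup.index_ne_zero_of_finite
      have h1 : N.index ≠ 1 := fun h => hNtop (Subgroup.index_eq_one.mp h)
      omega
    have hlt : Nat.card (G ⧸ N) < n := by
      rw [← hn, ← Subgroup.index_eq_card]
      have h1 : N.index * Nat.card N = Nat.card G := Subgroup.index_mul_card _
      have h4 : 0 < N.index := Nat.pos_of_ne_zero (Subgroup.index_ne_zero_of_finite)
      nlinarith
    obtain ⟨q, hq, hqd, hqn⟩ := ih _ hlt (G ⧸ N) rfl (by
      intro M hM
      have hs := QuotientGroup.mk'_surjective N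
      have h1 := h _ (isCoatom_comap_of_surjective hs hM)
      rw [Subgroup.index_comap_of_surjective _ hs] at h1
      have h2 : Nat.card M ∣ Nat.card (M.comap (QuotientGroup.mk' N)) := by
        have := Subgroup.card_map_dvd (M.comap (QuotientGroup.mk' N)) (QuotientGroup.mk' N)
        rwa [Subgroup.map_comap_eq_self_of_surjective hs] at this
      exact Nat.Coprime.coprime_dvd_left h2 h1)
    have : Fact q.Prime := ⟨hq⟩
    refine ⟨q, hq, hqd.trans (Subgroup.card_quotient_dvd_card N), ?_⟩
    intro Q
    have hs := QuotientGroup.mk'_surjective N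
    have h1 : ((Q : Subgroup G).map (QuotientGroup.mk' N)).Normal := hqn (Q.mapSurjective hs)
    have h2 : (((Q : Subgroup G).map (QuotientGroup.mk' N)).comap (QuotientGroup.mk' N)).Normal := h1.comap _
    rw [Subgroup.comap_map_eq, QuotientGroup.ker_mk'] at h2
    have h3 := Sylow.normalizer_sup_eq_top' (N := (Q : Subgroup G) ⊔ N) Q le_sup_left
    rw [← Subgroup.normalizer_eq_top_iff]
    apply frattini_nongenerating
    rw [eq_top_iff, ← h3]
    apply sup_le le_sup_left
    apply sup_le (le_trans Subgroup.le_normalizer le_sup_left)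
    exact le_trans hNfr le_sup_right

theorem result {G : Type*} [Group G] [Finite G] [Group.IsSolvable G] [Nontrivial G] (h : ∀ M : Subgroup G, IsCoatom M → (Nat.card M).Coprime M.index) : ∃ p : ℕ, p.Prime ∧ p ∣ Nat.card G ∧ ∀ P : Sylow p G, (P : Subgroup G).Normal :=
  aux _ G rfl h

end Cfsg.Agent.S0553
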