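import Cfsg.Statements.S0554
import Mathlib
import Cfsg.Agent.Lib.Helper2.Solvable
import Cfsg.Agent.Lib.Helper2.Supersolvable2

set_option autoImplicit false
open Cfsg

namespace Cfsg.Agent.S0554


open Cfsg.Agent.Lib.Helper2.Supersolvable

universe u

theorem absorb {G : Type u} [Group G] (N : Subgroup G) [hN : N.Normal] : ∀ (t : ℕ) (s : Fin t → G)
    (i₀ : Fin t) (n : G), n ∈ N → ∃ n' ∈ N,
      (List.ofFn s).prod * n = (List.ofFn (Function.update s i₀ (s i₀ * n'))).prod := by
  intro t
  induction t with
  | zero => intro s i₀; exact i₀.elim0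
  | succ t ih =>
    intro s i₀ n hn
    induction i₀ using Fin.cases with
    | zero =>
      refine ⟨(List.ofFn (Fin.tail s)).prod * n * ((List.ofFn (Fin.tail s)).prod)⁻¹,
        hN.conj_mem n hn _, ?_⟩
      rw [List.ofFn_succ, List.ofFn_succ, List.prod_cons, List.prod_cons, Function.update_self]
      have h1 : (fun i : Fin t => Function.update s 0
          (s 0 * ((List.ofFn (Fin.tail s)).prod * n * ((List.ofFn (Fin.tail s)).prod)⁻¹)) i.succ) =
          Fin.tail s := by
        funext i
        rw [Function.update_of_ne (Fin.succ_ne_zero i)]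
        rfl
      rw [h1]
      show s 0 * (List.ofFn (Fin.tail s)).prod * n = _
      group
    | succ j =>
      obtain ⟨n', hn', h⟩ := ih (Fin.tail s) j n hn
      refine ⟨n', hn', ?_⟩
      rw [List.ofFn_succ, List.ofFn_succ, List.prod_cons, List.prod_cons,
        Function.update_of_ne (Fin.succ_ne_zero j).symm]
      have h1 : (fun i : Fin t => Function.update s j.succ (s j.succ * n') i.succ) =
          Function.update (Fin.tail s) j (Fin.tail s j * n') := by
        have := Fin.tail_update_succ s j (s j.succ * n')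
        exact this
      rw [h1, ← h, mul_assoc]
      rfl

theorem main : ∀ (c : ℕ) (G : Type u) [Group G] [Finite G] [Group.IsSolvable G], Nat.card G = c →
    ∀ (t : ℕ) (p : Fin t → ℕ) (_ : ∀ i, (p i).Prime)
    (_ : ∀ q : ℕ, q.Prime → q ∣ Nat.card G → ∃ i, p i = q) (S : (i : Fin t) → Sylow (p i) G),
    ∀ g : G, ∃ s : (i : Fin t) → G, (∀ i, s i ∈ (S i : Subgroup G)) ∧ g = (List.ofFn s).prod := by
  intro c
  induction c using Nat.strong_induction_on with
  | _ c ih =>
  intro G _ _ _ hc t p hp hall S g
  rcases subsingleton_or_nontrivial G with hs | hnt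
  · refine ⟨fun _ => 1, fun i => one_mem _, Subsingleton.elim _ _⟩
  obtain ⟨q, N, hq, hNn, hN1, hNq, -⟩ :=
    Cfsg.Agent.Lib.Helper2.Solvable.exists_normal_elementary_abelian (G := G)
  have hNp : IsPGroup q N := by
    rintro ⟨x, hx⟩
    exact ⟨1, Subtype.ext (by simpa using hNq x hx)⟩
  have hqd : q ∣ Nat.card G := by
    have := Fact.mk hq
    obtain ⟨k, hk⟩ := IsPGroup.iff_card.mp hNp
    have hk0 : k ≠ 0 := by
      rintro rfl
      rw [pow_zero] at hk
      exact hN1 (Subgroup.card_eq_one.mp hk)
    exact (dvd_pow_self q hk0).trans (hk ▸ Subgroup.card_subgroup_dvd_card N)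
  obtain ⟨i₀, rfl⟩ := hall q hq hqd
  have hNS : N ≤ (S i₀ : Subgroup G) := hNp.le_sylow_of_normal (S i₀)
  have hsurj := QuotientGroup.mk'_surjective N
  have hlt : Nat.card (G ⧸ N) < c := hc ▸ card_quotient_lt N (N.one_lt_card_iff_ne_bot.mpr hN1)
  obtain ⟨sb, hsb, hg⟩ := ih _ hlt (G ⧸ N) rfl t p hp
    (fun r hr hrd => hall r hr (hrd.trans (by
      rw [← Subgroup.index_eq_card]; exact Subgroup.index_dvd_card N)))
    (fun i => haveI := Fact.mk (hp i); (S i).mapSurjective hsurj) (QuotientGroup.mk' N g)
  have hlift : ∀ i, ∃ x ∈ (S i : Subgroup G), QuotientGroup.mk' N x = sb i := by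
    intro i
    haveI := Fact.mk (hp i)
    have := hsb i
    rw [Sylow.coe_mapSurjective] at this
    exact this
  choose s' hs' hs'' using hlift
  have h1 : QuotientGroup.mk' N g = QuotientGroup.mk' N (List.ofFn s').prod := by
    rw [hg, map_list_prod, List.map_ofFn]
    congr 2
    funext i
    exact (hs'' i).symm
  have h2 : ((List.ofFn s').prod)⁻¹ * g ∈ N := by
    rw [← QuotientGroup.eq_one_iff, ← QuotientGroup.mk'_apply, map_mul, map_inv, h1, inv_mul_cancel]
  obtain ⟨n', hn', h3⟩ := absorb N t s' i₀ _ h2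
  refine ⟨Function.update s' i₀ (s' i₀ * n'), ?_, ?_⟩
  · intro i
    by_cases hi : i = i₀
    · subst hi
      rw [Function.update_self]
      exact Subgroup.mul_mem _ (hs' i) (hNS hn')
    · rw [Function.update_of_ne hi]
      exact hs' i
  · rw [← h3]; group

/-- Let G be a finite solvable group and let S assign to each of t distinct primes, including every prime divisor of the order of G, a Sylow subgroup of G. Then every element of G is a product s_0 s_1 ⋯ s_(t-1) with s_i in S i, the factors taken in the given order. -/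
theorem result {G : Type*} [Group G] [Finite G] [Group.IsSolvable G] (t : ℕ) (p : Fin t → ℕ) (hp : ∀ i, (p i).Prime) (hinj : Function.Injective p) (hall : ∀ q : ℕ, q.Prime → q ∣ Nat.card G → ∃ i, p i = q) (S : (i : Fin t) → Sylow (p i) G) : ∀ g : G, ∃ s : (i : Fin t) → G, (∀ i, s i ∈ (S i : Subgroup G)) ∧ g = (List.ofFn s).prod := by
  exact main _ G rfl t p hp hall S

end Cfsg.Agent.S0554
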