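import Cfsg.Statements.S0555
import Mathlib

set_option autoImplicit false
open Cfsg

namespace Cfsg.Agent.S0555

open Cfsg
open scoped commutatorElement

theorem cyc_aux {G : Type*} [Group G] (A B : Subgroup G) [(B.subgroupOf A).Normal]
    (h : IsCyclic (A ⧸ B.subgroupOf A)) : ∃ a ∈ A, ∀ x ∈ A, ∃ k : ℤ, (a ^ k)⁻¹ * x ∈ B := by
  obtain ⟨g, hg⟩ := h.exists_generator
  obtain ⟨a, rfl⟩ := QuotientGroup.mk_surjective g
  refine ⟨a.1, a.2, fun x hx => ?_⟩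
  obtain ⟨k, hk⟩ := hg (QuotientGroup.mk ⟨x, hx⟩)
  refine ⟨k, ?_⟩
  have h1 : (QuotientGroup.mk (a ^ k) : A ⧸ B.subgroupOf A) = QuotientGroup.mk ⟨x, hx⟩ := hk
  have h2 := QuotientGroup.eq.mp h1
  rw [Subgroup.mem_subgroupOf] at h2
  simpa using h2

theorem aux {G : Type*} [Group G] (A B C : Subgroup G) [C.Normal] [hBn : B.Normal] (hA : A ≤ commutator G)
    (hB : B = ⁅A, A⁆)
    (h1 : ∃ a ∈ A, ∀ x ∈ A, ∃ k : ℤ, (a ^ k)⁻¹ * x ∈ B)
    (h2 : ∃ b ∈ B, ∀ x ∈ B, ∃ k : ℤ, (b ^ k)⁻¹ * x ∈ C) : B ≤ C := by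
  obtain ⟨a, ha, h1⟩ := h1
  obtain ⟨b, hb, h2⟩ := h2
  obtain ⟨π, hπ⟩ : ∃ π, π = QuotientGroup.mk' C := ⟨_, rfl⟩
  have hsurj : Function.Surjective π := by rw [hπ]; exact QuotientGroup.mk'_surjective _
  have hπeq : ∀ x y : G, x⁻¹ * y ∈ C → π y = π x := by
    intro x y h
    rw [hπ]
    exact (QuotientGroup.eq.mpr h).symm
  have hπone : ∀ x : G, π x = 1 → x ∈ C := by
    intro x h
    rw [hπ] at h
    exact (QuotientGroup.eq_one_iff x).mp h
  have hconj : ∀ q : G ⧸ C, ∃ k : ℤ, q * π b * q⁻¹ = π b ^ k := by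
    intro q
    obtain ⟨g, rfl⟩ := hsurj q
    obtain ⟨k, hk⟩ := h2 (g * b * g⁻¹) (hBn.conj_mem b hb g)
    refine ⟨k, ?_⟩
    have := hπeq _ _ hk
    rw [map_zpow] at this
    rw [← this]; simp
  have hcomm : ∀ q r : G ⧸ C, Commute ⁅q, r⁆ (π b) := by
    intro q r
    obtain ⟨k, hk⟩ := hconj q⁻¹
    obtain ⟨l, hl⟩ := hconj r⁻¹
    rw [inv_inv] at hk hl
    have e1 : (q⁻¹ * r⁻¹) * π b * (q⁻¹ * r⁻¹)⁻¹ = π b ^ (k * l) := by
      calc (q⁻¹ * r⁻¹) * π b * (q⁻¹ * r⁻¹)⁻¹ = q⁻¹ * (r⁻¹ * π b * r) * q := by group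
        _ = q⁻¹ * (π b ^ l) * q⁻¹⁻¹ := by rw [hl, inv_inv]
        _ = (q⁻¹ * π b * q⁻¹⁻¹) ^ l := by rw [conj_zpow]
        _ = π b ^ (k * l) := by rw [inv_inv, hk, zpow_mul]
    have e2 : (r⁻¹ * q⁻¹) * π b * (r⁻¹ * q⁻¹)⁻¹ = π b ^ (k * l) := by
      calc (r⁻¹ * q⁻¹) * π b * (r⁻¹ * q⁻¹)⁻¹ = r⁻¹ * (q⁻¹ * π b * q) * r := by group
        _ = r⁻¹ * (π b ^ k) * r⁻¹⁻¹ := by rw [hk, inv_inv]
        _ = (r⁻¹ * π b * r⁻¹⁻¹) ^ k := by rw [conj_zpow]
        _ = π b ^ (k * l) := by rw [inv_inv, hl, mul_comm k l, zpow_mul]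
    have e3 := e1.trans e2.symm
    show ⁅q, r⁆ * π b = π b * ⁅q, r⁆
    rw [commutatorElement_def]
    calc q * r * q⁻¹ * r⁻¹ * π b = q * r * ((q⁻¹ * r⁻¹) * π b * (q⁻¹ * r⁻¹)⁻¹) * (q⁻¹ * r⁻¹) := by group
      _ = q * r * ((r⁻¹ * q⁻¹) * π b * (r⁻¹ * q⁻¹)⁻¹) * (q⁻¹ * r⁻¹) := by rw [e3]
      _ = π b * (q * r * q⁻¹ * r⁻¹) := by group
  have hle : commutator (G ⧸ C) ≤ Subgroup.centralizer {π b} := by
    rw [commutator_def, Subgroup.commutator_le]
    intro q _ r _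
    rw [Subgroup.mem_centralizer_singleton_iff]
    exact hcomm q r
  have hAc : ∀ x ∈ A, Commute (π x) (π b) := by
    intro x hx
    have h3 : π x ∈ commutator (G ⧸ C) := by
      have h4 : π x ∈ (commutator G).map π := Subgroup.mem_map_of_mem _ (hA hx)
      rw [commutator_def, Subgroup.map_commutator] at h4
      exact Subgroup.commutator_mono le_top le_top h4
    exact Subgroup.mem_centralizer_singleton_iff.mp (hle h3)
  have hform : ∀ x ∈ A, ∃ k m : ℤ, π x = π a ^ k * π b ^ m := by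
    intro x hx
    obtain ⟨k, hk⟩ := h1 x hx
    obtain ⟨m, hm⟩ := h2 _ hk
    refine ⟨k, m, ?_⟩
    have := hπeq _ _ hm
    rw [map_mul, map_inv, map_zpow, map_zpow] at this
    rw [← this]; group
  have hab : Commute (π a) (π b) := hAc a ha
  rw [hB, Subgroup.commutator_le]
  intro x hx y hy
  apply hπone
  rw [map_commutatorElement, commutatorElement_eq_one_iff_commute]
  obtain ⟨k, m, e1⟩ := hform x hx
  obtain ⟨l, n, e2⟩ := hform y hy
  rw [e1, e2]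
  apply Commute.mul_left
  · apply Commute.mul_right
    · exact (Commute.refl _).zpow_zpow _ _
    · exact hab.zpow_zpow _ _
  · apply Commute.mul_right
    · exact hab.symm.zpow_zpow _ _
    · exact (Commute.refl _).zpow_zpow _ _

/-- Let i ≥ 1. If in the derived series of a group the quotient of the i-th term by the (i+1)-st and the quotient of the (i+1)-st by the (i+2)-nd are both cyclic, then the (i+1)-st and (i+2)-nd terms coincide. -/
theorem result {G : Type*} [Group G] (i : ℕ) (hi : 1 ≤ i) (h₁ : IsCyclic (↥(derivedSeries G i) ⧸ (derivedSeries G (i + 1)).subgroupOf (derivedSeries G i))) (h₂ : IsCyclic (↥(derivedSeries G (i + 1)) ⧸ (derivedSeries G (i + 2)).subgroupOf (derivedSeries G (i + 1)))) : derivedSeries G (i + 1) = derivedSeries G (i + 2) := by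
  apply le_antisymm
  · apply aux (derivedSeries G i) (derivedSeries G (i + 1)) (derivedSeries G (i + 2))
    · rw [← derivedSeries_one]
      exact derivedSeries_antitone G hi
    · rfl
    · exact cyc_aux _ _ h₁
    · exact cyc_aux _ _ h₂
  · exact derivedSeries_antitone G (by omega)

end Cfsg.Agent.S0555
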