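import Mathlib
import Cfsg.Statements.S0559
import Cfsg.Agent.Lib.Helper2.Conj

set_option autoImplicit false
open Cfsg
open scoped Pointwise
open Cfsg.Agent.Lib.Helper2.Conj

namespace Cfsg.Agent.S0559

theorem result {G : Type*} [Group G] [Finite G] (H K A B : Subgroup G) (hHK : ∀ g : G, ∃ h ∈ H, ∃ k ∈ K, g = h * k) (hA : ∃ x : G, A = MulAut.conj x • H) (hB : ∃ y : G, B = MulAut.conj y • K) : (∀ g : G, ∃ a ∈ A, ∃ b ∈ B, g = a * b) ∧ ∃ g : G, A = MulAut.conj g • H ∧ B = MulAut.conj g • K := by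
  obtain ⟨x, rfl⟩ := hA
  obtain ⟨y, rfl⟩ := hB
  obtain ⟨h, hh, k, hk, hxy⟩ := hHK (x⁻¹ * y)
  have e1 : MulAut.conj x • H = MulAut.conj (x * h) • H := by
    rw [conj_mul_smul, Subgroup.conj_smul_eq_self_of_mem hh]
  have e2 : MulAut.conj y • K = MulAut.conj (x * h) • K := by
    have : x * h = y * k⁻¹ := by
      have : y = x * (h * k) := by rw [← hxy]; group
      rw [this]; group
    rw [this, conj_mul_smul, Subgroup.conj_smul_eq_self_of_mem (K.inv_mem hk)]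
  refine ⟨?_, x * h, e1, e2⟩
  intro g
  rw [e1, e2]
  set g0 := x * h
  obtain ⟨h', hh', k', hk', hg⟩ := hHK (g0⁻¹ * g * g0)
  refine ⟨g0 * h' * g0⁻¹, ?_, g0 * k' * g0⁻¹, ?_, ?_⟩
  · rw [mem_conj_smul]; convert hh' using 1; group
  · rw [mem_conj_smul]; convert hk' using 1; group
  · have : g = g0 * (g0⁻¹ * g * g0) * g0⁻¹ := by group
    rw [this, hg]; group

end Cfsg.Agent.S0559
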