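import Cfsg.Statements.S0560
import Mathlib
import Cfsg.Agent.Lib.Helper1.Basic
import Cfsg.Agent.Lib.Helper6.Card

set_option autoImplicit false
open Pointwise
open Cfsg

namespace Cfsg.Agent.S0560

open Cfsg.Agent.Lib.Helper1

theorem map_smul_sylow {G : Type*} [Group G] {p : ℕ} (H : Subgroup G) (P : Sylow p H) (h : H) :
    (((h • P : Sylow p H) : Subgroup H).map H.subtype : Subgroup G) =
      MulAut.conj (h : G) • ((P : Subgroup H).map H.subtype) := by
  rw [Sylow.coe_subgroup_smul]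
  ext x
  constructor
  · rintro ⟨y, hy, rfl⟩
    obtain ⟨z, hz, rfl⟩ := hy
    exact ⟨z, ⟨z, hz, rfl⟩, rfl⟩
  · rintro ⟨y, ⟨z, hz, rfl⟩, rfl⟩
    exact ⟨MulAut.conj h • z, ⟨z, hz, rfl⟩, rfl⟩

/-- Let the finite group G be the product HK of two subgroups and p a prime. Then there are Sylow p-subgroups P of H and Q of K and a Sylow p-subgroup R of G whose underlying set is the product set of P and Q. -/
theorem result {G : Type*} [Group G] [Finite G] (H K : Subgroup G) (hHK : ∀ g : G, ∃ h ∈ H, ∃ k ∈ K, g = h * k) (p : ℕ) [Fact p.Prime] : ∃ (P : Sylow p H) (Q : Sylow p K) (R : Sylow p G), ((R : Subgroup G) : Set G) = (((P : Subgroup H).map H.subtype : Subgroup G) : Set G) * (((Q : Subgroup K).map K.subtype : Subgroup G) : Set G) := by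
  obtain ⟨P₀⟩ : Nonempty (Sylow p H) := inferInstance
  obtain ⟨Q₀⟩ : Nonempty (Sylow p K) := inferInstance
  obtain ⟨R₁, hR₁⟩ := (P₀.isPGroup'.map H.subtype).exists_le_sylow
  obtain ⟨R₂, hR₂⟩ := (Q₀.isPGroup'.map K.subtype).exists_le_sylow
  obtain ⟨g, hg⟩ := MulAction.exists_smul_eq G R₁ R₂
  obtain ⟨h', hh', k, hk, hgk⟩ := hHK g⁻¹
  have hgeq : k * g = h'⁻¹ := by
    have : g = k⁻¹ * h'⁻¹ := by rw [← mul_inv_rev, ← hgk, inv_inv]
    rw [this]; group
  refine ⟨(⟨h'⁻¹, H.inv_mem hh'⟩ : H) • P₀, (⟨k, hk⟩ : K) • Q₀, h'⁻¹ • R₁, ?_⟩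
  rw [map_smul_sylow, map_smul_sylow]
  have hP : MulAut.conj h'⁻¹ • ((P₀ : Subgroup H).map H.subtype) ≤ ((h'⁻¹ • R₁ : Sylow p G) : Subgroup G) := by
    rw [Sylow.coe_subgroup_smul]
    exact Subgroup.pointwise_smul_le_pointwise_smul_iff.mpr hR₁
  have hQ : MulAut.conj k • ((Q₀ : Subgroup K).map K.subtype) ≤ ((h'⁻¹ • R₁ : Sylow p G) : Subgroup G) := by
    rw [← hgeq, mul_smul, hg, Sylow.coe_subgroup_smul]
    exact Subgroup.pointwise_smul_le_pointwise_smul_iff.mpr hR₂
  generalize (h'⁻¹ • R₁ : Sylow p G) = R at hP hQ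
  have cP : Nat.card (MulAut.conj h'⁻¹ • ((P₀ : Subgroup H).map H.subtype) : Subgroup G) =
      p ^ (Nat.card H).factorization p := by
    rw [card_conj_smul, Subgroup.card_map_of_injective H.subtype_injective]
    exact P₀.card_eq_multiplicity
  have cQ : Nat.card (MulAut.conj k • ((Q₀ : Subgroup K).map K.subtype) : Subgroup G) =
      p ^ (Nat.card K).factorization p := by
    rw [card_conj_smul, Subgroup.card_map_of_injective K.subtype_injective]
    exact Q₀.card_eq_multiplicity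
  have hPH : MulAut.conj h'⁻¹ • ((P₀ : Subgroup H).map H.subtype) ≤ H := by
    rintro _ ⟨_, ⟨z, -, rfl⟩, rfl⟩
    exact H.mul_mem (H.mul_mem (H.inv_mem hh') z.2) (H.inv_mem (H.inv_mem hh'))
  have hQK : MulAut.conj k • ((Q₀ : Subgroup K).map K.subtype) ≤ K := by
    rintro _ ⟨_, ⟨z, -, rfl⟩, rfl⟩
    exact K.mul_mem (K.mul_mem hk z.2) (K.inv_mem hk)
  generalize MulAut.conj h'⁻¹ • ((P₀ : Subgroup H).map H.subtype) = P at hP cP hPH
  generalize MulAut.conj k • ((Q₀ : Subgroup K).map K.subtype) = Q at hQ cQ hQK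
  have cR : Nat.card (R : Subgroup G) = p ^ (Nat.card G).factorization p := R.card_eq_multiplicity
  have hp := (Fact.out : p.Prime)
  -- the product formula for `G = HK`
  have huniv : ((H : Set G) * (K : Set G) : Set G) = Set.univ := by
    ext x
    simp only [Set.mem_univ, iff_true]
    obtain ⟨a, ha, b, hb, rfl⟩ := hHK x
    exact Set.mul_mem_mul ha hb
  have c1 := Cfsg.Agent.Lib.Helper6.Card.card_mul_set_mul_card_inf H K
  rw [huniv, Nat.card_congr (Equiv.Set.univ G)] at c1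
  have c2 : (Nat.card G).factorization p + (Nat.card (H ⊓ K : Subgroup G)).factorization p =
      (Nat.card H).factorization p + (Nat.card K).factorization p := by
    have h9 := congrArg (fun n => n.factorization p) c1
    rw [Nat.factorization_mul Nat.card_pos.ne' Nat.card_pos.ne',
      Nat.factorization_mul Nat.card_pos.ne' Nat.card_pos.ne'] at h9
    exact h9
  have c3 := Cfsg.Agent.Lib.Helper6.Card.card_mul_set_mul_card_inf P Q
  have c4 : Nat.card (P ⊓ Q : Subgroup G) ≤ p ^ (Nat.card (H ⊓ K : Subgroup G)).factorization p := by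
    have hpg : IsPGroup p (P ⊓ Q : Subgroup G) := R.isPGroup'.to_le (inf_le_left.trans hP)
    obtain ⟨j, hj⟩ := IsPGroup.iff_card.mp hpg
    rw [hj]
    apply Nat.pow_le_pow_right hp.pos
    have h1 : p ^ j ∣ Nat.card (H ⊓ K : Subgroup G) :=
      hj ▸ Subgroup.card_dvd_of_le (inf_le_inf hPH hQK)
    exact (hp.pow_dvd_iff_le_factorization Nat.card_pos.ne').mp h1
  symm
  apply Set.eq_of_subset_of_ncard_le _ _ (Set.toFinite _)
  · rintro _ ⟨a, ha, b, hb, rfl⟩
    exact (R : Subgroup G).mul_mem (hP ha) (hQ hb)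
  · rw [← Nat.card_coe_set_eq, ← Nat.card_coe_set_eq]
    show Nat.card (R : Subgroup G) ≤ _
    rw [cR]
    refine Nat.le_of_mul_le_mul_right (c := p ^ (Nat.card (H ⊓ K : Subgroup G)).factorization p) ?_
      (pow_pos hp.pos _)
    calc p ^ (Nat.card G).factorization p * p ^ (Nat.card (H ⊓ K : Subgroup G)).factorization p
        = Nat.card P * Nat.card Q := by rw [← pow_add, c2, pow_add, cP, cQ]
      _ = Nat.card ((P : Set G) * (Q : Set G) : Set G) * Nat.card (P ⊓ Q : Subgroup G) := c3.symm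
      _ ≤ _ := Nat.mul_le_mul_left _ c4

end Cfsg.Agent.S0560
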