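import Cfsg.Statements.S0561
import Mathlib
import Cfsg.Agent.Lib.Helper1.Hall
import Cfsg.Agent.Lib.Helper1.SZQuot
import Cfsg.Agent.Lib.Helper1.Basic
import Cfsg.Agent.Lib.Helper6.Card

set_option autoImplicit false
open Pointwise
open Cfsg

namespace Cfsg.Agent.S0561

open Cfsg.Agent.Lib.Helper1

/-- Let the finite solvable group G be the product HK of subgroups, and let A be normal in H and B normal in K, where A and B are Hall subgroups of G (order coprime to index). Then for all x, y the product set of xAx⁻¹ and yBy⁻¹ is a subgroup of G. -/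
theorem result {G : Type*} [Group G] [Finite G] [Group.IsSolvable G] (H K A B : Subgroup G) (hHK : ∀ g : G, ∃ h ∈ H, ∃ k ∈ K, g = h * k) (hA : A ≤ H) (hAn : (A.subgroupOf H).Normal) (hB : B ≤ K) (hBn : (B.subgroupOf K).Normal) (hAh : (Nat.card A).Coprime A.index) (hBh : (Nat.card B).Coprime B.index) (x y : G) : ∃ S : Subgroup G, (S : Set G) = ((MulAut.conj x • A : Subgroup G) : Set G) * ((MulAut.conj y • B : Subgroup G) : Set G) := by
  have hn : Nat.card G = Nat.lcm (Nat.card A) (Nat.card B) *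
      (Nat.card G / Nat.lcm (Nat.card A) (Nat.card B)) :=
    (Nat.mul_div_cancel' (Nat.lcm_dvd (Subgroup.card_subgroup_dvd_card A)
      (Subgroup.card_subgroup_dvd_card B))).symm
  generalize hk : Nat.card G / Nat.lcm (Nat.card A) (Nat.card B) = k at hn
  have hkA : k ∣ A.index := by
    obtain ⟨c, hc⟩ := Nat.dvd_lcm_left (Nat.card A) (Nat.card B)
    have h1 := A.card_mul_index
    rw [hn, hc, mul_assoc] at h1
    have := Nat.eq_of_mul_eq_mul_left Nat.card_pos h1
    exact Dvd.intro_left _ this.symm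
  have hkB : k ∣ B.index := by
    obtain ⟨c, hc⟩ := Nat.dvd_lcm_right (Nat.card A) (Nat.card B)
    have h1 := B.card_mul_index
    rw [hn, hc, mul_assoc] at h1
    have := Nat.eq_of_mul_eq_mul_left Nat.card_pos h1
    exact Dvd.intro_left _ this.symm
  have h1 : (Nat.card A).Coprime k := Nat.Coprime.coprime_dvd_right hkA hAh
  have h2 : (Nat.card B).Coprime k := Nat.Coprime.coprime_dvd_right hkB hBh
  have hcop : (Nat.lcm (Nat.card A) (Nat.card B)).Coprime k :=
    Nat.Coprime.coprime_dvd_left (Nat.lcm_dvd_mul _ _) (Nat.Coprime.mul_left h1 h2)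
  obtain ⟨T, hT⟩ := hall_exists _ k hn hcop
  obtain ⟨g₁, hg₁⟩ := hall_dominance _ k hn hcop T A hT h1
  obtain ⟨g₂, hg₂⟩ := hall_dominance _ k hn hcop T B hT h2
  obtain ⟨h₁, hh₁, k₁, hk₁, hw⟩ := hHK (g₁ * g₂⁻¹)
  obtain ⟨h₂, hh₂, k₂, hk₂, hv⟩ := hHK (x⁻¹ * y)
  have hAconj : ∀ h ∈ H, MulAut.conj h • A = A := fun h hh =>
    conj_smul_eq_of_mem_normalizer ((Subgroup.normal_subgroupOf_iff_le_normalizer hA).mp hAn hh)
  have hBconj : ∀ k ∈ K, MulAut.conj k • B = B := fun k hk =>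
    conj_smul_eq_of_mem_normalizer ((Subgroup.normal_subgroupOf_iff_le_normalizer hB).mp hBn hk)
  have hc2 : x * (h₂ * h₁⁻¹) * g₁ = y * (k₂⁻¹ * k₁) * g₂ := by
    have e1 : g₁ = h₁ * k₁ * g₂ := by rw [← hw]; group
    have e2 : y = x * (h₂ * k₂) := by rw [← hv]; group
    rw [e1, e2]; group
  have hA1 : MulAut.conj x • A ≤ MulAut.conj (x * (h₂ * h₁⁻¹) * g₁) • T := by
    calc MulAut.conj x • A = MulAut.conj x • (MulAut.conj (h₂ * h₁⁻¹) • A) := by
          rw [hAconj _ (H.mul_mem hh₂ (H.inv_mem hh₁))]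
      _ ≤ MulAut.conj x • (MulAut.conj (h₂ * h₁⁻¹) • (MulAut.conj g₁ • T)) :=
          Subgroup.pointwise_smul_le_pointwise_smul_iff.mpr
            (Subgroup.pointwise_smul_le_pointwise_smul_iff.mpr hg₁)
      _ = MulAut.conj (x * (h₂ * h₁⁻¹) * g₁) • T := by
          rw [smul_smul, smul_smul, ← map_mul, ← map_mul, mul_assoc]
  have hB1 : MulAut.conj y • B ≤ MulAut.conj (x * (h₂ * h₁⁻¹) * g₁) • T := by
    rw [hc2]
    calc MulAut.conj y • B = MulAut.conj y • (MulAut.conj (k₂⁻¹ * k₁) • B) := by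
          rw [hBconj _ (K.mul_mem (K.inv_mem hk₂) hk₁)]
      _ ≤ MulAut.conj y • (MulAut.conj (k₂⁻¹ * k₁) • (MulAut.conj g₂ • T)) :=
          Subgroup.pointwise_smul_le_pointwise_smul_iff.mpr
            (Subgroup.pointwise_smul_le_pointwise_smul_iff.mpr hg₂)
      _ = MulAut.conj (y * (k₂⁻¹ * k₁) * g₂) • T := by
          rw [smul_smul, smul_smul, ← map_mul, ← map_mul, mul_assoc]
  refine ⟨MulAut.conj x • A ⊔ MulAut.conj y • B, ?_⟩
  apply Cfsg.Agent.Lib.Helper6.Card.coe_sup_eq_mul_of_card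
  have c1 : Nat.card (MulAut.conj x • A ⊔ MulAut.conj y • B : Subgroup G) ≤
      Nat.lcm (Nat.card A) (Nat.card B) := by
    have := Subgroup.card_le_of_le (sup_le hA1 hB1)
    rwa [card_conj_smul, hT] at this
  have c2 : Nat.card (MulAut.conj x • A ⊓ MulAut.conj y • B : Subgroup G) ≤
      Nat.gcd (Nat.card A) (Nat.card B) := by
    apply Nat.le_of_dvd (Nat.gcd_pos_of_pos_left _ Nat.card_pos)
    apply Nat.dvd_gcd
    · have := Subgroup.card_dvd_of_le
        (inf_le_left : MulAut.conj x • A ⊓ MulAut.conj y • B ≤ MulAut.conj x • A)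
      rwa [card_conj_smul] at this
    · have := Subgroup.card_dvd_of_le
        (inf_le_right : MulAut.conj x • A ⊓ MulAut.conj y • B ≤ MulAut.conj y • B)
      rwa [card_conj_smul] at this
  rw [card_conj_smul, card_conj_smul, ← Nat.gcd_mul_lcm (Nat.card A) (Nat.card B),
    mul_comm (Nat.gcd _ _)]
  exact Nat.mul_le_mul c1 c2

end Cfsg.Agent.S0561
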