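import Mathlib
import Cfsg.Statements.S0562
import Cfsg.Agent.Lib.Helper2.Conj

set_option autoImplicit false
open Cfsg
open scoped Pointwise
open Cfsg.Agent.Lib.Helper2.Conj

namespace Cfsg.Agent.S0562

theorem result {G : Type*} [Group G] [Finite G] (H K A B : Subgroup G) (hHK : ∀ g : G, ∃ h ∈ H, ∃ k ∈ K, g = h * k) (hA : A ≤ H) (hAn : (A.subgroupOf H).Normal) (hB : B ≤ K) (hBn : (B.subgroupOf K).Normal) : ∀ g ∈ Subgroup.normalizer ((A ⊔ B : Subgroup G) : Set G), ∃ h ∈ Subgroup.normalizer ((A ⊔ B : Subgroup G) : Set G) ⊓ H, ∃ k ∈ Subgroup.normalizer ((A ⊔ B : Subgroup G) : Set G) ⊓ K, g = h * k := by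
  intro g hg
  obtain ⟨h, hh, k, hk, rfl⟩ := hHK g
  have hHA : H ≤ Subgroup.normalizer (A : Set G) := (Subgroup.normal_subgroupOf_iff_le_normalizer hA).mp hAn
  have hKB : K ≤ Subgroup.normalizer (B : Set G) := (Subgroup.normal_subgroupOf_iff_le_normalizer hB).mp hBn
  set X := A ⊔ B with hX
  have e0 : MulAut.conj (h * k) • X = X := conj_smul_eq_iff_mem_normalizer.mpr hg
  have e1 : MulAut.conj k • X = MulAut.conj h⁻¹ • X := by
    rw [conj_mul_smul] at e0
    conv_rhs => rw [← e0]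
    rw [conj_inv_smul_smul]
  have hBY : B ≤ MulAut.conj k • X := by
    have : MulAut.conj k • B = B := conj_smul_eq_iff_mem_normalizer.mpr (hKB hk)
    rw [← this]
    exact conj_smul_mono le_sup_right
  have hAY : A ≤ MulAut.conj k • X := by
    rw [e1]
    have : MulAut.conj h⁻¹ • A = A := conj_smul_eq_iff_mem_normalizer.mpr (hHA (H.inv_mem hh))
    rw [← this]
    exact conj_smul_mono le_sup_left
  have hk' : MulAut.conj k • X = X := conj_smul_eq_of_le (sup_le hAY hBY)
  have hkN : k ∈ Subgroup.normalizer (X : Set G) := conj_smul_eq_iff_mem_normalizer.mp hk'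
  have hhN : h ∈ Subgroup.normalizer (X : Set G) := by
    have : h = (h * k) * k⁻¹ := by group
    rw [this]
    exact Subgroup.mul_mem _ hg (Subgroup.inv_mem _ hkN)
  exact ⟨h, ⟨hhN, hh⟩, k, ⟨hkN, hk⟩, rfl⟩

end Cfsg.Agent.S0562
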