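import Mathlib
import Cfsg.Statements.S0566
import Cfsg.Agent.Lib.Helper2.Conj

set_option autoImplicit false
open Cfsg
open scoped Pointwise
open Cfsg.Agent.Lib.Helper2.Conj

namespace Cfsg.Agent.S0566

variable {G : Type*} [Group G]

/-- membership in the product set -/
def M (A D : Subgroup G) (g : G) : Prop := ∃ a ∈ A, ∃ d ∈ D, a * d = g

theorem M_iff {A D : Subgroup G} {g : G} : M A D g ↔ g ∈ (A : Set G) * (D : Set G) :=
  Set.mem_mul.symm

/-- `A` permutes with `D`. -/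
def Perm (A D : Subgroup G) : Prop := ∀ d ∈ D, ∀ a ∈ A, M A D (d * a)

theorem perm_of_eq {A D S : Subgroup G} (h : (S : Set G) = (A : Set G) * (D : Set G)) : Perm A D := by
  intro d hd a ha
  rw [M_iff, ← h]
  have h1 : d ∈ (S : Set G) := by rw [h, ← M_iff]; exact ⟨1, A.one_mem, d, hd, one_mul d⟩
  have h2 : a ∈ (S : Set G) := by rw [h, ← M_iff]; exact ⟨a, ha, 1, D.one_mem, mul_one a⟩
  exact S.mul_mem h1 h2

theorem perm_sup {A B1 B2 : Subgroup G} (h1 : Perm A B1) (h2 : Perm A B2) : Perm A (B1 ⊔ B2) := by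
  have step : ∀ x ∈ (B1 : Set G) ∪ B2, ∀ y : G, (∀ a ∈ A, M A (B1 ⊔ B2) (y * a)) →
      ∀ a ∈ A, M A (B1 ⊔ B2) (x * y * a) := by
    intro x hx y ih a ha
    obtain ⟨a', ha', d', hd', e⟩ := ih a ha
    have : ∃ a'' ∈ A, ∃ b'' ∈ B1 ⊔ B2, a'' * b'' = x * a' := by
      rcases hx with hx | hx
      · obtain ⟨a'', ha'', b'', hb'', e'⟩ := h1 x hx a' ha'
        exact ⟨a'', ha'', b'', Subgroup.mem_sup_left hb'', e'⟩
      · obtain ⟨a'', ha'', b'', hb'', e'⟩ := h2 x hx a' ha'
        exact ⟨a'', ha'', b'', Subgroup.mem_sup_right hb'', e'⟩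
    obtain ⟨a'', ha'', b'', hb'', e'⟩ := this
    refine ⟨a'', ha'', b'' * d', Subgroup.mul_mem _ hb'' hd', ?_⟩
    rw [← mul_assoc, e', mul_assoc, e, mul_assoc]
  intro d hd
  rw [Subgroup.sup_eq_closure] at hd
  induction hd using Subgroup.closure_induction_left with
  | one => intro a ha; exact ⟨a, ha, 1, Subgroup.one_mem _, by rw [mul_one, one_mul]⟩
  | mul_left x hx y _ ih => exact step x hx y ih
  | inv_mul_cancel x hx y _ ih =>
    apply step x⁻¹ _ y ih
    rcases hx with hx | hx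
    · exact Or.inl (B1.inv_mem hx)
    · exact Or.inr (B2.inv_mem hx)

/-- the working hypothesis -/
def P (A B : Subgroup G) : Prop :=
  ∀ x : G, Perm A (MulAut.conj x • B) ∧ ¬ ∀ g : G, M A (MulAut.conj x • B) g

theorem aux [Finite G] (A : Subgroup G) : ∀ (n : ℕ) (B : Subgroup G), Nat.card G - Nat.card B = n → P A B →
    ∃ N : Subgroup G, N.Normal ∧ N ≠ ⊤ ∧ (A ≤ N ∨ B ≤ N) := by
  intro n
  induction n using Nat.strong_induction_on with
  | _ n ih =>
  intro B hn hP
  by_cases hA : Subgroup.normalClosure (A : Set G) = ⊤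
  swap
  · exact ⟨_, Subgroup.normalClosure_normal, hA, Or.inl Subgroup.le_normalClosure⟩
  by_cases hBn : B.Normal
  · refine ⟨B, hBn, ?_, Or.inr le_rfl⟩
    intro hB
    apply (hP 1).2
    rw [conj_one_smul, hB]
    intro g
    exact ⟨1, A.one_mem, g, Subgroup.mem_top g, one_mul g⟩
  have hex : ∃ x : G, ∃ a ∈ A, x * a * x⁻¹ ∉ Subgroup.normalizer (B : Set G) := by
    by_contra hcon
    push Not at hcon
    apply hBn
    rw [← Subgroup.normalizer_eq_top_iff, eq_top_iff, ← hA, Subgroup.normalClosure, Subgroup.closure_le]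
    intro y hy
    obtain ⟨a, ha, hc⟩ := Group.mem_conjugatesOfSet_iff.mp hy
    obtain ⟨c, rfl⟩ := isConj_iff.mp hc
    exact hcon c a ha
  obtain ⟨x, a, ha, hxa⟩ := hex
  set B' := MulAut.conj x⁻¹ • B with hB'
  have hne : MulAut.conj a • B' ≠ B' := by
    intro he
    apply hxa
    rw [← conj_smul_eq_iff_mem_normalizer, conj_mul_smul, conj_mul_smul, ← hB', he, hB', conj_smul_inv_smul]
  set Bs := B' ⊔ MulAut.conj a • B' with hBs
  have hcardB' : Nat.card B' = Nat.card B := card_conj_smul _ _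
  have hlt : Nat.card B < Nat.card Bs := by
    by_contra hle
    push Not at hle
    have h1 : B' = Bs := Subgroup.eq_of_le_of_card_ge le_sup_left (by rw [hcardB']; exact hle)
    apply hne
    apply conj_smul_eq_of_ge
    conv_rhs => rw [h1]
    exact le_sup_right
  have hPs : P A Bs := by
    intro g
    have e1 : MulAut.conj g • Bs = MulAut.conj (g * x⁻¹) • B ⊔ MulAut.conj (g * a * x⁻¹) • B := by
      rw [hBs, Subgroup.smul_sup, hB', ← conj_mul_smul, ← conj_mul_smul, ← conj_mul_smul, mul_assoc]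
    have hperm : Perm A (MulAut.conj g • Bs) := by
      rw [e1]
      exact perm_sup (hP _).1 (hP _).1
    refine ⟨hperm, ?_⟩
    intro huniv
    -- decompose g⁻¹
    obtain ⟨a1, ha1, b1, hb1, e⟩ := huniv g⁻¹
    have e2 : MulAut.conj g • Bs = MulAut.conj a1⁻¹ • Bs := by
      have h1 : MulAut.conj b1 • MulAut.conj g • Bs = MulAut.conj g • Bs :=
        Subgroup.conj_smul_eq_self_of_mem hb1
      rw [← h1, ← conj_mul_smul]
      congr 2
      have : b1 = a1⁻¹ * g⁻¹ := by rw [← e]; group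
      rw [this]; group
    -- the subgroup S' = A * B'
    have hsub : ∀ y, M A Bs y → M A B' y := by
      have hp' : Perm A B' := (hP x⁻¹).1
      -- A * B' is closed under multiplication
      have hmul : ∀ u, M A B' u → ∀ v, M A B' v → M A B' (u * v) := by
        rintro _ ⟨u1, hu1, u2, hu2, rfl⟩ _ ⟨v1, hv1, v2, hv2, rfl⟩
        obtain ⟨w1, hw1, w2, hw2, ew⟩ := hp' u2 hu2 v1 hv1
        refine ⟨u1 * w1, A.mul_mem hu1 hw1, w2 * v2, B'.mul_mem hw2 hv2, ?_⟩
        calc u1 * w1 * (w2 * v2) = u1 * (w1 * w2) * v2 := by group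
          _ = u1 * (u2 * v1) * v2 := by rw [ew]
          _ = u1 * u2 * (v1 * v2) := by group
      have hinv : ∀ u, M A B' u → M A B' u⁻¹ := by
        rintro _ ⟨u1, hu1, u2, hu2, rfl⟩
        rw [mul_inv_rev]
        exact hp' _ (B'.inv_mem hu2) _ (A.inv_mem hu1)
      let S' : Subgroup G :=
        { carrier := {u | M A B' u}
          one_mem' := ⟨1, A.one_mem, 1, B'.one_mem, one_mul 1⟩
          mul_mem' := fun {u v} hu hv => hmul u hu v hv
          inv_mem' := fun {u} hu => hinv u hu }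
      have hAS : A ≤ S' := fun u hu => ⟨u, hu, 1, B'.one_mem, mul_one u⟩
      have hBS : B' ≤ S' := fun u hu => ⟨1, A.one_mem, u, hu, one_mul u⟩
      have hBS2 : MulAut.conj a • B' ≤ S' := by
        intro u hu
        rw [mem_conj_smul] at hu
        have : u = a * (a⁻¹ * u * a) * a⁻¹ := by group
        rw [this]
        exact S'.mul_mem (S'.mul_mem (hAS ha) (hBS hu)) (S'.inv_mem (hAS ha))
      rintro _ ⟨u1, hu1, u2, hu2, rfl⟩
      exact S'.mul_mem (hAS hu1) ((sup_le hBS hBS2) hu2)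
    apply (hP x⁻¹).2
    intro y
    apply hsub
    have hy := huniv (a1⁻¹ * y * a1)
    rw [e2] at hy
    obtain ⟨u1, hu1, u2, hu2, eu⟩ := hy
    rw [mem_conj_smul, inv_inv] at hu2
    refine ⟨a1 * u1 * a1⁻¹, A.mul_mem (A.mul_mem ha1 hu1) (A.inv_mem ha1), a1 * u2 * a1⁻¹, hu2, ?_⟩
    calc a1 * u1 * a1⁻¹ * (a1 * u2 * a1⁻¹) = a1 * (u1 * u2) * a1⁻¹ := by group
      _ = a1 * (a1⁻¹ * y * a1) * a1⁻¹ := by rw [eu]
      _ = y := by group
  have hle : Nat.card Bs ≤ Nat.card G := Subgroup.card_le_card_group Bs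
  obtain ⟨N, hN, hNt, hor⟩ := ih (Nat.card G - Nat.card Bs) (by omega) Bs rfl hPs
  refine ⟨N, hN, hNt, ?_⟩
  rcases hor with h | h
  · exact Or.inl h
  · right
    have h1 : B' ≤ N := le_trans le_sup_left h
    have h2 : MulAut.conj x • B' ≤ MulAut.conj x • N := conj_smul_mono h1
    rw [hB', conj_smul_inv_smul, Subgroup.Normal.conj_smul_eq_self] at h2
    exact h2

theorem result {G : Type*} [Group G] [Finite G] (A B : Subgroup G) (hA : A ≠ ⊥) (hB : B ≠ ⊥) (h : ∀ x : G, ∃ S : Subgroup G, S ≠ ⊤ ∧ (S : Set G) = (A : Set G) * ((MulAut.conj x • B : Subgroup G) : Set G)) : ∃ N : Subgroup G, N.Normal ∧ N ≠ ⊤ ∧ (A ≤ N ∨ B ≤ N) := by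
  apply aux A _ B rfl
  intro x
  obtain ⟨S, hS, e⟩ := h x
  refine ⟨perm_of_eq e, ?_⟩
  intro hu
  apply hS
  rw [eq_top_iff]
  intro g _
  have := M_iff.mp (hu g)
  rw [← e] at this
  exact this

end Cfsg.Agent.S0566
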