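import Mathlib
import Cfsg.Statements.S0567

set_option autoImplicit false
open Cfsg

namespace Cfsg.Agent.S0567

open scoped commutatorElement

theorem fwd {G : Type*} [Group G] {L : Subgroup G} (hL : L.IsSubnormal) :
    ∀ H ≤ L, ∃ m : ℕ, (fun K : Subgroup G => ⁅K, H⁆)^[m] ⊤ ≤ L := by
  induction hL with
  | top => intro H _; exact ⟨0, le_top⟩
  | step L L' hle _ hN ih =>
    intro H hH
    obtain ⟨m, hm⟩ := ih H (hH.trans hle)
    refine ⟨m + 1, ?_⟩
    rw [Function.iterate_succ_apply']
    have h1 : L' ≤ Subgroup.normalizer (L : Set G) :=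
      (Subgroup.normal_subgroupOf_iff_le_normalizer hle).mp hN
    exact (Subgroup.commutator_mono hm hH).trans
      (Subgroup.le_normalizer_iff_commutator_le_right.mp h1)

theorem bwd {G : Type*} [Group G] (H : Subgroup G) (m : ℕ) :
    ((fun K : Subgroup G => ⁅K, H⁆)^[m] ⊤ ⊔ H).IsSubnormal := by
  induction m with
  | zero => simp only [Function.iterate_zero, id_eq, top_sup_eq]; exact Subgroup.IsSubnormal.top
  | succ m ih =>
    rw [Function.iterate_succ_apply']
    set K := (fun K : Subgroup G => ⁅K, H⁆)^[m] ⊤ with hK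
    have hle : ⁅K, H⁆ ⊔ H ≤ K ⊔ H :=
      sup_le ((Subgroup.commutator_mono (le_sup_left : K ≤ K ⊔ H) (le_sup_right : H ≤ K ⊔ H)).trans
        (Subgroup.commutator_le_self _)) le_sup_right
    refine Subgroup.IsSubnormal.step _ _ hle ih ?_
    rw [Subgroup.normal_subgroupOf_iff_le_normalizer hle]
    refine sup_le ?_ ?_
    · rw [Subgroup.le_normalizer_iff]
      intro k hk
      have : ⁅K, H⁆ ⊔ H ≤ (⁅K, H⁆ ⊔ H).comap (MulAut.conj k).toMonoidHom := by
        refine sup_le ?_ ?_
        · intro x hx
          rw [Subgroup.mem_comap]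
          exact Subgroup.mem_sup_left
            (Subgroup.le_normalizer_iff.mp (Subgroup.normalizer_commutator_ge_left K H) k hk x hx)
        · intro h hh
          rw [Subgroup.mem_comap]
          have h1 : (MulAut.conj k).toMonoidHom h = ⁅k, h⁆ * h := by
            simp [commutatorElement_def]
          rw [h1]
          exact mul_mem (Subgroup.mem_sup_left (Subgroup.commutator_mem_commutator hk hh))
            (Subgroup.mem_sup_right hh)
      intro x hx
      exact this hx
    · rw [Subgroup.le_normalizer_iff]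
      intro k hk
      have : ⁅K, H⁆ ⊔ H ≤ (⁅K, H⁆ ⊔ H).comap (MulAut.conj k).toMonoidHom := by
        refine sup_le ?_ ?_
        · intro x hx
          rw [Subgroup.mem_comap]
          exact Subgroup.mem_sup_left
            (Subgroup.le_normalizer_iff.mp (Subgroup.normalizer_commutator_ge_right K H) k hk x hx)
        · intro h hh
          rw [Subgroup.mem_comap]
          exact Subgroup.mem_sup_right (mul_mem (mul_mem hk hh) (inv_mem hk))
      intro x hx
      exact this hx

theorem result {G : Type*} [Group G] (H : Subgroup G) : H.IsSubnormal ↔ ∃ m : ℕ, (fun K : Subgroup G => ⁅K, H⁆)^[m] ⊤ ≤ H := by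
  constructor
  · intro h; exact fwd h H le_rfl
  · rintro ⟨m, hm⟩
    have := bwd H m
    rwa [sup_eq_right.mpr hm] at this

end Cfsg.Agent.S0567
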