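import Mathlib
import Cfsg.Statements.S0568
import Cfsg.Agent.S0545
import Cfsg.Agent.Lib.Helper1.Basic
import Cfsg.Agent.Lib.Helper9.PFix

set_option autoImplicit false
open Cfsg
open Cfsg.Agent.Lib.Helper1
open scoped Pointwise commutatorElement

namespace Cfsg.Agent.S0568

theorem avoid {X : Type*} [Group X] [Finite X] [Group.IsSolvable X]
    (K : Nat.Primes → Subgroup X) (hK : Cfsg.IsComplementSystem K) (B : Subgroup X) [hBn : B.Normal]
    (hB : B ≠ ⊥) (hmin : ∀ W : Subgroup X, W.Normal → W ≤ B → W = ⊥ ∨ W = B)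
    (hnc : ¬ B ≤ Subgroup.center X) : B ⊓ Cfsg.systemNormalizer K = ⊥ := by
  classical
  obtain ⟨p, hp, M, hMB, hMn, hMne, -, hMexp⟩ :=
    exists_normal_elemAbelian _ B rfl inferInstance inferInstance hB
  have hMeq : M = B := (hmin M hMn hMB).resolve_left hMne
  subst hMeq
  haveI := Fact.mk hp
  have hBp : IsPGroup p M := by
    intro x
    refine ⟨1, ?_⟩
    apply Subtype.ext
    simpa using hMexp x.1 x.2
  set C : Subgroup X := Subgroup.centralizer (M : Set X) with hC
  haveI hCn : C.Normal := inferInstance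
  have hCtop : C ≠ ⊤ := by
    intro h
    apply hnc
    intro b hb
    rw [Subgroup.mem_center_iff]
    intro g
    have hg : g ∈ C := by rw [h]; trivial
    exact (Subgroup.mem_centralizer_iff.1 hg b hb).symm
  haveI : Nontrivial (X ⧸ C) := by
    rw [← not_subsingleton_iff_nontrivial]
    intro hs
    exact hCtop (QuotientGroup.subgroup_eq_top_of_subsingleton C hs)
  obtain ⟨q, hq, Rb, -, hRbn, hRbne, -, hRbexp⟩ :=
    exists_normal_elemAbelian _ (⊤ : Subgroup (X ⧸ C)) rfl inferInstance inferInstance top_ne_bot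
  haveI := Fact.mk hq
  set R : Subgroup X := Rb.comap (QuotientGroup.mk' C) with hR
  haveI hRn : R.Normal := hRbn.comap _
  have hCR : C ≤ R := by
    intro c hc
    show QuotientGroup.mk' C c ∈ Rb
    have h1 : QuotientGroup.mk' C c = 1 := (QuotientGroup.eq_one_iff c).2 hc
    rw [h1]
    exact Rb.one_mem
  have hRC : ¬ R ≤ C := by
    intro h
    apply hRbne
    rw [eq_bot_iff]
    intro y hy
    obtain ⟨r, rfl⟩ := QuotientGroup.mk'_surjective C y
    rw [Subgroup.mem_bot]
    exact (QuotientGroup.eq_one_iff r).2 (h hy)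
  have hRq : ∀ r ∈ R, r ^ q ∈ C := by
    intro r hr
    have h1 := hRbexp _ hr
    rw [← map_pow] at h1
    exact (QuotientGroup.eq_one_iff _).1 h1
  obtain ⟨b, hb⟩ : ∃ b, C.relIndex R = q ^ b := by
    have h1 : IsPGroup q (R ⧸ C.subgroupOf R) := by
      intro y
      obtain ⟨r, rfl⟩ := QuotientGroup.mk'_surjective _ y
      refine ⟨1, ?_⟩
      rw [pow_one, ← map_pow]
      apply (QuotientGroup.eq_one_iff _).2
      exact Subgroup.mem_subgroupOf.2 (hRq r.1 r.2)
    obtain ⟨b, hb⟩ := IsPGroup.iff_card.1 h1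
    exact ⟨b, by rw [← hb]; exact Subgroup.index_eq_card _⟩
  have key : ∀ Y : Subgroup X, (Y.relIndex R).Coprime q → R ≤ (Y ⊓ R) ⊔ C := by
    intro Y hY
    rw [← Subgroup.relIndex_eq_one]
    have h1 : ((Y ⊓ R) ⊔ C).relIndex R ∣ Y.relIndex R := by
      rw [← Subgroup.inf_relIndex_right Y R]
      exact Subgroup.relIndex_dvd_of_le_left R le_sup_left
    have h2 : ((Y ⊓ R) ⊔ C).relIndex R ∣ q ^ b := by
      rw [← hb]
      exact Subgroup.relIndex_dvd_of_le_left R le_sup_right
    exact Nat.eq_one_of_dvd_coprimes (Nat.Coprime.pow_right b hY) h1 h2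
  have hCBR : M ⊓ Subgroup.centralizer (R : Set X) = ⊥ := by
    rcases hmin (M ⊓ Subgroup.centralizer (R : Set X)) inferInstance inf_le_left with h | h
    · exact h
    · exfalso
      apply hRC
      intro r hr
      rw [hC, Subgroup.mem_centralizer_iff]
      intro m hm
      have hm' : m ∈ M ⊓ Subgroup.centralizer (R : Set X) := by rw [h]; exact hm
      exact (Subgroup.mem_centralizer_iff.1 hm'.2 r hr).symm
  have key2 : ∀ Y : Subgroup X, (Y.relIndex R).Coprime q → ∀ z ∈ M, (∀ y ∈ Y, y * z = z * y) →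
      z = 1 := by
    intro Y hY z hz hzY
    have h1 : (Y ⊓ R) ⊔ C ≤ Subgroup.centralizer ({z} : Set X) := by
      apply sup_le
      · intro y hy
        rw [Subgroup.mem_centralizer_iff]
        intro t ht
        rw [Set.mem_singleton_iff] at ht
        rw [ht]
        exact (hzY y hy.1).symm
      · intro c hc
        rw [Subgroup.mem_centralizer_iff]
        intro t ht
        rw [Set.mem_singleton_iff] at ht
        rw [ht]
        exact Subgroup.mem_centralizer_iff.1 hc z hz
    have h2 : z ∈ M ⊓ Subgroup.centralizer (R : Set X) := by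
      refine ⟨hz, ?_⟩
      show z ∈ Subgroup.centralizer (R : Set X)
      rw [Subgroup.mem_centralizer_iff]
      intro r hr
      exact (Subgroup.mem_centralizer_iff.1 (h1 (key Y hY hr)) z rfl).symm
    rw [hCBR, Subgroup.mem_bot] at h2
    exact h2
  have hqp : q ≠ p := by
    rintro rfl
    obtain ⟨T⟩ : Nonempty (Sylow q R) := inferInstance
    have hTp : IsPGroup q ((T : Subgroup R).map R.subtype) := T.isPGroup'.map _
    have hrel : (((T : Subgroup R).map R.subtype).relIndex R).Coprime q := by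
      have h1 : ((T : Subgroup R).map R.subtype).relIndex R = (T : Subgroup R).index := by
        rw [Subgroup.relIndex, Subgroup.subgroupOf,
          Subgroup.comap_map_eq_self_of_injective R.subtype_injective]
      rw [h1]
      exact ((Nat.Prime.coprime_iff_not_dvd hq).2 T.not_dvd_index).symm
    obtain ⟨z, hz, hz1, hzT⟩ := Cfsg.Agent.Lib.Helper9.PFix.exists_fixed hBp hTp
      (by rw [Subgroup.normalizer_eq_top]; exact le_top) hB
    apply hz1
    apply key2 _ hrel z hz
    intro y hy
    have := hzT y hy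
    calc y * z = (y * z * y⁻¹) * y := by group
      _ = z * y := by rw [this]
  rw [eq_bot_iff]
  intro x hx
  rw [Subgroup.mem_bot]
  have hxD : x ∈ Subgroup.normalizer (K ⟨p, hp⟩ : Set X) := (Subgroup.mem_iInf.1 hx.2) ⟨p, hp⟩
  have hdis : M ⊓ K ⟨p, hp⟩ = ⊥ := by
    apply Subgroup.inf_eq_bot_of_coprime
    obtain ⟨n, hn⟩ := IsPGroup.iff_card.1 hBp
    rw [hn, S0543.card_of_index (K ⟨p, hp⟩) ⟨p, hp⟩ (hK ⟨p, hp⟩)]
    exact Nat.Coprime.pow_left _ (Nat.coprime_ordCompl hp Nat.card_pos.ne')
  apply key2 (K ⟨p, hp⟩) _ x hx.1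
  · intro k hk
    have h1 : x * k * x⁻¹ * k⁻¹ ∈ K ⟨p, hp⟩ :=
      Subgroup.mul_mem _ ((Subgroup.mem_normalizer_iff.1 hxD k).1 hk) (Subgroup.inv_mem _ hk)
    have h2 : x * k * x⁻¹ * k⁻¹ ∈ M := by
      have h3 : x * k * x⁻¹ * k⁻¹ = x * (k * x⁻¹ * k⁻¹) := by group
      rw [h3]
      exact M.mul_mem hx.1 (hBn.conj_mem _ (M.inv_mem hx.1) k)
    have h4 : x * k * x⁻¹ * k⁻¹ ∈ M ⊓ K ⟨p, hp⟩ := ⟨h2, h1⟩
    rw [hdis, Subgroup.mem_bot] at h4
    calc k * x = (x * k * x⁻¹ * k⁻¹)⁻¹ * (x * k) := by group
      _ = x * k := by rw [h4]; simp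
  · have h1 : (K ⟨p, hp⟩).relIndex R ∣ p ^ (Nat.card X).factorization p := by
      have := S0545.relIndex_dvd_index_right (K ⟨p, hp⟩) R
      rwa [hK ⟨p, hp⟩] at this
    exact Nat.Coprime.coprime_dvd_left h1
      (Nat.Coprime.pow_left _ ((Nat.coprime_primes hp hq).2 (Ne.symm hqp)))

/-- statement -/
theorem result {G : Type*} [Group G] [Finite G] [Group.IsSolvable G] (K : Nat.Primes → Subgroup G) (hK : Cfsg.IsComplementSystem K) (A B : Subgroup G) [A.Normal] [B.Normal] (hAB : A < B) (hchief : ∀ N : Subgroup G, N.Normal → A ≤ N → N ≤ B → N = A ∨ N = B) : (⁅B, (⊤ : Subgroup G)⁆ ≤ A → B ≤ A ⊔ Cfsg.systemNormalizer K) ∧ (¬ ⁅B, (⊤ : Subgroup G)⁆ ≤ A → B ⊓ Cfsg.systemNormalizer K ≤ A) := by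
  classical
  obtain ⟨hKb, hDb⟩ := S0545.result K hK A
  have hπ : ∀ x : G, QuotientGroup.mk' A x = 1 ↔ x ∈ A := fun x => QuotientGroup.eq_one_iff x
  constructor
  · intro hc b hb
    have hcen : ∀ y : G ⧸ A, QuotientGroup.mk' A b * y = y * QuotientGroup.mk' A b := by
      intro y
      obtain ⟨g, rfl⟩ := QuotientGroup.mk'_surjective A y
      have h1 : ⁅b, g⁆ ∈ A := hc (Subgroup.commutator_mem_commutator hb (Subgroup.mem_top g))
      have h2 := (hπ _).2 h1
      rw [map_commutatorElement, commutatorElement_eq_one_iff_mul_comm] at h2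
      exact h2
    have h3 : QuotientGroup.mk' A b ∈
        Cfsg.systemNormalizer (fun p => (K p).map (QuotientGroup.mk' A)) := by
      unfold Cfsg.systemNormalizer
      rw [Subgroup.mem_iInf]
      intro p
      rw [Subgroup.mem_normalizer_iff]
      intro h
      rw [hcen h, mul_inv_cancel_right]
    rw [hDb] at h3
    obtain ⟨d, hd, hdb⟩ := h3
    have h4 : b * d⁻¹ ∈ A := by
      rw [← hπ, map_mul, map_inv, hdb, mul_inv_cancel]
    have h5 : b = (b * d⁻¹) * d := by group
    rw [h5]
    exact Subgroup.mul_mem _ (Subgroup.mem_sup_left h4) (Subgroup.mem_sup_right hd)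
  · intro hc x hx
    haveI : (B.map (QuotientGroup.mk' A)).Normal :=
      Subgroup.Normal.map inferInstance _ (QuotientGroup.mk'_surjective A)
    have hav := avoid (fun p => (K p).map (QuotientGroup.mk' A)) hKb (B.map (QuotientGroup.mk' A))
      (by
        intro h
        apply hAB.not_ge
        intro b hb
        have h1 : QuotientGroup.mk' A b ∈ B.map (QuotientGroup.mk' A) :=
          Subgroup.mem_map_of_mem _ hb
        rw [h, Subgroup.mem_bot] at h1
        exact (hπ b).1 h1)
      (by
        intro W hW hWB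
        have h1 : A ≤ W.comap (QuotientGroup.mk' A) := by
          intro a ha
          show QuotientGroup.mk' A a ∈ W
          rw [(hπ a).2 ha]
          exact W.one_mem
        have h2 : W.comap (QuotientGroup.mk' A) ≤ B := by
          have := Subgroup.comap_mono (f := QuotientGroup.mk' A) hWB
          rw [Subgroup.comap_map_eq, QuotientGroup.ker_mk', sup_eq_left.2 hAB.le] at this
          exact this
        have h3 : (W.comap (QuotientGroup.mk' A)).map (QuotientGroup.mk' A) = W :=
          Subgroup.map_comap_eq_self_of_surjective (QuotientGroup.mk'_surjective A) W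
        rcases hchief _ (hW.comap _) h1 h2 with h | h
        · left
          rw [← h3, h, eq_bot_iff]
          rintro _ ⟨a, ha, rfl⟩
          exact Subgroup.mem_bot.2 ((hπ a).2 ha)
        · right
          rw [← h3, h])
      (by
        intro h
        apply hc
        rw [Subgroup.commutator_le]
        intro b hb g _
        rw [← hπ, map_commutatorElement, commutatorElement_eq_one_iff_mul_comm]
        have h1 := h (Subgroup.mem_map_of_mem (QuotientGroup.mk' A) hb)
        exact (Subgroup.mem_center_iff.1 h1 _).symm)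
    have h6 : QuotientGroup.mk' A x ∈ B.map (QuotientGroup.mk' A) ⊓
        Cfsg.systemNormalizer (fun p => (K p).map (QuotientGroup.mk' A)) := by
      refine ⟨Subgroup.mem_map_of_mem _ hx.1, ?_⟩
      rw [hDb]
      exact Subgroup.mem_map_of_mem _ hx.2
    rw [hav, Subgroup.mem_bot] at h6
    exact (hπ x).1 h6

end Cfsg.Agent.S0568
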