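import Cfsg.Statements.S0571
import Mathlib
import Cfsg.Agent.Lib.Helper2.Supersolvable2
import Cfsg.Agent.Lib.Helper1.SZQuot
import Cfsg.Agent.Lib.Helper1.SZAb
import Cfsg.Agent.Lib.Helper1.Basic

set_option autoImplicit false
open Cfsg

namespace Cfsg.Agent.S0571


open Cfsg.Agent.Lib.Helper2.Supersolvable Cfsg.Agent.Lib.Helper1 Pointwise

universe u

theorem eq_of_card_eq {G : Type u} [Group G] [Finite G] {A D₁ D₂ : Subgroup G} [IsCyclic A]
    (h1 : D₁ ≤ A) (h2 : D₂ ≤ A) (hc : Nat.card D₂ = Nat.card D₁) : D₁ = D₂ := by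
  classical
  have : Fintype A := Fintype.ofFinite A
  have hd : 0 < Nat.card D₁ := Nat.card_pos
  have hle := IsCyclic.card_pow_eq_one_le (α := A) hd
  have key : ∀ D : Subgroup G, D ≤ A → Nat.card D = Nat.card D₁ →
      ∀ x : A, x ^ (Nat.card D₁) = 1 → (x : G) ∈ D := by
    intro D hD hcD
    have hF : (Finset.univ.filter (fun a : A => (a : G) ∈ D)).card = Nat.card D₁ := by
      rw [← hcD, ← card_subgroupOf hD]
      exact (Nat.subtype_card _ (fun a => by simp [Subgroup.mem_subgroupOf])).symm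
    have hsub : Finset.univ.filter (fun a : A => (a : G) ∈ D) ⊆
        Finset.univ.filter (fun a : A => a ^ (Nat.card D₁) = 1) := by
      intro a ha
      rw [Finset.mem_filter] at ha ⊢
      refine ⟨Finset.mem_univ _, Subtype.ext ?_⟩
      have := pow_card_eq_one' (G := D) (x := ⟨a, ha.2⟩)
      rw [hcD] at this
      have e : (a : G) ^ (Nat.card D₁) = 1 := congrArg (Subtype.val : D → G) this
      simpa using e
    have heq := Finset.eq_of_subset_of_card_le hsub (by rw [hF]; exact hle)
    intro x hx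
    have hx' : x ∈ Finset.univ.filter (fun a : A => (a : G) ∈ D) := by
      rw [heq]
      exact Finset.mem_filter.mpr ⟨Finset.mem_univ _, hx⟩
    exact (Finset.mem_filter.mp hx').2
  ext x
  constructor
  · intro hx
    refine key D₂ h2 hc ⟨x, h1 hx⟩ (Subtype.ext ?_)
    have e : x ^ (Nat.card D₁) = 1 :=
      congrArg (Subtype.val : D₁ → G) (pow_card_eq_one' (G := D₁) (x := ⟨x, hx⟩))
    simpa using e
  · intro hx
    refine key D₁ h1 rfl ⟨x, h2 hx⟩ (Subtype.ext ?_)
    have := pow_card_eq_one' (G := D₂) (x := ⟨x, hx⟩)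
    rw [hc] at this
    have e : x ^ (Nat.card D₁) = 1 := congrArg (Subtype.val : D₂ → G) this
    simpa using e

theorem exists_normal_le {G : Type u} [Group G] [Finite G] [Nontrivial G] (A B : Subgroup G)
    [IsCyclic A] [IsCyclic B] (hAB : ∀ g : G, ∃ a ∈ A, ∃ b ∈ B, g = a * b)
    (hle : Nat.card B ≤ Nat.card A) : ∃ D : Subgroup G, D ≤ A ∧ D ≠ ⊥ ∧ D.Normal := by
  obtain ⟨b, hb⟩ := IsCyclic.exists_generator (α := B)
  have hGle : Nat.card G ≤ Nat.card A * Nat.card B := by
    rw [← Nat.card_prod]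
    apply Nat.card_le_card_of_surjective (fun z : A × B => (z.1 : G) * z.2)
    intro g
    obtain ⟨a, ha, c, hc, rfl⟩ := hAB g
    exact ⟨(⟨a, ha⟩, ⟨c, hc⟩), rfl⟩
  refine ⟨A ⊓ MulAut.conj (b : G) • A, inf_le_left, ?_, ?_⟩
  · intro hD
    have hinj := Subgroup.mul_injective_of_disjoint (disjoint_iff.mpr hD)
    have hbij := hinj.bijective_of_nat_card_le (by
      rw [Nat.card_prod, card_conj_smul]
      exact hGle.trans (Nat.mul_le_mul_left _ hle))
    obtain ⟨⟨x, y⟩, hxy⟩ := hbij.2 ((b : G)⁻¹)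
    obtain ⟨z, hz, hzy⟩ := Subgroup.mem_pointwise_smul_iff_inv_smul_mem.mp y.2 |> fun h =>
      (⟨_, h, rfl⟩ : ∃ z, z ∈ A ∧ z = (MulAut.conj (b : G))⁻¹ • (y : G))
    have hy : (y : G) = b * z * (b : G)⁻¹ := by
      rw [hzy, ← map_inv, MulAut.smul_def, MulAut.conj_apply]
      group
    have hxy' : (x : G) * y = (b : G)⁻¹ := hxy
    have hbA : (b : G) ∈ A := by
      have e : (b : G) = (x : G)⁻¹ * z⁻¹ := by
        rw [hy] at hxy'
        have e1 : (x : G) * (b * z) = 1 := by
          have := congrArg (fun w => w * (b : G)) hxy'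
          simpa [mul_assoc] using this
        have e2 : (b : G) * z = (x : G)⁻¹ := eq_inv_of_mul_eq_one_right e1
        rw [← e2]; group
      rw [e]
      exact A.mul_mem (A.inv_mem x.2) (A.inv_mem hz)
    rw [conj_smul_eq_of_mem_normalizer (Subgroup.le_normalizer hbA), inf_idem] at hD
    have h1 : Nat.card A = 1 := by rw [hD]; exact Subgroup.card_bot
    have h2 : Nat.card B = 1 := le_antisymm (h1 ▸ hle) Nat.card_pos
    rw [h1, h2] at hGle
    exact absurd (Finite.one_lt_card (α := G)) (by omega)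
  · rw [← Subgroup.normalizer_eq_top_iff, eq_top_iff]
    have hcomm : ∀ a ∈ A, ∀ c ∈ A, a * c = c * a := by
      intro a ha c hc
      have hcA : IsMulCommutative A := inferInstance
      exact congrArg Subtype.val (hcA.is_comm.comm ⟨a, ha⟩ ⟨c, hc⟩)
    have hA : A ≤ Subgroup.normalizer ((A ⊓ MulAut.conj (b : G) • A : Subgroup G) : Set G) := by
      intro a ha
      rw [Subgroup.mem_normalizer_iff]
      intro d
      constructor
      · intro hd
        rw [hcomm a ha d hd.1, mul_inv_cancel_right]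
        exact hd
      · intro hd
        have h3 : d ∈ A := by
          have := A.mul_mem (A.mul_mem (A.inv_mem ha) hd.1) ha
          simpa [mul_assoc] using this
        rw [hcomm a ha d h3, mul_inv_cancel_right] at hd
        exact hd
    have hbN : (b : G) ∈
        Subgroup.normalizer ((A ⊓ MulAut.conj (b : G) • A : Subgroup G) : Set G) := by
      have h4 : MulAut.conj (b : G)⁻¹ • (A ⊓ MulAut.conj (b : G) • A) =
          A ⊓ MulAut.conj (b : G) • A := by
        symm
        apply eq_of_card_eq (A := A) inf_le_left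
        · calc MulAut.conj (b : G)⁻¹ • (A ⊓ MulAut.conj (b : G) • A)
              ≤ MulAut.conj (b : G)⁻¹ • (MulAut.conj (b : G) • A) :=
                Subgroup.pointwise_smul_le_pointwise_smul_iff.mpr inf_le_right
            _ = A := by rw [map_inv, inv_smul_smul]
        · exact card_conj_smul _ _
      have := mem_normalizer_of_conj_smul_eq h4
      simpa using Subgroup.inv_mem _ this
    intro g _
    obtain ⟨a, ha, c, hc, rfl⟩ := hAB g
    refine Subgroup.mul_mem _ (hA ha) ?_
    obtain ⟨k, hk⟩ := Subgroup.mem_zpowers_iff.mp (hb ⟨c, hc⟩)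
    have : c = (b : G) ^ k := by
      have := congrArg Subtype.val hk
      simpa using this.symm
    rw [this]
    exact Subgroup.zpow_mem _ hbN k

theorem main : ∀ (n : ℕ) (G : Type u) [Group G] [Finite G], Nat.card G = n →
    ∀ (A B : Subgroup G) [IsCyclic A] [IsCyclic B], (∀ g : G, ∃ a ∈ A, ∃ b ∈ B, g = a * b) →
    Cfsg.IsSupersolvable G := by
  intro n
  induction n using Nat.strong_induction_on with
  | _ n ih =>
  intro G _ _ hn A B _ _ hAB
  rcases subsingleton_or_nontrivial G with hs | hnt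
  · exact isSupersolvable_of_subsingleton
  have hBA : ∀ g : G, ∃ b ∈ B, ∃ a ∈ A, g = b * a := by
    intro g
    obtain ⟨a, ha, b, hb, h⟩ := hAB g⁻¹
    refine ⟨b⁻¹, B.inv_mem hb, a⁻¹, A.inv_mem ha, ?_⟩
    rw [← mul_inv_rev, ← h, inv_inv]
  have hex : ∃ D : Subgroup G, IsCyclic D ∧ D ≠ ⊥ ∧ D.Normal := by
    rcases le_total (Nat.card B) (Nat.card A) with h | h
    · obtain ⟨D, h1, h2, h3⟩ := exists_normal_le A B hAB h
      exact ⟨D, isCyclic_of_surjective (Subgroup.subgroupOfEquivOfLe h1)
        (Subgroup.subgroupOfEquivOfLe h1).surjective, h2, h3⟩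
    · obtain ⟨D, h1, h2, h3⟩ := exists_normal_le B A hBA h
      exact ⟨D, isCyclic_of_surjective (Subgroup.subgroupOfEquivOfLe h1)
        (Subgroup.subgroupOfEquivOfLe h1).surjective, h2, h3⟩
  obtain ⟨D, hDc, hD1, hDn⟩ := hex
  have hA' : IsCyclic (A.map (QuotientGroup.mk' D)) :=
    isCyclic_of_surjective ((QuotientGroup.mk' D).subgroupMap A)
      ((QuotientGroup.mk' D).subgroupMap_surjective A)
  have hB' : IsCyclic (B.map (QuotientGroup.mk' D)) :=
    isCyclic_of_surjective ((QuotientGroup.mk' D).subgroupMap B)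
      ((QuotientGroup.mk' D).subgroupMap_surjective B)
  apply isSupersolvable_of_quotient_cyclic D
  refine ih _ (hn ▸ card_quotient_lt D (D.one_lt_card_iff_ne_bot.mpr hD1)) (G ⧸ D) rfl
    (A.map (QuotientGroup.mk' D)) (B.map (QuotientGroup.mk' D)) ?_
  intro g
  obtain ⟨g, rfl⟩ := QuotientGroup.mk'_surjective D g
  obtain ⟨a, ha, b, hb, rfl⟩ := hAB g
  exact ⟨_, Subgroup.mem_map_of_mem _ ha, _, Subgroup.mem_map_of_mem _ hb, map_mul _ a b⟩

/-- If a finite group G is the product AB of two cyclic subgroups (every element is a product ab), then G is supersolvable. -/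
theorem result {G : Type*} [Group G] [Finite G] (A B : Subgroup G) [IsCyclic A] [IsCyclic B] (hAB : ∀ g : G, ∃ a ∈ A, ∃ b ∈ B, g = a * b) : Cfsg.IsSupersolvable G := by
  exact main _ G rfl A B hAB

end Cfsg.Agent.S0571
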