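import Mathlib
import Cfsg.Statements.S0572
import Cfsg.Agent.Lib.Helper2.Commutator

set_option autoImplicit false
open Cfsg
open scoped commutatorElement
open Cfsg.Agent.Lib.Helper2.Commutator

namespace Cfsg.Agent.S0572

theorem comm_of {G : Type*} [Group G] (A : Subgroup G) [IsMulCommutative A] {x y : G} (hx : x ∈ A) (hy : y ∈ A) :
    x * y = y * x := by
  have := mul_comm' (⟨x, hx⟩ : A) ⟨y, hy⟩
  exact congrArg Subtype.val this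

theorem result {G : Type*} [Group G] (A B : Subgroup G) [IsMulCommutative A] [IsMulCommutative B] (hAB : ∀ g : G, ∃ a ∈ A, ∃ b ∈ B, g = a * b) : derivedSeries G 2 = ⊥ := by
  have hBA : ∀ g : G, ∃ b ∈ B, ∃ a ∈ A, g = b * a := by
    intro g
    obtain ⟨a, ha, b, hb, h⟩ := hAB g⁻¹
    refine ⟨b⁻¹, B.inv_mem hb, a⁻¹, A.inv_mem ha, ?_⟩
    rw [← mul_inv_rev, ← h, inv_inv]
  have htop : A ⊔ B = ⊤ := by
    rw [eq_top_iff]
    intro g _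
    obtain ⟨a, ha, b, hb, rfl⟩ := hAB g
    exact Subgroup.mul_mem_sup ha hb
  have hN : (⁅A, B⁆ : Subgroup G).Normal := by
    rw [← Subgroup.normalizer_eq_top_iff, eq_top_iff, ← htop]
    exact sup_le (Subgroup.normalizer_commutator_ge_left A B) (Subgroup.normalizer_commutator_ge_right A B)
  have hAA : ⁅A, A⁆ = ⊥ := Subgroup.commutator_self_eq_bot_iff.mpr inferInstance
  have hBB : ⁅B, B⁆ = ⊥ := Subgroup.commutator_self_eq_bot_iff.mpr inferInstance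
  have h1 : ⁅(⊤ : Subgroup G), ⊤⁆ ≤ ⁅A, B⁆ := by
    rw [← htop]
    apply commutator_sup_left_le
    · apply commutator_sup_right_le
      · rw [hAA]; exact bot_le
      · exact le_rfl
    · apply commutator_sup_right_le
      · rw [Subgroup.commutator_comm]
      · rw [hBB]; exact bot_le
  -- key identity
  have key : ∀ a ∈ A, ∀ b ∈ B, ∀ a1 ∈ A, ∀ b1 ∈ B,
      (a1 * b1) * ⁅a, b⁆ * (a1 * b1)⁻¹ = (b1 * a1) * ⁅a, b⁆ * (b1 * a1)⁻¹ := by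
    intro a ha b hb a1 ha1 b1 hb1
    obtain ⟨b2, hb2, a2, ha2, e2⟩ := hBA (a1 * b * a1⁻¹)
    obtain ⟨a3, ha3, b3, hb3, e3⟩ := hAB (b1 * a * b1⁻¹)
    have cA : ∀ x ∈ A, a1 * x * a1⁻¹ = x := by
      intro x hx
      rw [comm_of A ha1 hx, mul_assoc, mul_inv_cancel, mul_one]
    have cB : ∀ x ∈ B, b1 * x * b1⁻¹ = x := by
      intro x hx
      rw [comm_of B hb1 hx, mul_assoc, mul_inv_cancel, mul_one]
    have r1 : ∀ x ∈ A, ⁅x, b2 * a2⁆ = ⁅x, b2⁆ := by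
      intro x hx
      rw [commutatorElement_mul_right_eq_mul_conj,
        commutatorElement_eq_one_iff_mul_comm.mpr (comm_of A hx ha2)]
      group
    have r2 : ∀ y ∈ B, ⁅a3 * b3, y⁆ = ⁅a3, y⁆ := by
      intro y hy
      rw [commutatorElement_mul_left_eq_conj_mul,
        commutatorElement_eq_one_iff_mul_comm.mpr (comm_of B hb3 hy)]
      group
    have L : (a1 * b1) * ⁅a, b⁆ * (a1 * b1)⁻¹ = ⁅a3, b2⁆ := by
      have : (a1 * b1) * ⁅a, b⁆ * (a1 * b1)⁻¹ = a1 * (b1 * ⁅a, b⁆ * b1⁻¹) * a1⁻¹ := by group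
      rw [this, conjugate_commutatorElement, cB b hb, e3, r2 b hb, conjugate_commutatorElement,
        cA a3 ha3, e2, r1 a3 ha3]
    have R : (b1 * a1) * ⁅a, b⁆ * (b1 * a1)⁻¹ = ⁅a3, b2⁆ := by
      have : (b1 * a1) * ⁅a, b⁆ * (b1 * a1)⁻¹ = b1 * (a1 * ⁅a, b⁆ * a1⁻¹) * b1⁻¹ := by group
      rw [this, conjugate_commutatorElement, cA a ha, e2, r1 a ha, conjugate_commutatorElement,
        cB b2 hb2, e3, r2 b2 hb2]
    rw [L, R]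
  have h2 : ⁅(⁅A, B⁆ : Subgroup G), ⁅A, B⁆⁆ = ⊥ := by
    rw [Subgroup.commutator_def A B]
    apply commutator_closure_eq_bot
    rintro x ⟨a1, ha1, b1, hb1, rfl⟩ y ⟨a, ha, b, hb, rfl⟩
    have k := key a ha b hb a1⁻¹ (A.inv_mem ha1) b1⁻¹ (B.inv_mem hb1)
    set w := ⁅a, b⁆
    have e : ⁅a1, b1⁆ = (b1⁻¹ * a1⁻¹)⁻¹ * (a1⁻¹ * b1⁻¹) := by
      rw [commutatorElement_def]; group
    rw [e]
    calc (b1⁻¹ * a1⁻¹)⁻¹ * (a1⁻¹ * b1⁻¹) * w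
        = (b1⁻¹ * a1⁻¹)⁻¹ * ((a1⁻¹ * b1⁻¹) * w * (a1⁻¹ * b1⁻¹)⁻¹) * (a1⁻¹ * b1⁻¹) := by group
      _ = (b1⁻¹ * a1⁻¹)⁻¹ * ((b1⁻¹ * a1⁻¹) * w * (b1⁻¹ * a1⁻¹)⁻¹) * (a1⁻¹ * b1⁻¹) := by rw [k]
      _ = w * ((b1⁻¹ * a1⁻¹)⁻¹ * (a1⁻¹ * b1⁻¹)) := by group
  show ⁅⁅(⊤ : Subgroup G), ⊤⁆, ⁅(⊤ : Subgroup G), ⊤⁆⁆ = ⊥
  rw [eq_bot_iff, ← h2]
  exact Subgroup.commutator_mono h1 h1

end Cfsg.Agent.S0572
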