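import Mathlib
import Cfsg.Statements.S0573
import Cfsg.Agent.S0572

set_option autoImplicit false
open Cfsg
open scoped commutatorElement

namespace Cfsg.Agent.S0573

/-- `cc x a = x⁻¹ * (a⁻¹ * x * a)` -/
def cc {G : Type*} [Group G] (x a : G) : G := x⁻¹ * (a⁻¹ * x * a)

section
variable {G : Type*} [Group G] (V : Subgroup G) [hVn : V.Normal]
  (cV : ∀ v ∈ V, ∀ v' ∈ V, Commute v v')

include hVn in
theorem cj_mem {x : G} (hx : x ∈ V) (a : G) : a⁻¹ * x * a ∈ V := by
  have := hVn.conj_mem x hx a⁻¹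
  simpa using this

include hVn in
theorem cc_mem {x : G} (hx : x ∈ V) (a : G) : cc x a ∈ V :=
  V.mul_mem (V.inv_mem hx) (cj_mem V hx a)

include hVn cV in
theorem cc_mul {x y : G} (hx : x ∈ V) (hy : y ∈ V) (a : G) :
    cc (x * y) a = cc x a * cc y a := by
  have hc : Commute y⁻¹ (x⁻¹ * (a⁻¹ * x * a)) := cV _ (V.inv_mem hy) _ (cc_mem V hx a)
  unfold cc
  calc (x * y)⁻¹ * (a⁻¹ * (x * y) * a) = (y⁻¹ * (x⁻¹ * (a⁻¹ * x * a))) * (a⁻¹ * y * a) := by group
    _ = (x⁻¹ * (a⁻¹ * x * a)) * y⁻¹ * (a⁻¹ * y * a) := by rw [hc.eq]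
    _ = _ := by group

include hVn cV in
theorem cc_inv {x : G} (hx : x ∈ V) (a : G) : cc x⁻¹ a = (cc x a)⁻¹ := by
  have h := cc_mul V cV (V.inv_mem hx) hx a
  rw [inv_mul_cancel] at h
  have h1 : cc (1 : G) a = 1 := by simp [cc]
  rw [h1] at h
  exact eq_inv_of_mul_eq_one_left h.symm

/-- the subgroup `[V, a]` -/
def T (a : G) : Subgroup G where
  carrier := {y | ∃ x ∈ V, y = cc x a}
  mul_mem' := by
    rintro _ _ ⟨x, hx, rfl⟩ ⟨y, hy, rfl⟩
    exact ⟨x * y, V.mul_mem hx hy, (cc_mul V cV hx hy a).symm⟩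
  one_mem' := ⟨1, V.one_mem, by simp [cc]⟩
  inv_mem' := by
    rintro _ ⟨x, hx, rfl⟩
    exact ⟨x⁻¹, V.inv_mem hx, (cc_inv V cV hx a).symm⟩

theorem cc_conj {a a₂ : G} (h : Commute a a₂) (x : G) :
    a₂⁻¹ * cc x a * a₂ = cc (a₂⁻¹ * x * a₂) a := by
  unfold cc
  have h1 : a₂ * a⁻¹ * a₂⁻¹ = a⁻¹ := by
    rw [(h.symm.inv_right).eq]; group
  symm
  calc (a₂⁻¹ * x * a₂)⁻¹ * (a⁻¹ * (a₂⁻¹ * x * a₂) * a)
      = a₂⁻¹ * x⁻¹ * (a₂ * a⁻¹ * a₂⁻¹) * x * (a₂ * a) := by group
    _ = a₂⁻¹ * x⁻¹ * a⁻¹ * x * (a * a₂) := by rw [h1, h.symm.eq]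
    _ = _ := by group

end

/-- statement -/
theorem result {G : Type*} [Group G] [Finite G] [Nontrivial G] (A B : Subgroup G) [IsMulCommutative A] [IsMulCommutative B] (hAB : ∀ g : G, ∃ a ∈ A, ∃ b ∈ B, g = a * b) : ∃ N : Subgroup G, N.Normal ∧ N ≠ ⊥ ∧ (N ≤ A ∨ N ≤ B) := by
  classical
  by_contra hno
  have cA : ∀ a ∈ A, ∀ a' ∈ A, Commute a a' := fun a ha a' ha' =>
    congrArg Subtype.val (IsMulCommutative.is_comm.comm (⟨a, ha⟩ : A) ⟨a', ha'⟩)
  have cB : ∀ a ∈ B, ∀ a' ∈ B, Commute a a' := fun a ha a' ha' =>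
    congrArg Subtype.val (IsMulCommutative.is_comm.comm (⟨a, ha⟩ : B) ⟨a', ha'⟩)
  have hcen : ∀ z, (∀ a ∈ A, Commute a z) → (∀ b ∈ B, Commute b z) → z ∈ Subgroup.center G := by
    intro z h1 h2
    rw [Subgroup.mem_center_iff]
    intro g
    obtain ⟨a, ha, b, hb, rfl⟩ := hAB g
    exact ((h1 a ha).mul_left (h2 b hb)).eq
  have hnc : ∀ z ∈ Subgroup.center G, (Subgroup.zpowers z).Normal := by
    intro z hz
    constructor
    intro n hn g
    have hn' : n ∈ Subgroup.center G := (Subgroup.zpowers_le.2 hz) hn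
    rw [Subgroup.mem_center_iff] at hn'
    rw [hn' g, mul_inv_cancel_right]
    exact hn
  have hZ : ∀ z ∈ Subgroup.center G, z = 1 := by
    intro z hz
    by_contra hz1
    obtain ⟨a, ha, b, hb, hzab⟩ := hAB z
    have hzc : ∀ g, Commute g z := fun g => (Subgroup.mem_center_iff.1 hz g)
    have hac : a ∈ Subgroup.center G := by
      apply hcen a (fun a' ha' => cA a' ha' a ha)
      intro b' hb'
      have : a = z * b⁻¹ := by rw [hzab]; group
      rw [this]
      exact (hzc b').mul_right (cB b' hb' _ (B.inv_mem hb))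
    have hbc : b ∈ Subgroup.center G := by
      apply hcen b _ (fun a' ha' => cB a' ha' b hb)
      intro b' hb'
      have : b = a⁻¹ * z := by rw [hzab]; group
      rw [this]
      exact (cA b' hb' _ (A.inv_mem ha)).mul_right (hzc b')
    by_cases ha1 : a = 1
    · have hb1 : b ≠ 1 := by
        intro hb1
        rw [ha1, hb1, one_mul] at hzab
        exact hz1 hzab
      exact hno ⟨Subgroup.zpowers b, hnc b hbc, by simpa using hb1,
        Or.inr (Subgroup.zpowers_le.2 hb)⟩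
    · exact hno ⟨Subgroup.zpowers a, hnc a hac, by simpa using ha1,
        Or.inl (Subgroup.zpowers_le.2 ha)⟩
  have CA : ∀ x, (∀ a ∈ A, Commute a x) → x ∈ A := by
    intro x hx
    obtain ⟨a, ha, b, hb, hxab⟩ := hAB x
    have hb1 : b = 1 := by
      apply hZ
      apply hcen b _ (fun a' ha' => cB a' ha' b hb)
      intro a' ha'
      have : b = a⁻¹ * x := by rw [hxab]; group
      rw [this]
      exact (cA a' ha' _ (A.inv_mem ha)).mul_right (hx a' ha')
    rw [hxab, hb1, mul_one]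
    exact ha
  have CB : ∀ x, (∀ a ∈ B, Commute a x) → x ∈ B := by
    intro x hx
    obtain ⟨a, ha, b, hb, hxab⟩ := hAB x
    have hb1 : a = 1 := by
      apply hZ
      apply hcen a (fun a' ha' => cA a' ha' a ha)
      intro a' ha'
      have : a = x * b⁻¹ := by rw [hxab]; group
      rw [this]
      exact (hx a' ha').mul_right (cB a' ha' _ (B.inv_mem hb))
    rw [hxab, hb1, one_mul]
    exact hb
  set V : Subgroup G := commutator G with hV
  have hVn : V.Normal := inferInstance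
  have hcomV : ∀ x y : G, ⁅x, y⁆ ∈ V := fun x y =>
    Subgroup.commutator_mem_commutator (Subgroup.mem_top x) (Subgroup.mem_top y)
  have cV : ∀ v ∈ V, ∀ v' ∈ V, Commute v v' := by
    have h2 := S0572.result A B hAB
    have h3 : ⁅V, V⁆ = ⊥ := by
      have : derivedSeries G 2 = ⁅derivedSeries G 1, derivedSeries G 1⁆ := rfl
      rw [this, derivedSeries_one] at h2
      exact h2
    rw [Subgroup.commutator_eq_bot_iff_le_centralizer] at h3
    intro v hv v' hv'
    exact (Subgroup.mem_centralizer_iff.1 (h3 hv) v' hv').symm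
  -- the centraliser of `C ⊔ V` is normal
  have hnorm : ∀ C : Subgroup G,
      (Subgroup.centralizer (C : Set G) ⊓ Subgroup.centralizer (V : Set G)).Normal := by
    intro C
    constructor
    rintro x ⟨hxA, hxV⟩ g
    replace hxA : x ∈ Subgroup.centralizer (C : Set G) := hxA
    replace hxV : x ∈ Subgroup.centralizer (V : Set G) := hxV
    refine ⟨?_, (inferInstance : (Subgroup.centralizer (V : Set G)).Normal).conj_mem x hxV g⟩
    show g * x * g⁻¹ ∈ Subgroup.centralizer (C : Set G)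
    rw [Subgroup.mem_centralizer_iff]
    intro a ha
    have h1 : g⁻¹ * a * g = a * ⁅a⁻¹, g⁻¹⁆ := by
      rw [commutatorElement_def]; group
    have h3 : Commute (g⁻¹ * a * g) x := by
      rw [h1]
      exact Commute.mul_left (Subgroup.mem_centralizer_iff.1 hxA a ha)
        (Subgroup.mem_centralizer_iff.1 hxV _ (hcomV _ _))
    have h4 : a * (g * x * g⁻¹) = g * ((g⁻¹ * a * g) * x) * g⁻¹ := by group
    rw [h4, h3.eq]; group
  have hAV : ∀ x, (∀ a ∈ A, Commute a x) → (∀ v ∈ V, Commute v x) → x = 1 := by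
    intro x h1 h2
    by_contra hx
    apply hno
    refine ⟨_, hnorm A, ?_, Or.inl ?_⟩
    · intro hbot
      have : x ∈ Subgroup.centralizer (A : Set G) ⊓ Subgroup.centralizer (V : Set G) :=
        ⟨Subgroup.mem_centralizer_iff.2 fun a ha => (h1 a ha).eq,
          Subgroup.mem_centralizer_iff.2 fun a ha => (h2 a ha).eq⟩
      rw [hbot, Subgroup.mem_bot] at this
      exact hx this
    · intro y hy
      exact CA y fun a ha => Subgroup.mem_centralizer_iff.1 hy.1 a ha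
  have hBV : ∀ x, (∀ a ∈ B, Commute a x) → (∀ v ∈ V, Commute v x) → x = 1 := by
    intro x h1 h2
    by_contra hx
    apply hno
    refine ⟨_, hnorm B, ?_, Or.inr ?_⟩
    · intro hbot
      have : x ∈ Subgroup.centralizer (B : Set G) ⊓ Subgroup.centralizer (V : Set G) :=
        ⟨Subgroup.mem_centralizer_iff.2 fun a ha => (h1 a ha).eq,
          Subgroup.mem_centralizer_iff.2 fun a ha => (h2 a ha).eq⟩
      rw [hbot, Subgroup.mem_bot] at this
      exact hx this
    · intro y hy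
      exact CB y fun a ha => Subgroup.mem_centralizer_iff.1 hy.1 a ha
  let R : G → G → Prop := fun a v => a ∈ A ∧ v ∈ V ∧ a * v ∈ B
  have F1 : ∀ v ∈ V, ∃ a, R a v := by
    intro v hv
    obtain ⟨a, ha, b, hb, hvab⟩ := hAB v
    refine ⟨a⁻¹, A.inv_mem ha, hv, ?_⟩
    rw [hvab]
    simpa using hb
  have F3 : ∀ {a v a₁ v₁}, R a v → R a₁ v₁ → cc v a₁ = cc v₁ a := by
    intro a v a₁ v₁ h h₁
    have hb : Commute (a * v) (a₁ * v₁) := cB _ h.2.2 _ h₁.2.2
    have haa : Commute a a₁ := cA _ h.1 _ h₁.1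
    have e : (a₁⁻¹ * v * a₁) * v₁ = (a⁻¹ * v₁ * a) * v := by
      have e1 : a * v * (a₁ * v₁) = a * a₁ * ((a₁⁻¹ * v * a₁) * v₁) := by group
      have e2 : a₁ * v₁ * (a * v) = a₁ * a * ((a⁻¹ * v₁ * a) * v) := by group
      have := hb.eq
      rw [e1, e2, haa.eq] at this
      exact mul_left_cancel this
    have hp : a₁⁻¹ * v * a₁ = (a⁻¹ * v₁ * a) * v * v₁⁻¹ := by rw [← e]; group
    have c1 : Commute v⁻¹ (a⁻¹ * v₁ * a) := cV _ (V.inv_mem h.2.1) _ (cj_mem V h₁.2.1 a)
    have c2 : Commute v₁⁻¹ (a⁻¹ * v₁ * a) := cV _ (V.inv_mem h₁.2.1) _ (cj_mem V h₁.2.1 a)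
    unfold cc
    rw [hp]
    calc v⁻¹ * ((a⁻¹ * v₁ * a) * v * v₁⁻¹) = (v⁻¹ * (a⁻¹ * v₁ * a)) * v * v₁⁻¹ := by group
      _ = (a⁻¹ * v₁ * a) * v⁻¹ * v * v₁⁻¹ := by rw [c1.eq]
      _ = (a⁻¹ * v₁ * a) * v₁⁻¹ := by group
      _ = v₁⁻¹ * (a⁻¹ * v₁ * a) := c2.eq.symm
  have F2 : ∀ {a' u}, R a' u → u ∈ T V cV a' → u = 1 := by
    intro a' u h hu
    obtain ⟨w, hw, hu⟩ := hu
    have hz : a' * u = w * a' * w⁻¹ := by
      have c1 : Commute w⁻¹ (a'⁻¹ * w * a') := cV _ (V.inv_mem hw) _ (cj_mem V hw a')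
      rw [hu]
      unfold cc
      rw [c1.eq]; group
    obtain ⟨a, ha, b, hb, hwab⟩ := hAB w⁻¹
    have hw' : w = b⁻¹ * a⁻¹ := by
      rw [← inv_inv w, hwab]; group
    have hz2 : a' * u = b⁻¹ * a' * b := by
      rw [hz, hw']
      have c2 : Commute a⁻¹ a' := cA _ (A.inv_mem ha) _ h.1
      calc b⁻¹ * a⁻¹ * a' * (b⁻¹ * a⁻¹)⁻¹ = b⁻¹ * (a⁻¹ * a') * a * b := by group
        _ = b⁻¹ * (a' * a⁻¹) * a * b := by rw [c2.eq]
        _ = _ := by group
    have c3 : Commute b (a' * u) := cB _ hb _ h.2.2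
    have hz3 : a' * u = a' := by
      have : b * (a' * u) = a' * b := by rw [hz2]; group
      rw [c3.eq] at this
      exact mul_right_cancel this
    exact mul_left_cancel (hz3.trans (mul_one a').symm)
  have step4 : ∀ v ∈ V, (∀ a₁ v₁, R a₁ v₁ → cc v a₁ = 1) → v = 1 := by
    intro v hv hall
    have hc0 : ∀ a₁ v₁, R a₁ v₁ → Commute v a₁ := by
      intro a₁ v₁ h
      have h1 := hall a₁ v₁ h
      unfold cc at h1
      have h2 : a₁⁻¹ * v * a₁ = v := by
        have := congrArg (fun t => v * t) h1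
        simpa using this
      have h3 : v * a₁ = a₁ * (a₁⁻¹ * v * a₁) := by group
      rw [h2] at h3
      exact h3
    obtain ⟨a, ha, b, hb, hvab⟩ := hAB v
    have ha1 : a = 1 := by
      apply hAV a (fun a' ha' => cA a' ha' a ha)
      intro v' hv'
      obtain ⟨a₁, h₁⟩ := F1 v' hv'
      have e1 : v' = a₁⁻¹ * (a₁ * v') := by group
      have e2 : a = v * b⁻¹ := by rw [hvab]; group
      rw [e1]
      apply Commute.mul_left (cA _ (A.inv_mem h₁.1) _ ha)
      rw [e2]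
      apply Commute.mul_right
      · exact ((hc0 a₁ v' h₁).mul_right (cV v hv v' hv')).symm
      · exact cB _ h₁.2.2 _ (B.inv_mem hb)
    have hb1 : b = 1 := by
      apply hBV b (fun a' ha' => cB a' ha' b hb)
      intro v' hv'
      obtain ⟨a₁, h₁⟩ := F1 v' hv'
      have e1 : v' = a₁⁻¹ * (a₁ * v') := by group
      have e2 : b = a⁻¹ * v := by rw [hvab]; group
      rw [e1]
      refine Commute.mul_left ?_ (cB _ h₁.2.2 _ hb)
      rw [e2]
      apply Commute.mul_right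
      · exact cA _ (A.inv_mem h₁.1) _ (A.inv_mem ha)
      · exact (hc0 a₁ v' h₁).symm.inv_left
    rw [hvab, ha1, hb1, one_mul]
  have desc : ∀ n : ℕ, ∀ a v, R a v → v ≠ 1 → Nat.card (T V cV a) = n → False := by
    intro n
    induction n using Nat.strong_induction_on with
    | _ n ih =>
      intro a v hR hv hn
      by_cases hall : ∀ a₁ v₁, R a₁ v₁ → cc v a₁ = 1
      · exact hv (step4 v hR.2.1 hall)
      · push Not at hall
        obtain ⟨a₁, v₁, hR₁, hne⟩ := hall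
        have huV : cc v a₁ ∈ V := cc_mem V hR.2.1 a₁
        have huT : cc v a₁ ∈ T V cV a := ⟨v₁, hR₁.2.1, F3 hR hR₁⟩
        obtain ⟨a', hR'⟩ := F1 _ huV
        have hle : T V cV a' ≤ T V cV a := by
          rintro y ⟨x, hx, rfl⟩
          obtain ⟨a₂, hR₂⟩ := F1 x hx
          rw [← F3 hR' hR₂]
          refine (T V cV a).mul_mem ((T V cV a).inv_mem huT) ?_
          obtain ⟨x', hx', hux'⟩ := huT
          rw [hux', cc_conj (cA a hR.1 a₂ hR₂.1)]
          exact ⟨_, cj_mem V hx' a₂, rfl⟩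
        have hlt : Nat.card (T V cV a') < Nat.card (T V cV a) := by
          by_contra hge
          push Not at hge
          have heq := Subgroup.eq_of_le_of_card_ge hle hge
          exact hne (F2 hR' (heq ▸ huT))
        exact ih _ (hn ▸ hlt) a' _ hR' hne rfl
  -- V is nontrivial
  have hVne : ∃ v ∈ V, v ≠ 1 := by
    by_contra hcon
    push Not at hcon
    obtain ⟨x, hx⟩ := exists_ne (1 : G)
    apply hx
    apply hZ
    rw [Subgroup.mem_center_iff]
    intro g
    have := hcon _ (hcomV g x)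
    exact commutatorElement_eq_one_iff_mul_comm.1 this
  obtain ⟨v, hv, hv1⟩ := hVne
  obtain ⟨a, hR⟩ := F1 v hv
  exact desc _ a v hR hv1 rfl

end Cfsg.Agent.S0573
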