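import Mathlib
import Cfsg.Statements.S0576

set_option autoImplicit false
open Cfsg

namespace Cfsg.Agent.S0576

/-- Let H be a normal subgroup of a finite group G with H contained in the Frattini subgroup of G. Then the group of inner automorphisms of H is contained in the Frattini subgroup of the automorphism group of H. -/
theorem result {G : Type*} [Group G] [Finite G] (H : Subgroup G) [H.Normal] (hH : H ≤ frattini G) : (MulAut.conj : ↥H →* MulAut ↥H).range ≤ frattini (MulAut ↥H) := by
  classical
  have hc : ∀ h : H, (MulAut.conjNormal (h : G) : MulAut H) = MulAut.conj h := by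
    intro h
    ext x
    simp [MulAut.conjNormal_apply]
  unfold frattini Order.radical
  refine le_iInf fun M => le_iInf fun hM => ?_
  by_contra hcon
  have hnorm : ((MulAut.conj : ↥H →* MulAut ↥H).range).Normal := by
    constructor
    rintro _ ⟨h, rfl⟩ φ
    refine ⟨φ h, ?_⟩
    ext x
    simp
  have htop : (MulAut.conj : ↥H →* MulAut ↥H).range ⊔ M = ⊤ := by
    by_contra hne
    have h1 : M ≤ (MulAut.conj : ↥H →* MulAut ↥H).range ⊔ M := le_sup_right
    rcases eq_or_lt_of_le h1 with h2 | h2
    · exact hcon (h2 ▸ le_sup_left)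
    · exact hne (hM.2 _ h2)
  have hG1 : (M.comap (MulAut.conjNormal : G →* MulAut H)) ⊔ frattini G = ⊤ := by
    rw [eq_top_iff]
    intro g _
    have hg : (MulAut.conjNormal g : MulAut H) ∈ (MulAut.conj : ↥H →* MulAut ↥H).range ⊔ M := by
      rw [htop]; trivial
    rw [Subgroup.mem_sup_of_normal_left] at hg
    obtain ⟨_, ⟨h, rfl⟩, m, hm, hgm⟩ := hg
    have h3 : ((h : G)⁻¹ * g) ∈ M.comap (MulAut.conjNormal : G →* MulAut H) := by
      rw [Subgroup.mem_comap, map_mul, map_inv, hc, ← hgm]
      simpa using hm
    have h4 : g = (h : G) * ((h : G)⁻¹ * g) := by group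
    rw [h4]
    exact Subgroup.mul_mem _ (Subgroup.mem_sup_right (hH h.2)) (Subgroup.mem_sup_left h3)
  have hG2 := frattini_nongenerating hG1
  apply hcon
  rintro _ ⟨h, rfl⟩
  have : (h : G) ∈ M.comap (MulAut.conjNormal : G →* MulAut H) := by rw [hG2]; trivial
  rw [Subgroup.mem_comap, hc] at this
  exact this

end Cfsg.Agent.S0576
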