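import Mathlib
import Cfsg.Statements.S0577
import Cfsg.Agent.Lib.Helper2.Schmidt2
import Cfsg.Agent.Lib.Helper2.Frattini2

set_option autoImplicit false
open Cfsg

namespace Cfsg.Agent.S0577

open Cfsg.Agent.Lib.Helper2.Schmidt Cfsg.Agent.Lib.Helper2.Frattini Cfsg.Agent.Lib.Helper1
open scoped commutatorElement

theorem nilpotent_of_quotient_frattini {G : Type*} [Group G] [Finite G] (D : Subgroup G) [D.Normal]
    (hD : D ≤ frattini G) (h : Group.IsNilpotent (G ⧸ D)) : Group.IsNilpotent G := by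
  have q := (Group.isNilpotent_of_finite_tfae (G := G)).out 0 3
  rw [q]; clear q
  intro p p_prime P
  have hPbar : ((P.mapSurjective (QuotientGroup.mk'_surjective D) : Sylow p (G ⧸ D)) :
      Subgroup (G ⧸ D)).Normal := inferInstance
  rw [Sylow.coe_mapSurjective] at hPbar
  haveI hQ : ((P : Subgroup G) ⊔ D).Normal := by
    have := hPbar.comap (QuotientGroup.mk' D)
    rwa [Subgroup.comap_map_eq, QuotientGroup.ker_mk'] at this
  have h2 := Sylow.normalizer_sup_eq_top' P (le_sup_left : (P : Subgroup G) ≤ (P : Subgroup G) ⊔ D)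
  have h5 : Subgroup.normalizer ((P : Subgroup G) : Set G) ⊔ frattini G = ⊤ := by
    rw [eq_top_iff, ← h2]
    exact sup_le le_sup_left (sup_le (Subgroup.le_normalizer.trans le_sup_left) (hD.trans le_sup_right))
  exact Subgroup.normalizer_eq_top_iff.mp (frattini_nongenerating h5)

theorem result {G : Type*} [Group G] [Finite G] (hG : Cfsg.IsMinimalNonNilpotent G) (q : ℕ) [Fact q.Prime] (hq : q ∣ Nat.card G) (Q : Sylow q G) (hQ : (Q : Subgroup G).Normal) (D : Subgroup G) [D.Normal] (hD : D = (commutator ↥(Q : Subgroup G)).map (Q : Subgroup G).subtype) : ¬ IsMulCommutative (G ⧸ D) ∧ ∀ K : Subgroup (G ⧸ D), K ≠ ⊤ → IsMulCommutative K := by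
  have hqp : q.Prime := Fact.out
  constructor
  · intro hc
    apply hG.1
    haveI : Group.IsNilpotent (Q : Subgroup G) := Q.2.isNilpotent
    have h1 : D ≤ frattini G := by
      rw [hD]
      exact (Subgroup.map_mono commutator_le_frattini).trans (map_frattini_le (Q : Subgroup G))
    exact nilpotent_of_quotient_frattini D h1 isNilpotent_of_isMulCommutative
  · obtain ⟨p₀, q₀, hp₀, hq₀, hpq₀, P₀, Q₀, hPc, hQ₀n, hPQ, hPn⟩ := schmidt_structure hG.1 hG.2
    haveI : Fact p₀.Prime := ⟨hp₀⟩
    haveI : Fact q₀.Prime := ⟨hq₀⟩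
    have hdis : (P₀ : Subgroup G) ⊓ Q₀ = ⊥ := (IsPGroup.disjoint_of_ne p₀ q₀ hpq₀ _ _ P₀.2 Q₀.2).eq_bot
    have hqq : q = q₀ := by
      have c1 := card_sup_mul_card_inf (P₀ : Subgroup G) (Q₀ : Subgroup G)
      rw [hPQ, hdis, Subgroup.card_bot, mul_one, Subgroup.card_top] at c1
      obtain ⟨i, hi⟩ := IsPGroup.iff_card.mp P₀.2
      obtain ⟨j, hj⟩ := IsPGroup.iff_card.mp Q₀.2
      rw [c1, hi, hj] at hq
      rcases (Nat.Prime.dvd_mul hqp).mp hq with h1 | h1
      · exfalso
        have h2 : q = p₀ := (Nat.prime_dvd_prime_iff_eq hqp hp₀).mp (hqp.dvd_of_dvd_pow h1)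
        subst h2
        haveI := Sylow.unique_of_normal Q hQ
        apply hPn
        rw [Subsingleton.elim P₀ Q]; exact hQ
      · exact (Nat.prime_dvd_prime_iff_eq hqp hq₀).mp (hqp.dvd_of_dvd_pow h1)
    subst hqq
    haveI := Sylow.unique_of_normal Q hQ
    have hQQ : Q₀ = Q := Subsingleton.elim _ _
    rw [hQQ] at hPQ
    have hcomm : commutator G ≤ (Q : Subgroup G) := by
      apply Subgroup.Normal.commutator_le_of_self_sup_commutative_eq_top (H := (P₀ : Subgroup G))
      · rw [sup_comm]; exact hPQ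
      · exact hPc.isMulCommutative
    intro Kb hKb
    set K := Kb.comap (QuotientGroup.mk' D) with hK
    have e : K.map (QuotientGroup.mk' D) = Kb :=
      Subgroup.map_comap_eq_self_of_surjective (QuotientGroup.mk'_surjective D) Kb
    have hKt : K ≠ ⊤ := by
      intro htop
      rw [htop, ← MonoidHom.range_eq_map,
        MonoidHom.range_eq_top.mpr (QuotientGroup.mk'_surjective D)] at e
      exact hKb e.symm
    haveI hKnil := hG.2 K hKt
    let T : Set G := {x | ∃ (r : ℕ) (_ : Fact r.Prime) (S : Sylow r K), ∃ hx : x ∈ K, (⟨x, hx⟩ : K) ∈ S}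
    have hgen : Subgroup.closure T = K := by
      apply le_antisymm
      · rw [Subgroup.closure_le]
        rintro x ⟨_, _, _, hx, _⟩
        exact hx
      · rw [← Subgroup.subgroupOf_eq_top]
        apply eq_top_of_sylow_le
        intro r hr
        obtain ⟨S⟩ : Nonempty (Sylow r K) := inferInstance
        refine ⟨S, fun x hx => ?_⟩
        rw [Subgroup.mem_subgroupOf]
        exact Subgroup.subset_closure ⟨r, hr, S, x.2, hx⟩
    rw [← e, ← hgen, MonoidHom.map_closure]
    apply Subgroup.isMulCommutative_closure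
    rintro _ ⟨x, ⟨r, hr, S, hxK, hxS⟩, rfl⟩ _ ⟨y, ⟨r', hr', S', hyK, hyS⟩, rfl⟩
    by_cases hrr : r = r'
    · subst hrr
      haveI := Sylow.unique_of_normal S inferInstance
      have hSS : S' = S := Subsingleton.elim _ _
      rw [hSS] at hyS
      have hSp : IsPGroup r ((S : Subgroup K).map K.subtype) := S.2.map _
      have hxS' : x ∈ (S : Subgroup K).map K.subtype := ⟨⟨x, hxK⟩, hxS, rfl⟩
      have hyS' : y ∈ (S : Subgroup K).map K.subtype := ⟨⟨y, hyK⟩, hyS, rfl⟩
      by_cases hrq : r = q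
      · subst hrq
        obtain ⟨Q', hQ'⟩ := hSp.exists_le_sylow
        have hQ'Q : Q' = Q := Subsingleton.elim _ _
        rw [hQ'Q] at hQ'
        have hxQ := hQ' hxS'
        have hyQ := hQ' hyS'
        have h1 : ⁅x, y⁆ ∈ D := by
          rw [hD]
          refine ⟨⁅(⟨x, hxQ⟩ : (Q : Subgroup G)), ⟨y, hyQ⟩⁆,
            Subgroup.commutator_mem_commutator (Subgroup.mem_top _) (Subgroup.mem_top _), rfl⟩
        rw [← commutatorElement_eq_one_iff_mul_comm, ← map_commutatorElement, QuotientGroup.mk'_apply,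
          QuotientGroup.eq_one_iff]
        exact h1
      · have h1 : ⁅x, y⁆ ∈ (Q : Subgroup G) :=
          hcomm (Subgroup.commutator_mem_commutator (Subgroup.mem_top _) (Subgroup.mem_top _))
        have h2 : ⁅x, y⁆ ∈ (S : Subgroup K).map K.subtype := by
          rw [commutatorElement_def]
          exact mul_mem (mul_mem (mul_mem hxS' hyS') (inv_mem hxS')) (inv_mem hyS')
        have h3 := (IsPGroup.disjoint_of_ne r q hrq _ _ hSp Q.2).eq_bot
        have h4 : ⁅x, y⁆ ∈ (S : Subgroup K).map K.subtype ⊓ (Q : Subgroup G) := ⟨h2, h1⟩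
        rw [h3, Subgroup.mem_bot, commutatorElement_eq_one_iff_mul_comm] at h4
        rw [← map_mul, ← map_mul, h4]
    · have h1 := commute_of_isNilpotent hrr S.2 S'.2 hxS hyS
      have h2 : x * y = y * x := congrArg Subtype.val h1
      rw [← map_mul, ← map_mul, h2]

end Cfsg.Agent.S0577
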