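import Mathlib
import Cfsg.Statements.S0578

set_option autoImplicit false
open Cfsg

namespace Cfsg.Agent.S0578

theorem sylow_comm {G : Type*} [Group G] [Finite G] (h : ∀ A : Subgroup G, IsMulCommutative A → Subgroup.normalizer (A : Set G) = Subgroup.centralizer (A : Set G))
    (p : ℕ) [Fact p.Prime] (P : Sylow p G) : IsMulCommutative (P : Subgroup G) := by
  obtain ⟨A, hA, hmax⟩ := (Set.toFinite {A : Subgroup G | A ≤ P ∧ IsMulCommutative A}).exists_maximal
    ⟨⊥, bot_le, inferInstance⟩
  obtain ⟨hAP, hAc⟩ := hA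
  by_cases hEq : A = P
  · rw [← hEq]; exact hAc
  exfalso
  have hnil : Group.IsNilpotent (P : Subgroup G) := P.isPGroup'.isNilpotent
  have hlt : A.subgroupOf P < ⊤ := by
    rw [lt_top_iff_ne_top, Ne, Subgroup.subgroupOf_eq_top]
    exact fun hle => hEq (le_antisymm hAP hle)
  have h1 := Group.normalizerCondition_of_isNilpotent (G := (P : Subgroup G)) _ hlt
  rw [← Subgroup.subgroupOf_normalizer_eq hAP] at h1
  obtain ⟨x, hx, hxA⟩ := SetLike.exists_of_lt h1
  rw [Subgroup.mem_subgroupOf] at hx hxA
  rw [h A hAc] at hx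
  -- A ⊔ zpowers x is commutative
  have hcomm : IsMulCommutative (Subgroup.closure ((A : Set G) ∪ {(x : G)})) := by
    apply Subgroup.isMulCommutative_closure
    intro a ha b hb
    rcases ha with ha | ha <;> rcases hb with hb | hb
    · exact congrArg Subtype.val (mul_comm' (⟨a, ha⟩ : A) ⟨b, hb⟩)
    · rw [Set.mem_singleton_iff] at hb; subst hb
      exact (Subgroup.mem_centralizer_iff.mp hx a ha)
    · rw [Set.mem_singleton_iff] at ha; subst ha
      exact (Subgroup.mem_centralizer_iff.mp hx b hb).symm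
    · rw [Set.mem_singleton_iff] at ha hb; rw [ha, hb]
  have hle : Subgroup.closure ((A : Set G) ∪ {(x : G)}) ≤ P := by
    rw [Subgroup.closure_le]
    rintro y (hy | hy)
    · exact hAP hy
    · rw [Set.mem_singleton_iff] at hy; rw [hy]; exact x.2
  have hAle : A ≤ Subgroup.closure ((A : Set G) ∪ {(x : G)}) := fun a ha =>
    Subgroup.subset_closure (Or.inl ha)
  have := hmax ⟨hle, hcomm⟩ hAle
  exact hxA (this (Subgroup.subset_closure (Or.inr rfl)))

theorem result {G : Type*} [Group G] [Finite G] (h : ∀ A : Subgroup G, IsMulCommutative A → Subgroup.normalizer (A : Set G) = Subgroup.centralizer (A : Set G)) : IsMulCommutative G := by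
  refine ⟨⟨fun x y => ?_⟩⟩
  have key : orderOf (x * y * x⁻¹ * y⁻¹) = 1 := by
    by_contra hne
    obtain ⟨p, hp, hpd⟩ := Nat.exists_prime_and_dvd hne
    haveI : Fact p.Prime := ⟨hp⟩
    obtain ⟨P⟩ : Nonempty (Sylow p G) := inferInstance
    have hPc := sylow_comm h p P
    have hP : Subgroup.normalizer ((P : Subgroup G) : Set G) ≤ Subgroup.centralizer ((P : Subgroup G) : Set G) :=
      (h P hPc).le
    have hker : x * y * x⁻¹ * y⁻¹ ∈ (MonoidHom.transferSylow P hP).ker := by
      rw [MonoidHom.mem_ker]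
      simp only [map_mul, map_inv]
      rw [mul_comm' (MonoidHom.transferSylow P hP x)]
      simp
    apply MonoidHom.not_dvd_card_ker_transferSylow P hP
    refine hpd.trans ?_
    have := orderOf_dvd_natCard (⟨_, hker⟩ : (MonoidHom.transferSylow P hP).ker)
    rwa [Subgroup.orderOf_mk] at this
  rw [orderOf_eq_one_iff] at key
  have : x * y = (x * y * x⁻¹ * y⁻¹) * (y * x) := by group
  rw [this, key, one_mul]

end Cfsg.Agent.S0578
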