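import Mathlib
import Cfsg.Statements.S0580
import Cfsg.Agent.Lib.Helper2.Basic

set_option autoImplicit false
open Cfsg
open Cfsg.Agent.Lib.Helper2.Basic

namespace Cfsg.Agent.S0580

universe u

theorem aux : ∀ (n : ℕ) (G : Type u) [Group G] [Finite G], Nat.card G = n →
    (∀ M : Subgroup G, IsCoatom M → M.index.Prime) → Group.IsSolvable G := by
  intro n
  induction n using Nat.strong_induction_on with
  | _ n ih =>
  intro G _ _ hn h
  by_cases htriv : Nat.card G = 1
  · have : Subsingleton G := (Nat.card_eq_one_iff_unique.mp htriv).1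
    infer_instance
  -- largest prime
  have hne : (Nat.card G).primeFactors.Nonempty := by
    rw [Nat.nonempty_primeFactors]
    have : 0 < Nat.card G := Nat.card_pos
    omega
  set p := (Nat.card G).primeFactors.max' hne with hp
  have hpmem : p ∈ (Nat.card G).primeFactors := Finset.max'_mem _ hne
  have hpp : p.Prime := Nat.prime_of_mem_primeFactors hpmem
  have hpd : p ∣ Nat.card G := Nat.dvd_of_mem_primeFactors hpmem
  have hmax : ∀ q : ℕ, q.Prime → q ∣ Nat.card G → q ≤ p := by
    intro q hq hqd
    apply Finset.le_max'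
    rw [Nat.mem_primeFactors]
    exact ⟨hq, hqd, Nat.card_pos.ne'⟩
  have : Fact p.Prime := ⟨hpp⟩
  obtain ⟨P⟩ : Nonempty (Sylow p G) := inferInstance
  have hPn : (P : Subgroup G).Normal := by
    rw [← Subgroup.normalizer_eq_top_iff]
    by_contra hN
    obtain ⟨M, hM, hNM⟩ := exists_isCoatom_ge hN
    have hq := h M hM
    have hmod := index_modEq_one_of_normalizer_le P M hNM
    have hle := hmax _ hq (Subgroup.index_dvd_card M)
    have h1 : 1 < M.index := hq.one_lt
    have h2 : p ∣ M.index - 1 := (Nat.modEq_iff_dvd' h1.le).mp hmod.symm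
    have h3 : p ≤ M.index - 1 := Nat.le_of_dvd (by omega) h2
    omega
  have hPsol : Group.IsSolvable (P : Subgroup G) := by
    have : Group.IsNilpotent (P : Subgroup G) := P.isPGroup'.isNilpotent
    infer_instance
  have hQ : Group.IsSolvable (G ⧸ (P : Subgroup G)) := by
    apply ih (Nat.card (G ⧸ (P : Subgroup G))) _ _ rfl
    · intro M hM
      have := h _ (isCoatom_comap_of_surjective (QuotientGroup.mk'_surjective (P : Subgroup G)) hM)
      rwa [Subgroup.index_comap_of_surjective _ (QuotientGroup.mk'_surjective (P : Subgroup G))] at this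
    · rw [← hn, ← Subgroup.index_eq_card]
      have h1 : (P : Subgroup G).index * Nat.card (P : Subgroup G) = Nat.card G := Subgroup.index_mul_card _
      have h2 : p ∣ Nat.card (P : Subgroup G) := P.dvd_card_of_dvd_card hpd
      have h3 : 2 ≤ Nat.card (P : Subgroup G) := le_trans hpp.two_le (Nat.le_of_dvd Nat.card_pos h2)
      have h4 : 0 < (P : Subgroup G).index := Nat.pos_of_ne_zero (Subgroup.index_ne_zero_of_finite)
      nlinarith
  exact (Group.isSolvable_iff_subgroup_quotient (P : Subgroup G)).mpr ⟨hPsol, hQ⟩

theorem result {G : Type*} [Group G] [Finite G] (h : ∀ M : Subgroup G, IsCoatom M → M.index.Prime) : Group.IsSolvable G :=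
  aux _ G rfl h

end Cfsg.Agent.S0580
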