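import Cfsg.Statements.S0582
import Cfsg.Agent.Lib.Helper9.Tower
import Cfsg.Agent.Lib.Helper1.Frobenius

set_option autoImplicit false
open Pointwise
open Cfsg

namespace Cfsg.Agent.S0582

open Cfsg.Agent.Lib.Helper9.Tower Cfsg.Agent.Lib.Helper1 Cfsg.Agent.Lib.Helper2.Supersolvable
open scoped Pointwise

universe u

theorem aux : ∀ (n : ℕ) (G : Type u) [Group G] [Finite G], Nat.card G = n →
    ∀ H K : Subgroup G, Cfsg.IsSupersolvable H → Cfsg.IsSupersolvable K → Nat.card H = Nat.card K →
    (Nat.card H).Coprime H.index → ∃ x : G, MulAut.conj x • H = K := by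
  intro n
  induction n using Nat.strong_induction_on with
  | _ n ih =>
  intro G _ _ hn H K hH hK hcard hHall
  rcases subsingleton_or_nontrivial H with hs | hnt
  · have h1 : Nat.card H = 1 := Nat.card_eq_one_iff_unique.mpr ⟨hs, ⟨1⟩⟩
    have h2 : H = ⊥ := Subgroup.card_eq_one.mp h1
    have h3 : K = ⊥ := Subgroup.card_eq_one.mp (hcard ▸ h1)
    exact ⟨1, by rw [h2, h3]; simp⟩
  obtain ⟨p, hp, hpd, hmax⟩ := exists_max_prime (X := H)
  have := Fact.mk hp
  obtain ⟨PH⟩ : Nonempty (Sylow p H) := inferInstance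
  obtain ⟨PK⟩ : Nonempty (Sylow p K) := inferInstance
  have hPHn : (PH : Subgroup H).Normal := (tw_of_supersolvable _ H rfl hH).sylow_normal hmax PH
  have hPKn : (PK : Subgroup K).Normal :=
    (tw_of_supersolvable _ K rfl hK).sylow_normal (fun q hq hqd => hmax q hq (hcard ▸ hqd)) PK
  set P := (PH : Subgroup H).map H.subtype with hP
  set Q := (PK : Subgroup K).map K.subtype with hQ
  have hfac : (Nat.card G).factorization p = (Nat.card H).factorization p := by
    rw [← H.card_mul_index, Nat.factorization_mul Nat.card_pos.ne' (Subgroup.index_ne_zero_of_finite),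
      Finsupp.add_apply, Nat.factorization_eq_zero_of_not_dvd (n := H.index), add_zero]
    intro hd
    exact hp.one_lt.ne' (Nat.eq_one_of_dvd_coprimes hHall hpd hd)
  have hPc : Nat.card P = p ^ (Nat.card (⊤ : Subgroup G)).factorization p := by
    rw [hP, Subgroup.card_map_of_injective H.subtype_injective, Subgroup.card_top, hfac]
    exact PH.card_eq_multiplicity
  have hQc : Nat.card Q = p ^ (Nat.card (⊤ : Subgroup G)).factorization p := by
    rw [hQ, Subgroup.card_map_of_injective K.subtype_injective, Subgroup.card_top, hfac, hcard]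
    exact PK.card_eq_multiplicity
  obtain ⟨g, -, hg⟩ := sylow_conj_in ⊤ P Q le_top le_top hPc hQc
  have hPH : P ≤ H := Subgroup.map_subtype_le _
  have hQK : Q ≤ K := Subgroup.map_subtype_le _
  have hHP : H ≤ Subgroup.normalizer (P : Set G) := by
    intro h hh
    rw [Subgroup.mem_normalizer_iff]
    intro y
    constructor
    · rintro ⟨z, hz, rfl⟩
      exact ⟨⟨h, hh⟩ * z * ⟨h, hh⟩⁻¹, hPHn.conj_mem z hz ⟨h, hh⟩, rfl⟩
    · rintro ⟨z, hz, hzy⟩
      refine ⟨⟨h, hh⟩⁻¹ * z * ⟨h, hh⟩, ?_, ?_⟩
      · have := hPHn.conj_mem z hz ⟨h, hh⟩⁻¹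
        rwa [inv_inv] at this
      · simp only [Subgroup.subtype_apply, Subgroup.coe_mul, Subgroup.coe_inv] at hzy ⊢
        rw [hzy]; group
  have hKQ : K ≤ Subgroup.normalizer (Q : Set G) := by
    intro h hh
    rw [Subgroup.mem_normalizer_iff]
    intro y
    constructor
    · rintro ⟨z, hz, rfl⟩
      exact ⟨⟨h, hh⟩ * z * ⟨h, hh⟩⁻¹, hPKn.conj_mem z hz ⟨h, hh⟩, rfl⟩
    · rintro ⟨z, hz, hzy⟩
      refine ⟨⟨h, hh⟩⁻¹ * z * ⟨h, hh⟩, ?_, ?_⟩
      · have := hPKn.conj_mem z hz ⟨h, hh⟩⁻¹
        rwa [inv_inv] at this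
      · simp only [Subgroup.subtype_apply, Subgroup.coe_mul, Subgroup.coe_inv] at hzy ⊢
        rw [hzy]; group
  set H' := MulAut.conj g • H with hH'
  set N := Subgroup.normalizer (Q : Set G) with hN
  have hH'N : H' ≤ N := by
    rw [hN, ← hg, ← conj_smul_normalizer]
    exact conj_smul_mono g hHP
  have hQH' : Q ≤ H' := by rw [← hg]; exact conj_smul_mono g hPH
  have hQN : Q ≤ N := Subgroup.le_normalizer
  have hH'c : Nat.card H' = Nat.card H := card_conj_smul g H
  have hQn : (Q.subgroupOf N).Normal := Subgroup.normal_in_normalizer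
  let f : ↥N →* ↥N ⧸ (Q.subgroupOf N) := QuotientGroup.mk' (Q.subgroupOf N)
  have hker : f.ker = Q.subgroupOf N := QuotientGroup.ker_mk' _
  have hfs : Function.Surjective f := QuotientGroup.mk'_surjective _
  have hQ1 : 1 < Nat.card Q := by
    rw [hQc, Subgroup.card_top, hfac]
    apply Nat.one_lt_pow _ hp.one_lt
    exact (hp.factorization_pos_of_dvd Nat.card_pos.ne' hpd).ne'
  have hlt : Nat.card (↥N ⧸ (Q.subgroupOf N)) < n := by
    have h1 := card_quotient_lt (Q.subgroupOf N) (by rw [card_subgroupOf hQN]; exact hQ1)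
    have h2 : Nat.card N ≤ Nat.card G := Subgroup.card_le_card_group N
    omega
  -- generic facts for a subgroup between `Q` and `N`
  have key : ∀ L : Subgroup G, Q ≤ L → L ≤ N → Cfsg.IsSupersolvable L → Nat.card L = Nat.card H →
      L.index = H.index →
      Cfsg.IsSupersolvable ((L.subgroupOf N).map f) ∧
      Nat.card ((L.subgroupOf N).map f) * Nat.card Q = Nat.card H ∧
      (Nat.card ((L.subgroupOf N).map f)).Coprime ((L.subgroupOf N).map f).index := by
    intro L hQL hLN hLs hLc hLi
    have hle : Q.subgroupOf N ≤ L.subgroupOf N := Subgroup.subgroupOf_mono N hQL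
    have hc : Nat.card ((L.subgroupOf N).map f) * Nat.card Q = Nat.card H := by
      have h1 := card_map_mul_card_inf_ker f (L.subgroupOf N)
      rw [hker, inf_eq_right.mpr hle, card_subgroupOf hQN, card_subgroupOf hLN, hLc] at h1
      exact h1
    refine ⟨?_, hc, ?_⟩
    · have h1 : Cfsg.IsSupersolvable (L.subgroupOf N) :=
        isSupersolvable_of_surjective (f := (Subgroup.subgroupOfEquivOfLe hLN).symm.toMonoidHom)
          (Subgroup.subgroupOfEquivOfLe hLN).symm.surjective hLs
      exact isSupersolvable_of_surjective (f := f.subgroupMap (L.subgroupOf N))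
        (f.subgroupMap_surjective _) h1
    · have h2 : ((L.subgroupOf N).map f).index ∣ H.index := by
        rw [Subgroup.index_map_eq _ hfs (hker.le.trans hle), ← hLi]
        exact Subgroup.relIndex_dvd_index_of_le hLN
      exact Nat.Coprime.coprime_dvd_left (Dvd.intro _ hc) (Nat.Coprime.coprime_dvd_right h2 hHall)
  have hH's : Cfsg.IsSupersolvable H' :=
    isSupersolvable_of_surjective (f := (Subgroup.equivSMul (MulAut.conj g) H).toMonoidHom)
      (Subgroup.equivSMul (MulAut.conj g) H).surjective hH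
  have hH'i : H'.index = H.index := by
    have h1 := H'.card_mul_index
    rw [hH'c, ← H.card_mul_index] at h1
    exact Nat.eq_of_mul_eq_mul_left Nat.card_pos h1
  have hKi : K.index = H.index := by
    have h1 := K.card_mul_index
    rw [← hcard, ← H.card_mul_index] at h1
    exact Nat.eq_of_mul_eq_mul_left Nat.card_pos h1
  obtain ⟨a1, a2, a3⟩ := key H' hQH' hH'N hH's hH'c hH'i
  obtain ⟨b1, b2, b3⟩ := key K hQK hKQ hK hcard.symm hKi
  obtain ⟨xb, hxb⟩ := ih _ hlt (↥N ⧸ (Q.subgroupOf N)) rfl _ _ a1 b1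
    (Nat.eq_of_mul_eq_mul_right (Nat.zero_lt_of_lt hQ1) (a2.trans b2.symm)) a3
  obtain ⟨x, rfl⟩ := hfs xb
  rw [← map_conj_smul, Subgroup.map_eq_map_iff, hker] at hxb
  have hle1 : Q.subgroupOf N ≤ MulAut.conj x • (H'.subgroupOf N) := by
    have h1 : MulAut.conj x • (Q.subgroupOf N) = Q.subgroupOf N :=
      Subgroup.Normal.conj_smul_eq_self x (Q.subgroupOf N)
    rw [← h1]
    exact conj_smul_mono x (Subgroup.subgroupOf_mono N hQH')
  rw [sup_eq_left.mpr hle1, sup_eq_left.mpr (Subgroup.subgroupOf_mono N hQK)] at hxb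
  have h5 := congrArg (Subgroup.map N.subtype) hxb
  rw [map_conj_smul, Subgroup.map_subgroupOf_eq_of_le hH'N, Subgroup.map_subgroupOf_eq_of_le hKQ,
    hH', conj_smul_smul] at h5
  exact ⟨_, h5⟩

/-- Let H and K be supersolvable subgroups of a finite group G of the same order, that order being coprime to their index. Then H and K are conjugate in G. -/
theorem result {G : Type*} [Group G] [Finite G] (H K : Subgroup G) (hH : Cfsg.IsSupersolvable H) (hK : Cfsg.IsSupersolvable K) (hcard : Nat.card H = Nat.card K) (hHall : (Nat.card H).Coprime H.index) : ∃ x : G, MulAut.conj x • H = K := by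
  exact aux _ G rfl H K hH hK hcard hHall

end Cfsg.Agent.S0582
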