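import Mathlib
import Cfsg.Statements.S0584
import Cfsg.Agent.Lib.Helper2.Frattini

set_option autoImplicit false
open Cfsg

namespace Cfsg.Agent.S0584

theorem result {G : Type*} [Group G] [Finite G] (A B : Subgroup G) [A.Normal] [B.Normal] (hBA : B ≤ A) (hB : B ≤ frattini G) (h : Group.IsNilpotent (↥A ⧸ B.subgroupOf A)) : Group.IsNilpotent A := by
  have q := (Group.isNilpotent_of_finite_tfae (G := A)).out 0 3
  rw [q]; clear q
  intro p p_prime P
  have q2 := (Group.isNilpotent_of_finite_tfae (G := ↥A ⧸ B.subgroupOf A)).out 0 3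
  rw [q2] at h; clear q2
  have h1 := Sylow.normalizer_sup_eq_top P
  have hPbar := h p p_prime (P.mapSurjective (QuotientGroup.mk'_surjective (B.subgroupOf A)))
  rw [Sylow.coe_mapSurjective] at hPbar
  have hQ : ((P : Subgroup A) ⊔ B.subgroupOf A).Normal := by
    have := hPbar.comap (QuotientGroup.mk' (B.subgroupOf A))
    rwa [Subgroup.comap_map_eq, QuotientGroup.ker_mk'] at this
  have h2 := Sylow.normalizer_sup_eq_top' P (le_sup_left : (P : Subgroup A) ≤ (P : Subgroup A) ⊔ B.subgroupOf A)
  have h3 : Subgroup.normalizer ((P : Subgroup A) : Set A) ⊔ B.subgroupOf A = ⊤ := by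
    rw [eq_top_iff, ← h2]
    exact sup_le le_sup_left (sup_le (Subgroup.le_normalizer.trans le_sup_left) le_sup_right)
  have h4 : A ≤ Subgroup.normalizer (((P : Subgroup A).map A.subtype : Subgroup G) : Set G) ⊔ B := by
    have := congrArg (Subgroup.map A.subtype) h3
    rw [Subgroup.map_sup, ← MonoidHom.range_eq_map, Subgroup.range_subtype] at this
    refine this.ge.trans ?_
    refine sup_le_sup (Subgroup.le_normalizer_map _) (Subgroup.map_subgroupOf_eq_of_le hBA).le
  have h5 : Subgroup.normalizer (((P : Subgroup A).map A.subtype : Subgroup G) : Set G) ⊔ frattini G = ⊤ := by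
    rw [eq_top_iff, ← h1]
    refine sup_le le_sup_left (h4.trans (sup_le_sup le_rfl hB))
  have h6 := frattini_nongenerating h5
  have h7 : ((P : Subgroup A).map A.subtype).Normal := Subgroup.normalizer_eq_top_iff.mp h6
  exact h7.of_map_subtype

end Cfsg.Agent.S0584
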