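import Mathlib
import Cfsg.Statements.S0585
import Cfsg.Agent.Lib.Helper2.Frattini

set_option autoImplicit false
open Cfsg

namespace Cfsg.Agent.S0585

open Cfsg.Agent.Lib.Helper2.Frattini

theorem result {G : Type*} [Group G] [Finite G] (hΦ : frattini G = ⊥) (A : Subgroup G) [A.Normal] [IsMulCommutative A] : ∃ H : Subgroup G, Subgroup.IsComplement' A H := by
  obtain ⟨H, hH, hmin⟩ := (Set.toFinite {K : Subgroup G | A ⊔ K = ⊤}).exists_minimal
    ⟨⊤, sup_top_eq A⟩
  have hH' : A ⊔ H = ⊤ := hH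
  refine ⟨H, Subgroup.isComplement'_of_disjoint_and_mul_eq_univ ?_ ?_⟩
  swap
  · rw [← Subgroup.normal_mul, hH']; rfl
  rw [disjoint_iff]
  by_contra hne
  have hn : (A ⊓ H).Normal := by
    rw [← Subgroup.normalizer_eq_top_iff, eq_top_iff, ← hH']
    refine sup_le ?_ ?_
    · rw [Subgroup.le_normalizer_iff]
      intro a ha x hx
      have : a * x = x * a := by
        have := mul_comm' (⟨a, ha⟩ : A) ⟨x, hx.1⟩
        exact congrArg Subtype.val this
      rw [this]; simpa using hx
    · rw [Subgroup.le_normalizer_iff]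
      intro h hh x hx
      exact Subgroup.mem_inf.mpr ⟨(inferInstance : A.Normal).conj_mem x hx.1 h,
        mul_mem (mul_mem hh hx.2) (inv_mem hh)⟩
  have h1 : ¬ (A ⊓ H ≤ frattini G) := by
    rw [hΦ]; exact fun h => hne (le_bot_iff.mp h)
  rw [le_frattini_iff] at h1
  push Not at h1
  obtain ⟨M, hM, hnM⟩ := h1
  have h2 : (A ⊓ H) ⊔ M = ⊤ := by
    refine hM.2 _ (lt_of_le_of_ne le_sup_right ?_)
    intro h
    exact hnM (h ▸ le_sup_left)
  have h3 := dedekind hn inf_le_right h2
  have h4 : A ⊔ (H ⊓ M) = ⊤ := by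
    rw [eq_top_iff, ← hH']
    refine sup_le le_sup_left ?_
    rw [← h3]
    exact sup_le (inf_le_left.trans le_sup_left) (by rw [h3]; exact le_sup_right)
  have h5 : H ≤ H ⊓ M := hmin h4 inf_le_left
  exact hnM (inf_le_right.trans (h5.trans inf_le_right))

end Cfsg.Agent.S0585
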