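import Mathlib
import Cfsg.Statements.S0586
import Cfsg.Agent.S0585
import Cfsg.Agent.Lib.Helper2.Frattini2
import Cfsg.Agent.Lib.Helper2.Subnormal
import Cfsg.Agent.Lib.Helper1.Cores

set_option autoImplicit false
open Cfsg

namespace Cfsg.Agent.S0586

open Cfsg.Agent.Lib.Helper2.Frattini Cfsg.Agent.Lib.Helper2.Subnormal Cfsg.Agent.Lib.Helper1
open scoped commutatorElement

theorem result {G : Type*} [Group G] [Finite G] (hΦ : frattini G = ⊥) : Cfsg.fittingSubgroup G = sSup {N : Subgroup G | N.Normal ∧ N ≠ ⊥ ∧ IsMulCommutative N ∧ ∀ K : Subgroup G, K.Normal → K ≤ N → K = ⊥ ∨ K = N} := by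
  set F := Cfsg.fittingSubgroup G with hF
  haveI hFn : F.Normal := fitting_normal
  haveI hFnil : Group.IsNilpotent F := fitting_isNilpotent
  -- F is abelian
  have hFab : ∀ x ∈ F, ∀ y ∈ F, x * y = y * x := by
    have h1 : frattini F = ⊥ := by
      have := map_frattini_le F
      rw [hΦ, le_bot_iff, Subgroup.map_eq_bot_iff_of_injective _ F.subtype_injective] at this
      exact this
    have h2 : commutator F = ⊥ := le_bot_iff.mp (h1 ▸ commutator_le_frattini)
    intro x hx y hy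
    have h3 : ⁅(⟨x, hx⟩ : F), ⟨y, hy⟩⁆ ∈ commutator F :=
      Subgroup.commutator_mem_commutator (Subgroup.mem_top _) (Subgroup.mem_top _)
    rw [h2, Subgroup.mem_bot, commutatorElement_eq_one_iff_mul_comm] at h3
    exact congrArg Subtype.val h3
  set 𝒮 := {N : Subgroup G | N.Normal ∧ N ≠ ⊥ ∧ IsMulCommutative N ∧ ∀ K : Subgroup G, K.Normal → K ≤ N → K = ⊥ ∨ K = N} with h𝒮
  set S := sSup 𝒮 with hS
  have hSF : S ≤ F := by
    refine sSup_le ?_
    rintro N ⟨hNn, -, hNc, -⟩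
    exact le_fitting hNn isNilpotent_of_isMulCommutative
  refine le_antisymm ?_ hSF
  haveI hSn : S.Normal := Subgroup.sSup_normal 𝒮 (fun N hN => hN.1)
  haveI hSc : IsMulCommutative S :=
    ⟨⟨fun a b => Subtype.ext (hFab a (hSF a.2) b (hSF b.2))⟩⟩
  obtain ⟨C, hC⟩ := Cfsg.Agent.S0585.result hΦ S
  have hSC : S ⊔ C = ⊤ := hC.sup_eq_top
  have hSiC : S ⊓ C = ⊥ := hC.disjoint.eq_bot
  have hded := dedekind hSn hSF hSC
  have hTn : ⊤ ≤ Subgroup.normalizer ((F ⊓ C : Subgroup G) : Set G) := by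
    rw [← hSC]
    refine sup_le ?_ ?_
    · rw [Subgroup.le_normalizer_iff]
      intro s hs x hx
      rw [hFab s (hSF hs) x hx.1]
      simpa using hx
    · rw [Subgroup.le_normalizer_iff]
      intro c hc x hx
      exact Subgroup.mem_inf.mpr ⟨hFn.conj_mem x hx.1 c, mul_mem (mul_mem hc hx.2) (inv_mem hc)⟩
  have hT : F ⊓ C = ⊥ := by
    by_contra hne
    obtain ⟨M1, hM1T, hM1b, hM1n, hM1min⟩ := exists_minimal_normalized ⊤ (F ⊓ C) hne hTn
    have hmem : M1 ∈ 𝒮 := by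
      refine ⟨Subgroup.normalizer_eq_top_iff.mp (top_le_iff.mp hM1n), hM1b, ?_, ?_⟩
      · exact ⟨⟨fun a b => Subtype.ext (hFab a (hM1T a.2).1 b (hM1T b.2).1)⟩⟩
      · intro K hK hKM
        exact hM1min K hKM (by rw [Subgroup.normalizer_eq_top])
    have h1 : M1 ≤ S ⊓ C := le_inf (le_sSup hmem) (hM1T.trans inf_le_right)
    rw [hSiC, le_bot_iff] at h1
    exact hM1b h1
  rw [hT, sup_bot_eq] at hded
  exact hded.ge

end Cfsg.Agent.S0586
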