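import Cfsg.Statements.S0587
import Mathlib
import Cfsg.Agent.S0551
import Cfsg.Agent.S0550
import Cfsg.Agent.Lib.Helper1.FixedCount
import Cfsg.Agent.Lib.Lead.Cores

set_option autoImplicit false
open Cfsg

namespace Cfsg.Agent.S0587


/-- Let G be a finite group whose largest normal p-subgroup L is nontrivial, and M a maximal subgroup of G with trivial normal core. Then L is elementary abelian, M is a complement to L, L is a minimal normal subgroup of G, the centralizer of L is L, and for every prime q such that the largest normal q-subgroup of M is nontrivial, the order of L is congruent to 1 modulo q and q ≠ p. -/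
theorem result {G : Type*} [Group G] [Finite G] (p : ℕ) [Fact p.Prime] (hL : Cfsg.pCore p G ≠ ⊥) (M : Subgroup G) (hM : IsCoatom M) (hcore : M.normalCore = ⊥) : Cfsg.IsElementaryAbelian p (Cfsg.pCore p G) ∧ Subgroup.IsComplement' (Cfsg.pCore p G) M ∧ (∀ K : Subgroup G, K.Normal → K ≤ Cfsg.pCore p G → K = ⊥ ∨ K = Cfsg.pCore p G) ∧ Subgroup.centralizer ((Cfsg.pCore p G : Subgroup G) : Set G) = Cfsg.pCore p G ∧ ∀ (q : ℕ) [Fact q.Prime], Cfsg.pCore q ↥M ≠ ⊥ → Nat.card (Cfsg.pCore p G) % q = 1 % q ∧ q ≠ p := by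
  have hLn : (Cfsg.pCore p G).Normal := Cfsg.Agent.Cores.pCore_normal p G
  have hLp : IsPGroup p (Cfsg.pCore p G) := Cfsg.Agent.Cores.isPGroup_pCore p G
  generalize Cfsg.pCore p G = L at hL hLn hLp ⊢
  have hnt : Nontrivial L := (Subgroup.nontrivial_iff_ne_bot L).mpr hL
  have hZn : ((Subgroup.center L).map L.subtype).Normal :=
    ConjAct.normal_of_characteristic_of_normal
  have hZne : (Subgroup.center L).map L.subtype ≠ ⊥ := by
    rw [Ne, Subgroup.map_eq_bot_iff_of_injective _ L.subtype_injective]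
    have := hLp.center_nontrivial
    exact (Subgroup.nontrivial_iff_ne_bot _).mp this
  have hZab : ∀ x ∈ (Subgroup.center L).map L.subtype, ∀ y ∈ (Subgroup.center L).map L.subtype,
      x * y = y * x := by
    rintro _ ⟨x, hx, rfl⟩ _ ⟨y, hy, rfl⟩
    have := Subgroup.mem_center_iff.mp hx y
    exact (congrArg Subtype.val this).symm
  obtain ⟨-, -, hZC⟩ := Cfsg.Agent.S0551.prim M hM hcore _ hZn hZne hZab
  have hLZ : L ≤ (Subgroup.center L).map L.subtype := by
    rw [← hZC]
    intro l hl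
    rw [Subgroup.mem_centralizer_iff]
    rintro _ ⟨z, hz, rfl⟩
    have := Subgroup.mem_center_iff.mp hz ⟨l, hl⟩
    exact (congrArg Subtype.val this).symm
  have hab : ∀ x ∈ L, ∀ y ∈ L, x * y = y * x := fun x hx y hy => hZab x (hLZ hx) y (hLZ hy)
  obtain ⟨hLM, hLM', hCL⟩ := Cfsg.Agent.S0551.prim M hM hcore L hLn hL hab
  have hmin : ∀ K : Subgroup G, K.Normal → K ≤ L → K = ⊥ ∨ K = L := by
    intro K hKn hKL
    by_cases hK : K = ⊥
    · exact Or.inl hK
    · right
      obtain ⟨-, -, hCK⟩ := Cfsg.Agent.S0551.prim M hM hcore K hKn hK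
        (fun x hx y hy => hab x (hKL hx) y (hKL hy))
      apply le_antisymm hKL
      rw [← hCK]
      intro l hl
      rw [Subgroup.mem_centralizer_iff]
      intro k hk
      exact hab k (hKL hk) l hl
  refine ⟨⟨⟨⟨fun a b => Subtype.ext (hab a a.2 b b.2)⟩⟩, ?_⟩,
    Cfsg.Agent.S0550.compl_aux L M hLM' hLM, hmin, hCL, ?_⟩
  · let Ω : Subgroup G :=
      { carrier := {x | x ∈ L ∧ x ^ p = 1}
        one_mem' := ⟨L.one_mem, one_pow _⟩
        mul_mem' := by
          rintro x y ⟨hx, hx'⟩ ⟨hy, hy'⟩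
          exact ⟨L.mul_mem hx hy, by
            rw [(show Commute x y from hab x hx y hy).mul_pow, hx', hy', one_mul]⟩
        inv_mem' := by
          rintro x ⟨hx, hx'⟩
          exact ⟨L.inv_mem hx, by rw [inv_pow, hx', inv_one]⟩ }
    have hΩn : Ω.Normal := ⟨by
      rintro x ⟨hx, hx'⟩ g
      exact ⟨hLn.conj_mem x hx g, by rw [conj_pow, hx', mul_one, mul_inv_cancel]⟩⟩
    have hΩL : Ω ≤ L := fun x hx => hx.1
    rcases hmin Ω hΩn hΩL with h | h
    · exfalso
      obtain ⟨n, hn0, hn⟩ := hLp.nontrivial_iff_card.mp hnt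
      have hdvd : p ∣ Nat.card L := hn ▸ dvd_pow_self p (by omega)
      obtain ⟨z, hz⟩ := exists_prime_orderOf_dvd_card' p hdvd
      have hzΩ : (z : G) ∈ Ω := ⟨z.2, by
        have := pow_orderOf_eq_one z
        rw [hz] at this
        exact congrArg Subtype.val this⟩
      rw [h, Subgroup.mem_bot] at hzΩ
      have hz1 : z = 1 := Subtype.ext hzΩ
      rw [hz1, orderOf_one] at hz
      exact (Fact.out : p.Prime).one_lt.ne hz
    · intro a ha
      have : a ∈ Ω := h ▸ ha
      exact this.2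
  · intro q hq hQ
    have hQq : IsPGroup q ((Cfsg.pCore q ↥M).map M.subtype) :=
      (Cfsg.Agent.Cores.isPGroup_pCore q M).map _
    have hQne : (Cfsg.pCore q ↥M).map M.subtype ≠ ⊥ := by
      rw [Ne, Subgroup.map_eq_bot_iff_of_injective _ M.subtype_injective]
      exact hQ
    have hQM : (Cfsg.pCore q ↥M).map M.subtype ≤ M := by
      rintro _ ⟨x, -, rfl⟩
      exact x.2
    have hMN : M ≤ Subgroup.normalizer (((Cfsg.pCore q ↥M).map M.subtype : Subgroup G) : Set G) := by
      have hn := Cfsg.Agent.Cores.pCore_normal q M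
      rw [Subgroup.le_normalizer_iff]
      rintro m hm _ ⟨x, hx, rfl⟩
      exact ⟨⟨m, hm⟩ * x * ⟨m, hm⟩⁻¹, hn.conj_mem x hx ⟨m, hm⟩, rfl⟩
    generalize (Cfsg.pCore q ↥M).map M.subtype = Q at hQq hQne hQM hMN
    have hNM : Subgroup.normalizer (Q : Set G) = M := by
      rcases eq_or_lt_of_le hMN with h | h
      · exact h.symm
      · exfalso
        have htop := hM.2 _ h
        haveI hQn : Q.Normal := Subgroup.normalizer_eq_top_iff.mp htop
        have := (Subgroup.normal_le_normalCore (H := M) (N := Q)).mpr hQM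
        rw [hcore, le_bot_iff] at this
        exact hQne this
    have h1 := Cfsg.Agent.Lib.Helper1.card_modEq_card_inf_centralizer Q L hQq
      (by rw [Subgroup.normalizer_eq_top]; exact le_top)
    have h2 : L ⊓ Subgroup.centralizer (Q : Set G) = ⊥ := by
      rw [eq_bot_iff, ← hLM']
      exact inf_le_inf_left _ ((Subgroup.centralizer_le_normalizer _).trans hNM.le)
    rw [h2, Subgroup.card_bot] at h1
    refine ⟨h1, ?_⟩
    intro hqp
    rw [hqp] at h1
    obtain ⟨n, hn0, hn⟩ := hLp.nontrivial_iff_card.mp hnt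
    rw [hn] at h1
    have h3 : p ^ n ≡ 0 [MOD p] := (Nat.modEq_zero_iff_dvd).mpr (dvd_pow_self p (by omega))
    have h4 : p ∣ 1 := (Nat.modEq_zero_iff_dvd).mp (h1.symm.trans h3)
    exact (Fact.out : p.Prime).one_lt.ne' (Nat.dvd_one.mp h4)

end Cfsg.Agent.S0587
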