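import Mathlib
import Cfsg.Statements.S0588

set_option autoImplicit false
open Cfsg

namespace Cfsg.Agent.S0588

theorem result {G : Type*} [Group G] [Finite G] (H : Subgroup G) (h : ∀ x ∈ H, x ≠ 1 → Subgroup.centralizer ({x} : Set G) ≤ H) : (Nat.card H).Coprime H.index := by
  by_contra hc
  obtain ⟨p, hp, hpH, hpI⟩ := Nat.Prime.not_coprime_iff_dvd.mp hc
  have : Fact p.Prime := ⟨hp⟩
  obtain ⟨x, hx⟩ := exists_prime_orderOf_dvd_card' p hpH
  have hx1 : (x : G) ≠ 1 := by
    intro h1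
    have : x = 1 := Subtype.ext h1
    rw [this, orderOf_one] at hx
    exact hp.one_lt.ne hx
  have hz : IsPGroup p (Subgroup.zpowers (x : G)) := by
    rw [IsPGroup.iff_card]
    exact ⟨1, by rw [Nat.card_zpowers, Subgroup.orderOf_coe, hx, pow_one]⟩
  obtain ⟨S, hS⟩ := hz.exists_le_sylow
  have hxS : (x : G) ∈ S := hS (Subgroup.mem_zpowers _)
  have hSnt : Nontrivial (S : Subgroup G) := ⟨⟨⟨x, hxS⟩, 1, fun h => hx1 (congrArg Subtype.val h)⟩⟩
  have hZ : Nontrivial (Subgroup.center (S : Subgroup G)) := S.isPGroup'.center_nontrivial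
  obtain ⟨z, hz1⟩ := exists_ne (1 : Subgroup.center (S : Subgroup G))
  have hzG : ((z : (S : Subgroup G)) : G) ≠ 1 := by
    intro h1
    apply hz1
    exact Subtype.ext (Subtype.ext h1)
  have hzc : ∀ s : (S : Subgroup G), (s : G) * ((z : (S : Subgroup G)) : G) = ((z : (S : Subgroup G)) : G) * s := by
    intro s
    exact congrArg Subtype.val (Subgroup.mem_center_iff.mp z.2 s)
  have hzH : ((z : (S : Subgroup G)) : G) ∈ H := by
    apply h x x.2 hx1
    rw [Subgroup.mem_centralizer_singleton_iff]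
    exact (hzc ⟨x, hxS⟩).symm
  have hSH : (S : Subgroup G) ≤ H := by
    intro s hs
    apply h _ hzH hzG
    rw [Subgroup.mem_centralizer_singleton_iff]
    exact hzc ⟨s, hs⟩
  exact S.not_dvd_index (hpI.trans (Subgroup.index_dvd_of_le hSH))

end Cfsg.Agent.S0588
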