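import Cfsg.Statements.S0592
import Cfsg.Agent.Lib.Helper3.QuadSL
open Cfsg.Agent.Lib.Helper3.QuadSL

set_option autoImplicit false
open Cfsg

namespace Cfsg.Agent.S0592

/-- Two quadratically acting generators of a linear group that is not a p-group, with the p'-part of the order of their product dividing q - 1, give a homomorphism onto a subgroup of SL(2, q) that is not a p-group. -/
theorem result {K : Type*} [Field K] [Fintype K] {p : ℕ} [Fact p.Prime] [CharP K p] {W : Type*} [AddCommGroup W] [Module K W] [FiniteDimensional K W] [Finite W] [Nontrivial W] (H : Subgroup (W ≃ₗ[K] W)) (a b : W ≃ₗ[K] W) (hH : H = Subgroup.closure {a, b}) (ha : ∀ w : W, a (a w - w) = a w - w) (hb : ∀ w : W, b (b w - w) = b w - w) (hnp : ¬ IsPGroup p H) (hk : ∃ e k : ℕ, orderOf (a * b) = p ^ e * k ∧ k ∣ Fintype.card K - 1) : ∃ φ : H →* Matrix.SpecialLinearGroup (Fin 2) K, ¬ IsPGroup p φ.range := by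
  subst hH
  obtain ⟨e, k, hord, hk⟩ := hk
  let ρ : ↥(Subgroup.closure {a, b}) →* Module.End K W :=
    (LinearEquiv.automorphismGroup.toLinearMapMonoidHom (R := K) (M := W)).comp
      (Subgroup.closure {a, b}).subtype
  have hρ : ∀ g : ↥(Subgroup.closure {a, b}), ∀ w, ρ g w = g.1 w := fun _ _ => rfl
  have hρinj : ∀ g : ↥(Subgroup.closure {a, b}), ρ g = 1 → g = 1 := by
    intro g hg
    apply Subtype.ext
    ext w
    have := hρ g w
    rw [hg] at this
    exact this.symm
  obtain ⟨φ, hφ⟩ := main (p := p) (closure_pair_top a b) e ρ (fun w => ha w) (fun w => hb w)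
    (by
      have h1 : (a * b) ^ (p ^ e * (Fintype.card K - 1)) = 1 := by
        obtain ⟨m, hm⟩ := hk
        rw [hm, ← mul_assoc, ← hord, pow_mul, pow_orderOf_eq_one, one_pow]
      have h2 : ((⟨a, Subgroup.subset_closure (by simp)⟩ : Subgroup.closure {a, b}) *
          ⟨b, Subgroup.subset_closure (by simp)⟩) ^ (p ^ e * (Fintype.card K - 1)) = 1 := by
        apply Subtype.ext
        exact h1
      rw [h2, map_one])
    (by
      intro h
      apply hnp
      intro g
      obtain ⟨k, hk⟩ := h g
      exact ⟨k, hρinj _ hk⟩)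
  exact ⟨φ, not_isPGroup_range hφ⟩

end Cfsg.Agent.S0592
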