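import Cfsg.Statements.S0599
import Cfsg.Agent.Lib.Helper3.PAction
open Cfsg.Agent.Lib.Helper3.PLocal

set_option autoImplicit false
open Cfsg

namespace Cfsg.Agent.S0599

/-- The Timmesfeld replacement Theorem: replacing a best offender A by C_A([U, A]) gives a best offender with fixed points [U, A]C_V(A), still nontrivial on V if A was. -/
theorem result {G : Type*} [Group G] [Finite G] {p : ℕ} [Fact p.Prime] (V A : Subgroup G) (hV : Cfsg.IsElementaryAbelian p V) (hAV : A ≤ Subgroup.normalizer (V : Set G)) (hA : Cfsg.IsBestOffenderOn p V A) (U : Subgroup G) (hU : U ≤ V) : Cfsg.IsBestOffenderOn p V (A ⊓ Subgroup.centralizer ((⁅U, A⁆ : Subgroup G) : Set G)) ∧ V ⊓ Subgroup.centralizer ((A ⊓ Subgroup.centralizer ((⁅U, A⁆ : Subgroup G) : Set G) : Subgroup G) : Set G) = ⁅U, A⁆ ⊔ (V ⊓ Subgroup.centralizer (A : Set G)) ∧ (⁅V, A⁆ ≠ ⊥ → ⁅V, A ⊓ Subgroup.centralizer ((⁅U, A⁆ : Subgroup G) : Set G)⁆ ≠ ⊥) := by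
  have hVc : ∀ x ∈ V, ∀ y ∈ V, x * y = y * x := fun x hx y hy => ea_comm hV hx hy
  obtain ⟨hbest, hab, hpow⟩ := hA
  have h := timmesfeld hVc hAV hab hbest hU
  refine ⟨⟨?_, ?_, ?_⟩, h.2, ?_⟩
  · intro B hB
    have h1 := hbest B (hB.trans inf_le_left)
    have h2 := h.1
    unfold meas CV CA at h2
    rw [h2]
    exact h1
  · exact (Subgroup.commutator_mono inf_le_left inf_le_left).trans hab
  · intro a ha
    exact hpow a ha.1
  · intro hne hbot
    apply hne
    have h1 : V ≤ Subgroup.centralizer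
        ((A ⊓ Subgroup.centralizer ((⁅U, A⁆ : Subgroup G) : Set G) : Subgroup G) : Set G) := by
      rw [← Subgroup.commutator_eq_bot_iff_le_centralizer]
      exact hbot
    have h2 : V = ⁅U, A⁆ ⊔ CV V A := by
      rw [← h.2]
      exact (inf_eq_left.2 h1).symm
    have h3 : ⁅V, A⁆ ≤ ⁅⁅V, A⁆, A⁆ := by
      conv_lhs => rw [h2]
      rw [comm_sup_left hVc hAV (comm_le_V hAV hU) inf_le_left]
      apply sup_le
      · exact Subgroup.commutator_mono (Subgroup.commutator_mono hU le_rfl) le_rfl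
      · have : ⁅CV V A, A⁆ = ⊥ := by
          rw [Subgroup.commutator_comm, Subgroup.commutator_eq_bot_iff_le_centralizer]
          rw [Subgroup.le_centralizer_iff]
          exact inf_le_right
        rw [this]
        exact bot_le
    exact eq_bot_of_le_comm hVc (ea_isPGroup hV) hAV hab hpow _ _ le_rfl (comm_le_V hAV le_rfl)
      (le_normalizer_comm V A) h3

end Cfsg.Agent.S0599
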