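import Cfsg.Statements.S0607
import Cfsg.Agent.Lib.Helper3.PAction
import Cfsg.Agent.Lib.Helper3.Thompson
import Cfsg.Agent.S0599
open Cfsg.Agent.Lib.Helper3.PLocal Cfsg.Agent.Lib.Helper1
open scoped commutatorElement

set_option autoImplicit false
open Cfsg

namespace Cfsg.Agent.S0607

/-- The replacement Theorem for the Thompson subgroup: from A of maximal order among elementary abelian p-subgroups one obtains A₀ = [V, A] C_A([V, A]) of the same kind, quadratic on V and nontrivial on V when A is. -/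
theorem result {G : Type*} [Group G] [Finite G] {p : ℕ} [Fact p.Prime] (V : Subgroup G) [V.Normal] (hV : Cfsg.IsElementaryAbelian p V) (A : Subgroup G) (hA : A ∈ Cfsg.maxElementaryAbelianSubgroups p G) : (⁅V, A⁆ ⊔ (A ⊓ Subgroup.centralizer ((⁅V, A⁆ : Subgroup G) : Set G))) ∈ Cfsg.maxElementaryAbelianSubgroups p G ∧ ⁅⁅V, ⁅V, A⁆ ⊔ (A ⊓ Subgroup.centralizer ((⁅V, A⁆ : Subgroup G) : Set G))⁆, ⁅V, A⁆ ⊔ (A ⊓ Subgroup.centralizer ((⁅V, A⁆ : Subgroup G) : Set G))⁆ = ⊥ ∧ (⁅V, A⁆ ≠ ⊥ → ⁅V, ⁅V, A⁆ ⊔ (A ⊓ Subgroup.centralizer ((⁅V, A⁆ : Subgroup G) : Set G))⁆ ≠ ⊥) := by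
  have hVc : ∀ x ∈ V, ∀ y ∈ V, x * y = y * x := fun x hx y hy => ea_comm hV hx hy
  have hAV : A ≤ Subgroup.normalizer (V : Set G) := by
    rw [Subgroup.normalizer_eq_top]; exact le_top
  have hbo := bestOffender_of_AA V hV A hA
  have T := timmesfeld hVc hAV hbo.2.1 hbo.1 (le_refl V)
  have T3 := (Cfsg.Agent.S0599.result V A hV hAV hbo V le_rfl).2.2
  obtain ⟨T1, T2⟩ := T
  unfold CA at T1 T2
  generalize hW : (⁅V, A⁆ : Subgroup G) = W at *
  have hWV : W ≤ V := by rw [← hW]; exact comm_le_V hAV le_rfl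
  generalize hB : A ⊓ Subgroup.centralizer (W : Set G) = B at *
  have hBA : B ≤ A := by rw [← hB]; exact inf_le_left
  have hBW : B ≤ Subgroup.centralizer (W : Set G) := by rw [← hB]; exact inf_le_right
  have e1 : CV V A = V ⊓ A := cent_inf_eq_of_AA hV hA
  have e2 : V ⊓ A ≤ B := by
    rw [← hB]
    refine le_inf inf_le_right ?_
    intro x hx
    rw [Subgroup.mem_centralizer_iff]
    intro w hw
    exact hVc w (hWV hw) x hx.1
  have e3 : W ⊔ B = CV V B ⊔ B := by
    rw [T2, e1]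
    apply le_antisymm
    · exact sup_le (le_sup_left.trans le_sup_left) le_sup_right
    · exact sup_le (sup_le le_sup_left (e2.trans le_sup_right)) le_sup_right
  have hcomm : ∀ a ∈ CV V B, ∀ b ∈ B, a * b = b * a := by
    intro a ha b hb
    exact ((Subgroup.mem_centralizer_iff.1 ha.2) b hb).symm
  have hea : Cfsg.IsElementaryAbelian p (W ⊔ B) := by
    rw [e3]
    exact ea_sup (ea_mono hV inf_le_left) (ea_mono hA.1 hBA) hcomm
  have e4 : CV V B ⊓ B = V ⊓ A := by
    apply le_antisymm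
    · exact le_inf (inf_le_left.trans inf_le_left) (inf_le_right.trans hBA)
    · refine le_inf (le_inf inf_le_left ?_) e2
      intro x hx
      rw [Subgroup.mem_centralizer_iff]
      intro b hb
      exact ea_comm hA.1 (hBA hb) hx.2
  have hnorm : CV V B ≤ Subgroup.normalizer (B : Set G) := by
    intro x hx
    rw [Subgroup.mem_normalizer_iff]
    intro b
    have : ∀ b ∈ B, x * b * x⁻¹ = b := by
      intro b hb
      rw [hcomm x hx b hb]; group
    constructor
    · intro hb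
      rw [this b hb]; exact hb
    · intro hb
      have h2 := this _ hb
      have h3 : x * b * x⁻¹ = b := by
        have : x * (x * b * x⁻¹) * x⁻¹ = x * b * x⁻¹ := h2
        have h4 := congrArg (fun z => x⁻¹ * z * x) this
        calc x * b * x⁻¹ = x⁻¹ * (x * (x * b * x⁻¹) * x⁻¹) * x := by group
          _ = x⁻¹ * (x * b * x⁻¹) * x := h4
          _ = b := by group
      rw [← h3]; exact hb
  have hcard : Nat.card ↥(W ⊔ B) = Nat.card A := by
    have h1 := card_sup_mul_card_inf' (CV V B) B hnorm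
    rw [e4, ← e3] at h1
    have h2 : meas V B = meas V A := T1
    unfold meas at h2
    rw [e1] at h2
    have h3 : 0 < Nat.card ↥(V ⊓ A) := Nat.card_pos
    have h4 : Nat.card ↥(W ⊔ B) * Nat.card ↥(V ⊓ A) = Nat.card A * Nat.card ↥(V ⊓ A) := by
      rw [h1, ← h2, mul_comm]
    exact Nat.eq_of_mul_eq_mul_right h3 h4
  have hVW : ⁅V, W ⊔ B⁆ ≤ W := by
    rw [Subgroup.commutator_le]
    intro v hv x hx
    have hx' : x ∈ ((W ⊔ B : Subgroup G) : Set G) := hx
    have hBn : B ≤ Subgroup.normalizer (W : Set G) :=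
      hBW.trans (Subgroup.centralizer_le_normalizer _)
    rw [Subgroup.coe_mul_of_right_le_normalizer_left W B hBn] at hx'
    obtain ⟨w, hw, b, hb, rfl⟩ := Set.mem_mul.1 hx'
    have hvb : ⁅v, b⁆ ∈ W := by
      rw [← hW]
      exact Subgroup.commutator_mem_commutator hv (hBA hb)
    have h1 : ⁅v, w * b⁆ = ⁅v, b⁆ := by
      have h2 : v * w = w * v := hVc v hv w (hWV hw)
      have h3 : w * ⁅v, b⁆ = ⁅v, b⁆ * w := hVc w (hWV hw) _ (hWV hvb)
      calc ⁅v, w * b⁆ = (v * w) * b * v⁻¹ * b⁻¹ * w⁻¹ := by rw [commutatorElement_def]; group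
        _ = (w * v) * b * v⁻¹ * b⁻¹ * w⁻¹ := by rw [h2]
        _ = (w * ⁅v, b⁆) * w⁻¹ := by rw [commutatorElement_def]; group
        _ = ⁅v, b⁆ := by rw [h3]; group
    rw [h1]; exact hvb
  refine ⟨⟨hea, fun C hC => ?_⟩, ?_, ?_⟩
  · rw [hcard]; exact hA.2 C hC
  · rw [Subgroup.commutator_eq_bot_iff_le_centralizer]
    refine hVW.trans ?_
    rw [centralizer_sup_eq]
    refine le_inf ?_ ?_
    · intro x hx
      rw [Subgroup.mem_centralizer_iff]
      intro w hw
      exact hVc w (hWV hw) x (hWV hx)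
    · rw [Subgroup.le_centralizer_iff]; exact hBW
  · intro hne hbot
    apply T3 hne
    rw [eq_bot_iff, ← hbot]
    exact Subgroup.commutator_mono le_rfl le_sup_right

end Cfsg.Agent.S0607
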