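import Cfsg.Statements.S0642
import Mathlib

set_option autoImplicit false
open Cfsg

namespace Cfsg.Agent.S0642



open scoped commutatorElement

universe u

theorem comm_mem {G : Type u} [Group G] {a b : G} {E : Subgroup G}
    (hE : ∀ h ∈ Subgroup.closure ({a, b} : Set G), ∀ e ∈ E, h * e * h⁻¹ ∈ E)
    (hab : ⁅a, b⁆ ∈ E) :
    ⁅Subgroup.closure ({a, b} : Set G), Subgroup.closure ({a, b} : Set G)⁆ ≤ E := by
  have hba : ⁅b, a⁆ ∈ E := by
    rw [← commutatorElement_inv]
    exact E.inv_mem hab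
  have step1 : ∀ x : G, ⁅x, a⁆ ∈ E → ⁅x, b⁆ ∈ E →
      ∀ h ∈ Subgroup.closure ({a, b} : Set G), ⁅x, h⁆ ∈ E := by
    intro x hxa hxb h hh
    induction hh using Subgroup.closure_induction with
    | mem y hy =>
      rcases hy with hy | hy
      · rw [hy]; exact hxa
      · rw [Set.mem_singleton_iff.mp hy]; exact hxb
    | one => rw [commutatorElement_one_right]; exact E.one_mem
    | mul y z hy hz ihy ihz =>
      have e : ⁅x, y * z⁆ = ⁅x, y⁆ * (y * ⁅x, z⁆ * y⁻¹) := by
        simp only [commutatorElement_def]; group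
      rw [e]
      exact E.mul_mem ihy (hE y hy _ ihz)
    | inv y hy ihy =>
      have e : ⁅x, y⁻¹⁆ = y⁻¹ * ⁅x, y⁆⁻¹ * y⁻¹⁻¹ := by
        simp only [commutatorElement_def]; group
      rw [e]
      exact hE y⁻¹ (Subgroup.inv_mem _ hy) _ (E.inv_mem ihy)
  rw [Subgroup.commutator_le]
  intro g hg h hh
  induction hg using Subgroup.closure_induction generalizing h with
  | mem y hy =>
    rcases hy with hy | hy
    · rw [hy]
      exact step1 _ (by rw [commutatorElement_self]; exact E.one_mem) hab h hh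
    · rw [Set.mem_singleton_iff.mp hy]
      exact step1 _ hba (by rw [commutatorElement_self]; exact E.one_mem) h hh
  | one => rw [commutatorElement_one_left]; exact E.one_mem
  | mul y z hy hz ihy ihz =>
    have e : ⁅y * z, h⁆ = y * ⁅z, h⁆ * y⁻¹ * ⁅y, h⁆ := by
      simp only [commutatorElement_def]; group
    rw [e]
    exact E.mul_mem (hE y hy _ (ihz h hh)) (ihy h hh)
  | inv y hy ihy =>
    have e : ⁅y⁻¹, h⁆ = y⁻¹ * ⁅y, h⁆⁻¹ * y⁻¹⁻¹ := by
      simp only [commutatorElement_def]; group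
    rw [e]
    exact hE y⁻¹ (Subgroup.inv_mem _ hy) _ (E.inv_mem (ihy h hh))

/-- Among finite 2-groups the regular ones are exactly the abelian ones. -/
theorem result {G : Type*} [Group G] [Finite G] (hG : IsPGroup 2 G) : Cfsg.IsRegularPGroup 2 G ↔ ∀ a b : G, a * b = b * a := by
  constructor
  · rintro ⟨-, hreg⟩ a b
    obtain ⟨c, hc, he⟩ := hreg a b 1
    rw [pow_one] at he
    have haH : a ∈ Subgroup.closure ({a, b} : Set G) := Subgroup.subset_closure (by simp)
    have hbH : b ∈ Subgroup.closure ({a, b} : Set G) := Subgroup.subset_closure (by simp)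
    have hcm := fun E : Subgroup G => comm_mem (a := a) (b := b) (E := E)
    generalize Subgroup.closure ({a, b} : Set G) = H at hc haH hbH hcm
    have hDH : ⁅H, H⁆ ≤ H := Subgroup.commutator_le.mpr (fun g₁ h₁ g₂ h₂ =>
      H.mul_mem (H.mul_mem (H.mul_mem h₁ h₂) (H.inv_mem h₁)) (H.inv_mem h₂))
    have hDn : ∀ h ∈ H, ∀ d ∈ ⁅H, H⁆, h * d * h⁻¹ ∈ ⁅H, H⁆ := by
      intro h hh d hd
      have e : h * d * h⁻¹ = ⁅h, d⁆ * d := by simp only [commutatorElement_def]; group
      rw [e]
      exact Subgroup.mul_mem _ (Subgroup.commutator_mem_commutator hh (hDH hd)) hd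
    have hmemD : ⁅a, b⁆ ∈ ⁅H, H⁆ := Subgroup.commutator_mem_commutator haH hbH
    generalize ⁅H, H⁆ = D at hc hcm hDn hmemD
    have hEn : ∀ h ∈ H, ∀ e ∈ Cfsg.powerClosure 2 1 D, h * e * h⁻¹ ∈ Cfsg.powerClosure 2 1 D := by
      have : H ≤ Subgroup.normalizer (Cfsg.powerClosure 2 1 D : Set G) := by
        rw [Cfsg.powerClosure, Subgroup.le_normalizer_closure_iff]
        rintro h hh _ ⟨x, hx, rfl⟩
        apply Subgroup.subset_closure
        exact ⟨h * x * h⁻¹, hDn h hh x hx, by rw [conj_pow]⟩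
      exact Subgroup.le_normalizer_iff.mp this
    have hbaE : ⁅b, a⁆ ∈ Cfsg.powerClosure 2 1 D := by
      have he2 : a * b * (a * b) = a * a * (b * b) * c := by simpa only [pow_two] using he
      have hc' : c = (a * a * (b * b))⁻¹ * (a * b * (a * b)) := by rw [he2]; group
      have e : ⁅b, a⁆ = (a * b * b) * c * (a * b * b)⁻¹ := by
        rw [hc']; simp only [commutatorElement_def]; group
      rw [e]
      exact hEn _ (H.mul_mem (H.mul_mem haH hbH) hbH) c hc
    have habE : ⁅a, b⁆ ∈ Cfsg.powerClosure 2 1 D := by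
      rw [← commutatorElement_inv]
      exact Subgroup.inv_mem _ hbaE
    have hDE : D ≤ Cfsg.powerClosure 2 1 D := hcm _ hEn habE
    have hDbot : D = ⊥ := by
      by_contra hne
      have hDp : IsPGroup 2 D := hG.to_subgroup D
      have hnt : Nontrivial D := (Subgroup.nontrivial_iff_ne_bot D).mpr hne
      obtain ⟨n, hn0, hn⟩ := hDp.nontrivial_iff_card.mp hnt
      obtain ⟨m, rfl⟩ : ∃ m, n = m + 1 := ⟨n - 1, by omega⟩
      haveI : Fact (Nat.Prime 2) := ⟨Nat.prime_two⟩
      obtain ⟨N, hN⟩ := Sylow.exists_subgroup_card_pow_prime 2 (n := m) (G := D)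
        (by rw [hn]; exact pow_dvd_pow 2 (by omega))
      have hidx : N.index = 2 := by
        have := N.card_mul_index
        rw [hN, hn, pow_succ] at this
        exact Nat.eq_of_mul_eq_mul_left (by positivity) this
      have hEN : Cfsg.powerClosure 2 1 D ≤ N.map D.subtype := by
        rw [Cfsg.powerClosure, Subgroup.closure_le]
        rintro _ ⟨x, hx, rfl⟩
        refine ⟨⟨x, hx⟩ ^ 2, ?_, by simp⟩
        exact Subgroup.sq_mem_of_index_two hidx _
      have hNtop : N = ⊤ := by
        rw [eq_top_iff]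
        intro d _
        obtain ⟨d', hd', hdd⟩ := hEN (hDE d.2)
        have : d' = d := Subtype.ext hdd
        exact this ▸ hd'
      rw [hNtop, Subgroup.index_top] at hidx
      omega
    rw [hDbot, Subgroup.mem_bot, commutatorElement_eq_one_iff_mul_comm] at hmemD
    exact hmemD
  · intro hab
    refine ⟨hG, fun a b n => ⟨1, Subgroup.one_mem _, ?_⟩⟩
    rw [mul_one, (show Commute a b from hab a b).mul_pow]

end Cfsg.Agent.S0642
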