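import Cfsg.Statements.S0645
import Cfsg.Agent.Lib.Helper3.UniqP

set_option autoImplicit false
open Cfsg

namespace Cfsg.Agent.S0645

theorem one_add_pow_modsq (x : ℤ) (j : ℕ) : x ^ 2 ∣ (1 + x) ^ j - 1 - j * x := by
  induction j with
  | zero => simp
  | succ j ih =>
    obtain ⟨d, hd⟩ := ih
    refine ⟨(1 + x) * d + j, ?_⟩
    have e : (1 + x) ^ (j + 1) - 1 - ((j + 1 : ℕ) : ℤ) * x =
        (1 + x) * ((1 + x) ^ j - 1 - j * x) + j * x ^ 2 := by
      push_cast; ring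
    rw [e, hd]; ring

theorem nt_odd {p : ℕ} [hp : Fact p.Prime] (hodd : Odd p) (m : ℕ) (k : ℤ)
    (h1 : (p : ℤ) ^ (m + 2) ∣ k ^ p - 1) (h3 : ¬ (p : ℤ) ^ (m + 2) ∣ k - 1) :
    ∃ j : ℕ, (p : ℤ) ^ (m + 2) ∣ k ^ j - (1 + (p : ℤ) ^ (m + 1)) := by
  have hpp : Prime (p : ℤ) := Nat.prime_iff_prime_int.1 hp.out
  have hp0 : (p : ℤ) ≠ 0 := hpp.ne_zero
  have hpk : (p : ℤ) ∣ k - 1 := by
    have h1' : (p : ℤ) ∣ k ^ p - 1 := (dvd_pow_self _ (Nat.succ_ne_zero _)).trans h1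
    rw [← ZMod.intCast_zmod_eq_zero_iff_dvd] at h1' ⊢
    push_cast at h1' ⊢
    rwa [ZMod.pow_card] at h1'
  obtain ⟨b, hb⟩ := hpk
  have hk : k = 1 + p * b := by linarith
  have hS := odd_sq_dvd_geom_sum₂_sub (R := ℤ) (a := 1) (b := b) (p := p) hodd
  simp only [one_pow, mul_one] at hS
  rw [← hk] at hS
  obtain ⟨e, he⟩ := hS
  have hSe : ∑ j ∈ Finset.range p, k ^ j = p * (1 + p * e) := by linarith
  have hgeom : k ^ p - 1 = (k - 1) * (p * (1 + p * e)) := by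
    rw [← hSe, mul_comm, geom_sum_mul]
  have hc : IsCoprime ((p : ℤ) ^ (m + 1)) (1 + (p : ℤ) * e) :=
    IsCoprime.pow_left ⟨-e, 1, by ring⟩
  have h4 : (p : ℤ) ^ (m + 1) ∣ k - 1 := by
    rw [hgeom, pow_succ'] at h1
    have e1 : (k - 1) * (↑p * (1 + ↑p * e)) = p * ((k - 1) * (1 + p * e)) := by ring
    rw [e1] at h1
    exact hc.dvd_of_dvd_mul_right ((mul_dvd_mul_iff_left hp0).1 h1)
  obtain ⟨c, hc'⟩ := h4
  have hpc : ¬ (p : ℤ) ∣ c := by
    rintro ⟨c', rfl⟩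
    exact h3 ⟨c', by rw [hc']; ring⟩
  obtain ⟨α, β, hαβ⟩ := (Prime.coprime_iff_not_dvd hpp).2 hpc
  -- `α * p + β * c = 1`
  obtain ⟨j, hj⟩ : ∃ j : ℕ, (j : ℤ) = β - p * (β / p) := by
    refine ⟨(β % p).toNat, ?_⟩
    rw [Int.toNat_of_nonneg (Int.emod_nonneg _ hp0)]
    have := Int.emod_add_mul_ediv β p
    linarith
  refine ⟨j, ?_⟩
  obtain ⟨d, hd⟩ := one_add_pow_modsq (p ^ (m + 1) * c) j
  have hk' : k = 1 + p ^ (m + 1) * c := by linarith
  rw [hj] at hd
  rw [hk']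
  refine ⟨p ^ m * c ^ 2 * d - α - (β / p) * c, ?_⟩
  have e2 : (1 + (p : ℤ) ^ (m + 1) * c) ^ j =
      (p ^ (m + 1) * c) ^ 2 * d + 1 + (β - p * (β / p)) * (p ^ (m + 1) * c) := by linarith
  rw [e2]
  have e3 : β * c = 1 - α * p := by linarith
  calc ((p : ℤ) ^ (m + 1) * c) ^ 2 * d + 1 + (β - p * (β / p)) * (p ^ (m + 1) * c) -
        (1 + (p : ℤ) ^ (m + 1))
      = (p : ℤ) ^ (m + 2) * (p ^ m * c ^ 2 * d) + p ^ (m + 1) * (β * c) -
          p ^ (m + 2) * ((β / p) * c) - p ^ (m + 1) := by ring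
    _ = (p : ℤ) ^ (m + 2) * (p ^ m * c ^ 2 * d - α - (β / p) * c) := by rw [e3]; ring

/-- Classification of p-groups with a cyclic maximal subgroup, odd p: a non-abelian one of order p^n has generators a of order p^(n-1) and b of order p, b outside the cyclic subgroup generated by a, with b a b⁻¹ = a^(1 + p^(n-2)). -/
theorem result {G : Type*} [Group G] [Finite G] {p : ℕ} [Fact p.Prime] (hp : p ≠ 2) (n : ℕ) (hn : 3 ≤ n) (hG : Nat.card G = p ^ n) (C : Subgroup G) (hC : IsCyclic C) (hCi : C.index = p) (hna : ∃ x y : G, x * y ≠ y * x) : ∃ a b : G, orderOf a = p ^ (n - 1) ∧ orderOf b = p ∧ b ∉ Subgroup.zpowers a ∧ b * a * b⁻¹ = a ^ (1 + p ^ (n - 2)) := by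
  have hpr : p.Prime := Fact.out
  have hodd : Odd p := hpr.odd_of_ne_two hp
  obtain ⟨m, rfl⟩ : ∃ m, n = m + 3 := ⟨n - 3, by omega⟩
  obtain ⟨⟨a, haC⟩, hgen⟩ := hC.exists_generator
  have hCeq : C = Subgroup.zpowers a := by
    apply le_antisymm
    · intro g hg
      obtain ⟨t, ht⟩ := Subgroup.mem_zpowers_iff.1 (hgen ⟨g, hg⟩)
      rw [Subgroup.mem_zpowers_iff]
      exact ⟨t, congrArg Subtype.val ht⟩
    · exact Subgroup.zpowers_le.2 haC
  have hCn : C.Normal := by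
    apply Subgroup.normal_of_index_eq_minFac_card
    rw [hCi, hG, Nat.Prime.pow_minFac hpr (by omega)]
  have hao : orderOf a = p ^ (m + 2) := by
    have h1 := C.card_mul_index
    rw [hCi, hG, hCeq, Nat.card_zpowers] at h1
    have e : p ^ (m + 3) = p ^ (m + 2) * p := by ring
    rw [e] at h1
    exact Nat.eq_of_mul_eq_mul_right hpr.pos h1
  obtain ⟨b0, hb0⟩ : ∃ g, g ∉ C := by
    by_contra hc
    push Not at hc
    have : C = ⊤ := eq_top_iff.2 fun x _ => hc x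
    rw [this, Subgroup.index_top] at hCi
    exact hpr.one_lt.ne hCi
  have hb0p : b0 ^ p ∈ Subgroup.zpowers a := by
    rw [← hCeq, ← QuotientGroup.eq_one_iff, QuotientGroup.mk_pow, ← hCi, Subgroup.index_eq_card]
    exact pow_card_eq_one'
  obtain ⟨k, hk⟩ : ∃ k : ℤ, b0 * a * b0⁻¹ = a ^ k := by
    have h1 : b0 * a * b0⁻¹ ∈ Subgroup.zpowers a := hCeq ▸ hCn.conj_mem a haC b0
    obtain ⟨k, hk⟩ := Subgroup.mem_zpowers_iff.1 h1
    exact ⟨k, hk.symm⟩
  have hnc : b0 * a ≠ a * b0 := by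
    intro hcomm
    obtain ⟨x, y, hxy⟩ := hna
    apply hxy
    have hCK : C ≤ Subgroup.centralizer {a} := by
      rw [hCeq, Subgroup.zpowers_le, Subgroup.mem_centralizer_singleton_iff]
    have hbK : b0 ∈ Subgroup.centralizer {a} := by
      rw [Subgroup.mem_centralizer_singleton_iff]; exact hcomm
    have hKtop : Subgroup.centralizer {a} = ⊤ := by
      have h1 := Subgroup.index_dvd_of_le hCK
      rw [hCi] at h1
      rcases (Nat.dvd_prime hpr).1 h1 with h | h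
      · exact Subgroup.index_eq_one.1 h
      · exfalso
        apply hb0
        have h2 := (Subgroup.centralizer {a}).card_mul_index
        have h3 := C.card_mul_index
        rw [h] at h2
        rw [hCi, ← h2] at h3
        have h4 := Nat.eq_of_mul_eq_mul_right hpr.pos h3
        rw [Subgroup.eq_of_le_of_card_ge hCK h4.ge]
        exact hbK
    have hCZ : C ≤ Subgroup.center G := by
      rw [hCeq, Subgroup.zpowers_le, Subgroup.mem_center_iff]
      intro g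
      have : g ∈ Subgroup.centralizer {a} := hKtop ▸ Subgroup.mem_top g
      exact Subgroup.mem_centralizer_singleton_iff.1 this
    haveI : IsCyclic (G ⧸ C) := isCyclic_of_prime_card (p := p) (by rw [← Subgroup.index_eq_card, hCi])
    exact commutative_of_cyclic_center_quotient (QuotientGroup.mk' C)
      (by rw [QuotientGroup.ker_mk']; exact hCZ) x y
  obtain ⟨i, hi⟩ := Cfsg.Agent.Lib.Helper3.UniqP.key_odd hodd hao hk hb0p hnc
  have hbk : (a ^ i * b0) * a * (a ^ i * b0)⁻¹ = a ^ k := by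
    have e : (a ^ i * b0) * a * (a ^ i * b0)⁻¹ = a ^ i * (b0 * a * b0⁻¹) * (a ^ i)⁻¹ := by group
    rw [e, hk, ← zpow_add, ← zpow_neg, ← zpow_add]
    congr 1; ring
  have hbnc : (a ^ i * b0) * a ≠ a * (a ^ i * b0) := by
    intro h
    apply hnc
    have e1 : a ^ i * b0 * a = a ^ i * (b0 * a) := by group
    have e2 : a * (a ^ i * b0) = a ^ i * (a * b0) := by
      rw [← mul_assoc, ← mul_assoc, ← zpow_one_add, ← zpow_add_one, add_comm]
    rw [e1, e2] at h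
    exact mul_left_cancel h
  obtain ⟨f1, -, f3⟩ := Cfsg.Agent.Lib.Helper3.UniqP.facts hao hbk p (m := 0)
    (by rw [zpow_zero, hi]) hbnc
  push_cast at f1 f3
  obtain ⟨j, hj⟩ := nt_odd hodd m k f1 f3
  have hconj : (a ^ i * b0) ^ j * a * ((a ^ i * b0) ^ j)⁻¹ = a ^ (1 + p ^ (m + 1)) := by
    have h1 := Cfsg.Agent.Lib.Helper3.UniqP.conj_pow_of hbk j 1
    rw [zpow_one, mul_one] at h1
    rw [h1, ← zpow_natCast, ← mul_inv_eq_one, ← zpow_neg, ← zpow_add,
      ← orderOf_dvd_iff_zpow_eq_one, hao]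
    push_cast
    rwa [← sub_eq_add_neg]
  have hbp : ((a ^ i * b0) ^ j) ^ p = 1 := by
    rw [← pow_mul, mul_comm, pow_mul, hi, one_pow]
  have hbC : (a ^ i * b0) ^ j ∉ Subgroup.zpowers a := by
    intro h
    obtain ⟨t, ht⟩ := Subgroup.mem_zpowers_iff.1 h
    rw [← ht] at hconj
    have e : a ^ t * a * (a ^ t)⁻¹ = a := by
      rw [← zpow_add_one, ← zpow_neg, ← zpow_add]
      have : t + 1 + -t = 1 := by ring
      rw [this, zpow_one]
    rw [e, pow_add, pow_one, left_eq_mul] at hconj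
    have h2 := orderOf_dvd_of_pow_eq_one hconj
    rw [hao] at h2
    have h3 := Nat.le_of_dvd (pow_pos hpr.pos _) h2
    exact absurd h3 (not_le.2 (Nat.pow_lt_pow_right hpr.one_lt (Nat.lt_succ_self _)))
  refine ⟨a, (a ^ i * b0) ^ j, by rw [hao]; rfl, ?_, hbC, hconj⟩
  apply orderOf_eq_prime hbp
  intro h
  apply hbC
  rw [h]; exact one_mem _

end Cfsg.Agent.S0645
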