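import Cfsg.Statements.S0646
import Cfsg.Agent.Lib.Helper3.UniqP

set_option autoImplicit false
open Cfsg

namespace Cfsg.Agent.S0646

theorem nt3 (m : ℕ) (k : ℤ) (h2 : (2 : ℤ) ^ (m + 2) ∣ (k - 1) * (k + 1))
    (h3 : ¬ (2 : ℤ) ^ (m + 2) ∣ k - 1) :
    (2 : ℤ) ^ (m + 2) ∣ k + 1 ∨ (1 ≤ m ∧ (2 : ℤ) ^ (m + 2) ∣ k - (1 + 2 ^ (m + 1))) ∨
      (1 ≤ m ∧ (2 : ℤ) ^ (m + 2) ∣ k - (2 ^ (m + 1) - 1)) := by
  have hcop : ∀ w : ℤ, Odd w → ∀ j : ℕ, IsCoprime ((2 : ℤ) ^ j) w := by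
    intro w hw j
    apply IsCoprime.pow_left
    obtain ⟨c, rfl⟩ := hw
    exact ⟨-c, 1, by ring⟩
  have hk : Odd k := by
    by_contra hk
    rw [Int.not_odd_iff_even] at hk
    have : Odd ((k - 1) * (k + 1)) := (hk.sub_odd odd_one).mul (hk.add_odd odd_one)
    have h2' : (2 : ℤ) ∣ (k - 1) * (k + 1) := (dvd_pow_self 2 (Nat.succ_ne_zero _)).trans h2
    exact (Int.not_even_iff_odd.2 this) (even_iff_two_dvd.2 h2')
  obtain ⟨c, rfl⟩ := hk
  have four0 : (4 : ℤ) ≠ 0 := by norm_num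
  have e2 : (2 : ℤ) ^ m ∣ c * (c + 1) := by
    have : (4 : ℤ) * 2 ^ m ∣ 4 * (c * (c + 1)) := by
      have e : (2 * c + 1 - 1) * (2 * c + 1 + 1) = 4 * (c * (c + 1)) := by ring
      have e' : (2 : ℤ) ^ (m + 2) = 4 * 2 ^ m := by ring
      rwa [e, e'] at h2
    exact (mul_dvd_mul_iff_left four0).1 this
  have hcase : (2 : ℤ) ^ m ∣ c ∨ (2 : ℤ) ^ m ∣ c + 1 := by
    rcases Int.even_or_odd c with hc | hc
    · left
      exact (hcop _ (hc.add_odd odd_one) m).dvd_of_dvd_mul_right e2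
    · right
      exact (hcop _ hc m).dvd_of_dvd_mul_left e2
  rcases hcase with ⟨e, rfl⟩ | ⟨e, he⟩
  · have hodd : Odd e := by
      by_contra hev
      rw [Int.not_odd_iff_even] at hev
      obtain ⟨e', rfl⟩ := hev
      exact h3 ⟨e', by ring⟩
    obtain ⟨e', rfl⟩ := hodd
    obtain _ | m := m
    · left
      exact ⟨e' + 1, by ring⟩
    · right; left
      exact ⟨by omega, e', by ring⟩
  · have hc : c = 2 ^ m * e - 1 := by linarith
    subst hc
    rcases Int.even_or_odd e with hev | hodd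
    · left
      obtain ⟨e', rfl⟩ := hev
      exact ⟨e', by ring⟩
    · obtain ⟨e', rfl⟩ := hodd
      obtain _ | m := m
      · exfalso
        exact h3 ⟨e', by ring⟩
      · right; right
        exact ⟨by omega, e', by ring⟩

/-- Classification of non-abelian 2-groups with a cyclic maximal subgroup: dihedral, generalized quaternion, and for order at least 16 the modular group and the semidihedral group, each given by generators a (of index 2) and b with the stated relations. -/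
theorem result {G : Type*} [Group G] [Finite G] (n : ℕ) (hn : 3 ≤ n) (hG : Nat.card G = 2 ^ n) (C : Subgroup G) (hC : IsCyclic C) (hCi : C.index = 2) (hna : ∃ x y : G, x * y ≠ y * x) : ∃ a b : G, orderOf a = 2 ^ (n - 1) ∧ b ∉ Subgroup.zpowers a ∧ ((b ^ 2 = 1 ∧ b * a * b⁻¹ = a⁻¹) ∨ (b ^ 2 = a ^ (2 ^ (n - 2)) ∧ b * a * b⁻¹ = a⁻¹) ∨ (4 ≤ n ∧ b ^ 2 = 1 ∧ b * a * b⁻¹ = a ^ (1 + 2 ^ (n - 2))) ∨ (4 ≤ n ∧ b ^ 2 = 1 ∧ b * a * b⁻¹ = a ^ (2 ^ (n - 2) - 1))) := by
  obtain ⟨m, rfl⟩ : ∃ m, n = m + 3 := ⟨n - 3, by omega⟩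
  obtain ⟨⟨a, haC⟩, hgen⟩ := hC.exists_generator
  have hCeq : C = Subgroup.zpowers a := by
    apply le_antisymm
    · intro g hg
      obtain ⟨t, ht⟩ := Subgroup.mem_zpowers_iff.1 (hgen ⟨g, hg⟩)
      rw [Subgroup.mem_zpowers_iff]
      exact ⟨t, congrArg Subtype.val ht⟩
    · exact Subgroup.zpowers_le.2 haC
  have hCn : C.Normal := Subgroup.normal_of_index_eq_two hCi
  have hao : orderOf a = 2 ^ (m + 2) := by
    have h1 := C.card_mul_index
    rw [hCi, hG, hCeq, Nat.card_zpowers] at h1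
    have e : 2 ^ (m + 3) = 2 ^ (m + 2) * 2 := by ring
    rw [e] at h1
    exact Nat.eq_of_mul_eq_mul_right (by norm_num) h1
  obtain ⟨b0, hb0⟩ : ∃ g, g ∉ C := by
    by_contra hc
    push Not at hc
    have : C = ⊤ := eq_top_iff.2 fun x _ => hc x
    rw [this, Subgroup.index_top] at hCi
    norm_num at hCi
  have hb0sq : b0 ^ 2 ∈ Subgroup.zpowers a := hCeq ▸ Subgroup.sq_mem_of_index_two hCi b0
  obtain ⟨k, hk⟩ : ∃ k : ℤ, b0 * a * b0⁻¹ = a ^ k := by
    have h1 : b0 * a * b0⁻¹ ∈ Subgroup.zpowers a := hCeq ▸ hCn.conj_mem a haC b0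
    obtain ⟨k, hk⟩ := Subgroup.mem_zpowers_iff.1 h1
    exact ⟨k, hk.symm⟩
  have hnc : b0 * a ≠ a * b0 := by
    intro hcomm
    obtain ⟨x, y, hxy⟩ := hna
    apply hxy
    have hacent : ∀ g, g * a = a * g := by
      intro g
      by_cases hg : g ∈ C
      · rw [hCeq] at hg
        obtain ⟨t, rfl⟩ := Subgroup.mem_zpowers_iff.1 hg
        rw [← zpow_add_one, ← zpow_one_add, add_comm]
      · have h1 : b0⁻¹ * g ∈ C := by
          rw [Subgroup.mul_mem_iff_of_index_two hCi, inv_mem_iff]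
          exact ⟨fun h => absurd h hb0, fun h => absurd h hg⟩
        rw [hCeq] at h1
        obtain ⟨t, ht⟩ := Subgroup.mem_zpowers_iff.1 h1
        have hg' : g = b0 * a ^ t := by rw [ht]; group
        rw [hg', mul_assoc, ← zpow_add_one, ← mul_assoc, ← hcomm, mul_assoc, ← zpow_one_add,
          add_comm]
    have hCcent : ∀ c ∈ C, ∀ g, g * c = c * g := by
      intro c hc g
      rw [hCeq] at hc
      obtain ⟨t, rfl⟩ := Subgroup.mem_zpowers_iff.1 hc
      exact ((Commute.zpow_right (hacent g) t)).eq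
    by_cases hx : x ∈ C
    · exact (hCcent x hx y).symm
    by_cases hy : y ∈ C
    · exact hCcent y hy x
    have h1 : x⁻¹ * y ∈ C := by
      rw [Subgroup.mul_mem_iff_of_index_two hCi, inv_mem_iff]
      exact ⟨fun h => absurd h hx, fun h => absurd h hy⟩
    have h2 := hCcent _ h1 x
    have h3 : y = x⁻¹ * y * x := by rw [← h2]; group
    have h4 : x * y = x * (x⁻¹ * y * x) := congrArg (x * ·) h3
    rw [h4]; group
  by_cases hinv : ∃ i : ℤ, (a ^ i * b0) ^ 2 = 1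
  · obtain ⟨i, hi⟩ := hinv
    have hbC : a ^ i * b0 ∉ Subgroup.zpowers a := by
      intro h
      apply hb0
      rw [hCeq]
      have e : b0 = (a ^ i)⁻¹ * (a ^ i * b0) := by group
      rw [e]
      exact mul_mem (inv_mem (Subgroup.zpow_mem _ (Subgroup.mem_zpowers a) _)) h
    have hbk : (a ^ i * b0) * a * (a ^ i * b0)⁻¹ = a ^ k := by
      have e : (a ^ i * b0) * a * (a ^ i * b0)⁻¹ = a ^ i * (b0 * a * b0⁻¹) * (a ^ i)⁻¹ := by group
      rw [e, hk, ← zpow_add, ← zpow_neg, ← zpow_add]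
      congr 1; ring
    have hbnc : (a ^ i * b0) * a ≠ a * (a ^ i * b0) := by
      intro h
      apply hnc
      have e1 : a ^ i * b0 * a = a ^ i * (b0 * a) := by group
      have e2 : a * (a ^ i * b0) = a ^ i * (a * b0) := by
        rw [← mul_assoc, ← mul_assoc, ← zpow_one_add, ← zpow_add_one, add_comm]
      rw [e1, e2] at h
      exact mul_left_cancel h
    obtain ⟨f1, -, f3⟩ := Cfsg.Agent.Lib.Helper3.UniqP.facts hao hbk 2 (m := 0)
      (by rw [zpow_zero, hi]) hbnc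
    push_cast at f1 f3
    have f1' : (2 : ℤ) ^ (m + 2) ∣ (k - 1) * (k + 1) := by
      have e : (k - 1) * (k + 1) = k ^ 2 - 1 := by ring
      rwa [e]
    have hconv : ∀ j : ℤ, (2 : ℤ) ^ (m + 2) ∣ k - j → a ^ k = a ^ j := by
      intro j hj
      rw [← mul_inv_eq_one, ← zpow_neg, ← zpow_add, ← orderOf_dvd_iff_zpow_eq_one, hao]
      push_cast
      rwa [← sub_eq_add_neg]
    refine ⟨a, a ^ i * b0, by rw [hao]; rfl, hbC, ?_⟩
    rcases nt3 m k f1' f3 with h | ⟨hm, h⟩ | ⟨hm, h⟩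
    · left
      refine ⟨hi, ?_⟩
      rw [hbk, hconv (-1) (by rwa [sub_neg_eq_add]), zpow_neg_one]
    · right; right; left
      refine ⟨by omega, hi, ?_⟩
      rw [hbk, hconv _ h, ← zpow_natCast]
      congr 1
    · right; right; right
      refine ⟨by omega, hi, ?_⟩
      rw [hbk, hconv _ h, ← zpow_natCast]
      congr 1
      have e : m + 3 - 2 = m + 1 := by omega
      rw [e, Nat.cast_sub Nat.one_le_two_pow]
      push_cast
      ring
  · push Not at hinv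
    obtain ⟨g1, g2⟩ := Cfsg.Agent.Lib.Helper3.UniqP.key_two hao hk hb0sq hnc hinv
    refine ⟨a, b0, by rw [hao]; rfl, hCeq ▸ hb0, Or.inr (Or.inl ⟨?_, g1⟩)⟩
    obtain ⟨t, ht⟩ := Subgroup.mem_zpowers_iff.1 hb0sq
    have hb1 : b0 ^ 2 ≠ 1 := by
      have := hinv 0
      rwa [zpow_zero, one_mul] at this
    have h1 : (2 : ℤ) ^ (m + 2) ∣ 2 * t := by
      have e : b0 ^ 4 = (b0 ^ 2) ^ 2 := by rw [← pow_mul]
      rw [e, ← ht, ← zpow_natCast, ← zpow_mul, ← orderOf_dvd_iff_zpow_eq_one, hao] at g2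
      push_cast at g2
      rwa [mul_comm] at g2
    have h2 : ¬ (2 : ℤ) ^ (m + 2) ∣ t := by
      intro h
      apply hb1
      rw [← ht, ← orderOf_dvd_iff_zpow_eq_one, hao]
      push_cast
      exact h
    have h3 : (2 : ℤ) ^ (m + 1) ∣ t := by
      rw [pow_succ'] at h1
      exact (mul_dvd_mul_iff_left (by norm_num)).1 h1
    obtain ⟨e, rfl⟩ := h3
    have hodd : Odd e := by
      by_contra hev
      rw [Int.not_odd_iff_even] at hev
      obtain ⟨e', rfl⟩ := hev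
      exact h2 ⟨e', by ring⟩
    obtain ⟨e', rfl⟩ := hodd
    rw [← ht, ← zpow_natCast, ← mul_inv_eq_one, ← zpow_neg, ← zpow_add,
      ← orderOf_dvd_iff_zpow_eq_one, hao]
    push_cast
    exact ⟨e', by ring⟩

end Cfsg.Agent.S0646
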