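import Cfsg.Statements.S0660
import Cfsg.Agent.Lib.Lead.Maschke
import Cfsg.Agent.Lib.Helper3.Avg

set_option autoImplicit false
open Cfsg
open Cfsg.Agent.Lib.Helper3

namespace Cfsg.Agent.S0660

/-- Under a coprime action on an abelian group, an invariant subgroup that is complemented admits an invariant complement. -/
theorem result {G : Type*} [Group G] [Finite G] (V A U : Subgroup G) (hVab : IsMulCommutative V) (hAV : A ≤ Subgroup.normalizer (V : Set G)) (hcop : (Nat.card A).Coprime (Nat.card V)) (hUV : U ≤ V) (hAU : A ≤ Subgroup.normalizer (U : Set G)) (W : Subgroup G) (hWV : W ≤ V) (hUW : U ⊓ W = ⊥) (hUWV : U ⊔ W = V) : ∃ W' : Subgroup G, W' ≤ V ∧ A ≤ Subgroup.normalizer (W' : Set G) ∧ U ⊓ W' = ⊥ ∧ U ⊔ W' = V := by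
  classical
  have e1 : U.subgroupOf V ⊓ W.subgroupOf V = ⊥ := by
    rw [eq_bot_iff]
    rintro x ⟨hx1, hx2⟩
    have : (x : G) ∈ U ⊓ W := ⟨hx1, hx2⟩
    rw [hUW, Subgroup.mem_bot] at this
    exact Subgroup.mem_bot.2 (Subtype.ext this)
  have e2 : U.subgroupOf V ⊔ W.subgroupOf V = ⊤ := by
    rw [← Subgroup.subgroupOf_sup hUV hWV, hUWV, Subgroup.subgroupOf_self]
  letI : CommGroup V := Avg.cg V hVab
  letI : MulDistribMulAction A V := Avg.act A V hAV
  have hsm : ∀ (a : A) (v : V), ((a • v : V) : G) = a * v * (a : G)⁻¹ := fun a v => rfl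
  obtain ⟨W', h1, h2, h3⟩ := Cfsg.Agent.Lib.Lead.Maschke.maschke (A := A) (V := V) hcop
    (U.subgroupOf V) (W.subgroupOf V)
    (by
      intro a u hu
      rw [Subgroup.mem_subgroupOf] at hu ⊢
      rw [hsm]
      exact (Subgroup.mem_normalizer_iff.1 (hAU a.2) _).1 hu) e1 e2
  refine ⟨W'.map V.subtype, Subgroup.map_subtype_le W', ?_, ?_, ?_⟩
  · rw [Subgroup.le_normalizer_iff]
    rintro a ha x ⟨w, hw, rfl⟩
    exact ⟨(⟨a, ha⟩ : A) • w, h1 ⟨a, ha⟩ w hw, rfl⟩
  · rw [eq_bot_iff]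
    rintro x ⟨hx1, ⟨w, hw, rfl⟩⟩
    have : w ∈ U.subgroupOf V ⊓ W' := ⟨hx1, hw⟩
    rw [h2, Subgroup.mem_bot] at this
    rw [this]
    exact Subgroup.one_mem _
  · have := congrArg (Subgroup.map V.subtype) h3
    rw [Subgroup.map_sup, Subgroup.subgroupOf_map_subtype, inf_eq_left.2 hUV,
      ← MonoidHom.range_eq_map, Subgroup.range_subtype] at this
    exact this

end Cfsg.Agent.S0660
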