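import Cfsg.Statements.S0666
import Cfsg.Agent.Lib.Helper3.AvgFrob
open Cfsg.Agent.Lib.Helper3

set_option autoImplicit false
open Cfsg

namespace Cfsg.Agent.S0666

/-- A Frobenius group acting on a nontrivial abelian group of order prime to that of its kernel, with the kernel acting without nontrivial fixed points, has a complement with a nontrivial fixed point. -/
theorem result {G : Type*} [Group G] [Finite G] (V F : Subgroup G) (hVab : IsMulCommutative V) (hV1 : V ≠ ⊥) (hFV : F ≤ Subgroup.normalizer (V : Set G)) (H : Subgroup ↥F) (hH : Cfsg.IsFrobeniusComplement H) (hcop : (Nat.card V).Coprime (Nat.card (Cfsg.frobeniusKernel H))) (hCK : V ⊓ Subgroup.centralizer (Subtype.val '' Cfsg.frobeniusKernel H : Set G) = ⊥) : V ⊓ Subgroup.centralizer ((H.map F.subtype : Subgroup G) : Set G) ≠ ⊥ := by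
  classical
  letI : CommGroup V := Avg.cg V hVab
  letI : MulDistribMulAction F V := Avg.act F V hFV
  haveI : Nontrivial V := (Subgroup.nontrivial_iff_ne_bot V).2 hV1
  obtain ⟨m, hm, hfix⟩ := Avg.frob_fixed (L := F) (M := V) H hH hcop (by
    intro m hm
    have h1 : (m : G) ∈ V ⊓ Subgroup.centralizer (Subtype.val '' Cfsg.frobeniusKernel H : Set G) := by
      refine Subgroup.mem_inf.2 ⟨m.2, ?_⟩
      rw [Subgroup.mem_centralizer_iff]
      rintro x ⟨k, hk, rfl⟩
      have h2 := congrArg Subtype.val (hm k hk)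
      have h3 : (k : G) * m * (k : G)⁻¹ = m := h2
      calc (k : G) * m = ((k : G) * m * (k : G)⁻¹) * k := by group
        _ = m * k := by rw [h3]
    rw [hCK, Subgroup.mem_bot] at h1
    exact Subtype.ext h1)
  intro hbot
  have h1 := Avg.mem_centralizer_of_fixed F V hFV H m hfix
  have h2 : (m : G) ∈ V ⊓ Subgroup.centralizer ((H.map F.subtype : Subgroup G) : Set G) := ⟨m.2, h1⟩
  rw [hbot, Subgroup.mem_bot] at h2
  exact hm (Subtype.ext h2)

end Cfsg.Agent.S0666
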