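import Cfsg.Statements.S0669

set_option autoImplicit false
open Cfsg

namespace Cfsg.Agent.S0669

/-- The rank of a transitive action: orbits on ordered pairs correspond to orbits of a point stabiliser. -/
theorem result {G : Type*} [Group G] {Ω : Type*} [Finite Ω] [MulAction G Ω] [MulAction.IsPretransitive G Ω] (a : Ω) : Nat.card (MulAction.orbitRel.Quotient G (Ω × Ω)) = Nat.card (MulAction.orbitRel.Quotient (MulAction.stabilizer G a) Ω) := by
  symm
  let f : MulAction.orbitRel.Quotient (MulAction.stabilizer G a) Ω →
      MulAction.orbitRel.Quotient G (Ω × Ω) :=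
    Quotient.map' (fun b => (a, b)) (by
      intro b c hbc
      obtain ⟨g, hg⟩ := hbc
      refine ⟨(g : G), ?_⟩
      have h1 : (g : G) • a = a := g.2
      have h2 : (g : G) • c = b := hg
      show ((g : G) • a, (g : G) • c) = (a, b)
      rw [h1, h2])
  refine Nat.card_congr (Equiv.ofBijective f ⟨?_, ?_⟩)
  · intro x y
    induction x using Quotient.inductionOn' with | _ b
    induction y using Quotient.inductionOn' with | _ c
    intro h
    have h' := Quotient.exact' h
    obtain ⟨g, hg⟩ := h'
    apply Quotient.sound'
    have h1 : g • a = a := congrArg Prod.fst hg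
    have h2 : g • c = b := congrArg Prod.snd hg
    exact ⟨⟨g, h1⟩, h2⟩
  · intro x
    induction x using Quotient.inductionOn' with | _ xy
    obtain ⟨x, y⟩ := xy
    obtain ⟨g, hg⟩ := MulAction.exists_smul_eq G x a
    refine ⟨Quotient.mk'' (g • y), ?_⟩
    apply Quotient.sound'
    exact ⟨g, by
      show (g • x, g • y) = (a, g • y)
      rw [hg]⟩

end Cfsg.Agent.S0669
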