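import Mathlib
import Cfsg.Statements.S0680
import Cfsg.Agent.Lib.Lead.Derange

set_option autoImplicit false
open Cfsg

namespace Cfsg.Agent.S0680

open MulAction

section abs

variable (G α : Type*) [Group G] [MulAction G α]

/-- the set of derangements -/
def derSet : Set G := {g | ∀ a : α, g • a ≠ a}

variable {G α} [Finite G] [Finite α]

theorem card_der (htr : IsPretransitive G α)
    (two : ∀ (g : G) (a b : α), a ≠ b → g • a = a → g • b = b → g = 1)
    (hn : 1 ≤ Nat.card α) : (derSet G α).ncard + 1 = Nat.card α := by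
  classical
  cases nonempty_fintype G
  haveI : Nonempty α := (Nat.card_pos_iff.mp hn).1
  have hB := Der.burnside G α
  rw [Der.card_quotient_of_transitive, one_mul] at hB
  have key : ∀ g : G, Nat.card (fixedBy α g) + (if g ∈ derSet G α then 1 else 0) =
      1 + (if g = 1 then Nat.card α - 1 else 0) := by
    intro g
    by_cases h1 : g = 1
    · subst h1
      have h2 : (1 : G) ∉ derSet G α := by
        intro h
        obtain ⟨a⟩ := ‹Nonempty α›
        exact h a (one_smul _ _)
      have h3 : Nat.card (fixedBy α (1 : G)) = Nat.card α := by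
        rw [fixedBy_one_eq_univ, Nat.card_coe_set_eq, Set.ncard_univ]
      rw [if_neg h2, if_pos rfl, h3]
      omega
    · rw [if_neg h1]
      by_cases h2 : g ∈ derSet G α
      · rw [if_pos h2]
        have : IsEmpty (fixedBy α g) := ⟨fun a => h2 a.1 a.2⟩
        rw [Nat.card_of_isEmpty]
      · rw [if_neg h2]
        have h3 : ∃ a : α, g • a = a := by
          by_contra hcon
          push Not at hcon
          exact h2 hcon
        obtain ⟨a, ha⟩ := h3
        have : Nat.card (fixedBy α g) = 1 := by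
          rw [Nat.card_eq_one_iff_unique]
          refine ⟨⟨fun u v => ?_⟩, ⟨⟨a, ha⟩⟩⟩
          by_contra huv
          exact h1 (two g u.1 v.1 (fun h => huv (Subtype.ext h)) u.2 v.2)
        rw [this]
  have hsum := Finset.sum_congr rfl (fun g (_ : g ∈ Finset.univ) => key g)
  rw [Finset.sum_add_distrib, Finset.sum_add_distrib, hB, Finset.sum_ite_eq' Finset.univ (1 : G),
    if_pos (Finset.mem_univ _), Finset.sum_boole, Finset.sum_const, Finset.card_univ, smul_eq_mul,
    mul_one, ← Nat.card_eq_fintype_card] at hsum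
  have h4 : (derSet G α).ncard = (Finset.univ.filter (· ∈ derSet G α)).card := by
    rw [Set.ncard_eq_toFinset_card', Set.filter_mem_univ_eq_toFinset]
  rw [h4]
  simp only [Nat.cast_id] at hsum
  omega

theorem card_stab (htr : IsPretransitive G α)
    (hcard : Nat.card G = Nat.card α * (Nat.card α - 1)) (hn : 1 ≤ Nat.card α) (a : α) :
    Nat.card (stabilizer G a) = Nat.card α - 1 := by
  have h1 := Subgroup.index_mul_card (stabilizer G a)
  rw [index_stabilizer_of_transitive, hcard] at h1
  exact Nat.eq_of_mul_eq_mul_left hn h1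

theorem conj_der {x : G} (hx : x ∈ derSet G α) (c : G) : c * x * c⁻¹ ∈ derSet G α := by
  intro a ha
  apply hx (c⁻¹ • a)
  rw [mul_smul, mul_smul, ← eq_inv_smul_iff] at ha
  exact ha

/-- the centralizer of a derangement -/
theorem cent (htr : IsPretransitive G α)
    (two : ∀ (g : G) (a b : α), a ≠ b → g • a = a → g • b = b → g = 1)
    (hcard : Nat.card G = Nat.card α * (Nat.card α - 1)) (hn : 2 ≤ Nat.card α)
    {x : G} (hx : x ∈ derSet G α) :
    Nat.card (Subgroup.centralizer {x}) = Nat.card α ∧
    (∀ g : G, g ∈ Subgroup.centralizer {x} ↔ g = 1 ∨ g ∈ derSet G α) ∧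
    (∀ y ∈ derSet G α, IsConj y x) := by
  classical
  haveI : Nonempty α := (Nat.card_pos_iff.mp (by omega : 0 < Nat.card α)).1
  have hD := card_der htr two (by omega)
  -- semiregular
  have hsemi : ∀ c ∈ Subgroup.centralizer {x}, c ≠ 1 → c ∈ derSet G α := by
    intro c hc hc1 a ha
    apply hc1
    apply two c a (x • a) (hx a).symm ha
    have h1 : c * x = x * c := Subgroup.mem_centralizer_singleton_iff.mp hc
    rw [← mul_smul, h1, mul_smul, ha]
  have hle : Nat.card (Subgroup.centralizer {x}) ≤ Nat.card α := by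
    obtain ⟨a₀⟩ := ‹Nonempty α›
    apply Nat.card_le_card_of_injective (fun c : Subgroup.centralizer {x} => (c : G) • a₀)
    intro c c' hcc
    by_contra hne
    have h1 : (c'⁻¹ * c : Subgroup.centralizer {x}).1 ≠ 1 := by
      intro h
      apply hne
      have : c'⁻¹ * c = 1 := Subtype.ext h
      exact (inv_mul_eq_one.mp this).symm
    apply hsemi _ (c'⁻¹ * c).2 h1 a₀
    simp only [Subgroup.coe_mul, Subgroup.coe_inv, mul_smul] at hcc ⊢
    rw [hcc, inv_smul_smul]
  have hsub : orbit (ConjAct G) x ⊆ derSet G α := by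
    rintro _ ⟨c, rfl⟩
    exact conj_der hx (ConjAct.ofConjAct c)
  have hcl : (orbit (ConjAct G) x).ncard ≤ Nat.card α - 1 := by
    have := Set.ncard_le_ncard hsub (Set.toFinite _)
    omega
  have hos : (orbit (ConjAct G) x).ncard * Nat.card (Subgroup.centralizer {x}) =
      Nat.card α * (Nat.card α - 1) := by
    rw [Subgroup.nat_card_centralizer_nat_card_stabilizer, ← index_stabilizer, ← hcard]
    exact Subgroup.index_mul_card _
  have hC : Nat.card (Subgroup.centralizer {x}) = Nat.card α := by
    apply le_antisymm hle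
    by_contra hlt
    push Not at hlt
    have h1 : (orbit (ConjAct G) x).ncard * Nat.card (Subgroup.centralizer {x}) <
        (Nat.card α - 1) * Nat.card α := by
      calc _ ≤ (Nat.card α - 1) * Nat.card (Subgroup.centralizer {x}) := Nat.mul_le_mul_right _ hcl
        _ < _ := Nat.mul_lt_mul_of_pos_left hlt (by omega)
    rw [hos, mul_comm] at h1
    exact lt_irrefl _ h1
  have hcl' : (orbit (ConjAct G) x).ncard = Nat.card α - 1 := by
    rw [hC, mul_comm] at hos
    exact Nat.eq_of_mul_eq_mul_left (by omega) hos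
  have hcleq : orbit (ConjAct G) x = derSet G α :=
    Set.eq_of_subset_of_ncard_le hsub (by omega) (Set.toFinite _)
  refine ⟨hC, ?_, ?_⟩
  · have hsub2 : ((Subgroup.centralizer {x} : Subgroup G) : Set G) \ {1} ⊆ derSet G α := by
      rintro c ⟨hc, hc1⟩
      exact hsemi c hc hc1
    have hc2 : (((Subgroup.centralizer {x} : Subgroup G) : Set G) \ {1}).ncard = Nat.card α - 1 := by
      rw [Set.ncard_sdiff_singleton_of_mem (Subgroup.one_mem _), ← hC]
      rfl
    have heq := Set.eq_of_subset_of_ncard_le hsub2 (by omega) (Set.toFinite _)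
    intro g
    constructor
    · intro hg
      by_cases h1 : g = 1
      · exact Or.inl h1
      · exact Or.inr (hsemi g hg h1)
    · rintro (rfl | hg)
      · exact Subgroup.one_mem _
      · rw [← heq] at hg
        exact hg.1
  · intro y hy
    rw [← hcleq] at hy
    exact ConjAct.mem_orbit_conjAct.mp hy

theorem main (htr : IsPretransitive G α)
    (two : ∀ (g : G) (a b : α), a ≠ b → g • a = a → g • b = b → g = 1)
    (hcard : Nat.card G = Nat.card α * (Nat.card α - 1)) (hn : 2 ≤ Nat.card α) :
    ∃ p j : ℕ, p.Prime ∧ 1 ≤ j ∧ Nat.card α = p ^ j ∧ ∀ (_ : Fact p.Prime) (P : Sylow p G),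
      (P : Subgroup G).Normal ∧ (∀ y ∈ (P : Subgroup G), ∀ z ∈ (P : Subgroup G), y * z = z * y) ∧
      (∀ x ∈ (P : Subgroup G), x ^ p = 1) ∧ (∀ a b : α, ∃ y ∈ (P : Subgroup G), y • a = b) ∧
      (∀ g : G, g ∈ (P : Subgroup G) ↔ g = 1 ∨ ∀ a : α, g • a ≠ a) := by
  classical
  haveI : Nonempty α := (Nat.card_pos_iff.mp (by omega : 0 < Nat.card α)).1
  have hD := card_der htr two (by omega)
  have hDne : (derSet G α).Nonempty := by
    rw [← Set.ncard_pos (Set.toFinite _)]; omega
  obtain ⟨x, hx⟩ := hDne
  obtain ⟨hC, hmem, hconj⟩ := cent htr two hcard hn hx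
  have hder1 : ∀ y ∈ derSet G α, y ≠ 1 := by
    rintro y hy rfl
    obtain ⟨a⟩ := ‹Nonempty α›
    exact hy a (one_smul _ _)
  have hordconj : ∀ y ∈ derSet G α, orderOf y = orderOf x := by
    intro y hy
    obtain ⟨c, hc⟩ := isConj_iff.mp (hconj y hy)
    rw [← hc]
    exact ((MulAut.conj c).orderOf_eq y).symm
  have ho1 : orderOf x ≠ 1 := fun h => hder1 x hx (orderOf_eq_one_iff.mp h)
  have hpp : (orderOf x).minFac.Prime := Nat.minFac_prime ho1
  have hxN : x ∈ Subgroup.centralizer {x} := Subgroup.mem_centralizer_singleton_iff.mpr rfl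
  have hop : orderOf x = (orderOf x).minFac := by
    have h1 := orderOf_pow_orderOf_div (x := x) (orderOf_pos x).ne' (Nat.minFac_dvd _)
    have h2 : x ^ (orderOf x / (orderOf x).minFac) ∈ derSet G α := by
      rcases (hmem _).mp (Subgroup.pow_mem _ hxN (orderOf x / (orderOf x).minFac)) with h | h
      · rw [h, orderOf_one] at h1
        exact absurd h1.symm hpp.one_lt.ne'
      · exact h
    exact (hordconj _ h2).symm.trans h1
  set p := orderOf x with hpdef
  have hp : p.Prime := hop ▸ hpp
  have hexp : ∀ z ∈ Subgroup.centralizer {x}, z ^ p = 1 := by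
    intro z hz
    rcases (hmem z).mp hz with rfl | h
    · exact one_pow _
    · rw [← hordconj z h]; exact pow_orderOf_eq_one z
  have hNp : IsPGroup p (Subgroup.centralizer {x}) := by
    intro z
    refine ⟨1, ?_⟩
    rw [pow_one]
    exact Subtype.ext (hexp z.1 z.2)
  haveI : Fact p.Prime := ⟨hp⟩
  obtain ⟨j, hj⟩ := IsPGroup.iff_card.mp hNp
  rw [hC] at hj
  have hj1 : 1 ≤ j := by
    rcases Nat.eq_zero_or_pos j with rfl | h
    · rw [pow_zero] at hj; omega
    · exact h
  refine ⟨p, j, hp, hj1, hj, ?_⟩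
  have hNnormal : (Subgroup.centralizer {x} : Subgroup G).Normal := by
    constructor
    intro z hz c
    rcases (hmem z).mp hz with rfl | h
    · simp
    · exact (hmem _).mpr (Or.inr (conj_der h c))
  have hle : ∀ P : Sylow p G, (P : Subgroup G) ≤ Subgroup.centralizer {x} := by
    intro P z hz
    rw [hmem]
    by_cases hz1 : z = 1
    · exact Or.inl hz1
    right
    intro a ha
    have h1 : orderOf z ∣ Nat.card α - 1 := by
      rw [← card_stab htr hcard (by omega) a]
      have := orderOf_dvd_natCard (⟨z, ha⟩ : stabilizer G a)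
      rwa [← Subgroup.orderOf_coe] at this
    obtain ⟨k, hk⟩ := P.2 ⟨z, hz⟩
    have h2 : orderOf z ∣ p ^ k := by
      apply orderOf_dvd_of_pow_eq_one
      exact congrArg (fun w : P => (w : G)) hk
    obtain ⟨i, -, hi⟩ := (Nat.dvd_prime_pow hp).mp h2
    have hi0 : i ≠ 0 := by
      rintro rfl
      rw [pow_zero] at hi
      exact hz1 (orderOf_eq_one_iff.mp hi)
    have h3 : p ∣ Nat.card α - 1 := (dvd_pow_self p hi0).trans (hi ▸ h1)
    have h4 : p ∣ Nat.card α := hj ▸ dvd_pow_self p (by omega)
    have h5 : p ∣ 1 := by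
      have := (Nat.dvd_sub h4 h3)
      have h6 : Nat.card α - (Nat.card α - 1) = 1 := by omega
      rwa [h6] at this
    exact hp.one_lt.ne' (Nat.dvd_one.mp h5)
  have heq : ∀ P : Sylow p G, (P : Subgroup G) = Subgroup.centralizer {x} := by
    obtain ⟨Q, hQ⟩ := hNp.exists_le_sylow
    have hQN : (Q : Subgroup G) = Subgroup.centralizer {x} := le_antisymm (hle Q) hQ
    haveI : (Q : Subgroup G).Normal := hQN ▸ hNnormal
    intro P
    obtain ⟨c, hc⟩ := MulAction.exists_smul_eq G Q P
    rw [← hc, Sylow.smul_eq_of_normal, hQN]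
  intro _ P
  rw [heq P]
  refine ⟨hNnormal, ?_, hexp, ?_, hmem⟩
  · intro y hy z hz
    rcases (hmem y).mp hy with rfl | h
    · simp
    · obtain ⟨-, hmem', -⟩ := cent htr two hcard hn h
      exact (Subgroup.mem_centralizer_singleton_iff.mp ((hmem' z).mpr ((hmem z).mp hz))).symm
  · intro a b
    have hinj : Function.Injective (fun c : Subgroup.centralizer {x} => (c : G) • a) := by
      intro c c' hcc
      by_contra hne
      have h1 : (c'⁻¹ * c : Subgroup.centralizer {x}).1 ≠ 1 := by
        intro h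
        apply hne
        have : c'⁻¹ * c = 1 := Subtype.ext h
        exact (inv_mul_eq_one.mp this).symm
      rcases (hmem _).mp (c'⁻¹ * c).2 with h | h
      · exact h1 h
      · apply h a
        simp only [Subgroup.coe_mul, Subgroup.coe_inv, mul_smul] at hcc ⊢
        rw [hcc, inv_smul_smul]
    have hbij := hinj.bijective_of_nat_card_le hC.ge
    obtain ⟨c, hc⟩ := hbij.2 b
    exact ⟨c.1, c.2, hc⟩

end abs

/-- A finite sharply doubly transitive permutation group has degree a prime power `p ^ j`; a Sylow `p`-subgroup is normal, elementary abelian and regular, and consists of the identity together with the elements without fixed points. (Frobenius' Theorem is not needed.) -/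
theorem result {α : Type*} [Fintype α] [DecidableEq α] (G : Subgroup (Equiv.Perm α)) [MulAction.IsMultiplyPretransitive G α 2] (hsharp : ∀ x : Fin 2 ↪ α, MulAction.stabilizer G x = ⊥) (h2 : 2 ≤ Fintype.card α) : ∃ p j : ℕ, p.Prime ∧ 1 ≤ j ∧ Fintype.card α = p ^ j ∧ ∀ (hp : Fact p.Prime) (P : Sylow p G), (P : Subgroup G).Normal ∧ IsMulCommutative (P : Subgroup G) ∧ (∀ x ∈ (P : Subgroup G), x ^ p = 1) ∧ MulAction.IsPretransitive (P : Subgroup G) α ∧ (∀ a : α, MulAction.stabilizer (P : Subgroup G) a = ⊥) ∧ ∀ g : G, g ∈ (P : Subgroup G) ↔ g = 1 ∨ ∀ a : α, g • a ≠ a := by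
  have htr : IsPretransitive G α := isPretransitive_of_is_two_pretransitive
  have two : ∀ (g : G) (a b : α), a ≠ b → g • a = a → g • b = b → g = 1 := by
    intro g a b hab ha hb
    have h1 : g ∈ stabilizer G (Function.Embedding.embFinTwo hab) := by
      rw [mem_stabilizer_iff]
      ext i
      by_cases hi : i = 0
      · rw [hi]; exact ha
      · rw [Fin.eq_one_of_ne_zero i hi]; exact hb
    rw [hsharp] at h1
    exact h1
  have hcard : Nat.card G = Nat.card α * (Nat.card α - 1) := by
    obtain ⟨x₀⟩ : Nonempty (Fin 2 ↪ α) := Function.Embedding.nonempty_of_card_le (by simpa using h2)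
    have h1 : (stabilizer G x₀).index = Nat.card (Fin 2 ↪ α) := by
      rw [index_stabilizer, ← Set.ncard_univ]
      congr 1
      ext y
      simp only [Set.mem_univ, iff_true]
      obtain ⟨g, hg⟩ := (isMultiplyPretransitive_iff.mp ‹IsMultiplyPretransitive G α 2›) x₀ y
      exact ⟨g, hg⟩
    rw [hsharp, Subgroup.index_bot, Nat.card_eq_fintype_card (α := Fin 2 ↪ α),
      Fintype.card_embedding_eq] at h1
    rw [h1, Nat.card_eq_fintype_card]
    simp [Nat.descFactorial]
    ring
  obtain ⟨p, j, hp, hj, hpj, H⟩ := main htr two hcard (by rwa [Nat.card_eq_fintype_card])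
  refine ⟨p, j, hp, hj, by rw [← hpj, Nat.card_eq_fintype_card], fun hp' P => ?_⟩
  obtain ⟨h1, h2, h3, h4, h5⟩ := H hp' P
  refine ⟨h1, ⟨⟨fun a b => Subtype.ext (h2 a.1 a.2 b.1 b.2)⟩⟩, h3, ⟨fun a b => ?_⟩, fun a => ?_, h5⟩
  · obtain ⟨y, hy, hyab⟩ := h4 a b
    exact ⟨⟨y, hy⟩, hyab⟩
  · rw [eq_bot_iff]
    intro y hy
    rcases (h5 y.1).mp y.2 with h | h
    · exact Subtype.ext h
    · exact absurd hy (h a)

end Cfsg.Agent.S0680
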