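import Mathlib
import Cfsg.Statements.S0681

set_option autoImplicit false
open Cfsg

namespace Cfsg.Agent.S0681

open MulAction

section

variable {F : Type*} [Cfsg.NearField F]

theorem nf_zero_mul (a : F) : 0 * a = 0 := by
  have h := NearField.right_distrib (0 : F) 0 a
  rw [add_zero] at h
  exact (left_eq_add.mp h)

theorem nf_neg_mul (a c : F) : (-a) * c = -(a * c) := by
  have h := NearField.right_distrib (-a) a c
  rw [neg_add_cancel, nf_zero_mul] at h
  exact eq_neg_of_add_eq_zero_left h.symm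

theorem nf_sub_mul (a b c : F) : (a - b) * c = a * c - b * c := by
  rw [sub_eq_add_neg, NearField.right_distrib, nf_neg_mul, ← sub_eq_add_neg]

theorem nf_mul_ne_zero {a b : F} (ha : a ≠ 0) (hb : b ≠ 0) : a * b ≠ 0 := by
  intro h
  obtain ⟨b', hb', -⟩ := NearField.exists_inv b hb
  apply ha
  calc a = a * (b * b') := by rw [hb', mul_one]
    _ = (a * b) * b' := (mul_assoc _ _ _).symm
    _ = 0 := by rw [h, nf_zero_mul]

/-- the affine permutation `x ↦ x * a + b` -/
theorem exists_affine (a b : F) (ha : a ≠ 0) : ∃ σ : Equiv.Perm F, ∀ x, σ x = x * a + b := by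
  obtain ⟨a', h1, h2⟩ := NearField.exists_inv a ha
  refine ⟨{ toFun := fun x => x * a + b
            invFun := fun y => (y - b) * a'
            left_inv := ?_
            right_inv := ?_ }, fun _ => rfl⟩
  · intro x
    show (x * a + b - b) * a' = x
    rw [add_sub_cancel_right, mul_assoc, h1, mul_one]
  · intro y
    show (y - b) * a' * a + b = y
    rw [mul_assoc, h2, mul_one, sub_add_cancel]

variable (F)

/-- the affine group of a near-field -/
def affGroup : Subgroup (Equiv.Perm F) where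
  carrier := {σ | ∃ a b : F, a ≠ 0 ∧ ∀ x : F, σ x = x * a + b}
  one_mem' := ⟨1, 0, NearField.zero_ne_one.symm, fun x => by simp⟩
  mul_mem' := by
    rintro σ τ ⟨a, b, ha, hσ⟩ ⟨c, d, hc, hτ⟩
    refine ⟨c * a, d * a + b, nf_mul_ne_zero hc ha, fun x => ?_⟩
    rw [Equiv.Perm.mul_apply, hτ, hσ, NearField.right_distrib, mul_assoc, add_assoc]
  inv_mem' := by
    rintro σ ⟨a, b, ha, hσ⟩
    obtain ⟨a', h1, h2⟩ := NearField.exists_inv a ha
    have ha' : a' ≠ 0 := by
      rintro rfl
      rw [NearField.mul_zero] at h1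
      exact NearField.zero_ne_one h1
    refine ⟨a', (-b) * a', ha', fun x => ?_⟩
    rw [Equiv.Perm.inv_eq_iff_eq, hσ, NearField.right_distrib, mul_assoc, mul_assoc, h2, mul_one,
      mul_one, add_assoc, neg_add_cancel, add_zero]

end

/-- The affine maps `x ↦ x * a + b`, `a ≠ 0`, of a near-field form a sharply doubly transitive permutation group. -/
theorem result {F : Type*} [Cfsg.NearField F] : ∃ H : Subgroup (Equiv.Perm F), (∀ σ : Equiv.Perm F, σ ∈ H ↔ ∃ a b : F, a ≠ 0 ∧ ∀ x : F, σ x = x * a + b) ∧ MulAction.IsMultiplyPretransitive H F 2 ∧ ∀ x : Fin 2 ↪ F, MulAction.stabilizer H x = ⊥ := by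
  refine ⟨affGroup F, fun _ => Iff.rfl, ?_, ?_⟩
  · rw [is_two_pretransitive_iff]
    intro x y u v hxy huv
    obtain ⟨c, hc1, hc2⟩ := NearField.exists_inv (x - y) (sub_ne_zero.mpr hxy)
    have hc0 : c ≠ 0 := by
      rintro rfl
      rw [NearField.mul_zero] at hc1
      exact NearField.zero_ne_one hc1
    have ha : c * (u - v) ≠ 0 := nf_mul_ne_zero hc0 (sub_ne_zero.mpr huv)
    obtain ⟨σ, hσ⟩ := exists_affine (c * (u - v)) (-(y * (c * (u - v))) + v) ha
    refine ⟨⟨σ, _, _, ha, hσ⟩, ?_, ?_⟩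
    · show σ x = u
      rw [hσ, ← add_assoc, ← sub_eq_add_neg, ← nf_sub_mul, ← mul_assoc, hc1, one_mul, sub_add_cancel]
    · show σ y = v
      rw [hσ, ← add_assoc, add_neg_cancel, zero_add]
  · intro e
    rw [eq_bot_iff]
    rintro ⟨σ, a, b, ha, hσ⟩ hstab
    rw [mem_stabilizer_iff] at hstab
    have h0 : σ (e 0) = e 0 := DFunLike.congr_fun hstab 0
    have h1 : σ (e 1) = e 1 := DFunLike.congr_fun hstab 1
    have hne : e 0 - e 1 ≠ 0 := sub_ne_zero.mpr (fun h => by simpa using e.injective h)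
    obtain ⟨c, hc1, hc2⟩ := NearField.exists_inv _ hne
    rw [hσ] at h0 h1
    have h2 : (e 0 - e 1) * a = e 0 - e 1 := by
      rw [nf_sub_mul]
      conv_rhs => rw [← h0, ← h1]
      rw [add_sub_add_right_eq_sub]
    have ha1 : a = 1 := by
      calc a = (c * (e 0 - e 1)) * a := by rw [hc2, one_mul]
        _ = c * ((e 0 - e 1) * a) := mul_assoc _ _ _
        _ = 1 := by rw [h2, hc2]
    have hb0 : b = 0 := by
      rw [ha1, mul_one] at h0
      exact add_eq_left.mp h0
    rw [Subgroup.mem_bot]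
    apply Subtype.ext
    ext x
    show σ x = x
    rw [hσ, ha1, hb0, mul_one, add_zero]

end Cfsg.Agent.S0681
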