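import Mathlib
import Cfsg.Statements.S0682
import Cfsg.Agent.S0680
import Cfsg.Agent.S0681

set_option autoImplicit false
open Cfsg

namespace Cfsg.Agent.S0682

open MulAction

/-- A finite near-field has prime-power order; its additive group is commutative of prime exponent. -/
theorem result {F : Type*} [Cfsg.NearField F] [Finite F] : ∃ p j : ℕ, p.Prime ∧ 1 ≤ j ∧ Nat.card F = p ^ j ∧ (∀ x y : F, x + y = y + x) ∧ ∀ x : F, p • x = 0 := by
  classical
  haveI := Fintype.ofFinite F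
  obtain ⟨H, hmem, h2t, hsharp⟩ := S0681.result (F := F)
  have h2 : 2 ≤ Fintype.card F := by
    rw [← Nat.card_eq_fintype_card]
    haveI : Nontrivial F := ⟨⟨0, 1, NearField.zero_ne_one⟩⟩
    exact Finite.one_lt_card
  obtain ⟨p, j, hp, hj, hcard, hP⟩ := S0680.result H hsharp h2
  haveI : Fact p.Prime := ⟨hp⟩
  obtain ⟨P⟩ : Nonempty (Sylow p H) := inferInstance
  obtain ⟨-, hcomm, hexp, -, -, hPmem⟩ := hP ⟨hp⟩ P
  -- translations
  have htr : ∀ b : F, ∃ τ : H, τ ∈ (P : Subgroup H) ∧ ∀ x : F, (τ : Equiv.Perm F) x = x + b := by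
    intro b
    obtain ⟨σ, hσ⟩ := S0681.exists_affine (1 : F) b NearField.zero_ne_one.symm
    have hσ' : ∀ x, σ x = x + b := fun x => by rw [hσ, mul_one]
    refine ⟨⟨σ, (hmem σ).mpr ⟨1, b, NearField.zero_ne_one.symm, hσ⟩⟩, ?_, hσ'⟩
    rw [hPmem]
    by_cases hb : b = 0
    · left
      apply Subtype.ext
      ext x
      show σ x = x
      rw [hσ', hb, add_zero]
    · right
      intro a ha
      have : σ a = a := ha
      rw [hσ'] at this
      exact hb (add_eq_left.mp this)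
  refine ⟨p, j, hp, hj, by rw [Nat.card_eq_fintype_card, hcard], ?_, ?_⟩
  · intro x y
    obtain ⟨τx, hxP, hx⟩ := htr x
    obtain ⟨τy, hyP, hy⟩ := htr y
    have h1 : (⟨τx, hxP⟩ : (P : Subgroup H)) * ⟨τy, hyP⟩ = ⟨τy, hyP⟩ * ⟨τx, hxP⟩ :=
      hcomm.is_comm.comm _ _
    have h3 : τx * τy = τy * τx := congrArg Subtype.val h1
    have h4 : (τx : Equiv.Perm F) * τy = τy * τx := congrArg Subtype.val h3
    have h5 := DFunLike.congr_fun h4 0
    rw [Equiv.Perm.mul_apply, Equiv.Perm.mul_apply, hx, hy, hx, hy, zero_add, zero_add] at h5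
    exact h5.symm
  · intro x
    obtain ⟨τx, hxP, hx⟩ := htr x
    have h1 := hexp τx hxP
    have h3 : (τx : Equiv.Perm F) ^ p = 1 := congrArg Subtype.val h1
    have h4 : ∀ n : ℕ, ((τx : Equiv.Perm F) ^ n) 0 = n • x := by
      intro n
      induction n with
      | zero => simp
      | succ n ih => rw [pow_succ', Equiv.Perm.mul_apply, ih, hx, succ_nsmul]
    rw [← h4, h3]
    rfl

end Cfsg.Agent.S0682
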