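import Mathlib
import Cfsg.Statements.S0683
import Cfsg.Agent.S0680

set_option autoImplicit false
open Cfsg

namespace Cfsg.Agent.S0683

open MulAction

theorem pinv_apply {α : Type*} (σ : Equiv.Perm α) (x : α) : σ⁻¹ (σ x) = x := by simp
theorem papply_inv {α : Type*} (σ : Equiv.Perm α) (x : α) : σ (σ⁻¹ x) = x := by simp

theorem build {α : Type*} (H N : Subgroup (Equiv.Perm α)) (o e : α) (hoe : o ≠ e)
    (hNH : N ≤ H) (hNnorm : ∀ h ∈ H, ∀ n ∈ N, h * n * h⁻¹ ∈ N)
    (hNtr : ∀ x, ∃ n ∈ N, n o = x) (hNfree : ∀ n ∈ N, n o = o → n = 1)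
    (hHtr : ∀ a, a ≠ o → ∃ h ∈ H, h o = o ∧ h e = a)
    (hHfree : ∀ h ∈ H, h o = o → h e = e → h = 1) :
    ∃ _ : Cfsg.NearField α, ∀ σ : Equiv.Perm α, σ ∈ H ↔
      ∃ a b : α, a ≠ 0 ∧ ∀ x : α, σ x = x * a + b := by
  classical
  choose t htN hto using hNtr
  choose! m hm using hHtr
  have hmH : ∀ a, a ≠ o → m a ∈ H := fun a ha => (hm a ha).1
  have hmo : ∀ a, a ≠ o → m a o = o := fun a ha => (hm a ha).2.1
  have hme : ∀ a, a ≠ o → m a e = a := fun a ha => (hm a ha).2.2
  have tuniq : ∀ n ∈ N, ∀ x, n o = x → n = t x := by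
    intro n hn x hx
    have h1 := hNfree ((t x)⁻¹ * n) (N.mul_mem (N.inv_mem (htN x)) hn) (by
      rw [Equiv.Perm.mul_apply, hx, Equiv.Perm.inv_eq_iff_eq, hto])
    exact (inv_mul_eq_one.mp h1).symm
  have muniq : ∀ h ∈ H, ∀ a, a ≠ o → h o = o → h e = a → h = m a := by
    intro h hh a ha hho hhe
    have h1 := hHfree ((m a)⁻¹ * h) (H.mul_mem (H.inv_mem (hmH a ha)) hh)
      (by rw [Equiv.Perm.mul_apply, hho, Equiv.Perm.inv_eq_iff_eq, hmo a ha])
      (by rw [Equiv.Perm.mul_apply, hhe, Equiv.Perm.inv_eq_iff_eq, hme a ha])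
    exact (inv_mul_eq_one.mp h1).symm
  have t_add : ∀ y z, t (t z y) = t z * t y := by
    intro y z
    exact (tuniq _ (N.mul_mem (htN z) (htN y)) _ (by rw [Equiv.Perm.mul_apply, hto])).symm
  have t_o : t o = 1 := (tuniq 1 N.one_mem o rfl).symm
  have m_e : m e = 1 := (muniq 1 H.one_mem e hoe.symm rfl rfl).symm
  have m_ne : ∀ a b, a ≠ o → b ≠ o → m b a ≠ o := by
    intro a b ha hb h
    apply ha
    apply (m b).injective
    rw [h, hmo b hb]
  let add : α → α → α := fun x y => t y x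
  let mul : α → α → α := fun x a => if a = o then o else m a x
  have mul_o : ∀ x, mul x o = o := fun x => if_pos rfl
  have mul_ne : ∀ x a, a ≠ o → mul x a = m a x := fun x a ha => if_neg ha
  have h_add_assoc : ∀ x y z, add (add x y) z = add x (add y z) := by
    intro x y z
    show t z (t y x) = t (t z y) x
    rw [t_add]; rfl
  have h_mul_assoc : ∀ x a b, mul (mul x a) b = mul x (mul a b) := by
    intro x a b
    by_cases hb : b = o
    · rw [hb, mul_o, mul_o, mul_o]
    by_cases ha : a = o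
    · rw [ha, mul_o, mul_ne o b hb, hmo b hb, mul_o]
    rw [mul_ne _ b hb, mul_ne _ a ha, mul_ne a b hb, mul_ne _ _ (m_ne a b ha hb)]
    have : m (m b a) = m b * m a := by
      symm
      apply muniq _ (H.mul_mem (hmH b hb) (hmH a ha)) _ (m_ne a b ha hb)
      · rw [Equiv.Perm.mul_apply, hmo a ha, hmo b hb]
      · rw [Equiv.Perm.mul_apply, hme a ha]
    rw [this]; rfl
  have h_distrib : ∀ x y c, mul (add x y) c = add (mul x c) (mul y c) := by
    intro x y c
    by_cases hc : c = o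
    · rw [hc, mul_o, mul_o, mul_o]
      show o = t o o
      rw [hto]
    rw [mul_ne _ c hc, mul_ne _ c hc, mul_ne _ c hc]
    show m c (t y x) = t (m c y) (m c x)
    have : t (m c y) = m c * t y * (m c)⁻¹ := by
      symm
      apply tuniq _ (hNnorm _ (hmH c hc) _ (htN y))
      rw [Equiv.Perm.mul_apply, Equiv.Perm.mul_apply]
      have : (m c)⁻¹ o = o := by rw [Equiv.Perm.inv_eq_iff_eq, hmo c hc]
      rw [this, hto]
    rw [this, Equiv.Perm.mul_apply, Equiv.Perm.mul_apply, pinv_apply]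
  let ag : AddGroup α := @AddGroup.ofLeftAxioms α ⟨add⟩ ⟨fun x => (t x)⁻¹ o⟩ ⟨o⟩ h_add_assoc (fun x => hto x) (fun x => papply_inv (t x) o)
  let mo : Monoid α :=
    { mul := mul
      mul_assoc := h_mul_assoc
      one := e
      one_mul := fun a => by
        show mul e a = a
        by_cases ha : a = o
        · rw [ha, mul_o]
        · rw [mul_ne _ a ha, hme a ha]
      mul_one := fun x => by
        show mul x e = x
        rw [mul_ne _ e hoe.symm, m_e]; rfl }
  let inst : Cfsg.NearField α :=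
    { ag, mo with
      right_distrib := h_distrib
      mul_zero := mul_o
      zero_ne_one := hoe
      exists_inv := fun a ha => by
        have ha' : a ≠ o := ha
        have hb : (m a)⁻¹ e ≠ o := by
          intro h
          rw [Equiv.Perm.inv_eq_iff_eq, hmo a ha'] at h
          exact hoe h.symm
        have hmb : m ((m a)⁻¹ e) = (m a)⁻¹ := by
          symm
          apply muniq _ (H.inv_mem (hmH a ha')) _ hb _ rfl
          rw [Equiv.Perm.inv_eq_iff_eq, hmo a ha']
        refine ⟨(m a)⁻¹ e, ?_, ?_⟩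
        · show mul a ((m a)⁻¹ e) = e
          rw [mul_ne _ _ hb, hmb, Equiv.Perm.inv_eq_iff_eq, hme a ha']
        · show mul ((m a)⁻¹ e) a = e
          rw [mul_ne _ _ ha', papply_inv] }
  refine ⟨inst, fun σ => ?_⟩
  show σ ∈ H ↔ ∃ a b : α, a ≠ o ∧ ∀ x : α, σ x = add (mul x a) b
  constructor
  · intro hσ
    have hh : (t (σ o))⁻¹ * σ ∈ H := H.mul_mem (H.inv_mem (hNH (htN _))) hσ
    have hho : ((t (σ o))⁻¹ * σ) o = o := by
      rw [Equiv.Perm.mul_apply, Equiv.Perm.inv_eq_iff_eq, hto]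
    have hne : ((t (σ o))⁻¹ * σ) e ≠ o := by
      intro h
      apply hoe
      apply ((t (σ o))⁻¹ * σ).injective
      rw [hho, h]
    refine ⟨((t (σ o))⁻¹ * σ) e, σ o, hne, fun x => ?_⟩
    rw [mul_ne _ _ hne, ← muniq _ hh _ hne hho rfl]
    show σ x = t (σ o) (((t (σ o))⁻¹ * σ) x)
    rw [Equiv.Perm.mul_apply, papply_inv]
  · rintro ⟨a, b, ha, hσ⟩
    have : σ = t b * m a := by
      ext x
      rw [hσ, mul_ne _ _ ha]
      rfl
    rw [this]
    exact H.mul_mem (hNH (htN b)) (hmH a ha)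

/-- A finite sharply doubly transitive permutation group is the affine group of a near-field: the permuted set carries a near-field structure for which the group consists exactly of the maps `x ↦ x * a + b` with `a ≠ 0`. -/
theorem result {α : Type*} [Fintype α] [DecidableEq α] (H : Subgroup (Equiv.Perm α)) [MulAction.IsMultiplyPretransitive H α 2] (hsharp : ∀ x : Fin 2 ↪ α, MulAction.stabilizer H x = ⊥) (h2 : 2 ≤ Fintype.card α) : ∃ _ : Cfsg.NearField α, ∀ σ : Equiv.Perm α, σ ∈ H ↔ ∃ a b : α, a ≠ 0 ∧ ∀ x : α, σ x = x * a + b := by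
  obtain ⟨p, j, hp, hj, hcard, hP⟩ := S0680.result H hsharp h2
  haveI : Fact p.Prime := ⟨hp⟩
  obtain ⟨P⟩ : Nonempty (Sylow p H) := inferInstance
  obtain ⟨hnorm, -, -, htr, hfree, -⟩ := hP ⟨hp⟩ P
  obtain ⟨o, e, hoe⟩ := Fintype.one_lt_card_iff.mp (by omega : 1 < Fintype.card α)
  apply build H ((P : Subgroup H).map H.subtype) o e hoe
  · exact Subgroup.map_subtype_le _
  · rintro h hh _ ⟨n, hn, rfl⟩
    exact ⟨⟨h, hh⟩ * n * ⟨h, hh⟩⁻¹, hnorm.conj_mem n hn ⟨h, hh⟩, rfl⟩
  · intro x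
    obtain ⟨n, hn⟩ := htr.exists_smul_eq o x
    exact ⟨_, ⟨n.1, n.2, rfl⟩, hn⟩
  · rintro _ ⟨n, hn, rfl⟩ hno
    have h1 : (⟨n, hn⟩ : (P : Subgroup H)) ∈ stabilizer (P : Subgroup H) o := hno
    rw [hfree] at h1
    have h3 : (⟨n, hn⟩ : (P : Subgroup H)) = 1 := h1
    have h4 : n = 1 := congrArg Subtype.val h3
    rw [h4]; rfl
  · intro a ha
    obtain ⟨g, hgo, hge⟩ := (is_two_pretransitive_iff.mp ‹IsMultiplyPretransitive H α 2›) hoe
      (Ne.symm ha)
    exact ⟨g.1, g.2, hgo, hge⟩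
  · intro h hh hho hhe
    have h1 : (⟨h, hh⟩ : H) ∈ stabilizer H (Function.Embedding.embFinTwo hoe) := by
      rw [mem_stabilizer_iff]
      ext i
      by_cases hi : i = 0
      · rw [hi]; exact hho
      · rw [Fin.eq_one_of_ne_zero i hi]; exact hhe
    rw [hsharp] at h1
    exact congrArg Subtype.val (show (⟨h, hh⟩ : H) = 1 from h1)

end Cfsg.Agent.S0683
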