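import Mathlib
import Cfsg.Statements.S0684
import Cfsg.Agent.Lib.Lead.Derange

set_option autoImplicit false
open Cfsg

namespace Cfsg.Agent.S0684

open MulAction

section

variable {p : ℕ} [Fact p.Prime] {V : Type*} [AddCommGroup V] [Module (ZMod p) V] [Finite V]
  (H : Subgroup (V ≃ₗ[ZMod p] V)) (A : Subgroup H)

/-- invariance of a subspace under `A` -/
def Inv (W : Submodule (ZMod p) V) : Prop :=
  ∀ a ∈ A, ∀ v ∈ W, ((a : H) : V ≃ₗ[ZMod p] V) v ∈ W

theorem min_exists (W₀ : Submodule (ZMod p) V) (h0 : W₀ ≠ ⊥) (hinv : Inv H A W₀) :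
    ∃ W ≤ W₀, W ≠ ⊥ ∧ Inv H A W ∧ ∀ W' ≤ W, Inv H A W' → W' = ⊥ ∨ W' = W := by
  haveI : IsArtinian (ZMod p) V := inferInstance
  obtain ⟨W, ⟨hW0, hWle, hWinv⟩, hmin⟩ := (wellFounded_lt (α := Submodule (ZMod p) V)).has_min
    {W | W ≠ ⊥ ∧ W ≤ W₀ ∧ Inv H A W} ⟨W₀, h0, le_rfl, hinv⟩
  refine ⟨W, hWle, hW0, hWinv, fun W' hW' hinv' => ?_⟩
  by_cases h : W' = ⊥
  · exact Or.inl h
  · right
    by_contra hne
    exact hmin W' ⟨h, hW'.trans hWle, hinv'⟩ (lt_of_le_of_ne hW' hne)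

open scoped IsMulCommutative in
theorem cyc (hsemi : ∀ a ∈ A, ∀ v : V, v ≠ 0 → ((a : H) : V ≃ₗ[ZMod p] V) v = v → a = 1)
    (hAc : IsMulCommutative A)
    (W : Submodule (ZMod p) V) (hW0 : W ≠ ⊥) (hinv : Inv H A W)
    (hmin : ∀ W' ≤ W, Inv H A W' → W' = ⊥ ∨ W' = W) : IsCyclic A := by
  classical
  let r : A → Module.End (ZMod p) W := fun a =>
    LinearMap.restrict (((a : H) : V ≃ₗ[ZMod p] V) : V →ₗ[ZMod p] V) (hinv a a.2)
  have hr : ∀ (a : A) (w : W), ((r a w : W) : V) = ((a : H) : V ≃ₗ[ZMod p] V) (w : V) := fun _ _ => rfl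
  have hrmul : ∀ a b : A, r (a * b) = r a * r b := by
    intro a b
    ext w
    rfl
  have hcomm : ∀ x ∈ Set.range r, ∀ y ∈ Set.range r, x * y = y * x := by
    rintro _ ⟨a, rfl⟩ _ ⟨b, rfl⟩
    rw [← hrmul, ← hrmul, mul_comm]
  haveI := Algebra.isMulCommutative_adjoin (ZMod p) hcomm
  have key : ∀ x : Algebra.adjoin (ZMod p) (Set.range r), x = 0 ∨ Function.Injective x.1 := by
    intro x
    have hK : Inv H A ((LinearMap.ker x.1).map W.subtype) := by
      rintro a ha _ ⟨w, hw, rfl⟩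
      refine ⟨r ⟨a, ha⟩ w, ?_, rfl⟩
      have h1 : x * ⟨r ⟨a, ha⟩, Algebra.subset_adjoin ⟨_, rfl⟩⟩ =
          ⟨r ⟨a, ha⟩, Algebra.subset_adjoin ⟨_, rfl⟩⟩ * x := mul_comm _ _
      have h2 : x.1 * r ⟨a, ha⟩ = r ⟨a, ha⟩ * x.1 := congrArg Subtype.val h1
      have h3 := LinearMap.congr_fun h2 w
      rw [Module.End.mul_apply, Module.End.mul_apply, LinearMap.mem_ker.mp hw, map_zero] at h3
      exact h3
    rcases hmin _ (Submodule.map_subtype_le _ _) hK with h | h
    · right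
      rw [← LinearMap.ker_eq_bot, eq_bot_iff]
      intro w hw
      have h' : (w : V) ∈ (LinearMap.ker x.1).map W.subtype := ⟨w, hw, rfl⟩
      rw [h, Submodule.mem_bot] at h'
      rw [Submodule.mem_bot]
      exact Subtype.ext h'
    · left
      apply Subtype.ext
      apply LinearMap.ext
      intro w
      have hw : (w : V) ∈ (LinearMap.ker x.1).map W.subtype := by rw [h]; exact w.2
      obtain ⟨w', hw', hww⟩ := hw
      have : w' = w := Subtype.ext hww
      rw [← this]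
      exact hw'
  obtain ⟨w₀, hw₀W, hw₀⟩ := (Submodule.ne_bot_iff _).mp hW0
  haveI : Nontrivial (Algebra.adjoin (ZMod p) (Set.range r)) := by
    refine ⟨⟨0, 1, fun h => ?_⟩⟩
    have h1 : (0 : Module.End (ZMod p) W) = 1 := congrArg Subtype.val h
    have h2 := LinearMap.congr_fun h1 ⟨w₀, hw₀W⟩
    exact hw₀ (congrArg Subtype.val h2).symm
  haveI : NoZeroDivisors (Algebra.adjoin (ZMod p) (Set.range r)) := by
    refine ⟨fun {x y} hxy => ?_⟩
    rcases key x with hx | hx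
    · exact Or.inl hx
    · right
      apply Subtype.ext
      apply LinearMap.ext
      intro w
      apply hx
      have h1 : x.1 * y.1 = 0 := congrArg Subtype.val hxy
      have h2 := LinearMap.congr_fun h1 w
      rw [Module.End.mul_apply] at h2
      rw [h2]
      simp
  haveI : IsDomain (Algebra.adjoin (ZMod p) (Set.range r)) := NoZeroDivisors.to_isDomain _
  let f : A →* Algebra.adjoin (ZMod p) (Set.range r) :=
    { toFun := fun a => ⟨r a, Algebra.subset_adjoin ⟨a, rfl⟩⟩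
      map_one' := by
        apply Subtype.ext
        apply LinearMap.ext
        intro w
        rfl
      map_mul' := fun a b => Subtype.ext (hrmul a b) }
  haveI : Finite A := by
    haveI : Finite (V ≃ₗ[ZMod p] V) := Finite.of_injective (fun e => (e : V → V)) DFunLike.coe_injective
    infer_instance
  apply isCyclic_of_injective_ringHom f
  intro a b hab
  have h1 : r a = r b := congrArg Subtype.val hab
  have h2 := congrArg Subtype.val (LinearMap.congr_fun h1 ⟨w₀, hw₀W⟩)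
  rw [hr, hr] at h2
  have h3 : (((b⁻¹ * a : A) : H) : V ≃ₗ[ZMod p] V) w₀ = w₀ := by
    show ((b : H) : V ≃ₗ[ZMod p] V)⁻¹ (((a : H) : V ≃ₗ[ZMod p] V) w₀) = w₀
    rw [h2]
    exact LinearEquiv.symm_apply_apply _ _
  have h4 := hsemi _ (b⁻¹ * a).2 w₀ hw₀ h3
  have h5 : b⁻¹ * a = 1 := Subtype.ext h4
  exact (inv_mul_eq_one.mp h5).symm

theorem card_dvd (hsemi : ∀ a ∈ A, ∀ v : V, v ≠ 0 → ((a : H) : V ≃ₗ[ZMod p] V) v = v → a = 1)
    (W : Submodule (ZMod p) V) (hinv : Inv H A W) :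
    Nat.card A ∣ p ^ Module.finrank (ZMod p) W - 1 := by
  classical
  haveI : Finite A := by
    haveI : Finite (V ≃ₗ[ZMod p] V) := Finite.of_injective (fun e => (e : V → V)) DFunLike.coe_injective
    infer_instance
  cases nonempty_fintype A
  let X : SubMulAction A V :=
    { carrier := {w | w ∈ W ∧ w ≠ 0}
      smul_mem' := by
        rintro a w ⟨hw, hw0⟩
        refine ⟨hinv a a.2 w hw, ?_⟩
        intro h
        apply hw0
        exact (LinearEquiv.map_eq_zero_iff ((a : H) : V ≃ₗ[ZMod p] V)).mp h }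
  have hB := Der.burnside A X
  rw [Finset.sum_eq_single 1] at hB
  · have h1 : Nat.card (fixedBy X (1 : A)) = p ^ Module.finrank (ZMod p) W - 1 := by
      rw [fixedBy_one_eq_univ, Nat.card_coe_set_eq, Set.ncard_univ]
      have h2 : Nat.card X = ((W : Set V) \ {0}).ncard := by
        rw [← Nat.card_coe_set_eq]
        rfl
      rw [h2, Set.ncard_sdiff_singleton_of_mem W.zero_mem]
      have h3 : (W : Set V).ncard = Nat.card W := rfl
      rw [h3, Module.natCard_eq_pow_finrank (K := ZMod p), Nat.card_zmod]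
    rw [← h1, hB]
    exact Dvd.intro_left _ rfl
  · intro a _ ha
    have : IsEmpty (fixedBy X a) := by
      refine ⟨fun x => ha ?_⟩
      have h1 : a • x.1 = x.1 := x.2
      have h2 : ((a : H) : V ≃ₗ[ZMod p] V) (x.1 : V) = (x.1 : V) := congrArg Subtype.val h1
      exact Subtype.ext (hsemi a a.2 _ x.1.2.2 h2)
    exact Nat.card_of_isEmpty
  · intro h
    exact absurd (Finset.mem_univ _) h

end

/-- Point stabiliser of a sharply doubly transitive group not of semilinear type: a maximal normal abelian subgroup `A` of a linear group `H` that is regular on non-zero vectors and has no irreducible cyclic normal subgroup is cyclic and reducible, and the order of `A` divides `p ^ k - 1` for `k` the dimension of a minimal `A`-invariant subspace. -/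
theorem result {p : ℕ} [Fact p.Prime] {V : Type*} [AddCommGroup V] [Module (ZMod p) V] [Finite V] (H : Subgroup (V ≃ₗ[ZMod p] V)) (hreg : ∀ v w : V, v ≠ 0 → w ≠ 0 → ∃! h : H, (h : V ≃ₗ[ZMod p] V) v = w) (hI : ∀ A : Subgroup H, A.Normal → IsCyclic A → ∃ W : Submodule (ZMod p) V, W ≠ ⊥ ∧ W ≠ ⊤ ∧ ∀ a ∈ A, ∀ v ∈ W, ((a : H) : V ≃ₗ[ZMod p] V) v ∈ W) (A : Subgroup H) (hAn : A.Normal) (hAc : IsMulCommutative A) (hAmax : ∀ B : Subgroup H, B.Normal → IsMulCommutative B → A ≤ B → B = A) : IsCyclic A ∧ ∃ W : Submodule (ZMod p) V, W ≠ ⊥ ∧ W ≠ ⊤ ∧ (∀ a ∈ A, ∀ v ∈ W, ((a : H) : V ≃ₗ[ZMod p] V) v ∈ W) ∧ (∀ W' : Submodule (ZMod p) V, W' ≤ W → (∀ a ∈ A, ∀ v ∈ W', ((a : H) : V ≃ₗ[ZMod p] V) v ∈ W') → W' = ⊥ ∨ W' = W) ∧ Nat.card A ∣ p ^ Module.finrank (ZMod p) W - 1 := by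
  have hsemi : ∀ a ∈ A, ∀ v : V, v ≠ 0 → ((a : H) : V ≃ₗ[ZMod p] V) v = v → a = 1 := by
    intro a _ v hv hav
    obtain ⟨h, -, hh⟩ := hreg v v hv hv
    exact (hh a hav).trans (hh 1 rfl).symm
  have hcyc : IsCyclic A := by
    by_cases hV : (⊤ : Submodule (ZMod p) V) = ⊥
    · haveI : Subsingleton A := by
        refine ⟨fun a b => ?_⟩
        apply Subtype.ext
        apply Subtype.ext
        apply LinearEquiv.ext
        intro v
        have h1 : ∀ w : V, w = 0 := fun w => by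
          have : w ∈ (⊤ : Submodule (ZMod p) V) := Submodule.mem_top
          rwa [hV, Submodule.mem_bot] at this
        rw [h1 (((a : H) : V ≃ₗ[ZMod p] V) v), h1 (((b : H) : V ≃ₗ[ZMod p] V) v)]
      infer_instance
    · obtain ⟨W, -, hW0, hWinv, hWmin⟩ := min_exists H A ⊤ hV (fun _ _ _ _ => Submodule.mem_top)
      exact cyc H A hsemi hAc W hW0 hWinv hWmin
  obtain ⟨W₀, h0, htop, hinv⟩ := hI A hAn hcyc
  obtain ⟨W, hle, hW0, hWinv, hWmin⟩ := min_exists H A W₀ h0 hinv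
  refine ⟨hcyc, W, hW0, ?_, hWinv, hWmin, card_dvd H A hsemi W hWinv⟩
  rintro rfl
  exact htop (top_le_iff.mp hle)

end Cfsg.Agent.S0684
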