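import Mathlib
import Cfsg.Statements.S0701

set_option autoImplicit false
open Cfsg

namespace Cfsg.Agent.S0701


/-- The centraliser in the full symmetric group of a transitive permutation group `G` is semiregular, and it is transitive if and only if `G` is regular. -/
theorem result {α : Type*} (G : Subgroup (Equiv.Perm α)) [MulAction.IsPretransitive G α] : (∀ c ∈ Subgroup.centralizer (G : Set (Equiv.Perm α)), ∀ a : α, c a = a → c = 1) ∧ (MulAction.IsPretransitive (Subgroup.centralizer (G : Set (Equiv.Perm α))) α ↔ ∀ a : α, MulAction.stabilizer G a = ⊥) := by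
  classical
  have hcomm : ∀ c ∈ Subgroup.centralizer (G : Set (Equiv.Perm α)), ∀ g ∈ G, ∀ x : α, c (g x) = g (c x) := by
    intro c hc g hg x
    have h := Subgroup.mem_centralizer_iff.mp hc g hg
    have := congrArg (fun f : Equiv.Perm α => f x) h
    simpa [Equiv.Perm.mul_apply] using this.symm
  refine ⟨?_, ?_, ?_⟩
  · intro c hc a hca
    ext b
    obtain ⟨g, hg⟩ := MulAction.exists_smul_eq G a b
    have hb : (g : Equiv.Perm α) a = b := hg
    rw [← hb, hcomm c hc g g.2, hca]
    rfl
  · intro ht a
    rw [eq_bot_iff]
    intro g hg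
    rw [Subgroup.mem_bot]
    have hga : (g : Equiv.Perm α) a = a := hg
    apply Subtype.ext
    ext b
    obtain ⟨c, hc⟩ := MulAction.exists_smul_eq (Subgroup.centralizer (G : Set (Equiv.Perm α))) a b
    have hb : (c : Equiv.Perm α) a = b := hc
    show (g : Equiv.Perm α) b = b
    rw [← hb, ← hcomm c c.2 g g.2, hga]
  · intro hreg
    refine ⟨fun a b => ?_⟩
    have hbij : ∀ a : α, Function.Bijective (fun g : G => (g : Equiv.Perm α) a) := by
      intro a
      constructor
      · intro g h hgh
        have : h⁻¹ * g ∈ MulAction.stabilizer G a := by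
          show ((h⁻¹ * g : G) : Equiv.Perm α) a = a
          simp only [Subgroup.coe_mul, Subgroup.coe_inv, Equiv.Perm.mul_apply]
          have hgh' : (g : Equiv.Perm α) a = (h : Equiv.Perm α) a := hgh
          rw [hgh']
          simp
        rw [hreg a, Subgroup.mem_bot] at this
        exact (inv_mul_eq_one.mp this).symm
      · intro x
        obtain ⟨g, hg⟩ := MulAction.exists_smul_eq G a x
        exact ⟨g, hg⟩
    let ea := Equiv.ofBijective _ (hbij a)
    let eb := Equiv.ofBijective _ (hbij b)
    let c : Equiv.Perm α := ea.symm.trans eb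
    have hc_apply : ∀ g : G, c ((g : Equiv.Perm α) a) = (g : Equiv.Perm α) b := by
      intro g
      have : ea g = (g : Equiv.Perm α) a := rfl
      show eb (ea.symm _) = _
      rw [← this, Equiv.symm_apply_apply]
      rfl
    have hc : c ∈ Subgroup.centralizer (G : Set (Equiv.Perm α)) := by
      rw [Subgroup.mem_centralizer_iff]
      intro h hh
      ext x
      obtain ⟨g, hg⟩ := MulAction.exists_smul_eq G a x
      have hx : (g : Equiv.Perm α) a = x := hg
      simp only [Equiv.Perm.mul_apply]
      rw [← hx, hc_apply g]
      have := hc_apply (⟨h, hh⟩ * g)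
      simp only [Subgroup.coe_mul, Equiv.Perm.mul_apply] at this
      exact this.symm
    refine ⟨⟨c, hc⟩, ?_⟩
    have := hc_apply 1
    simpa using this

end Cfsg.Agent.S0701
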