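import Mathlib
import Cfsg.Statements.S0703
import Cfsg.Agent.Lib.Helper5.PermLemmas

set_option autoImplicit false
open Cfsg

namespace Cfsg.Agent.S0703

open Cfsg.Agent.Lib.Helper5.PermLemmas


/-- An abelian transitive minimal normal subgroup `M` of a permutation group on a finite set is self-centralising in the symmetric group, regular, elementary abelian, and is the unique minimal normal subgroup. -/
theorem result {α : Type*} [Finite α] (G : Subgroup (Equiv.Perm α)) (M : Subgroup G) [M.Normal] (hM : M ≠ ⊥) (hmin : ∀ L : Subgroup G, L.Normal → L ≤ M → L = ⊥ ∨ L = M) (hab : IsMulCommutative M) (htrans : MulAction.IsPretransitive M α) : Subgroup.centralizer ((M.map G.subtype : Subgroup (Equiv.Perm α)) : Set (Equiv.Perm α)) = M.map G.subtype ∧ (∀ a : α, MulAction.stabilizer M a = ⊥) ∧ (∃ p : ℕ, p.Prime ∧ ∀ m ∈ M, m ^ p = 1) ∧ ∀ L : Subgroup G, L.Normal → L ≠ ⊥ → (∀ L' : Subgroup G, L'.Normal → L' ≤ L → L' = ⊥ ∨ L' = L) → L = M := by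
  classical
  have hcommM : ∀ x ∈ M, ∀ y ∈ M, x * y = y * x := by
    intro x hx y hy
    have := hab.is_comm.comm (⟨x, hx⟩ : M) ⟨y, hy⟩
    exact congrArg Subtype.val this
  have hT := map_transitive G M htrans
  have hMle : M.map G.subtype ≤ Subgroup.centralizer ((M.map G.subtype : Subgroup (Equiv.Perm α)) : Set (Equiv.Perm α)) := by
    rintro _ ⟨n, hn, rfl⟩
    rw [Subgroup.mem_centralizer_iff]
    rintro _ ⟨m, hm, rfl⟩
    have := congrArg (fun x : G => (x : Equiv.Perm α)) (hcommM m hm n hn)
    simpa using this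
  have hcent := centralizer_eq_of_transitive_le _ _ hT hT hMle
  have hsemi : ∀ m ∈ M, ∀ a : α, ((m : G) : Equiv.Perm α) a = a → m = 1 := by
    intro m hm a hma
    apply Subtype.ext
    exact centralizer_semiregular _ hT _ (hMle ⟨m, hm, rfl⟩) a hma
  refine ⟨hcent, stabilizer_eq_bot_of_semiregular G M hsemi, ?_, ?_⟩
  · -- elementary abelian
    have hfin : Finite G := inferInstance
    have hcard : Nat.card M ≠ 1 := by
      intro h1
      apply hM
      exact Subgroup.card_eq_one.mp h1
    obtain ⟨p, hp, hpd⟩ := Nat.exists_prime_and_dvd hcard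
    refine ⟨p, hp, ?_⟩
    let L : Subgroup G :=
      { carrier := {g | g ∈ M ∧ g ^ p = 1}
        mul_mem' := by
          rintro x y ⟨hx, hxp⟩ ⟨hy, hyp⟩
          refine ⟨M.mul_mem hx hy, ?_⟩
          have hc : Commute x y := hcommM x hx y hy
          rw [hc.mul_pow, hxp, hyp, one_mul]
        one_mem' := ⟨M.one_mem, one_pow p⟩
        inv_mem' := by
          rintro x ⟨hx, hxp⟩
          exact ⟨M.inv_mem hx, by rw [inv_pow, hxp, inv_one]⟩ }
    have hLn : L.Normal := by
      refine ⟨?_⟩
      rintro x ⟨hx, hxp⟩ g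
      refine ⟨‹M.Normal›.conj_mem x hx g, ?_⟩
      rw [conj_pow, hxp]
      simp
    have hLM : L ≤ M := fun x hx => hx.1
    have hLne : L ≠ ⊥ := by
      have : Fact p.Prime := ⟨hp⟩
      obtain ⟨x, hx⟩ := exists_prime_orderOf_dvd_card' (G := M) p hpd
      intro hbot
      have hxL : (x : G) ∈ L := by
        refine ⟨x.2, ?_⟩
        have := pow_orderOf_eq_one x
        rw [hx] at this
        exact congrArg Subtype.val this
      rw [hbot, Subgroup.mem_bot] at hxL
      have hx1 : x = 1 := Subtype.ext hxL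
      rw [hx1, orderOf_one] at hx
      exact hp.one_lt.ne hx
    have hLeq : L = M := (hmin L hLn hLM).resolve_left hLne
    intro m hm
    have : m ∈ L := by rw [hLeq]; exact hm
    exact this.2
  · intro L hLn hLne hLmin
    have hinf : (M ⊓ L).Normal := inferInstance
    rcases hLmin (M ⊓ L) hinf inf_le_right with h | h
    · exfalso
      have h1 := map_le_centralizer_of_disjoint G M L h
      rw [hcent] at h1
      have hLM : L ≤ M := by
        intro x hx
        exact (mem_map_subtype_iff G M x).mp (h1 ⟨x, hx, rfl⟩)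
      apply hLne
      rw [← h]
      exact (inf_eq_right.mpr hLM).symm
    · have hLM : L ≤ M := by rw [← h]; exact inf_le_left
      exact (hmin L hLn hLM).resolve_left hLne

end Cfsg.Agent.S0703
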