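import Mathlib
import Cfsg.Statements.S0704
import Cfsg.Agent.Lib.Helper5.PermLemmas

set_option autoImplicit false
open Cfsg

namespace Cfsg.Agent.S0704

open Cfsg.Agent.Lib.Helper5.PermLemmas


/-- Two distinct transitive minimal normal subgroups `M`, `N` of a permutation group are regular, non-abelian, isomorphic, each other's centraliser in the symmetric group, and the only minimal normal subgroups. -/
theorem result {α : Type*} (G : Subgroup (Equiv.Perm α)) (M N : Subgroup G) [M.Normal] [N.Normal] (hM : M ≠ ⊥) (hN : N ≠ ⊥) (hMmin : ∀ L : Subgroup G, L.Normal → L ≤ M → L = ⊥ ∨ L = M) (hNmin : ∀ L : Subgroup G, L.Normal → L ≤ N → L = ⊥ ∨ L = N) (hMN : M ≠ N) (hMt : MulAction.IsPretransitive M α) (hNt : MulAction.IsPretransitive N α) : (∀ a : α, MulAction.stabilizer M a = ⊥) ∧ (∀ a : α, MulAction.stabilizer N a = ⊥) ∧ ¬ IsMulCommutative M ∧ Nonempty (M ≃* N) ∧ Subgroup.centralizer ((M.map G.subtype : Subgroup (Equiv.Perm α)) : Set (Equiv.Perm α)) = N.map G.subtype ∧ Subgroup.centralizer ((N.map G.subtype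 : Subgroup (Equiv.Perm α)) : Set (Equiv.Perm α)) = M.map G.subtype ∧ ∀ L : Subgroup G, L.Normal → L ≠ ⊥ → (∀ L' : Subgroup G, L'.Normal → L' ≤ L → L' = ⊥ ∨ L' = L) → L = M ∨ L = N := by
  classical
  have hdisj : M ⊓ N = ⊥ := by
    rcases hMmin (M ⊓ N) inferInstance inf_le_left with h | h
    · exact h
    · exfalso
      have hle : M ≤ N := by rw [← h]; exact inf_le_right
      rcases hNmin M inferInstance hle with h' | h'
      · exact hM h'
      · exact hMN h'
  have hdisj' : N ⊓ M = ⊥ := by rw [inf_comm]; exact hdisj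
  have hTM := map_transitive G M hMt
  have hTN := map_transitive G N hNt
  have hNle := map_le_centralizer_of_disjoint G M N hdisj
  have hMle := map_le_centralizer_of_disjoint G N M hdisj'
  have hcM := centralizer_eq_of_transitive_le _ _ hTM hTN hNle
  have hcN := centralizer_eq_of_transitive_le _ _ hTN hTM hMle
  have hsemiN : ∀ m ∈ N, ∀ a : α, ((m : G) : Equiv.Perm α) a = a → m = 1 := by
    intro m hm a hma
    apply Subtype.ext
    exact centralizer_semiregular _ hTM _ (hNle ⟨m, hm, rfl⟩) a hma
  have hsemiM : ∀ m ∈ M, ∀ a : α, ((m : G) : Equiv.Perm α) a = a → m = 1 := by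
    intro m hm a hma
    apply Subtype.ext
    exact centralizer_semiregular _ hTN _ (hMle ⟨m, hm, rfl⟩) a hma
  have hcomm : ∀ m ∈ M, ∀ n ∈ N, ∀ x : α, ((m : G) : Equiv.Perm α) (((n : G) : Equiv.Perm α) x) = ((n : G) : Equiv.Perm α) (((m : G) : Equiv.Perm α) x) := by
    intro m hm n hn x
    have hc : Commute m n := Subgroup.commute_of_normal_of_disjoint M N inferInstance inferInstance
      (disjoint_iff.mpr hdisj) m n hm hn
    have := congrArg (fun y : G => (y : Equiv.Perm α) x) hc.eq
    simpa using this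
  refine ⟨stabilizer_eq_bot_of_semiregular G M hsemiM, stabilizer_eq_bot_of_semiregular G N hsemiN, ?_, ?_, hcM, hcN, ?_⟩
  · intro hab
    have hcommM : ∀ x ∈ M, ∀ y ∈ M, x * y = y * x := by
      intro x hx y hy
      have := hab.is_comm.comm (⟨x, hx⟩ : M) ⟨y, hy⟩
      exact congrArg Subtype.val this
    have hMle' : M.map G.subtype ≤ Subgroup.centralizer ((M.map G.subtype : Subgroup (Equiv.Perm α)) : Set (Equiv.Perm α)) := by
      rintro _ ⟨n, hn, rfl⟩
      rw [Subgroup.mem_centralizer_iff]
      rintro _ ⟨m, hm, rfl⟩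
      have := congrArg (fun x : G => (x : Equiv.Perm α)) (hcommM m hm n hn)
      simpa using this
    rw [hcM] at hMle'
    have hle : M ≤ N := fun x hx => (mem_map_subtype_iff G N x).mp (hMle' ⟨x, hx, rfl⟩)
    rcases hNmin M inferInstance hle with h' | h'
    · exact hM h'
    · exact hMN h'
  · -- the isomorphism
    have hne : Nonempty α := by
      by_contra hemp
      apply hM
      rw [eq_bot_iff]
      intro m _
      rw [Subgroup.mem_bot]
      apply Subtype.ext
      ext b
      exact (hemp ⟨b⟩).elim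
    obtain ⟨a⟩ := hne
    have hbij : ∀ (P : Subgroup G), (∀ a b : α, ∃ t ∈ P.map G.subtype, t a = b) →
        (∀ m ∈ P, ∀ a : α, ((m : G) : Equiv.Perm α) a = a → m = 1) →
        Function.Bijective (fun m : P => (((m : G) : Equiv.Perm α) a)) := by
      intro P hPt hPs
      constructor
      · intro x y hxy
        have hxy' : (((x : G) : Equiv.Perm α) a) = (((y : G) : Equiv.Perm α) a) := hxy
        have h1 : (y : G)⁻¹ * (x : G) = 1 := by
          apply hPs _ (P.mul_mem (P.inv_mem y.2) x.2) a
          simp only [Subgroup.coe_mul, Subgroup.coe_inv, Equiv.Perm.mul_apply]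
          rw [hxy']
          simp
        apply Subtype.ext
        exact (inv_mul_eq_one.mp h1).symm
      · intro b
        obtain ⟨_, ⟨m, hm, rfl⟩, hmb⟩ := hPt a b
        exact ⟨⟨m, hm⟩, hmb⟩
    let eM := Equiv.ofBijective _ (hbij M hTM hsemiM)
    let eN := Equiv.ofBijective _ (hbij N hTN hsemiN)
    let φ : M ≃ N := eM.trans eN.symm
    have hφ : ∀ m : M, ((((φ m : N) : G) : Equiv.Perm α) a) = (((m : G) : Equiv.Perm α) a) := by
      intro m
      have : eN (φ m) = eM m := by simp [φ]
      exact this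
    have hanti : ∀ m₁ m₂ : M, φ (m₁ * m₂) = φ m₂ * φ m₁ := by
      intro m₁ m₂
      apply eN.injective
      show ((((φ (m₁ * m₂) : N) : G) : Equiv.Perm α) a) = ((((φ m₂ * φ m₁ : N) : G) : Equiv.Perm α) a)
      rw [hφ]
      simp only [Subgroup.coe_mul, Equiv.Perm.mul_apply]
      rw [hφ m₁, ← hcomm _ m₁.2 _ (φ m₂).2, hφ m₂]
    refine ⟨MulEquiv.mk' (φ.trans (Equiv.inv N)) ?_⟩
    intro x y
    simp only [Equiv.trans_apply, Equiv.inv_apply]
    rw [hanti, mul_inv_rev]
  · intro L hLn hLne hLmin
    have hinf : (M ⊓ L).Normal := inferInstance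
    rcases hLmin (M ⊓ L) hinf inf_le_right with h | h
    · right
      have h1 := map_le_centralizer_of_disjoint G M L h
      rw [hcM] at h1
      have hLN : L ≤ N := by
        intro x hx
        exact (mem_map_subtype_iff G N x).mp (h1 ⟨x, hx, rfl⟩)
      exact (hNmin L hLn hLN).resolve_left hLne
    · left
      have hLM : L ≤ M := by rw [← h]; exact inf_le_left
      exact (hMmin L hLn hLM).resolve_left hLne

end Cfsg.Agent.S0704
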