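import Mathlib
import Cfsg.Statements.S0707

set_option autoImplicit false
open Cfsg

namespace Cfsg.Agent.S0707


/-- In a primitive permutation group, distinct points have distinct stabilisers unless the group is regular of prime degree. -/
theorem result {α : Type*} (G : Subgroup (Equiv.Perm α)) [MulAction.IsPreprimitive G α] (h : ¬ (Nat.card α).Prime ∨ ∃ a : α, MulAction.stabilizer G a ≠ ⊥) {a b : α} (hab : a ≠ b) : MulAction.stabilizer G a ≠ MulAction.stabilizer G b := by
  intro heq
  have hnt : Nontrivial α := ⟨a, b, hab⟩
  set K := MulAction.stabilizer G a with hK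
  have hmax : IsCoatom K := MulAction.IsPreprimitive.isCoatom_stabilizer_of_isPreprimitive G a
  obtain ⟨g, hg⟩ := MulAction.exists_smul_eq G a b
  have hconj : ∀ (x : G), MulAction.stabilizer G (x • a) = K.map (MulAut.conj x).toMonoidHom :=
    fun x => MulAction.stabilizer_smul_eq_stabilizer_map_conj x a
  have hgN : g ∈ Subgroup.normalizer (K : Set G) := by
    rw [Subgroup.mem_normalizer_iff_map_conj_eq]
    have := hconj g
    rw [hg, ← heq] at this
    exact this.symm
  have hgK : g ∉ K := by
    intro h
    apply hab
    rw [← hg]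
    exact (MulAction.mem_stabilizer_iff.mp h).symm
  have hN : Subgroup.normalizer (K : Set G) = ⊤ := by
    apply hmax.2
    apply lt_of_le_of_ne Subgroup.le_normalizer
    intro h
    apply hgK
    rw [h]
    exact hgN
  have hKn : K.Normal := Subgroup.normalizer_eq_top_iff.mp hN
  have hstab : ∀ x : α, MulAction.stabilizer G x = K := by
    intro x
    obtain ⟨y, hy⟩ := MulAction.exists_smul_eq G a x
    rw [← hy, hconj y]
    have : y ∈ Subgroup.normalizer (K : Set G) := by rw [hN]; trivial
    exact Subgroup.mem_normalizer_iff_map_conj_eq.mp this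
  have hKbot : K = ⊥ := by
    rw [eq_bot_iff]
    intro k hk
    rw [Subgroup.mem_bot]
    apply Subtype.ext
    ext x
    have : k ∈ MulAction.stabilizer G x := by rw [hstab x]; exact hk
    exact this
  rcases h with h | ⟨x, hx⟩
  · apply h
    have hidx : K.index = Nat.card α := MulAction.index_stabilizer_of_transitive G a
    rw [hKbot, Subgroup.index_bot] at hidx
    rw [← hidx]
    rw [hKbot] at hmax
    have hne : (⊥ : Subgroup G) ≠ ⊤ := hmax.1
    obtain ⟨z, hz⟩ : ∃ z : G, z ≠ 1 := by
      by_contra hcon
      push Not at hcon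
      apply hne
      rw [eq_comm, eq_bot_iff]
      intro w _
      exact Subgroup.mem_bot.mpr (hcon w)
    have hztop : Subgroup.zpowers z = ⊤ := by
      apply hmax.2
      exact bot_lt_iff_ne_bot.mpr (Subgroup.zpowers_ne_bot.mpr hz)
    have hcyc : IsCyclic G := ⟨z, fun w => by
      have : w ∈ Subgroup.zpowers z := by rw [hztop]; trivial
      exact this⟩
    let _ : CommGroup G := IsCyclic.commGroup
    have hsimple : IsSimpleGroup G := by
      refine { exists_pair_ne := ⟨z, 1, hz⟩, eq_bot_or_eq_top_of_normal := ?_ }
      intro H _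
      by_cases hH : H = ⊥
      · exact Or.inl hH
      · exact Or.inr (hmax.2 H (bot_lt_iff_ne_bot.mpr hH))
    exact IsSimpleGroup.prime_card
  · exact hx (by rw [hstab x, hKbot])

end Cfsg.Agent.S0707
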