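import Mathlib
import Cfsg.Statements.S0712

set_option autoImplicit false
open Cfsg

namespace Cfsg.Agent.S0712

open MulAction SubMulAction

theorem mt_of_fixing {G α : Type*} [Group G] [MulAction G α] {m k : ℕ}
    (hm : IsMultiplyPretransitive G α m) (s : Set α) (e : Fin m ≃ s)
    (hk : IsMultiplyPretransitive (fixingSubgroup G s) (ofFixingSubgroup G s) k) :
    IsMultiplyPretransitive G α (m + k) := by
  constructor
  intro x y
  let e₀ : Fin m ↪ α := e.toEmbedding.trans (Function.Embedding.subtype _)
  have he₀ : ∀ i, e₀ i = (e i : α) := fun i => rfl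
  have aux : ∀ z : Fin (m + k) ↪ α, ∃ (g : G) (z₂ : Fin k ↪ ofFixingSubgroup G s),
      (∀ i : Fin m, g • z (Fin.castAdd k i) = e₀ i) ∧
      (∀ j : Fin k, g • z (Fin.natAdd m j) = (z₂ j : α)) := by
    intro z
    obtain ⟨g, hg⟩ := hm.exists_smul_eq ((Fin.castAddEmb k).trans z) e₀
    have hg' : ∀ i : Fin m, g • z (Fin.castAdd k i) = e₀ i := by
      intro i
      have := DFunLike.congr_fun hg i
      simpa using this
    have hmem : ∀ j : Fin k, g • z (Fin.natAdd m j) ∈ ofFixingSubgroup G s := by
      intro j
      rw [mem_ofFixingSubgroup_iff]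
      intro hs
      have h1 : g • z (Fin.natAdd m j) = e₀ (e.symm ⟨_, hs⟩) := by
        rw [he₀, Equiv.apply_symm_apply]
      rw [← hg'] at h1
      have h2 := z.injective (smul_left_cancel g h1)
      have h3 := congrArg Fin.val h2
      simp only [Fin.val_natAdd, Fin.val_castAdd] at h3
      have := (e.symm ⟨_, hs⟩).2
      omega
    refine ⟨g, ⟨fun j => ⟨g • z (Fin.natAdd m j), hmem j⟩, ?_⟩, hg', fun j => rfl⟩
    intro j j' hjj
    have h1 : g • z (Fin.natAdd m j) = g • z (Fin.natAdd m j') := congrArg Subtype.val hjj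
    have h2 := z.injective (smul_left_cancel g h1)
    have h3 := congrArg Fin.val h2
    simp only [Fin.val_natAdd] at h3
    exact Fin.ext (by omega)
  obtain ⟨gx, x₂, hx1, hx2⟩ := aux x
  obtain ⟨gy, y₂, hy1, hy2⟩ := aux y
  obtain ⟨h, hh⟩ := hk.exists_smul_eq x₂ y₂
  refine ⟨gy⁻¹ * (h : G) * gx, ?_⟩
  ext i
  rw [Function.Embedding.smul_apply, mul_smul, mul_smul, inv_smul_eq_iff]
  refine Fin.addCases (fun i => ?_) (fun j => ?_) i
  · rw [hx1, hy1, he₀]
    exact (mem_fixingSubgroup_iff G).mp h.2 _ (e i).2
  · rw [hx2, hy2, ← hh]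
    rfl


/-- Jordan: a primitive group in which the pointwise stabiliser of a set `s` is doubly transitive on the complement of `s` (which has at least 2 points) is `(|s| + 2)`-transitive. -/
theorem result {α : Type*} [Fintype α] [DecidableEq α] (G : Subgroup (Equiv.Perm α)) (hG : MulAction.IsPreprimitive G α) (s : Set α) {m : ℕ} (hsm : s.ncard = m) (hm : m + 2 ≤ Fintype.card α) (h2 : MulAction.IsMultiplyPretransitive (fixingSubgroup G s) (SubMulAction.ofFixingSubgroup G s) 2) : MulAction.IsMultiplyPretransitive G α (m + 2) := by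
  have hfin : Finite s := Set.toFinite s
  have e : Fin m ≃ s := (Finite.equivFinOfCardEq (by rw [Nat.card_coe_set_eq, hsm])).symm
  apply mt_of_fixing _ s e h2
  rcases m with _ | n
  · exact MulAction.is_zero_pretransitive'
  · have hprim : MulAction.IsPreprimitive (fixingSubgroup G s) (SubMulAction.ofFixingSubgroup G s) :=
      MulAction.isPreprimitive_of_is_two_pretransitive h2
    have hcard : n + 2 < Nat.card α := by
      rw [Nat.card_eq_fintype_card]; omega
    have h3 := MulAction.IsPreprimitive.isMultiplyPreprimitive hG hsm hcard hprim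
    have h4 : MulAction.IsMultiplyPretransitive G α (n + 2) := inferInstance
    exact MulAction.isMultiplyPretransitive_of_le (n := n + 2) (by omega) (by omega)

end Cfsg.Agent.S0712
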