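import Mathlib
import Cfsg.Statements.S0713

set_option autoImplicit false
open Cfsg

namespace Cfsg.Agent.S0713

open Equiv Equiv.Perm MulAction

theorem conj_of_order_p {K : Type*} [Group K] [Finite K] {p : ℕ} [hp : Fact p.Prime]
    (hK : ¬ p ^ 2 ∣ Nat.card K) (g g' : K) (hg : orderOf g = p) (hg' : orderOf g' = p) :
    ∃ c : K, c * g' * c⁻¹ ∈ Subgroup.zpowers g := by
  have key : ∀ x : K, orderOf x = p → ∃ P : Sylow p K, (P : Subgroup K) = Subgroup.zpowers x := by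
    intro x hx
    have hpg : IsPGroup p (Subgroup.zpowers x) := by
      apply IsPGroup.of_card (n := 1); rw [Nat.card_zpowers, hx, pow_one]
    obtain ⟨P, hP⟩ := hpg.exists_le_sylow
    refine ⟨P, (Subgroup.eq_of_le_of_card_ge hP ?_).symm⟩
    obtain ⟨e, he⟩ := IsPGroup.iff_card.mp P.2
    rw [Nat.card_zpowers, hx, he]
    have : e < 2 := by
      by_contra h
      apply hK
      exact (pow_dvd_pow p (by omega)).trans (he ▸ Subgroup.card_subgroup_dvd_card _)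
    calc p ^ e ≤ p ^ 1 := Nat.pow_le_pow_right hp.out.pos (by omega)
      _ = p := pow_one p
  obtain ⟨P, hP⟩ := key g hg
  obtain ⟨P', hP'⟩ := key g' hg'
  obtain ⟨c, hc⟩ := MulAction.exists_smul_eq K P' P
  refine ⟨c, ?_⟩
  rw [← hP, ← hc, Sylow.coe_subgroup_smul]
  exact ⟨g', hP' ▸ Subgroup.mem_zpowers g', rfl⟩

/-- multiple transitivity: prescribing the values on a finite set -/
theorem exists_agree {α : Type*} [Fintype α] [DecidableEq α] (G : Subgroup (Equiv.Perm α)) (k : ℕ)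
    [IsMultiplyPretransitive G α k] (D : Set α) (hD : D.ncard = k) (σ : Equiv.Perm α) :
    ∃ h ∈ G, ∀ δ ∈ D, h δ = σ δ := by
  have e : D ≃ Fin k := Finite.equivFinOfCardEq (by rw [Nat.card_coe_set_eq, hD])
  let x : Fin k ↪ α := e.symm.toEmbedding.trans (Function.Embedding.subtype _)
  let y : Fin k ↪ α := x.trans σ.toEmbedding
  obtain ⟨h, hh⟩ := MulAction.exists_smul_eq G x y
  refine ⟨h.1, h.2, fun δ hδ => ?_⟩
  have h1 := DFunLike.congr_fun hh (e ⟨δ, hδ⟩)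
  have h2 : h • δ = σ δ := by simpa [x, y] using h1
  exact h2

theorem comm_of_norm {K : Type*} [Group K] (g h₁ h₂ : K) (m₁ m₂ : ℤ)
    (hm₁ : g ^ m₁ = h₁ * g * h₁⁻¹) (hm₂ : g ^ m₂ = h₂ * g * h₂⁻¹) :
    Commute ((h₂ * h₁)⁻¹ * (h₁ * h₂)) g := by
  have e12 : (h₁ * h₂) * g * (h₁ * h₂)⁻¹ = g ^ (m₁ * m₂) := by
    calc (h₁ * h₂) * g * (h₁ * h₂)⁻¹ = h₁ * (h₂ * g * h₂⁻¹) * h₁⁻¹ := by group
      _ = h₁ * g ^ m₂ * h₁⁻¹ := by rw [hm₂]
      _ = (h₁ * g * h₁⁻¹) ^ m₂ := (conj_zpow).symm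
      _ = (g ^ m₁) ^ m₂ := by rw [hm₁]
      _ = g ^ (m₁ * m₂) := (zpow_mul _ _ _).symm
  have e21 : (h₂ * h₁) * g * (h₂ * h₁)⁻¹ = g ^ (m₁ * m₂) := by
    calc (h₂ * h₁) * g * (h₂ * h₁)⁻¹ = h₂ * (h₁ * g * h₁⁻¹) * h₂⁻¹ := by group
      _ = h₂ * g ^ m₁ * h₂⁻¹ := by rw [hm₁]
      _ = (h₂ * g * h₂⁻¹) ^ m₁ := (conj_zpow).symm
      _ = (g ^ m₂) ^ m₁ := by rw [hm₂]
      _ = g ^ (m₁ * m₂) := by rw [mul_comm]; exact (zpow_mul _ _ _).symm
  have hB : (h₁ * h₂) * g = g ^ (m₁ * m₂) * (h₁ * h₂) := by rw [← e12]; group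
  have hA : (h₂ * h₁)⁻¹ * g ^ (m₁ * m₂) = g * (h₂ * h₁)⁻¹ := by rw [← e21]; group
  show (h₂ * h₁)⁻¹ * (h₁ * h₂) * g = g * ((h₂ * h₁)⁻¹ * (h₁ * h₂))
  rw [mul_assoc, hB, ← mul_assoc, hA, mul_assoc]

theorem ais {α : Type*} (σ : Equiv.Perm α) (x : α) : σ (σ⁻¹ x) = x := by simp

theorem agree_mul {α : Type*} (D : Set α) {h₁ σ₁ h₂ σ₂ : Equiv.Perm α}
    (A1 : ∀ δ ∈ D, h₁ δ = σ₁ δ) (A2 : ∀ δ ∈ D, h₂ δ = σ₂ δ) (P2 : ∀ δ ∈ D, σ₂ δ ∈ D) :
    ∀ δ ∈ D, (h₁ * h₂) δ = (σ₁ * σ₂) δ := by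
  intro δ hδ
  rw [Perm.mul_apply, Perm.mul_apply, A2 δ hδ, A1 _ (P2 δ hδ)]

theorem agree_inv {α : Type*} (D : Set α) {h σ : Equiv.Perm α}
    (A : ∀ δ ∈ D, h δ = σ δ) (P : ∀ δ ∈ D, σ⁻¹ δ ∈ D) :
    ∀ δ ∈ D, h⁻¹ δ = σ⁻¹ δ := by
  intro δ hδ
  rw [Perm.inv_eq_iff_eq, A _ (P δ hδ), ais]

theorem swap_pres {α : Type*} [DecidableEq α] (D : Set α) {a b : α} (ha : a ∈ D) (hb : b ∈ D) :
    ∀ δ ∈ D, swap a b δ ∈ D := by
  intro δ hδ
  rw [swap_apply_def]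
  split_ifs
  · exact hb
  · exact ha
  · exact hδ

/-- Jordan's Theorem: a primitive permutation group of degree `n ≥ 5` containing a `p`-cycle for a prime `p ≤ n - 3` contains the alternating group. -/
theorem result {α : Type*} [Fintype α] [DecidableEq α] (G : Subgroup (Equiv.Perm α)) (hG : MulAction.IsPreprimitive G α) {p : ℕ} (hp : p.Prime) (hn : 5 ≤ Fintype.card α) (hpn : p + 3 ≤ Fintype.card α) {g : Equiv.Perm α} (hgc : g.IsCycle) (hgp : g.support.card = p) (hg : g ∈ G) : alternatingGroup α ≤ G := by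
  classical
  haveI : Fact p.Prime := ⟨hp⟩
  set Δ : Set α := (g.support : Set α)ᶜ with hΔ
  have hmemΔ : ∀ z, z ∈ Δ ↔ g z = z := by intro z; simp [hΔ]
  have hcardΔ : Δ.ncard + p = Fintype.card α := by
    rw [← hgp, ← Set.ncard_coe_finset g.support, add_comm, Set.ncard_add_ncard_compl,
      Nat.card_eq_fintype_card]
  obtain ⟨m, hm⟩ : ∃ m, Δ.ncard = m + 1 := ⟨Δ.ncard - 1, by omega⟩
  have hmt : IsMultiplyPreprimitive G α (m + 2) := by
    apply hG.isMultiplyPreprimitive hm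
    · rw [Nat.card_eq_fintype_card]; have := hp.two_le; omega
    have := isPretransitive_of_isCycle_mem hgc hg
    apply IsPreprimitive.of_prime_card
    convert hp
    rw [Nat.card_eq_fintype_card, Fintype.card_subtype, ← hgp]
    apply congr_arg
    ext x
    simp [SubMulAction.mem_ofFixingSubgroup_iff, hΔ]
  haveI hmt2 : IsMultiplyPretransitive G α (m + 2) := hmt.isMultiplyPretransitive
  haveI hmt' : IsMultiplyPretransitive G α (m + 1) :=
    isMultiplyPretransitive_of_le (n := m + 2) (by omega)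
      (by rw [Nat.card_eq_fintype_card]; have := hp.two_le; omega)
  -- the pointwise stabiliser of `Δ`
  let K : Subgroup (Equiv.Perm α) :=
    G ⊓ (ofSubtype : Perm (Subtype (· ∈ g.support)) →* Perm α).range
  have hmemK : ∀ x, x ∈ K ↔ x ∈ G ∧ ∀ δ ∈ Δ, x δ = δ := by
    intro x
    rw [Subgroup.mem_inf, mem_range_ofSubtype_iff]
    refine and_congr_right fun _ => ?_
    constructor
    · intro h δ hδ
      by_contra hne
      exact hδ (h (Finset.mem_coe.mpr (mem_support.mpr hne)))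
    · intro h z hz
      by_contra hne
      exact (mem_support.mp (Finset.mem_coe.mp hz)) (h z hne)
  have hKcard : ¬ p ^ 2 ∣ Nat.card K := by
    intro hdvd
    have h1 : Nat.card K ∣ Nat.card (ofSubtype : Perm (Subtype (· ∈ g.support)) →* Perm α).range :=
      Subgroup.card_dvd_of_le inf_le_right
    rw [Nat.card_congr (MonoidHom.ofInjective (ofSubtype_injective)).symm.toEquiv, Nat.card_perm,
      Nat.card_eq_fintype_card (α := Subtype (· ∈ g.support)), Fintype.card_coe, hgp] at h1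
    have h2 := hdvd.trans h1
    rw [← Nat.mul_factorial_pred hp.pos.ne', sq] at h2
    have h3 := Nat.dvd_of_mul_dvd_mul_left hp.pos h2
    have h4 := (hp.dvd_factorial).mp h3
    have := hp.pos
    omega
  have hord : orderOf g = p := by rw [hgc.orderOf, hgp]
  -- elements normalising `⟨g⟩` with prescribed action on `Δ`
  have hC : ∀ σ : Equiv.Perm α, (∀ δ ∈ Δ, σ δ ∈ Δ) → (∀ δ ∈ Δ, σ⁻¹ δ ∈ Δ) →
      ∃ h ∈ G, (∀ δ ∈ Δ, h δ = σ δ) ∧ h * g * h⁻¹ ∈ Subgroup.zpowers g := by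
    intro σ hσ hσ'
    obtain ⟨h₀, hh₀G, hh₀⟩ := exists_agree G (m + 1) Δ hm σ
    have hinv := agree_inv Δ hh₀ hσ'
    have hgK : g ∈ K := (hmemK g).mpr ⟨hg, fun δ hδ => (hmemΔ δ).mp hδ⟩
    have hg'K : h₀ * g * h₀⁻¹ ∈ K := by
      refine (hmemK _).mpr ⟨G.mul_mem (G.mul_mem hh₀G hg) (G.inv_mem hh₀G), fun δ hδ => ?_⟩
      rw [Perm.mul_apply, Perm.mul_apply, hinv δ hδ, (hmemΔ _).mp (hσ' δ hδ), hh₀ _ (hσ' δ hδ), ais]
    obtain ⟨c, hc⟩ := conj_of_order_p hKcard (⟨g, hgK⟩ : K) ⟨h₀ * g * h₀⁻¹, hg'K⟩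
      (by rw [Subgroup.orderOf_mk, hord])
      (by
        rw [Subgroup.orderOf_mk]
        exact ((MulAut.conj h₀).orderOf_eq g).trans hord)
    obtain ⟨i, hi⟩ := Subgroup.mem_zpowers_iff.mp hc
    have hcK := (hmemK c.1).mp c.2
    refine ⟨c.1 * h₀, G.mul_mem hcK.1 hh₀G, fun δ hδ => ?_, ?_⟩
    · rw [Perm.mul_apply, hh₀ δ hδ, hcK.2 _ (hσ δ hδ)]
    · refine Subgroup.mem_zpowers_iff.mpr ⟨i, ?_⟩
      have h1 := congrArg (fun z : K => (z : Perm α)) hi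
      simp only [Subgroup.coe_zpow, Subgroup.coe_mul, Subgroup.coe_inv] at h1
      rw [h1, mul_inv_rev]
      simp only [mul_assoc]
  -- three points of `Δ`
  have h3 : 2 < Δ.ncard := by omega
  obtain ⟨a, b, c, ha, hb, hc, hab, hac, hbc⟩ := (Set.two_lt_ncard_iff (Set.toFinite _)).mp h3
  obtain ⟨h₁, hh₁G, hh₁, hn₁⟩ := hC (swap a b) (swap_pres Δ ha hb)
    (by rw [swap_inv]; exact swap_pres Δ ha hb)
  obtain ⟨h₂, hh₂G, hh₂, hn₂⟩ := hC (swap a c) (swap_pres Δ ha hc)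
    (by rw [swap_inv]; exact swap_pres Δ ha hc)
  obtain ⟨m₁, hm₁⟩ := Subgroup.mem_zpowers_iff.mp hn₁
  obtain ⟨m₂, hm₂⟩ := Subgroup.mem_zpowers_iff.mp hn₂
  set x : Perm α := (h₂ * h₁)⁻¹ * (h₁ * h₂) with hx
  have hxG : x ∈ G := G.mul_mem (G.inv_mem (G.mul_mem hh₂G hh₁G)) (G.mul_mem hh₁G hh₂G)
  have hcomm : Commute x g := comm_of_norm g h₁ h₂ m₁ m₂ hm₁ hm₂
  set τ : Perm α := (swap a c * swap a b)⁻¹ * (swap a b * swap a c) with hτ
  have hτ3 : τ.IsThreeCycle := by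
    have : τ = (swap a b * swap a c) * (swap a b * swap a c) := by
      rw [hτ, mul_inv_rev, swap_inv, swap_inv]
    rw [this]
    exact (isThreeCycle_swap_mul_swap_same hab hac hbc).isThreeCycle_sq
  have hxτ : ∀ δ ∈ Δ, x δ = τ δ := by
    apply agree_mul Δ
    · apply agree_inv Δ (agree_mul Δ hh₂ hh₁ (swap_pres Δ ha hb))
      intro δ hδ
      rw [mul_inv_rev, swap_inv, swap_inv, Perm.mul_apply]
      exact swap_pres Δ ha hb _ (swap_pres Δ ha hc _ hδ)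
    · exact agree_mul Δ hh₁ hh₂ (swap_pres Δ ha hc)
    · intro δ hδ
      rw [Perm.mul_apply]
      exact swap_pres Δ ha hb _ (swap_pres Δ ha hc _ hδ)
  have hτΔ : ∀ δ ∈ Δ, τ δ ∈ Δ := by
    intro δ hδ
    rw [hτ, mul_inv_rev, swap_inv, swap_inv]
    simp only [Perm.mul_apply]
    exact swap_pres Δ ha hb _ (swap_pres Δ ha hc _ (swap_pres Δ ha hb _ (swap_pres Δ ha hc _ hδ)))
  have hτfix : ∀ z, z ∉ Δ → τ z = z := by
    intro z hz
    have hza : z ≠ a := fun h => hz (h ▸ ha)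
    have hzb : z ≠ b := fun h => hz (h ▸ hb)
    have hzc : z ≠ c := fun h => hz (h ▸ hc)
    rw [hτ, mul_inv_rev, swap_inv, swap_inv]
    simp only [Perm.mul_apply]
    rw [swap_apply_of_ne_of_ne hza hzc, swap_apply_of_ne_of_ne hza hzb,
      swap_apply_of_ne_of_ne hza hzc, swap_apply_of_ne_of_ne hza hzb]
  obtain ⟨hc', hz⟩ := hgc.commute_iff.mp hcomm
  obtain ⟨i, hi⟩ := Subgroup.mem_zpowers_iff.mp hz
  have hgi : ∀ δ ∈ Δ, (g ^ (-i)) δ = δ := by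
    intro δ hδ
    exact zpow_apply_eq_self_of_apply_eq_self ((hmemΔ δ).mp hδ) _
  have hy : g ^ (-i) * x = τ := by
    ext z
    by_cases hzΔ : z ∈ Δ
    · rw [Perm.mul_apply, hxτ z hzΔ, hgi _ (hτΔ z hzΔ)]
    · have hzs : z ∈ g.support := by
        by_contra h
        exact hzΔ h
      have h1 : x z = (g ^ i) z := by
        rw [hi, ofSubtype_apply_of_mem _ hzs]
        rfl
      rw [Perm.mul_apply, h1, ← Perm.mul_apply, ← zpow_add, neg_add_cancel, zpow_zero, hτfix z hzΔ]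
      rfl
  apply alternatingGroup_le_of_isPreprimitive_of_isThreeCycle_mem hG hτ3
  rw [← hy]
  exact G.mul_mem (G.zpow_mem hg _) hxG

end Cfsg.Agent.S0713
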