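import Mathlib
import Cfsg.Statements.S0714

set_option autoImplicit false
open Cfsg

namespace Cfsg.Agent.S0714

open Equiv MulAction

/-- Over any field, the permutation module of the alternating group of degree at least 5 has exactly four invariant subspaces: zero, the constant functions, the functions with coordinate sum zero, and everything. -/
theorem result {α : Type*} [Fintype α] [DecidableEq α] (hα : 5 ≤ Fintype.card α) {K : Type*} [Field K] (W : Subrepresentation (Cfsg.permRep K (alternatingGroup α) α)) : W.toSubmodule = ⊥ ∨ W = Cfsg.permConstants K (alternatingGroup α) α ∨ W = Cfsg.permSumZero K (alternatingGroup α) α ∨ W.toSubmodule = ⊤ := by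
  classical
  have hρ : ∀ (g : alternatingGroup α) (f : α → K) (x : α),
      Cfsg.permRep K (alternatingGroup α) α g f x = f (g⁻¹ • x) := fun _ _ _ => rfl
  have hsw : ∀ a b d e : α, a ≠ b → d ≠ e → swap a b * swap d e ∈ alternatingGroup α := by
    intro a b d e hab hde
    rw [Equiv.Perm.mem_alternatingGroup, Equiv.Perm.sign_mul, Equiv.Perm.sign_swap hab,
      Equiv.Perm.sign_swap hde]
    rfl
  have hinv : ∀ (a b d e : α) (h : swap a b * swap d e ∈ alternatingGroup α) (x : α),
      ((⟨swap a b * swap d e, h⟩ : alternatingGroup α)⁻¹ • x : α) = swap d e (swap a b x) := by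
    intro a b d e h x
    show ((swap a b * swap d e)⁻¹ : Equiv.Perm α) x = _
    rw [mul_inv_rev, swap_inv, swap_inv]
    rfl
  have L1 : ∀ (f : α → K) (a b d e : α), a ≠ b → a ≠ d → a ≠ e → b ≠ d → b ≠ e → d ≠ e →
      f d = f e → f ∈ W.toSubmodule →
      (f a - f b) • (Pi.single a 1 - Pi.single b 1 : α → K) ∈ W.toSubmodule := by
    intro f a b d e hab had hae hbd hbe hde hfde hf
    have h1 := W.toSubmodule.sub_mem hf
      (W.apply_mem_toSubmodule ⟨swap a b * swap d e, hsw a b d e hab hde⟩ hf)
    convert h1 using 1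
    ext x
    rw [Pi.sub_apply, hρ, hinv]
    simp only [Pi.smul_apply, Pi.sub_apply, Pi.single_apply, smul_eq_mul]
    by_cases hxa : x = a
    · subst hxa
      rw [swap_apply_left, swap_apply_of_ne_of_ne hbd hbe, if_pos rfl, if_neg hab]
      ring
    by_cases hxb : x = b
    · subst hxb
      rw [swap_apply_right, swap_apply_of_ne_of_ne had hae, if_neg hxa, if_pos rfl]
      ring
    rw [swap_apply_of_ne_of_ne hxa hxb, if_neg hxa, if_neg hxb]
    by_cases hxd : x = d
    · subst hxd
      rw [swap_apply_left, hfde]; ring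
    by_cases hxe : x = e
    · subst hxe
      rw [swap_apply_right, hfde]; ring
    rw [swap_apply_of_ne_of_ne hxd hxe]; ring
  -- a non constant function in `W` gives a difference of basis vectors
  have L2 : ∀ w ∈ W.toSubmodule, ∀ a b : α, w a ≠ w b →
      ∃ x y : α, x ≠ y ∧ (Pi.single x 1 - Pi.single y 1 : α → K) ∈ W.toSubmodule := by
    intro w hw a b hwab
    have hab : a ≠ b := fun h => hwab (h ▸ rfl)
    have hcard : 2 < (Finset.univ \ {a, b} : Finset α).card := by
      have h1 := Finset.card_sdiff_add_card_inter (Finset.univ : Finset α) {a, b}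
      have h2 : ((Finset.univ : Finset α) ∩ {a, b}).card ≤ 2 :=
        (Finset.card_le_card Finset.inter_subset_right).trans Finset.card_le_two
      rw [Finset.card_univ] at h1
      omega
    obtain ⟨c, hc, d, hd, e, he, hcd, hce, hde⟩ := Finset.two_lt_card.mp hcard
    simp only [Finset.mem_sdiff, Finset.mem_univ, Finset.mem_insert, Finset.mem_singleton, true_and,
      not_or] at hc hd he
    obtain ⟨hca, hcb⟩ := hc
    obtain ⟨hda, hdb⟩ := hd
    obtain ⟨hea, heb⟩ := he
    set u : α → K := w - Cfsg.permRep K (alternatingGroup α) α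
      ⟨swap a b * swap a c, hsw a b a c hab (Ne.symm hca)⟩ w with hu
    have huW : u ∈ W.toSubmodule := W.toSubmodule.sub_mem hw (W.apply_mem_toSubmodule _ hw)
    have hux : ∀ x, u x = w x - w (swap a c (swap a b x)) := by
      intro x
      rw [hu, Pi.sub_apply, hρ, hinv]
    have hua : u a ≠ 0 := by
      rw [hux, swap_apply_left, swap_apply_of_ne_of_ne (Ne.symm hab) (Ne.symm hcb)]
      exact sub_ne_zero.mpr hwab
    have hud : u d = 0 := by
      rw [hux, swap_apply_of_ne_of_ne hda hdb, swap_apply_of_ne_of_ne hda (Ne.symm hcd), sub_self]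
    have hue : u e = 0 := by
      rw [hux, swap_apply_of_ne_of_ne hea heb, swap_apply_of_ne_of_ne hea (Ne.symm hce), sub_self]
    have hfin : ∀ (s : K) (x y : α), s ≠ 0 →
        s • (Pi.single x 1 - Pi.single y 1 : α → K) ∈ W.toSubmodule →
        (Pi.single x 1 - Pi.single y 1 : α → K) ∈ W.toSubmodule := by
      intro s x y hs h
      have := W.toSubmodule.smul_mem s⁻¹ h
      rwa [smul_smul, inv_mul_cancel₀ hs, one_smul] at this
    by_cases h1 : u a = u b
    · by_cases h2 : u b = u c
      · refine ⟨a, d, Ne.symm hda, hfin (u a - u d) a d (by rw [hud, sub_zero]; exact hua) ?_⟩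
        exact L1 u a d b c (Ne.symm hda) hab (Ne.symm hca) hdb (Ne.symm hcd) (Ne.symm hcb) h2 huW
      · refine ⟨b, c, Ne.symm hcb, hfin (u b - u c) b c (sub_ne_zero.mpr h2) ?_⟩
        exact L1 u b c d e (Ne.symm hcb) (Ne.symm hdb) (Ne.symm heb) hcd hce hde (hud.trans hue.symm) huW
    · refine ⟨a, b, hab, hfin (u a - u b) a b (sub_ne_zero.mpr h1) ?_⟩
      exact L1 u a b d e hab (Ne.symm hda) (Ne.symm hea) (Ne.symm hdb) (Ne.symm heb) hde
        (hud.trans hue.symm) huW
  have hone : (Cfsg.permConstants K (alternatingGroup α) α).toSubmodule =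
      Submodule.span K {fun _ => (1 : K)} := rfl
  have hmemZ : ∀ f : α → K, f ∈ (Cfsg.permSumZero K (alternatingGroup α) α).toSubmodule ↔
      ∑ x, f x = 0 := fun _ => Iff.rfl
  haveI : Nonempty α := Fintype.card_pos_iff.mp (by omega)
  obtain ⟨x₀⟩ := ‹Nonempty α›
  by_cases hconst : ∀ w ∈ W.toSubmodule, ∀ a b : α, w a = w b
  · by_cases hbot : W.toSubmodule = ⊥
    · exact Or.inl hbot
    right; left
    apply Subrepresentation.toSubmodule_injective
    rw [hone]
    apply le_antisymm
    · intro w hw
      rw [Submodule.mem_span_singleton]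
      refine ⟨w x₀, ?_⟩
      ext z
      simp [hconst w hw z x₀]
    · rw [Submodule.span_singleton_le_iff_mem]
      obtain ⟨w, hw, hw0⟩ := (Submodule.ne_bot_iff _).mp hbot
      have hwx : w x₀ ≠ 0 := by
        intro h
        apply hw0
        ext z
        rw [hconst w hw z x₀, h]; rfl
      have := W.toSubmodule.smul_mem (w x₀)⁻¹ hw
      convert this using 1
      ext z
      rw [Pi.smul_apply, smul_eq_mul, hconst w hw z x₀, inv_mul_cancel₀ hwx]
  · push Not at hconst
    obtain ⟨w, hw, a, b, hwab⟩ := hconst
    obtain ⟨x, y, hxy, hxyW⟩ := L2 w hw a b hwab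
    right; right
    have h2t : IsMultiplyPretransitive (alternatingGroup α) α 2 := by
      haveI := alternatingGroup.isMultiplyPretransitive α
      apply isMultiplyPretransitive_of_le (n := Nat.card α - 2)
      · rw [Nat.card_eq_fintype_card]; omega
      · omega
    have hsingle : ∀ (g : alternatingGroup α) (z : α),
        Cfsg.permRep K (alternatingGroup α) α g (Pi.single z 1) = Pi.single (g • z) 1 := by
      intro g z
      ext t
      rw [hρ, Pi.single_apply, Pi.single_apply]
      simp only [inv_smul_eq_iff]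
    have hall : ∀ x' y' : α, x' ≠ y' →
        (Pi.single x' 1 - Pi.single y' 1 : α → K) ∈ W.toSubmodule := by
      intro x' y' hxy'
      obtain ⟨g, hgx, hgy⟩ := (is_two_pretransitive_iff.mp h2t) hxy hxy'
      have := W.apply_mem_toSubmodule g hxyW
      rwa [map_sub, hsingle, hsingle, hgx, hgy] at this
    have hle : (Cfsg.permSumZero K (alternatingGroup α) α).toSubmodule ≤ W.toSubmodule := by
      intro f hf
      rw [hmemZ] at hf
      have hfe : f = ∑ x, f x • (Pi.single x 1 - Pi.single x₀ 1 : α → K) := by
        ext z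
        simp only [Finset.sum_apply, Pi.smul_apply, Pi.sub_apply, smul_eq_mul, mul_sub,
          Finset.sum_sub_distrib, Pi.single_apply, mul_ite, mul_one, mul_zero]
        rw [Finset.sum_ite_eq, if_pos (Finset.mem_univ _)]
        by_cases hz : z = x₀
        · simp [hz, hf]
        · simp [hz]
      rw [hfe]
      apply Submodule.sum_mem
      intro x' _
      by_cases hx' : x' = x₀
      · rw [hx', sub_self, smul_zero]; exact Submodule.zero_mem _
      · exact Submodule.smul_mem _ _ (hall x' x₀ hx')
    by_cases hz : ∀ w ∈ W.toSubmodule, ∑ x, w x = 0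
    · left
      apply Subrepresentation.toSubmodule_injective
      exact le_antisymm (fun w hw => (hmemZ w).mpr (hz w hw)) hle
    · right
      push Not at hz
      obtain ⟨v, hv, hvs⟩ := hz
      rw [eq_top_iff]
      intro f _
      have h1 : f - ((∑ x, f x) / (∑ x, v x)) • v ∈ W.toSubmodule := by
        apply hle
        rw [hmemZ]
        simp only [Pi.sub_apply, Pi.smul_apply, smul_eq_mul, Finset.sum_sub_distrib, ← Finset.mul_sum]
        rw [div_mul_cancel₀ _ hvs, sub_self]
      have h2 := W.toSubmodule.add_mem h1 (W.toSubmodule.smul_mem ((∑ x, f x) / (∑ x, v x)) hv)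
      rwa [sub_add_cancel] at h2

end Cfsg.Agent.S0714
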