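import Mathlib
import Cfsg.Statements.S0721
import Cfsg.Agent.Lib.Helper5.CharSimple

set_option autoImplicit false
open Cfsg

namespace Cfsg.Agent.S0721

open Cfsg.Agent.Lib.Helper5.CharSimple


/-- A minimal normal subgroup of a finite group is isomorphic to a direct power `T ^ m` of a simple group `T` (possibly of prime order). -/
theorem result {H : Type*} [Group H] [Finite H] (N : Subgroup H) [N.Normal] (hN : N ≠ ⊥) (hmin : ∀ M : Subgroup H, M.Normal → M ≤ N → M = ⊥ ∨ M = N) : ∃ (T : Type) (_ : Group T) (m : ℕ), IsSimpleGroup T ∧ 0 < m ∧ Nonempty (N ≃* (Fin m → T)) := by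
  classical
  have hNnt : Nontrivial N := (Subgroup.nontrivial_iff_ne_bot N).mpr hN
  obtain ⟨T, m, hT, hm, ⟨E⟩⟩ := exists_simple_pow (N := N) (MulAut.conjNormal : H →* MulAut N).range (by
    intro K hKn hK
    let K' : Subgroup H := K.map N.subtype
    have hK'n : K'.Normal := by
      refine ⟨?_⟩
      rintro _ ⟨x, hx, rfl⟩ g
      have h1 := hK (MulAut.conjNormal g) ⟨g, rfl⟩ ⟨x, hx, rfl⟩
      refine ⟨_, h1, ?_⟩
      simp [MulAut.conjNormal_apply]
    have hK'le : K' ≤ N := by
      rintro _ ⟨x, _, rfl⟩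
      exact x.2
    rcases hmin K' hK'n hK'le with h | h
    · left
      rw [eq_bot_iff]
      intro x hx
      have : (x : H) ∈ K' := ⟨x, hx, rfl⟩
      rw [h, Subgroup.mem_bot] at this
      rw [Subgroup.mem_bot]
      exact Subtype.ext this
    · right
      rw [eq_top_iff]
      intro x _
      have : (x : H) ∈ K' := by rw [h]; exact x.2
      obtain ⟨y, hy, hyx⟩ := this
      have : y = x := Subtype.ext hyx
      rwa [← this])
  obtain ⟨T', hT'g, ⟨e⟩⟩ := lower T
  refine ⟨T', hT'g, m, ?_, hm, ⟨E.trans (MulEquiv.piCongrRight (fun _ => e))⟩⟩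
  exact e.symm.isSimpleGroup

end Cfsg.Agent.S0721
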