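import Mathlib
import Cfsg.Statements.S0726

set_option autoImplicit false
open Cfsg

namespace Cfsg.Agent.S0726


/-- The left and right regular permutation representations of a group are each other's centralisers in the symmetric group: the centraliser of the left regular image is the right regular image, and a transitive subgroup centralising the left regular image is the whole right regular image. -/
theorem result {G : Type*} [Group G] : Subgroup.centralizer ((MulAction.toPermHom G G).range : Set (Equiv.Perm G)) = (MulAction.toPermHom Gᵐᵒᵖ G).range ∧ ∀ H : Subgroup (Equiv.Perm G), H ≤ Subgroup.centralizer ((MulAction.toPermHom G G).range : Set (Equiv.Perm G)) → MulAction.IsPretransitive H G → H = (MulAction.toPermHom Gᵐᵒᵖ G).range := by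
  have key : ∀ c : Equiv.Perm G, c ∈ Subgroup.centralizer ((MulAction.toPermHom G G).range : Set (Equiv.Perm G)) → c = MulAction.toPermHom Gᵐᵒᵖ G (MulOpposite.op (c 1)) := by
    intro c hc
    ext g
    have h := Subgroup.mem_centralizer_iff.mp hc (MulAction.toPermHom G G g) ⟨g, rfl⟩
    have h2 := congrArg (fun f : Equiv.Perm G => f 1) h
    simp only [Equiv.Perm.mul_apply, MulAction.toPermHom_apply, MulAction.toPerm_apply, smul_eq_mul, mul_one] at h2
    simp only [MulAction.toPermHom_apply, MulAction.toPerm_apply, op_smul_eq_mul]
    exact h2.symm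
  have h1 : Subgroup.centralizer ((MulAction.toPermHom G G).range : Set (Equiv.Perm G)) = (MulAction.toPermHom Gᵐᵒᵖ G).range := by
    apply le_antisymm
    · intro c hc
      exact ⟨_, (key c hc).symm⟩
    · rintro _ ⟨x, rfl⟩
      rw [Subgroup.mem_centralizer_iff]
      rintro _ ⟨g, rfl⟩
      ext y
      simp only [Equiv.Perm.mul_apply, MulAction.toPermHom_apply, MulAction.toPerm_apply, smul_eq_mul]
      induction x using MulOpposite.rec' with
      | _ x => simp [op_smul_eq_mul, mul_assoc]
  refine ⟨h1, ?_⟩
  intro H hH ht
  apply le_antisymm
  · rw [← h1]; exact hH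
  · rintro _ ⟨x, rfl⟩
    obtain ⟨h, hh⟩ := MulAction.exists_smul_eq H (1 : G) (MulOpposite.unop x)
    have hh' : (h : Equiv.Perm G) 1 = MulOpposite.unop x := hh
    have := key h (hH h.2)
    rw [hh', MulOpposite.op_unop] at this
    rw [← this]
    exact h.2

end Cfsg.Agent.S0726
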