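import Cfsg.Statements.S0733


set_option autoImplicit false
open scoped Pointwise
open Cfsg

namespace Cfsg.Agent.S0733

/-- A permutation group of affine type — generated by the translations of a finite vector space `V` over `ZMod p` together with a group `G₀` of linear automorphisms — is primitive on `V` if and only if `G₀` is irreducible on `V`. -/
theorem result {p : ℕ} [Fact p.Prime] {V : Type*} [AddCommGroup V] [Module (ZMod p) V] [Finite V] [Nontrivial V] (G₀ : Subgroup (V ≃ₗ[ZMod p] V)) (G : Subgroup (Equiv.Perm V)) (hG : ∀ σ : Equiv.Perm V, σ ∈ G ↔ ∃ g ∈ G₀, ∃ b : V, ∀ x : V, σ x = (g : V ≃ₗ[ZMod p] V) x + b) : MulAction.IsPreprimitive G V ↔ ∀ W : Submodule (ZMod p) V, (∀ g ∈ G₀, ∀ v ∈ W, (g : V ≃ₗ[ZMod p] V) v ∈ W) → W = ⊥ ∨ W = ⊤ := by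
  have mk : ∀ g ∈ G₀, ∀ b : V, ∃ σ : G, ∀ x : V, σ • x = (g : V ≃ₗ[ZMod p] V) x + b := by
    intro g hg b
    refine ⟨⟨g.toEquiv.trans (Equiv.addRight b), (hG _).mpr ⟨g, hg, b, fun x => rfl⟩⟩, fun x => rfl⟩
  have tr : ∀ b : V, ∃ σ : G, ∀ x : V, σ • x = x + b := by
    intro b
    obtain ⟨σ, hσ⟩ := mk 1 G₀.one_mem b
    exact ⟨σ, fun x => by rw [hσ]; rfl⟩
  constructor
  · intro hprim W hW
    have hblock : MulAction.IsBlock G (W : Set V) := by
      rw [MulAction.isBlock_iff_smul_eq_of_mem]
      intro σ a ha hσa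
      obtain ⟨g, hg, b, hgb⟩ := (hG σ.1).mp σ.2
      have hgb' : ∀ x : V, σ • x = (g : V ≃ₗ[ZMod p] V) x + b := hgb
      have hb : b ∈ W := by
        have h1 : (g : V ≃ₗ[ZMod p] V) a + b ∈ W := by rw [← hgb']; exact hσa
        have h2 := W.sub_mem h1 (hW g hg a ha)
        rwa [add_sub_cancel_left] at h2
      ext y
      constructor
      · rintro ⟨w, hw, rfl⟩
        show σ • w ∈ W
        rw [hgb']
        exact W.add_mem (hW g hg w hw) hb
      · intro hy
        refine ⟨(g⁻¹ : V ≃ₗ[ZMod p] V) (y - b), hW g⁻¹ (G₀.inv_mem hg) _ (W.sub_mem hy hb), ?_⟩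
        show σ • _ = y
        rw [hgb']
        have : (g : V ≃ₗ[ZMod p] V) ((g⁻¹ : V ≃ₗ[ZMod p] V) (y - b)) = y - b := by
          rw [← LinearEquiv.mul_apply, mul_inv_cancel]; rfl
        rw [this, sub_add_cancel]
    rcases hprim.isTrivialBlock_of_isBlock hblock with h | h
    · left
      rw [eq_bot_iff]
      intro w hw
      rw [Submodule.mem_bot]
      exact h hw W.zero_mem
    · right
      rw [eq_top_iff]
      intro w _
      have : w ∈ (W : Set V) := by rw [h]; trivial
      exact this
  · intro hirr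
    have htrans : MulAction.IsPretransitive G V := by
      constructor
      intro x y
      obtain ⟨σ, hσ⟩ := tr (y - x)
      exact ⟨σ, by rw [hσ]; abel⟩
    refine ⟨?_⟩
    intro Bk hBk
    by_contra htriv
    rw [MulAction.IsTrivialBlock, not_or] at htriv
    obtain ⟨hns, hnu⟩ := htriv
    rw [Set.not_subsingleton_iff] at hns
    obtain ⟨a, ha, c, hc, hac⟩ := hns
    have hshift : ∀ u : V, u + a ∈ Bk → ∀ x : V, x ∈ Bk ↔ x + u ∈ Bk := by
      intro u hu x
      obtain ⟨σ, hσ⟩ := tr u
      have hg := hBk.smul_eq_of_mem ha (by rw [hσ, add_comm]; exact hu)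
      constructor
      · intro hx
        rw [← hg, ← hσ]
        exact Set.smul_mem_smul_set hx
      · intro hx
        rw [← hg] at hx
        obtain ⟨w, hw, hwx⟩ := hx
        have hwx' : σ • w = x + u := hwx
        rw [hσ] at hwx'
        rw [← add_right_cancel hwx']; exact hw
    let W0 : AddSubgroup V :=
      { carrier := {v | v + a ∈ Bk}
        zero_mem' := by show (0 : V) + a ∈ Bk; rw [zero_add]; exact ha
        add_mem' := by
          intro u v hu hv
          show u + v + a ∈ Bk
          have := (hshift u hu (v + a)).mp hv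
          have e : v + a + u = u + v + a := by abel
          rwa [e] at this
        neg_mem' := by
          intro u hu
          show -u + a ∈ Bk
          rw [hshift u hu]
          have e : -u + a + u = a := by abel
          rw [e]; exact ha }
    let W : Submodule (ZMod p) V :=
      { W0 with
        smul_mem' := by
          intro k v hv
          have : k • v = k.val • v := by
            rw [← Nat.cast_smul_eq_nsmul (ZMod p), ZMod.natCast_zmod_val]
          rw [this]
          exact W0.nsmul_mem hv _ }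
    have hmemW : ∀ v, v ∈ W ↔ v + a ∈ Bk := fun v => Iff.rfl
    rcases hirr W (by
      intro g hg v hv
      rw [hmemW] at hv ⊢
      obtain ⟨σ, hσ⟩ := mk g hg (a - (g : V ≃ₗ[ZMod p] V) a)
      have hfix : σ • a = a := by rw [hσ]; abel
      have hgB := hBk.smul_eq_of_mem ha (by rw [hfix]; exact ha)
      have h1 : σ • (v + a) ∈ Bk := by
        rw [← hgB]; exact Set.smul_mem_smul_set hv
      rw [hσ, map_add] at h1
      have e : (g : V ≃ₗ[ZMod p] V) v + (g : V ≃ₗ[ZMod p] V) a + (a - (g : V ≃ₗ[ZMod p] V) a) =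
          (g : V ≃ₗ[ZMod p] V) v + a := by abel
      rwa [e] at h1) with h | h
    · have h1 : c - a ∈ W := by rw [hmemW, sub_add_cancel]; exact hc
      rw [h, Submodule.mem_bot, sub_eq_zero] at h1
      exact hac h1.symm
    · apply hnu
      rw [Set.eq_univ_iff_forall]
      intro x
      have h1 : x - a ∈ W := by rw [h]; trivial
      rw [hmemW, sub_add_cancel] at h1
      exact h1

end Cfsg.Agent.S0733
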