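import Cfsg.Statements.S0734


set_option autoImplicit false
open scoped Pointwise
open Cfsg

namespace Cfsg.Agent.S0734

/-- Higman's criterion for primitivity: a transitive action on a finite set is primitive if and only if every non-trivial orbital graph (edges = images of a fixed pair of distinct points) is connected. -/
theorem result {G : Type*} [Group G] {Ω : Type*} [Finite Ω] [MulAction G Ω] [MulAction.IsPretransitive G Ω] [Nontrivial Ω] : MulAction.IsPreprimitive G Ω ↔ ∀ a b : Ω, a ≠ b → (SimpleGraph.fromRel fun x y : Ω => ∃ g : G, g • a = x ∧ g • b = y).Connected := by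
  constructor
  · intro hprim a b hab
    set Γ := SimpleGraph.fromRel fun x y : Ω => ∃ g : G, g • a = x ∧ g • b = y with hΓ
    have hadj : ∀ (k : G) (x y : Ω), Γ.Adj x y → Γ.Adj (k • x) (k • y) := by
      intro k x y h
      rw [hΓ, SimpleGraph.fromRel_adj] at h ⊢
      obtain ⟨hne, h⟩ := h
      refine ⟨fun e => hne (MulAction.injective k e), ?_⟩
      rcases h with ⟨g, h1, h2⟩ | ⟨g, h1, h2⟩
      · exact Or.inl ⟨k * g, by rw [mul_smul, h1], by rw [mul_smul, h2]⟩
      · exact Or.inr ⟨k * g, by rw [mul_smul, h1], by rw [mul_smul, h2]⟩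
    have hreach : ∀ (k : G) (x y : Ω), Γ.Reachable x y → Γ.Reachable (k • x) (k • y) := by
      intro k x y h
      exact h.map (⟨fun z => k • z, fun {u v} huv => hadj k u v huv⟩ : Γ →g Γ)
    have hblock : MulAction.IsBlock G {x | Γ.Reachable a x} := by
      rw [MulAction.isBlock_iff_smul_eq_of_mem]
      intro g x hx hgx
      have hx' : Γ.Reachable a x := hx
      have hgx' : Γ.Reachable a (g • x) := hgx
      have haga : Γ.Reachable a (g • a) := hgx'.trans (hreach g a x hx').symm
      ext y
      constructor
      · rintro ⟨z, hz, rfl⟩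
        have hz' : Γ.Reachable a z := hz
        exact haga.trans (hreach g a z hz')
      · intro hy
        have hy' : Γ.Reachable a y := hy
        refine ⟨g⁻¹ • y, ?_, smul_inv_smul g y⟩
        have h1 := hreach g⁻¹ (g • a) y (haga.symm.trans hy')
        rw [inv_smul_smul] at h1
        exact h1
    have hab' : Γ.Adj a b := by
      rw [hΓ, SimpleGraph.fromRel_adj]
      exact ⟨hab, Or.inl ⟨1, one_smul _ _, one_smul _ _⟩⟩
    rcases hprim.isTrivialBlock_of_isBlock hblock with h | h
    · exact absurd (h (SimpleGraph.Reachable.refl a) hab'.reachable) hab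
    · haveI : Nonempty Ω := ⟨a⟩
      refine SimpleGraph.Connected.mk ?_
      intro x y
      have hx : x ∈ {x | Γ.Reachable a x} := by rw [h]; trivial
      have hy : y ∈ {x | Γ.Reachable a x} := by rw [h]; trivial
      exact (SimpleGraph.Reachable.symm hx).trans hy
  · intro hconn
    refine ⟨?_⟩
    intro Bk hBk
    by_contra htriv
    rw [MulAction.IsTrivialBlock, not_or] at htriv
    obtain ⟨hns, hnu⟩ := htriv
    rw [Set.not_subsingleton_iff] at hns
    obtain ⟨a, ha, b, hb, hab⟩ := hns
    apply hnu
    rw [Set.eq_univ_iff_forall]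
    intro x
    have hr := (hconn a b hab).preconnected a x
    rw [SimpleGraph.reachable_iff_reflTransGen] at hr
    induction hr with
    | refl => exact ha
    | tail _ hyz ih =>
      rw [SimpleGraph.fromRel_adj] at hyz
      obtain ⟨_, h⟩ := hyz
      rcases h with ⟨g, h1, h2⟩ | ⟨g, h1, h2⟩
      · have hg := hBk.smul_eq_of_mem ha (by rw [h1]; exact ih)
        rw [← hg, ← h2]
        exact Set.smul_mem_smul_set hb
      · have hg := hBk.smul_eq_of_mem hb (by rw [h2]; exact ih)
        rw [← hg, ← h1]
        exact Set.smul_mem_smul_set ha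

end Cfsg.Agent.S0734
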