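import Cfsg.Statements.S0735


set_option autoImplicit false
open scoped Pointwise
open Cfsg

namespace Cfsg.Agent.S0735

/-- A 2-homogeneous permutation group (transitive on 2-subsets) of even order is doubly transitive; a non-trivial 2-homogeneous group is primitive. -/
theorem result {α : Type*} [Fintype α] [DecidableEq α] (G : Subgroup (Equiv.Perm α)) (h2 : MulAction.IsPretransitive G (Set.powersetCard α 2)) (hα : 3 ≤ Fintype.card α) : (Even (Nat.card G) → MulAction.IsMultiplyPretransitive G α 2) ∧ (G ≠ ⊥ → MulAction.IsPreprimitive G α) := by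
  have hom : ∀ a b c d : α, a ≠ b → c ≠ d →
      ∃ g : G, (g • a = c ∧ g • b = d) ∨ (g • a = d ∧ g • b = c) := by
    intro a b c d hab hcd
    obtain ⟨g, hg⟩ := h2.exists_smul_eq
      (⟨{a, b}, Set.powersetCard.mem_iff.mpr (Finset.card_pair hab)⟩ : Set.powersetCard α 2)
      (⟨{c, d}, Set.powersetCard.mem_iff.mpr (Finset.card_pair hcd)⟩ : Set.powersetCard α 2)
    have hg' : g • ({a, b} : Finset α) = {c, d} := by
      have := congrArg Subtype.val hg
      exact this
    refine ⟨g, ?_⟩
    have ha : g • a ∈ ({c, d} : Finset α) := by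
      rw [← hg']; exact Finset.smul_mem_smul_finset (by simp)
    have hb : g • b ∈ ({c, d} : Finset α) := by
      rw [← hg']; exact Finset.smul_mem_smul_finset (by simp)
    have hne : g • a ≠ g • b := fun e => hab (MulAction.injective g e)
    simp only [Finset.mem_insert, Finset.mem_singleton] at ha hb
    rcases ha with ha | ha <;> rcases hb with hb | hb
    · exact absurd (ha.trans hb.symm) hne
    · exact Or.inl ⟨ha, hb⟩
    · exact Or.inr ⟨ha, hb⟩
    · exact absurd (ha.trans hb.symm) hne
  constructor
  · intro heven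
    haveI : Fact (Nat.Prime 2) := ⟨Nat.prime_two⟩
    obtain ⟨t, ht⟩ := exists_prime_orderOf_dvd_card' (G := G) 2 heven.two_dvd
    have ht1 : t ≠ 1 := by
      rintro rfl
      rw [orderOf_one] at ht
      norm_num at ht
    have htt : t * t = 1 := by
      rw [← pow_two, ← ht]; exact pow_orderOf_eq_one t
    obtain ⟨a, ha⟩ : ∃ a : α, t • a ≠ a := by
      by_contra hno
      push Not at hno
      apply ht1
      ext x
      exact hno x
    have htb : t • (t • a) = a := by rw [← mul_smul, htt, one_smul]
    have from_ab : ∀ c d : α, c ≠ d → ∃ g : G, g • a = c ∧ g • (t • a) = d := by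
      intro c d hcd
      obtain ⟨g, h | h⟩ := hom a (t • a) c d (Ne.symm ha) hcd
      · exact ⟨g, h⟩
      · exact ⟨g * t, by rw [mul_smul, h.2], by rw [mul_smul, htb, h.1]⟩
    rw [MulAction.is_two_pretransitive_iff]
    intro x y c d hxy hcd
    obtain ⟨g1, h1, h2'⟩ := from_ab x y hxy
    obtain ⟨g2, h3, h4⟩ := from_ab c d hcd
    refine ⟨g2 * g1⁻¹, ?_, ?_⟩
    · rw [mul_smul, ← h1, inv_smul_smul, h3]
    · rw [mul_smul, ← h2', inv_smul_smul, h4]
  · intro _
    have htrans : MulAction.IsPretransitive G α := by
      constructor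
      intro x y
      by_cases hxy : x = y
      · exact ⟨1, by rw [one_smul, hxy]⟩
      · obtain ⟨z, hz⟩ : ∃ z, z ∉ ({x, y} : Finset α) := by
          by_contra hno
          push Not at hno
          have : (Finset.univ : Finset α) ⊆ {x, y} := fun z _ => hno z
          have h1 := Finset.card_le_card this
          rw [Finset.card_univ, Finset.card_pair hxy] at h1
          omega
        simp only [Finset.mem_insert, Finset.mem_singleton, not_or] at hz
        obtain ⟨g, h | h⟩ := hom x z y x (Ne.symm hz.1) (Ne.symm hxy)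
        · exact ⟨g, h.1⟩
        · obtain ⟨k, h' | h'⟩ := hom x y z y hxy hz.2
          · exact ⟨g * k, by rw [mul_smul, h'.1, h.2]⟩
          · exact ⟨k, h'.1⟩
    refine ⟨?_⟩
    intro Bk hBk
    by_contra htriv
    rw [MulAction.IsTrivialBlock, not_or] at htriv
    obtain ⟨hns, hnu⟩ := htriv
    rw [Set.not_subsingleton_iff] at hns
    obtain ⟨a, ha, b, hb, hab⟩ := hns
    apply hnu
    rw [Set.eq_univ_iff_forall]
    intro x
    by_cases hx : x = a
    · rw [hx]; exact ha
    · obtain ⟨g, h | h⟩ := hom a b a x hab (Ne.symm hx)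
      · have hg := hBk.smul_eq_of_mem ha (by rw [h.1]; exact ha)
        rw [← hg, ← h.2]
        exact Set.smul_mem_smul_set hb
      · have hg := hBk.smul_eq_of_mem hb (by rw [h.2]; exact ha)
        rw [← hg, ← h.1]
        exact Set.smul_mem_smul_set ha

end Cfsg.Agent.S0735
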