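import Mathlib
import Cfsg.Statements.S0738
import Cfsg.Agent.Lib.Helper1.FrobCount

set_option autoImplicit false
open Cfsg

namespace Cfsg.Agent.S0738

open MulAction

section abs

variable {G : Type*} [Group G] [Finite G] (F E : Subgroup G)

theorem orbit_le
    (hsemi : ∀ h ∈ E, ∀ u ∈ F, u ≠ 1 → h * u * h⁻¹ = u → h = 1)
    (S : Set G) (hS : ∀ h ∈ E, ∀ u ∈ S, h * u * h⁻¹ ∈ S) (hSF : S ⊆ F) (h1 : (1 : G) ∉ S)
    (hne : S.Nonempty) : Nat.card E ≤ S.ncard := by
  obtain ⟨u, hu⟩ := hne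
  rw [← Nat.card_coe_set_eq]
  apply Nat.card_le_card_of_injective (fun h : E => (⟨(h : G) * u * (h : G)⁻¹, hS h h.2 u hu⟩ : S))
  intro h h' hh
  have h2 : (h : G) * u * (h : G)⁻¹ = (h' : G) * u * (h' : G)⁻¹ := congrArg Subtype.val hh
  have h3 : ((h' : G)⁻¹ * h) * u * ((h' : G)⁻¹ * h)⁻¹ = u := by
    have : ((h' : G)⁻¹ * h) * u * ((h' : G)⁻¹ * h)⁻¹ = (h' : G)⁻¹ * ((h : G) * u * (h : G)⁻¹) * h' := by
      group
    rw [this, h2]; group
  have h4 := hsemi _ (E.mul_mem (E.inv_mem h'.2) h.2) u (hSF hu) (fun h => h1 (h ▸ hu)) h3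
  exact Subtype.ext (inv_mul_eq_one.mp h4).symm

theorem inv_subgroup
    (hsemi : ∀ h ∈ E, ∀ u ∈ F, u ≠ 1 → h * u * h⁻¹ = u → h = 1)
    (hnorm : ∀ h ∈ E, ∀ u ∈ F, h * u * h⁻¹ ∈ F)
    (hcard : Nat.card F - 1 ≤ 2 * Nat.card E)
    (A : Subgroup G) (hA : A ≤ F) (hAinv : ∀ h ∈ E, ∀ u ∈ A, h * u * h⁻¹ ∈ A) :
    A = ⊥ ∨ A = F := by
  by_contra hcon
  push Not at hcon
  obtain ⟨hb, hF⟩ := hcon
  have h1 : Nat.card E ≤ ((A : Set G) \ {1}).ncard := by
    apply orbit_le F E hsemi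
    · rintro h hh u ⟨hu, hu1⟩
      refine ⟨hAinv h hh u hu, ?_⟩
      intro h2
      apply hu1
      have : h * u * h⁻¹ = 1 := h2
      rw [mul_inv_eq_one] at this
      exact mul_left_cancel (this.trans (mul_one h).symm)
    · exact fun u hu => hA hu.1
    · exact fun h => h.2 rfl
    · obtain ⟨u, hu1⟩ := Subgroup.ne_bot_iff_exists_ne_one.mp hb
      exact ⟨u.1, u.2, fun h => hu1 (Subtype.ext h)⟩
  have h2 : Nat.card E ≤ ((F : Set G) \ A).ncard := by
    apply orbit_le F E hsemi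
    · rintro h hh u ⟨hu, huA⟩
      refine ⟨hnorm h hh u hu, ?_⟩
      intro h2
      apply huA
      have := hAinv h⁻¹ (E.inv_mem hh) _ h2
      simpa [mul_assoc] using this
    · exact fun u hu => hu.1
    · exact fun h => h.2 A.one_mem
    · obtain ⟨u, hu, huA⟩ := SetLike.exists_of_lt (lt_of_le_of_ne hA hF)
      exact ⟨u, hu, huA⟩
  rw [Set.ncard_sdiff_singleton_of_mem (Subgroup.one_mem _)] at h1
  rw [Set.ncard_sdiff (show (A : Set G) ⊆ F from hA) (Set.toFinite _)] at h2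
  have e1 : (A : Set G).ncard = Nat.card A := rfl
  have e2 : (F : Set G).ncard = Nat.card F := rfl
  rw [e1] at h1 h2
  rw [e2] at h2
  have h3 : Nat.card A ∣ Nat.card F := Subgroup.card_dvd_of_le hA
  have hE : 0 < Nat.card E := Nat.card_pos
  have hAp : 0 < Nat.card A := Nat.card_pos
  have hle : Nat.card A ≤ Nat.card F := Subgroup.card_le_of_le hA
  have e3 : Nat.card A = Nat.card E + 1 := by omega
  have e4 : Nat.card F = 2 * Nat.card E + 1 := by omega
  rw [e3, e4] at h3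
  have h4 : Nat.card E + 1 ∣ 2 * (Nat.card E + 1) := Dvd.intro_left _ rfl
  have h5 := (Nat.dvd_sub h4 h3)
  have e5 : 2 * (Nat.card E + 1) - (2 * Nat.card E + 1) = 1 := by omega
  rw [e5] at h5
  have := Nat.dvd_one.mp h5
  omega

theorem conj_ne_one {h u : G} (hu : u ≠ 1) : h * u * h⁻¹ ≠ 1 := by
  intro h2
  apply hu
  rw [mul_inv_eq_one] at h2
  exact mul_left_cancel (h2.trans (mul_one h).symm)

theorem orderOf_conj (h u : G) : orderOf (h * u * h⁻¹) = orderOf u :=
  (MulAut.conj h).orderOf_eq u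

/-- the set of elements of order `p` of `F` -/
def ordSet (p : ℕ) : Set G := {u | u ∈ F ∧ orderOf u = p}

theorem card_pow_eq_one (p : ℕ) (hp : p.Prime) :
    Nat.card {x : F // x ^ p = 1} = (ordSet F p).ncard + 1 := by
  have h1 : (1 : G) ∉ ordSet F p := by
    rintro ⟨-, h⟩
    rw [orderOf_one] at h
    exact hp.one_lt.ne h
  rw [← Set.ncard_insert_of_notMem h1 (Set.toFinite _), ← Nat.card_coe_set_eq]
  refine Nat.card_congr
    { toFun := fun x => ⟨x.1.1, ?_⟩
      invFun := fun y => ⟨⟨y.1, ?_⟩, ?_⟩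
      left_inv := fun _ => rfl
      right_inv := fun _ => rfl }
  · have h2 : (x.1.1 : G) ^ p = 1 := congrArg Subtype.val x.2
    rcases (Nat.dvd_prime hp).mp (orderOf_dvd_of_pow_eq_one h2) with h | h
    · exact Or.inl (orderOf_eq_one_iff.mp h)
    · exact Or.inr ⟨x.1.2, h⟩
  · rcases y.2 with h | h
    · rw [h]; exact F.one_mem
    · exact h.1
  · apply Subtype.ext
    show (y.1 : G) ^ p = 1
    rcases y.2 with h | h
    · rw [h, one_pow]
    · have := pow_orderOf_eq_one (y.1 : G)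
      rwa [h.2] at this

theorem main
    (hsemi : ∀ h ∈ E, ∀ u ∈ F, u ≠ 1 → h * u * h⁻¹ = u → h = 1)
    (hnorm : ∀ h ∈ E, ∀ u ∈ F, h * u * h⁻¹ ∈ F)
    (hcard : Nat.card F - 1 ≤ 2 * Nat.card E) (hF : F ≠ ⊥) :
    (∀ u ∈ F, ∀ v ∈ F, u * v = v * u) ∧ ∃ p f : ℕ, p.Prime ∧ (∀ u ∈ F, u ^ p = 1) ∧
      Nat.card F = p ^ f := by
  classical
  have hF1 : Nat.card F ≠ 1 := fun h => hF ((Subgroup.card_eq_one).mp h)
  set p := (Nat.card F).minFac with hpdef
  have hp : p.Prime := Nat.minFac_prime hF1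
  haveI : Fact p.Prime := ⟨hp⟩
  have hpF : p ∣ Nat.card F := Nat.minFac_dvd _
  have hordS : ∀ q : ℕ, q.Prime → q ∣ Nat.card F → Nat.card E ≤ (ordSet F q).ncard := by
    intro q hq hqF
    haveI : Fact q.Prime := ⟨hq⟩
    apply orbit_le F E hsemi
    · rintro h hh u ⟨hu, huo⟩
      exact ⟨hnorm h hh u hu, by rw [orderOf_conj, huo]⟩
    · exact fun u hu => hu.1
    · rintro ⟨-, h⟩
      rw [orderOf_one] at h
      exact hq.one_lt.ne h
    · obtain ⟨x, hx⟩ := exists_prime_orderOf_dvd_card' (G := F) q hqF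
      exact ⟨x.1, x.2, by rw [Subgroup.orderOf_coe, hx]⟩
  -- `F` is a `p`-group
  have hpow : Nat.card F = p ^ (Nat.card F).primeFactorsList.length := by
    apply Nat.eq_prime_pow_of_unique_prime_dvd Nat.card_pos.ne'
    intro q hq hqF
    by_contra hqp
    have h1 := hordS p hp hpF
    have h2 := hordS q hq hqF
    have hdisj : Disjoint (ordSet F p) (ordSet F q) := by
      rw [Set.disjoint_left]
      rintro u ⟨-, h⟩ ⟨-, h'⟩
      exact hqp (h'.symm.trans h)
    have hsub : ordSet F p ∪ ordSet F q ⊆ (F : Set G) \ {1} := by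
      rintro u (⟨hu, ho⟩ | ⟨hu, ho⟩)
      · refine ⟨hu, ?_⟩
        rintro rfl
        rw [orderOf_one] at ho
        exact hp.one_lt.ne ho
      · refine ⟨hu, ?_⟩
        rintro rfl
        rw [orderOf_one] at ho
        exact hq.one_lt.ne ho
    have h3 := Set.ncard_le_ncard hsub (Set.toFinite _)
    rw [Set.ncard_union_eq hdisj (Set.toFinite _) (Set.toFinite _),
      Set.ncard_sdiff_singleton_of_mem (Subgroup.one_mem _)] at h3
    have e2 : (F : Set G).ncard = Nat.card F := rfl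
    rw [e2] at h3
    have h4 := Cfsg.Agent.Lib.Helper1.FrobCount.main (G := F) p 1
    have h5 : Subgroup.centralizer ({1} : Set F) = ⊤ := by
      rw [eq_top_iff]
      intro x _
      rw [Subgroup.mem_centralizer_singleton_iff]
      simp
    rw [h5, Subgroup.card_top, Nat.gcd_eq_left hpF] at h4
    unfold Cfsg.Agent.Lib.Helper1.FrobCount.cnt at h4
    rw [card_pow_eq_one F p hp] at h4
    have hFpos : 0 < Nat.card F := Nat.card_pos
    have e3 : (ordSet F p).ncard = Nat.card E := by omega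
    have e4 : Nat.card F = 2 * Nat.card E + 1 := by omega
    rw [e3] at h4
    rw [e4] at hpF
    have h6 : p ∣ 2 * (Nat.card E + 1) := Dvd.dvd.mul_left h4 2
    have h7 := Nat.dvd_sub h6 hpF
    have e5 : 2 * (Nat.card E + 1) - (2 * Nat.card E + 1) = 1 := by omega
    rw [e5] at h7
    exact hp.one_lt.ne' (Nat.dvd_one.mp h7)
  have hpg : IsPGroup p F := IsPGroup.of_card hpow
  haveI : Nontrivial F := (Subgroup.nontrivial_iff_ne_bot F).mpr hF
  -- `F` is abelian
  have hab : ∀ u ∈ F, ∀ v ∈ F, u * v = v * u := by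
    have hZ := inv_subgroup F E hsemi hnorm hcard (F ⊓ Subgroup.centralizer (F : Set G)) inf_le_left
      (by
        rintro h hh u hu'
        obtain ⟨hu, huc⟩ := Subgroup.mem_inf.mp hu'
        refine Subgroup.mem_inf.mpr ⟨hnorm h hh u hu, ?_⟩
        rw [Subgroup.mem_centralizer_iff] at huc ⊢
        intro v hv
        have h1 := huc (h⁻¹ * v * h) (by simpa using hnorm h⁻¹ (E.inv_mem hh) v hv)
        calc v * (h * u * h⁻¹) = h * ((h⁻¹ * v * h) * u) * h⁻¹ := by group
          _ = h * (u * (h⁻¹ * v * h)) * h⁻¹ := by rw [h1]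
          _ = h * u * h⁻¹ * v := by group)
    rcases hZ with hZ | hZ
    · exfalso
      haveI := hpg.center_nontrivial
      obtain ⟨z, hz⟩ := exists_ne (1 : Subgroup.center F)
      have h1 : (z.1.1 : G) ∈ F ⊓ Subgroup.centralizer (F : Set G) := by
        refine Subgroup.mem_inf.mpr ⟨z.1.2, ?_⟩
        rw [Subgroup.mem_centralizer_iff]
        intro v hv
        have := Subgroup.mem_center_iff.mp z.2 ⟨v, hv⟩
        exact congrArg Subtype.val this
      rw [hZ, Subgroup.mem_bot] at h1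
      exact hz (Subtype.ext (Subtype.ext h1))
    · intro u hu v hv
      have h1 : u ∈ F ⊓ Subgroup.centralizer (F : Set G) := by rw [hZ]; exact hu
      exact (Subgroup.mem_centralizer_iff.mp (Subgroup.mem_inf.mp h1).2 v hv).symm
  refine ⟨hab, p, _, hp, ?_, hpow⟩
  let A : Subgroup G :=
    { carrier := {u | u ∈ F ∧ u ^ p = 1}
      one_mem' := ⟨F.one_mem, one_pow _⟩
      mul_mem' := by
        rintro u v ⟨hu, hu1⟩ ⟨hv, hv1⟩
        refine ⟨F.mul_mem hu hv, ?_⟩
        rw [(show Commute u v from hab u hu v hv).mul_pow, hu1, hv1, one_mul]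
      inv_mem' := by
        rintro u ⟨hu, hu1⟩
        exact ⟨F.inv_mem hu, by rw [inv_pow, hu1, inv_one]⟩ }
  have hA := inv_subgroup F E hsemi hnorm hcard A (fun u hu => hu.1)
    (by
      rintro h hh u ⟨hu, hu1⟩
      exact ⟨hnorm h hh u hu, by rw [conj_pow, hu1]; group⟩)
  rcases hA with hA | hA
  · exfalso
    obtain ⟨x, hx⟩ := exists_prime_orderOf_dvd_card' (G := F) p hpF
    have h1 : (x : G) ∈ A := ⟨x.2, by
      rw [← hx, ← Subgroup.orderOf_coe]; exact pow_orderOf_eq_one _⟩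
    rw [hA, Subgroup.mem_bot] at h1
    have : x = 1 := Subtype.ext h1
    rw [this, orderOf_one] at hx
    exact hp.one_lt.ne hx
  · intro u hu
    have : u ∈ A := hA ▸ hu
    exact this.2

end abs

/-- a Zassenhaus group has degree at least 3 -/
theorem three_le_card {G Ω : Type*} [Group G] [MulAction G Ω] [Fintype Ω]
    (hZ : Cfsg.IsZassenhausGroup G Ω) : 2 < Fintype.card Ω := by
  obtain ⟨hfaith, -, -, ⟨g, hg1, a', b', hab', ha', hb'⟩, -⟩ := hZ
  have : ∃ c : Ω, g • c ≠ c := by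
    by_contra hcon
    push Not at hcon
    apply hg1
    apply hfaith.eq_of_smul_eq_smul
    intro c
    rw [hcon c, one_smul]
  obtain ⟨c, hc⟩ := this
  exact Fintype.two_lt_card_iff.mpr ⟨a', b', c, hab', fun h => hc (h ▸ ha'), fun h => hc (h ▸ hb')⟩

/-- Let a finite Zassenhaus group of degree `n + 1` have two-point stabilisers of order `d` with `2d ≥ n - 1`. Then a normal subgroup of a point stabiliser acting regularly on the remaining points is elementary abelian, and the degree is a prime power plus one. -/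
theorem result {G Ω : Type*} [Group G] [Finite G] [MulAction G Ω] [Fintype Ω] (hZ : Cfsg.IsZassenhausGroup G Ω) {a b : Ω} (hab : a ≠ b) (hd : Fintype.card Ω - 2 ≤ 2 * Nat.card ↥(MulAction.stabilizer G a ⊓ MulAction.stabilizer G b)) (F : Subgroup G) (hFle : F ≤ MulAction.stabilizer G a) (hFn : (F.subgroupOf (MulAction.stabilizer G a)).Normal) (hreg : ∀ y z : Ω, y ≠ a → z ≠ a → ∃! u : F, (u : G) • y = z) : IsMulCommutative F ∧ ∃ p f : ℕ, p.Prime ∧ (∀ u ∈ F, u ^ p = 1) ∧ Fintype.card Ω = p ^ f + 1 := by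
  classical
  have h3card := three_le_card hZ
  obtain ⟨hfaith, h2t, h3, hex, hnoreg⟩ := hZ
  have hFa : ∀ u ∈ F, u • a = a := fun u hu => hFle hu
  have hne : ∀ u ∈ F, u • b ≠ a := by
    intro u hu h
    apply hab
    have := (hFa u hu).trans h.symm
    exact (smul_left_cancel u this)
  have hcardF : Nat.card F + 1 = Fintype.card Ω := by
    have h1 : Nat.card F = Nat.card (({a}ᶜ : Set Ω)) := by
      apply Nat.card_congr
      refine Equiv.ofBijective (fun u : F => (⟨(u : G) • b, hne u u.2⟩ : ({a}ᶜ : Set Ω))) ⟨?_, ?_⟩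
      · intro u v huv
        have h2 : (u : G) • b = (v : G) • b := congrArg Subtype.val huv
        obtain ⟨w, -, hw⟩ := hreg b ((v : G) • b) hab.symm (hne v v.2)
        exact (hw u h2).trans (hw v rfl).symm
      · rintro ⟨z, hz⟩
        obtain ⟨w, hw, -⟩ := hreg b z hab.symm hz
        exact ⟨w, Subtype.ext hw⟩
    rw [h1, Nat.card_coe_set_eq, Set.ncard_compl, Set.ncard_singleton, Nat.card_eq_fintype_card]
    omega
  have hnorm : ∀ h ∈ MulAction.stabilizer G a ⊓ MulAction.stabilizer G b, ∀ u ∈ F,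
      h * u * h⁻¹ ∈ F := by
    intro h hh u hu
    have := hFn.conj_mem ⟨u, hFle hu⟩ (Subgroup.mem_subgroupOf.mpr hu) ⟨h, hh.1⟩
    exact Subgroup.mem_subgroupOf.mp this
  have hsemi : ∀ h ∈ MulAction.stabilizer G a ⊓ MulAction.stabilizer G b, ∀ u ∈ F, u ≠ 1 →
      h * u * h⁻¹ = u → h = 1 := by
    intro h hh u hu hu1 hcomm
    have hha : h • a = a := hh.1
    have hhb : h • b = b := hh.2
    have hub : u • b ≠ b := by
      intro hfix
      apply hu1
      obtain ⟨w, -, hw⟩ := hreg b b hab.symm hab.symm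
      have e1 := hw ⟨u, hu⟩ hfix
      have e2 := hw 1 (one_smul _ _)
      exact congrArg Subtype.val (e1.trans e2.symm)
    apply h3 h a b (u • b) hab hub.symm (hne u hu).symm hha hhb
    have h4 : h * u = u * h := by
      calc h * u = (h * u * h⁻¹) * h := by group
        _ = u * h := by rw [hcomm]
    rw [← mul_smul, h4, mul_smul, hhb]
  have hFbot : F ≠ ⊥ := by
    intro h
    rw [h, Subgroup.card_bot] at hcardF
    omega
  obtain ⟨hab', p, f, hp, hexp, hpf⟩ := main F _ hsemi hnorm (by omega) hFbot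
  exact ⟨⟨⟨fun u v => Subtype.ext (hab' u.1 u.2 v.1 v.2)⟩⟩, p, f, hp, hexp, by rw [← hcardF, hpf]⟩

end Cfsg.Agent.S0738
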