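import Mathlib
import Cfsg.Statements.S0741
import Cfsg.Agent.S0738

set_option autoImplicit false
open Cfsg

namespace Cfsg.Agent.S0741

open MulAction

theorem card_two_point {G Ω : Type*} [Group G] [MulAction G Ω] (g : G) (a b : Ω) :
    Nat.card ↥(stabilizer G (g • a) ⊓ stabilizer G (g • b)) =
      Nat.card ↥(stabilizer G a ⊓ stabilizer G b) := by
  rw [stabilizer_smul_eq_stabilizer_map_conj, stabilizer_smul_eq_stabilizer_map_conj,
    ← Subgroup.map_inf _ _ _ (MulAut.conj g).injective,
    Subgroup.card_map_of_injective (MulAut.conj g).injective]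

/-- If the two-point stabilisers of a finite Zassenhaus group of degree `n + 1` have even order `d`, then `2d ≥ n - 1`. -/
theorem result {G Ω : Type*} [Group G] [Finite G] [MulAction G Ω] [Fintype Ω] (hZ : Cfsg.IsZassenhausGroup G Ω) {a b : Ω} (hab : a ≠ b) (heven : Even (Nat.card ↥(MulAction.stabilizer G a ⊓ MulAction.stabilizer G b))) : Fintype.card Ω - 2 ≤ 2 * Nat.card ↥(MulAction.stabilizer G a ⊓ MulAction.stabilizer G b) := by
  classical
  cases nonempty_fintype G
  have h3card := S0738.three_le_card hZ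
  obtain ⟨hfaith, h2t, h3, hex, hnoreg⟩ := hZ
  have h2t' := fun {a b c d : Ω} (h : a ≠ b) (h' : c ≠ d) => (is_two_pretransitive_iff.mp h2t) h h'
  haveI : Fact (Nat.Prime 2) := ⟨Nat.prime_two⟩
  obtain ⟨t, ht⟩ := exists_prime_orderOf_dvd_card'
    (G := ↥(MulAction.stabilizer G a ⊓ MulAction.stabilizer G b)) 2 heven.two_dvd
  set d := Nat.card ↥(MulAction.stabilizer G a ⊓ MulAction.stabilizer G b) with hd
  let J : Finset G := Finset.univ.filter
    (fun s => orderOf s = 2 ∧ ∃ c c' : Ω, c ≠ c' ∧ s • c = c ∧ s • c' = c')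
  let P : Finset (Ω × Ω) := (Finset.univ : Finset Ω).offDiag
  let Fx : G → Finset Ω := fun s => Finset.univ.filter (fun c => s • c = c)
  have hFx : ∀ s ∈ J, (Fx s).card = 2 := by
    intro s hs
    obtain ⟨-, hs2, c, c', hcc, hc, hc'⟩ := Finset.mem_filter.mp hs
    rw [Finset.card_eq_two]
    refine ⟨c, c', hcc, ?_⟩
    ext z
    simp only [Fx, Finset.mem_filter, Finset.mem_univ, true_and, Finset.mem_insert,
      Finset.mem_singleton]
    constructor
    · intro hz
      by_contra hcon
      push Not at hcon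
      have := h3 s c c' z hcc (Ne.symm hcon.2) (Ne.symm hcon.1) hc hc' hz
      rw [this, orderOf_one] at hs2
      omega
    · rintro (rfl | rfl)
      · exact hc
      · exact hc'
  have hPcard : P.card = Fintype.card Ω * Fintype.card Ω - Fintype.card Ω := by
    rw [Finset.offDiag_card, Finset.card_univ]
  -- first count
  have c1 : P.card * 1 ≤ J.card * 2 := by
    apply Finset.card_mul_le_card_mul' (fun (s : G) (p : Ω × Ω) => s • p.1 = p.1 ∧ s • p.2 = p.2)
    · rintro ⟨c, c'⟩ hp
      have hcc : c ≠ c' := by simpa [P] using hp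
      obtain ⟨g, hga, hgb⟩ := h2t' hab hcc
      rw [Nat.succ_le_iff, Finset.card_pos]
      have hta : (t : G) • a = a := t.2.1
      have htb : (t : G) • b = b := t.2.2
      have e1 : (g * (t : G) * g⁻¹) • c = c := by
        rw [← hga, mul_smul, mul_smul, inv_smul_smul, hta]
      have e2 : (g * (t : G) * g⁻¹) • c' = c' := by
        rw [← hgb, mul_smul, mul_smul, inv_smul_smul, htb]
      refine ⟨g * (t : G) * g⁻¹, ?_⟩
      rw [Finset.mem_bipartiteBelow]
      refine ⟨Finset.mem_filter.mpr ⟨Finset.mem_univ _, ?_, c, c', hcc, e1, e2⟩, e1, e2⟩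
      rw [S0738.orderOf_conj, Subgroup.orderOf_coe, ht]
    · intro s hs
      have hsub : P.bipartiteAbove (fun (s : G) (p : Ω × Ω) => s • p.1 = p.1 ∧ s • p.2 = p.2) s ⊆
          (Fx s).offDiag := by
        rintro ⟨c, c'⟩ hp
        rw [Finset.mem_bipartiteAbove] at hp
        rw [Finset.mem_offDiag]
        refine ⟨by simpa [Fx] using hp.2.1, by simpa [Fx] using hp.2.2, by simpa [P] using hp.1⟩
      refine (Finset.card_le_card hsub).trans ?_
      rw [Finset.offDiag_card, hFx s hs]
  -- second count
  have c2 : J.card * (Fintype.card Ω - 2) ≤ P.card * d := by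
    apply Finset.card_mul_le_card_mul (fun (s : G) (p : Ω × Ω) => s • p.1 = p.2)
    · intro s hs
      have h1 : ((Fx s)ᶜ).card = Fintype.card Ω - 2 := by
        rw [Finset.card_compl, hFx s hs]
      rw [← h1]
      apply Finset.card_le_card_of_injOn (fun c => (c, s • c))
      · intro c hc
        have hc' : s • c ≠ c := by simpa [Fx] using hc
        simp only [Finset.coe_filter, Finset.bipartiteAbove, Set.mem_setOf_eq]
        exact ⟨by simpa [P] using hc'.symm, trivial⟩
      · intro c _ c' _ h
        exact congrArg Prod.fst h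
    · rintro ⟨c, c'⟩ hp
      have hcc : c ≠ c' := by simpa [P] using hp
      obtain ⟨g, hga, hgb⟩ := h2t' hab hcc
      have hd' : d = Nat.card ↥(stabilizer G c ⊓ stabilizer G c') := by
        rw [← hga, ← hgb, card_two_point]
      rcases (J.bipartiteBelow (fun (s : G) (p : Ω × Ω) => s • p.1 = p.2) (c, c')).eq_empty_or_nonempty
        with he | ⟨s₀, hs₀⟩
      · rw [he]; simp
      rw [Finset.mem_bipartiteBelow] at hs₀
      obtain ⟨hs₀J, hs₀c⟩ := hs₀
      have hs₀2 : orderOf s₀ = 2 := (Finset.mem_filter.mp hs₀J).2.1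
      have hsq : ∀ s : G, orderOf s = 2 → ∀ x y : Ω, s • x = y → s • y = x := by
        intro s hs x y hxy
        rw [← hxy, ← mul_smul, ← sq, ← hs, pow_orderOf_eq_one, one_smul]
      rw [hd', Nat.card_eq_fintype_card, ← Finset.card_univ]
      apply Finset.card_le_card_of_injOn
        (fun s => if h : s₀⁻¹ * s ∈ stabilizer G c ⊓ stabilizer G c' then ⟨s₀⁻¹ * s, h⟩ else 1)
      · intro s _
        exact Finset.mem_coe.mpr (Finset.mem_univ _)
      · intro s hs s' hs' hss
        have hmem : ∀ s ∈ J.bipartiteBelow (fun (s : G) (p : Ω × Ω) => s • p.1 = p.2) (c, c'),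
            s₀⁻¹ * s ∈ stabilizer G c ⊓ stabilizer G c' := by
          intro s hs
          rw [Finset.mem_bipartiteBelow] at hs
          obtain ⟨hsJ, hsc⟩ := hs
          have hs2 : orderOf s = 2 := (Finset.mem_filter.mp hsJ).2.1
          have hsc' : s • c = c' := hsc
          have hs₀c' : s₀ • c = c' := hs₀c
          constructor
          · show (s₀⁻¹ * s) • c = c
            rw [mul_smul, hsc', inv_smul_eq_iff, hs₀c']
          · show (s₀⁻¹ * s) • c' = c'
            rw [mul_smul, hsq s hs2 c c' hsc', inv_smul_eq_iff, hsq s₀ hs₀2 c c' hs₀c']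
        simp only [dif_pos (hmem s hs), dif_pos (hmem s' hs')] at hss
        have := congrArg Subtype.val hss
        exact mul_left_cancel this
  have hPpos : 0 < P.card := by
    rw [hPcard]
    have : Fintype.card Ω < Fintype.card Ω * Fintype.card Ω := by nlinarith
    omega
  have h4 : P.card * (Fintype.card Ω - 2) ≤ P.card * (2 * d) := by
    calc P.card * (Fintype.card Ω - 2) = (P.card * 1) * (Fintype.card Ω - 2) := by rw [mul_one]
      _ ≤ (J.card * 2) * (Fintype.card Ω - 2) := Nat.mul_le_mul_right _ c1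
      _ = 2 * (J.card * (Fintype.card Ω - 2)) := by ring
      _ ≤ 2 * (P.card * d) := Nat.mul_le_mul_left _ c2
      _ = P.card * (2 * d) := by ring
  exact Nat.le_of_mul_le_mul_left h4 hPpos

end Cfsg.Agent.S0741
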