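import Mathlib
import Cfsg.Statements.S0750
import Cfsg.Agent.Lib.Helper5.WittGen

set_option autoImplicit false
open Cfsg

namespace Cfsg.Agent.S0750


/-- Witt's Lemma for quadratic forms over a finite field, in any characteristic: if Q is a quadratic form on a finite-dimensional space V whose polar bilinear form is non-degenerate, then every linear equivalence between subspaces X, Y of V that preserves Q extends to a Q-preserving linear automorphism of V. (In odd characteristic this is the symmetric-bilinear case; in characteristic two it is the statement for non-degenerate quadratic forms.) -/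
theorem result {F V : Type*} [Field F] [Finite F] [AddCommGroup V] [Module F V] [FiniteDimensional F V] (Q : QuadraticForm F V) (hQ : (QuadraticMap.polarBilin Q).Nondegenerate) (X Y : Submodule F V) (φ : X ≃ₗ[F] Y) (hφ : ∀ x : X, Q (φ x : V) = Q (x : V)) : ∃ g : V ≃ₗ[F] V, (∀ v : V, Q (g v) = Q v) ∧ ∀ x : X, g (x : V) = (φ x : V) := by
  have hpolar : ∀ x y, QuadraticMap.polarBilin Q x y = QuadraticMap.polar Q x y := fun _ _ => rfl
  have hself : ∀ x, QuadraticMap.polar Q x x = 2 * Q x := by
    intro x
    rw [QuadraticMap.polar_self]; simp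
  have hWD : Cfsg.Agent.Lib.Helper5.WittGen.WD (σ := RingHom.id F) (QuadraticMap.polarBilin Q) Q := by
    refine ⟨?_, hQ.1, ?_, ?_, ?_, ?_, ?_, ?_⟩
    · intro x y
      exact QuadraticMap.polar_comm _ _ _
    · intro l
      exact ⟨(LinearMap.BilinForm.toDual (QuadraticMap.polarBilin Q) hQ).symm l,
        fun v => LinearMap.BilinForm.apply_toDual_symm_apply ..⟩
    · intro x y x' y' h1 h2 h3
      rw [QuadraticMap.map_add Q, QuadraticMap.map_add Q, h2, h3, ← hpolar, h1, hpolar]
    · intro a x x' h1
      rw [QuadraticMap.map_smul, QuadraticMap.map_smul, h1]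
    · intro x x' h1
      rw [hpolar, hpolar, hself, hself, h1]
    · intro a b h1 h2 _
      rw [hpolar, QuadraticMap.polar_sub_left, hself] at h2
      have h3 : Q (a - b) = Q a + Q b - QuadraticMap.polar Q a b := by
        have e : a - b = a + (-1 : F) • b := by rw [neg_smul, one_smul, sub_eq_add_neg]
        rw [e, QuadraticMap.map_add Q, QuadraticMap.map_smul, QuadraticMap.polar_smul_right,
          smul_eq_mul, smul_eq_mul]
        ring
      rw [h3, h1]
      linear_combination -h2
    · intro x y p h1 _ h3
      rw [hpolar] at h3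
      refine ⟨(Q x - Q y) / QuadraticMap.polar Q y p, ?_⟩
      rw [QuadraticMap.map_add Q, QuadraticMap.map_smul, h1, QuadraticMap.polar_smul_right,
        smul_eq_mul, smul_eq_mul]
      field_simp
      ring
  obtain ⟨g, hg, hgφ⟩ := Cfsg.Agent.Lib.Helper5.WittGen.witt hWD X Y φ
    (by
      intro x x'
      rw [hpolar, hpolar]
      simp only [QuadraticMap.polar]
      have h1 : (φ x : V) + (φ x' : V) = (φ (x + x') : V) := by simp
      have h2 : (x : V) + (x' : V) = ((x + x' : X) : V) := by simp
      rw [h1, h2, hφ, hφ, hφ])
    hφ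
  exact ⟨g, hg.2, hgφ⟩

end Cfsg.Agent.S0750
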