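import Mathlib
import Cfsg.Statements.S0751
import Cfsg.Agent.Lib.Helper5.WittGen
import Cfsg.Agent.S0755

set_option autoImplicit false
open Cfsg

namespace Cfsg.Agent.S0751


/-- Witt's Lemma for Hermitian forms. Let σ be a non-identity involutive automorphism of a finite field F and B a non-degenerate σ-sesquilinear form on a finite-dimensional F-space V which is conjugate-symmetric (σ (B x y) = B y x). Then every linear equivalence between subspaces X, Y of V preserving B extends to a B-preserving linear automorphism of V. -/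
theorem result {F V : Type*} [Field F] [Finite F] [AddCommGroup V] [Module F V] [FiniteDimensional F V] (σ : F →+* F) (hσ : σ ≠ RingHom.id F) (hσ2 : ∀ a : F, σ (σ a) = a) (B : V →ₛₗ[σ] V →ₗ[F] F) (hS : B.IsSymm) (hB : B.Nondegenerate) (X Y : Submodule F V) (φ : X ≃ₗ[F] Y) (hφ : ∀ x x' : X, B (φ x : V) (φ x' : V) = B (x : V) (x' : V)) : ∃ g : V ≃ₗ[F] V, (∀ u v : V, B (g u) (g v) = B u v) ∧ ∀ x : X, g (x : V) = (φ x : V) := by
  classical
  have hS' : ∀ x y, σ (B x y) = B y x := LinearMap.isSymm_def.mp hS
  obtain ⟨b, hb⟩ := Cfsg.Agent.S0755.result σ hσ hσ2 B hS hB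
  -- an element of nonzero trace
  obtain ⟨a, ha⟩ : ∃ a : F, a + σ a ≠ 0 := by
    by_contra hcon
    push Not at hcon
    have h1 : (1 : F) + 1 = 0 := by
      have := hcon 1
      rwa [map_one] at this
    apply hσ
    ext s
    have h2 := hcon s
    rw [RingHom.id_apply]
    linear_combination h2 - s * h1
  have htr : ∀ t : F, σ t = t → ∃ z : F, z + σ z = t := by
    intro t ht
    refine ⟨t * a / (a + σ a), ?_⟩
    rw [map_div₀, map_mul, map_add, hσ2, ht, add_comm (σ a) a]
    field_simp
  have hWD : Cfsg.Agent.Lib.Helper5.WittGen.WD B (fun v => B v v) := by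
    refine ⟨hS', hB.1, ?_, ?_, ?_, ?_, ?_, ?_⟩
    · intro l
      refine ⟨∑ i, σ (l (b i)) • b i, ?_⟩
      intro v
      have hv : v = ∑ i, b.repr v i • b i := (b.sum_repr v).symm
      have hc : ∀ j, B (b j) v = b.repr v j := by
        intro j
        conv_lhs => rw [hv]
        rw [map_sum, Finset.sum_eq_single j]
        · rw [map_smul, hb, if_pos rfl, smul_eq_mul, mul_one]
        · intro i _ hij
          rw [map_smul, hb, if_neg (Ne.symm hij), smul_zero]
        · intro hj
          exact absurd (Finset.mem_univ j) hj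
      rw [map_sum, LinearMap.sum_apply]
      conv_rhs => rw [hv, map_sum]
      apply Finset.sum_congr rfl
      intro i _
      rw [map_smulₛₗ, LinearMap.smul_apply, hσ2, hc, map_smul, smul_eq_mul, smul_eq_mul, mul_comm]
    · intro x y x' y' h1 h2 h3
      simp only [map_add, LinearMap.add_apply] at *
      rw [h2, h3, h1, ← hS' x y, ← hS' x' y', h1]
    · intro c x x' h1
      simp only [map_smul, map_smulₛₗ, LinearMap.smul_apply] at *
      rw [h1]
    · intro x x' h1
      exact h1
    · intro c d _ h2 h3
      show B (c - d) (c - d) = 0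
      rw [map_sub (B (c - d)), h2, h3, sub_zero]
    · intro x y p _ h2 h3
      obtain ⟨z, hz⟩ := htr (B x x - B y y) (by rw [map_sub, hS', hS'])
      refine ⟨z / B y p, ?_⟩
      show B (y + (z / B y p) • p) (y + (z / B y p) • p) = B x x
      simp only [map_add, LinearMap.add_apply, map_smul, map_smulₛₗ, LinearMap.smul_apply, h2,
        smul_eq_mul, mul_zero, add_zero]
      have e1 : z / B y p * B y p = z := by field_simp
      have e2 : σ (z / B y p) * B p y = σ z := by
        rw [← hS' y p, ← map_mul, e1]
      rw [e1, e2]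
      linear_combination hz
  obtain ⟨g, hg, hgφ⟩ := Cfsg.Agent.Lib.Helper5.WittGen.witt hWD X Y φ hφ (fun x => hφ x x)
  exact ⟨g, hg.1, hgφ⟩

end Cfsg.Agent.S0751
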