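import Mathlib
import Cfsg.Statements.S0756
import Cfsg.Agent.Lib.Helper5.OrthoFam

set_option autoImplicit false
open Cfsg

namespace Cfsg.Agent.S0756

open Cfsg.Agent.Lib.Helper5.OrthoFam

theorem exists_sum_sq {F : Type*} [Field F] [Finite F] (h2 : (2 : F) ≠ 0) (a b : F) (ha : a ≠ 0)
    (hb : b ≠ 0) : ∃ x y : F, a * x ^ 2 + b * y ^ 2 = 1 := by
  classical
  have _inst : Fintype F := Fintype.ofFinite F
  have hchar : ringChar F ≠ 2 := by
    intro h
    apply h2
    have := ringChar.Nat.cast_ringChar (R := F)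
    rw [h] at this
    exact_mod_cast this
  obtain ⟨x, y, hxy⟩ := FiniteField.exists_root_sum_quadratic
    (f := Polynomial.C a * Polynomial.X ^ 2 + Polynomial.C 0 * Polynomial.X + Polynomial.C 0)
    (g := Polynomial.C b * Polynomial.X ^ 2 + Polynomial.C 0 * Polynomial.X + Polynomial.C (-1))
    (Polynomial.degree_quadratic ha) (Polynomial.degree_quadratic hb)
    (FiniteField.odd_card_of_char_ne_two hchar)
  refine ⟨x, y, ?_⟩
  simp at hxy
  linear_combination hxy

theorem exists_scale {F : Type*} [Field F] [Finite F] (α : F) (hα : ¬ IsSquare α) (d : F)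
    (hd : d ≠ 0) : ∃ s : F, s * s * d = 1 ∨ s * s * d = α := by
  classical
  have _inst : Fintype F := Fintype.ofFinite F
  have hα0 : α ≠ 0 := by
    rintro rfl
    exact hα ⟨0, by simp⟩
  by_cases hsq : IsSquare d
  · obtain ⟨s, hs⟩ := hsq
    have hs0 : s ≠ 0 := by
      rintro rfl
      apply hd
      simpa using hs
    refine ⟨s⁻¹, Or.inl ?_⟩
    rw [hs]
    field_simp
  · have h1 : quadraticChar F (d * α) = 1 := by
      rw [map_mul, quadraticChar_neg_one_iff_not_isSquare.mpr hsq,
        quadraticChar_neg_one_iff_not_isSquare.mpr hα]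
      norm_num
    obtain ⟨s, hs⟩ := (quadraticChar_one_iff_isSquare (mul_ne_zero hd hα0)).mp h1
    have hs0 : s ≠ 0 := by
      rintro rfl
      apply mul_ne_zero hd hα0
      simpa using hs
    refine ⟨α / s, Or.inr ?_⟩
    have : α / s * (α / s) * d = α * (d * α) / (s * s) := by
      field_simp
    rw [this, hs]
    field_simp


/-- Classification of symmetric bilinear forms over finite fields of odd characteristic: if B is non-degenerate symmetric on V of dimension n + 1 and α is a fixed non-square of F, there is an orthogonal basis b_0, ..., b_n with B(b_i, b_i) = 1 for i < n and B(b_n, b_n) ∈ {1, α}. -/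
theorem result {F V : Type*} [Field F] [Finite F] [AddCommGroup V] [Module F V] [FiniteDimensional F V] (h2 : (2 : F) ≠ 0) (B : LinearMap.BilinForm F V) (hS : B.IsSymm) (hB : B.Nondegenerate) {n : ℕ} (hn : Module.finrank F V = n + 1) (α : F) (hα : ¬ IsSquare α) : ∃ b : Module.Basis (Fin (n + 1)) F V, (∀ i j, i ≠ j → B (b i) (b j) = 0) ∧ (∀ i, i ≠ Fin.last n → B (b i) (b i) = 1) ∧ (B (b (Fin.last n)) (b (Fin.last n)) = 1 ∨ B (b (Fin.last n)) (b (Fin.last n)) = α) := by
  classical
  have hS' : LinearMap.IsSymm B := (LinearMap.BilinForm.isSymm_iff).mp hS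
  have hsym : ∀ x y, B x y = B y x := hS.eq
  have hpol : ∀ W : Submodule F V, (∀ w ∈ W, B w w = 0) → ∀ x ∈ W, ∀ y ∈ W, B x y = 0 := by
    intro W hW x hx y hy
    have h := hW (x + y) (W.add_mem hx hy)
    simp only [map_add, LinearMap.add_apply, hW x hx, hW y hy, zero_add, add_zero] at h
    rw [hsym y x] at h
    have : 2 * B x y = 0 := by linear_combination h
    exact (mul_eq_zero.mp this).resolve_left h2
  have key : ∀ k, k ≤ n → ∃ c : Fin k → V, ∀ i j, B (c i) (c j) = if i = j then 1 else 0 := by
    intro k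
    induction k with
    | zero => intro _; exact ⟨Fin.elim0, fun i => i.elim0⟩
    | succ k ih =>
      intro hk
      obtain ⟨c, hc⟩ := ih (by omega)
      have hOF : IsOF B c := ⟨fun i j hij => by rw [hc, if_neg hij],
        fun i => by rw [hc, if_pos rfl]; exact one_ne_zero⟩
      obtain ⟨w1, hw1, hw11⟩ := exists_aniso hS' hB hpol hOF (by omega)
      have hOF1 := hOF.snoc hS' w1 hw1 hw11
      obtain ⟨w2, hw2, hw22⟩ := exists_aniso hS' hB hpol hOF1 (by omega)
      obtain ⟨x, y, hxy⟩ := exists_sum_sq h2 _ _ hw11 hw22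
      have h12 : B w1 w2 = 0 := by simpa using hw2 (Fin.last k)
      have h21 : B w2 w1 = 0 := by rw [hsym, h12]
      have hc2 : ∀ i, B (c i) w2 = 0 := fun i => by simpa using hw2 i.castSucc
      have hcv : ∀ i, B (c i) (x • w1 + y • w2) = 0 := by
        intro i
        simp [hw1 i, hc2 i]
      have hvv : B (x • w1 + y • w2) (x • w1 + y • w2) = 1 := by
        simp only [map_add, map_smul, LinearMap.add_apply, LinearMap.smul_apply, smul_eq_mul, h12,
          h21]
        linear_combination hxy
      refine ⟨Fin.snoc c (x • w1 + y • w2), ?_⟩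
      intro i j
      refine Fin.lastCases ?_ (fun i => ?_) i <;> refine Fin.lastCases ?_ (fun j => ?_) j
      · simpa using hvv
      · simpa [(Fin.castSucc_lt_last j).ne'] using (hsym _ _).trans (hcv j)
      · simpa [(Fin.castSucc_lt_last i).ne] using hcv i
      · simpa using hc i j
  obtain ⟨c, hc⟩ := key n le_rfl
  have hOF : IsOF B c := ⟨fun i j hij => by rw [hc, if_neg hij],
    fun i => by rw [hc, if_pos rfl]; exact one_ne_zero⟩
  obtain ⟨w, hw, hww⟩ := exists_aniso hS' hB hpol hOF (by omega)
  obtain ⟨s, hs⟩ := exists_scale α hα _ hww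
  have hα0 : α ≠ 0 := by
    rintro rfl
    exact hα ⟨0, by simp⟩
  have hsw : B (s • w) (s • w) = s * s * B w w := by
    simp only [map_smul, LinearMap.smul_apply, smul_eq_mul]
    ring
  have hsw0 : B (s • w) (s • w) ≠ 0 := by
    rw [hsw]
    rcases hs with hs | hs <;> rw [hs]
    · exact one_ne_zero
    · exact hα0
  have hOF' := hOF.snoc hS' (s • w) (fun i => by simp [hw i]) hsw0
  obtain ⟨b, hb⟩ := exists_basis_of_isOF hOF' hn
  refine ⟨b, ?_, ?_, ?_⟩
  · intro i j hij
    rw [hb, hb]
    exact hOF'.ortho i j hij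
  · intro i
    rw [hb]
    refine Fin.lastCases ?_ (fun i => ?_) i
    · intro h; exact absurd rfl h
    · intro _
      simpa using hc i i
  · rw [hb]
    simp only [Fin.snoc_last]
    rw [hsw]
    exact hs

end Cfsg.Agent.S0756
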