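import Mathlib
import Cfsg.Statements.S0757

set_option autoImplicit false
open Cfsg

namespace Cfsg.Agent.S0757


/-- The two diagonal forms Σ x_i^2 and Σ_(i<n) x_i^2 + α x_n^2 on F^(n+1), with α a non-square and 2 ≠ 0 in F, are inequivalent quadratic forms (so over a finite field of odd order there are exactly two classes of non-singular symmetric bilinear forms in each dimension). -/
theorem result {F : Type*} [Field F] (h2 : (2 : F) ≠ 0) (n : ℕ) (α : F) (hα : ¬ IsSquare α) : ¬ (QuadraticMap.weightedSumSquares F (fun _ : Fin (n + 1) => (1 : F))).Equivalent (QuadraticMap.weightedSumSquares F (fun i : Fin (n + 1) => if i = Fin.last n then α else (1 : F))) := by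
  classical
  have _inst : Invertible (2 : F) := invertibleOfNonzero h2
  have hmat : ∀ w : Fin (n + 1) → F,
      QuadraticForm.toMatrix' (QuadraticMap.weightedSumSquares F w) = Matrix.diagonal w := by
    intro w
    ext i j
    rw [QuadraticForm.toMatrix', LinearMap.toMatrix₂'_apply, QuadraticMap.associated_apply]
    simp only [QuadraticMap.weightedSumSquares_apply, smul_eq_mul, Pi.add_apply]
    rw [← Finset.sum_sub_distrib, ← Finset.sum_sub_distrib]
    have : ∀ k : Fin (n + 1), w k * (((Pi.single i 1 : Fin (n + 1) → F) k + (Pi.single j 1 : Fin (n + 1) → F) k) *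
        ((Pi.single i 1 : Fin (n + 1) → F) k + (Pi.single j 1 : Fin (n + 1) → F) k)) -
        w k * ((Pi.single i 1 : Fin (n + 1) → F) k * (Pi.single i 1 : Fin (n + 1) → F) k) -
        w k * ((Pi.single j 1 : Fin (n + 1) → F) k * (Pi.single j 1 : Fin (n + 1) → F) k) =
        2 * (w k * ((Pi.single i 1 : Fin (n + 1) → F) k * (Pi.single j 1 : Fin (n + 1) → F) k)) := by
      intro k; ring
    simp only [this]
    rw [← Finset.mul_sum, Module.End.smul_def, QuadraticMap.half_moduleEnd_apply_eq_half_smul, smul_eq_mul,
      ← mul_assoc, invOf_mul_self, one_mul]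
    by_cases hij : i = j
    · subst hij
      simp [Pi.single_apply]
    · simp [Pi.single_apply, Matrix.diagonal_apply_ne _ hij, hij]
      intro h; exact absurd h.symm hij
  rintro ⟨e⟩
  have hcomp : QuadraticMap.weightedSumSquares F (fun _ : Fin (n + 1) => (1 : F)) =
      (QuadraticMap.weightedSumSquares F
        (fun i : Fin (n + 1) => if i = Fin.last n then α else (1 : F))).comp
        (e.toLinearEquiv : (Fin (n + 1) → F) →ₗ[F] (Fin (n + 1) → F)) := by
    ext x
    exact (e.map_app x).symm
  have hd := congrArg QuadraticForm.discr' hcomp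
  rw [QuadraticForm.discr'_comp, QuadraticForm.discr', QuadraticForm.discr', hmat, hmat,
    Matrix.det_diagonal, Matrix.det_diagonal] at hd
  simp only [Finset.prod_const_one, Finset.prod_ite_eq', Finset.mem_univ, if_true] at hd
  set d := (LinearMap.toMatrix' (e.toLinearEquiv : (Fin (n + 1) → F) →ₗ[F] (Fin (n + 1) → F))).det
  have hd0 : d ≠ 0 := by
    rintro h0
    rw [h0] at hd
    simp at hd
  apply hα
  refine ⟨d⁻¹, ?_⟩
  field_simp
  linear_combination -hd

end Cfsg.Agent.S0757
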