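import Mathlib
import Cfsg.Statements.S0759
import Cfsg.Agent.Lib.Helper4.QuadType

set_option autoImplicit false
open Cfsg

namespace Cfsg.Agent.S0759


/-- Type of the orthonormal form: over a finite field of odd order q and for m ≥ 1, the quadratic form Σ_(i<2m) x_i² on F^(2m) admits an m-dimensional subspace on which it vanishes identically if and only if it is not the case that q ≡ 3 (mod 4) and m is odd. -/
theorem result {F : Type*} [Field F] [Fintype F] (h2 : (2 : F) ≠ 0) (m : ℕ) (hm : 1 ≤ m) : (∃ W : Submodule F (Fin (2 * m) → F), Module.finrank F W = m ∧ ∀ w ∈ W, ∑ i, w i ^ 2 = 0) ↔ ¬ (Fintype.card F % 4 = 3 ∧ Odd m) := by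
  classical
  obtain ⟨B, hBdef⟩ : ∃ B : LinearMap.BilinForm F (Fin (2 * m) → F), B = Matrix.toBilin' 1 := ⟨_, rfl⟩
  have hB : ∀ x y, B x y = ∑ i, x i * y i := by
    intro x y
    rw [hBdef, Matrix.toBilin'_apply']
    simp [dotProduct]
  have hS : B.IsSymm := by
    rw [LinearMap.BilinForm.isSymm_iff]
    constructor
    intro x y
    rw [RingHom.id_apply, hB, hB]
    exact Finset.sum_congr rfl (fun i _ => mul_comm _ _)
  have hnd : B.Nondegenerate := by
    have key : ∀ x, (∀ y, B x y = 0) → x = 0 := by
      intro x hx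
      funext i
      have := hx (Pi.single i 1)
      rw [hB] at this
      simpa [Pi.single_apply] using this
    constructor
    · intro x hx
      exact key x hx
    · intro x hx
      apply key
      intro y
      rw [hB]
      have := hx y
      rw [hB] at this
      rw [← this]
      exact Finset.sum_congr rfl (fun i _ => mul_comm _ _)
  have hcrit := Cfsg.Agent.Lib.Helper4.QuadType.type_criterion (q := Fintype.card F) rfl h2 B hS hnd hm
    (by simp) (Pi.basisFun F (Fin (2 * m)))
  have hmat : LinearMap.BilinForm.toMatrix (Pi.basisFun F (Fin (2 * m))) B = 1 := by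
    rw [LinearMap.BilinForm.toMatrix_basisFun, hBdef, LinearMap.BilinForm.toMatrix'_toBilin']
  rw [hmat, Matrix.det_one] at hcrit
  have hsq : IsSquare (1 : F) := ⟨1, by simp⟩
  have hodd : Fintype.card F % 2 = 1 := by
    apply FiniteField.odd_card_of_char_ne_two
    intro hc
    apply h2
    have : CharP F 2 := by rw [← hc]; exact ringChar.charP F
    exact_mod_cast CharP.cast_eq_zero F 2
  have harith : Even (m * (Fintype.card F - 1) / 2) ↔ ¬ (Fintype.card F % 4 = 3 ∧ Odd m) := by
    obtain ⟨t, ht⟩ : ∃ t, Fintype.card F = 2 * t + 1 := ⟨Fintype.card F / 2, by omega⟩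
    rw [ht, Nat.add_sub_cancel]
    have e1 : m * (2 * t) / 2 = m * t := by
      rw [show m * (2 * t) = 2 * (m * t) by ring]
      exact Nat.mul_div_cancel_left _ (by norm_num)
    rw [e1, Nat.even_mul, not_and, Nat.not_odd_iff_even]
    constructor
    · rintro (h | h)
      · intro _; exact h
      · intro h3
        exfalso
        obtain ⟨s, hs⟩ := h
        omega
    · intro h
      by_cases ht2 : Even t
      · exact Or.inr ht2
      · left
        apply h
        rw [Nat.not_even_iff_odd] at ht2
        obtain ⟨s, hs⟩ := ht2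
        omega
  rw [← harith]
  constructor
  · rintro ⟨W, hW, hW0⟩
    apply (hcrit.mp ⟨W, hW, ?_⟩).mp hsq
    intro x hx y hy
    have h1 := hW0 (x + y) (W.add_mem hx hy)
    have h3 := hW0 x hx
    have h4 := hW0 y hy
    have h5 : 2 * B x y = 0 := by
      rw [hB, Finset.mul_sum]
      have : ∑ i, (x + y) i ^ 2 = ∑ i, x i ^ 2 + ∑ i, y i ^ 2 + ∑ i, 2 * (x i * y i) := by
        rw [← Finset.sum_add_distrib, ← Finset.sum_add_distrib]
        apply Finset.sum_congr rfl
        intro i _
        simp only [Pi.add_apply]
        ring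
      rw [this, h3, h4] at h1
      simpa using h1
    rcases mul_eq_zero.mp h5 with h | h
    · exact absurd h h2
    · exact h
  · intro heven
    obtain ⟨X, hX, hX0⟩ := hcrit.mpr ⟨fun _ => heven, fun _ => hsq⟩
    refine ⟨X, hX, ?_⟩
    intro w hw
    have := hX0 w hw w hw
    rw [hB] at this
    rw [← this]
    exact Finset.sum_congr rfl (fun i _ => sq _)

end Cfsg.Agent.S0759
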