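import Mathlib
import Cfsg.Statements.S0760

set_option autoImplicit false
open Cfsg

namespace Cfsg.Agent.S0760

open Module in
theorem aux {F V : Type*} [Field F] [AddCommGroup V] [Module F V] [FiniteDimensional F V]
    (Q : QuadraticForm F V) (hQ : (QuadraticMap.polarBilin Q).Nondegenerate)
    (W₁ W₂ : Submodule F V) (h₁ : ∀ w ∈ W₁, Q w = 0) (h₂ : ∀ w ∈ W₂, Q w = 0)
    (hmax₁ : ∀ W : Submodule F V, W₁ ≤ W → (∀ w ∈ W, Q w = 0) → W = W₁) :
    finrank F W₂ ≤ finrank F W₁ := by
  set B : LinearMap.BilinForm F V := QuadraticMap.polarBilin Q with hB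
  have hBapp : ∀ x y, B x y = Q (x + y) - Q x - Q y := fun x y => rfl
  have hts : ∀ (W : Submodule F V), (∀ w ∈ W, Q w = 0) → W ≤ B.orthogonal W := by
    intro W hW x hx
    rw [LinearMap.BilinForm.mem_orthogonal_iff]
    intro n hn
    rw [hBapp, hW _ (W.add_mem hn hx), hW _ hn, hW _ hx]
    simp
  set D := W₁ ⊓ W₂ with hD
  have hK : W₂ ⊓ B.orthogonal W₁ ≤ D := by
    intro k hk
    obtain ⟨hk2, hk1⟩ := hk
    refine ⟨?_, hk2⟩
    have hW : W₁ ⊔ Submodule.span F {k} = W₁ := by
      apply hmax₁ _ le_sup_left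
      intro w hw
      obtain ⟨a, ha, b, hb, rfl⟩ := Submodule.mem_sup.mp hw
      obtain ⟨c, rfl⟩ := Submodule.mem_span_singleton.mp hb
      have h3 : B a (c • k) = 0 := by
        rw [map_smul, (LinearMap.BilinForm.mem_orthogonal_iff.mp hk1) a ha, smul_zero]
      have h4 : Q (c • k) = 0 := h₂ _ (W₂.smul_mem c hk2)
      have h5 := hBapp a (c • k)
      rw [h3, h₁ a ha, h4] at h5
      simpa using h5.symm
    rw [← hW]
    exact Submodule.mem_sup_right (Submodule.mem_span_singleton_self k)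
  have hsup : W₂ ⊔ B.orthogonal W₁ ≤ B.orthogonal D := by
    apply sup_le
    · exact (hts W₂ h₂).trans (LinearMap.BilinForm.orthogonal_le inf_le_right)
    · exact LinearMap.BilinForm.orthogonal_le inf_le_left
  have e1 := Submodule.finrank_sup_add_finrank_inf_eq W₂ (B.orthogonal W₁)
  have e2 := LinearMap.BilinForm.finrank_orthogonal hQ W₁
  have e3 := LinearMap.BilinForm.finrank_orthogonal hQ D
  have e4 := Submodule.finrank_mono hK
  have e5 := Submodule.finrank_mono hsup
  have e6 : finrank F W₁ ≤ finrank F V := Submodule.finrank_le W₁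
  have e7 : finrank F D ≤ finrank F W₁ := Submodule.finrank_mono inf_le_left
  omega


/-- Witt index is well defined: if Q is a quadratic form on a finite-dimensional space V over a finite field with non-degenerate polar form, and W₁, W₂ are subspaces on which Q vanishes that are maximal with this property, then W₁ and W₂ have the same dimension, and twice this dimension is at most dim V. -/
theorem result {F V : Type*} [Field F] [Finite F] [AddCommGroup V] [Module F V] [FiniteDimensional F V] (Q : QuadraticForm F V) (hQ : (QuadraticMap.polarBilin Q).Nondegenerate) (W₁ W₂ : Submodule F V) (h₁ : ∀ w ∈ W₁, Q w = 0) (h₂ : ∀ w ∈ W₂, Q w = 0) (hmax₁ : ∀ W : Submodule F V, W₁ ≤ W → (∀ w ∈ W, Q w = 0) → W = W₁) (hmax₂ : ∀ W : Submodule F V, W₂ ≤ W → (∀ w ∈ W, Q w = 0) → W = W₂) : Module.finrank F W₁ = Module.finrank F W₂ ∧ 2 * Module.finrank F W₁ ≤ Module.finrank F V := by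
  refine ⟨le_antisymm (aux Q hQ W₂ W₁ h₂ h₁ hmax₂) (aux Q hQ W₁ W₂ h₁ h₂ hmax₁), ?_⟩
  have hle : W₁ ≤ LinearMap.BilinForm.orthogonal (QuadraticMap.polarBilin Q) W₁ := by
    intro x hx
    rw [LinearMap.BilinForm.mem_orthogonal_iff]
    intro n hn
    show Q (n + x) - Q n - Q x = 0
    rw [h₁ _ (W₁.add_mem hn hx), h₁ _ hn, h₁ _ hx]
    simp
  have e2 := LinearMap.BilinForm.finrank_orthogonal hQ W₁
  have e4 := Submodule.finrank_mono hle
  have e6 : Module.finrank F W₁ ≤ Module.finrank F V := Submodule.finrank_le W₁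
  omega

end Cfsg.Agent.S0760
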