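import Mathlib
import Cfsg.Statements.S0762

set_option autoImplicit false
open Cfsg

namespace Cfsg.Agent.S0762


/-- In characteristic two over a finite field, a quadratic form on a space of dimension at least 3 vanishes on some non-zero vector. -/
theorem result {F V : Type*} [Field F] [Finite F] [CharP F 2] [AddCommGroup V] [Module F V] [FiniteDimensional F V] (Q : QuadraticForm F V) (h3 : 3 ≤ Module.finrank F V) : ∃ v : V, v ≠ 0 ∧ Q v = 0 := by
  classical
  have h20 : (2 : F) = 0 := CharTwo.two_eq_zero
  have hself : ∀ x, QuadraticMap.polar Q x x = 0 := by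
    intro x
    rw [QuadraticMap.polar_self]
    simp [h20]
  have hadd : ∀ (a : F) (v w : V), Q (a • v + w) = a ^ 2 * Q v + Q w + a * QuadraticMap.polar Q v w := by
    intro a v w
    rw [QuadraticMap.map_add Q, QuadraticMap.map_smul, QuadraticMap.polar_smul_left, smul_eq_mul,
      smul_eq_mul]
    ring
  obtain ⟨v, hv⟩ : ∃ v : V, v ≠ 0 := by
    have : Nontrivial V := Module.nontrivial_of_finrank_pos (R := F) (by omega)
    exact exists_ne 0
  by_cases hQv : Q v = 0
  · exact ⟨v, hv, hQv⟩
  let ψ : V →ₗ[F] F := QuadraticMap.polarBilin Q v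
  have hker : 2 ≤ Module.finrank F (LinearMap.ker ψ) := by
    have h1 := LinearMap.finrank_range_add_finrank_ker ψ
    have h2 : Module.finrank F (LinearMap.range ψ) ≤ 1 := by
      have := Submodule.finrank_le (LinearMap.range ψ)
      simpa using this
    omega
  obtain ⟨w, hwK, hwv⟩ : ∃ w ∈ LinearMap.ker ψ, w ∉ Submodule.span F {v} := by
    by_contra hcon
    push Not at hcon
    have hle : LinearMap.ker ψ ≤ Submodule.span F {v} := hcon
    have h1 := Submodule.finrank_mono hle
    have h2 : Module.finrank F (Submodule.span F {v}) = 1 := finrank_span_singleton hv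
    omega
  have hvw : QuadraticMap.polar Q v w = 0 := LinearMap.mem_ker.mp hwK
  obtain ⟨s, hs2⟩ := FiniteField.isSquare_of_char_two (ringChar.eq F 2) (Q w / Q v)
  refine ⟨s • v + w, ?_, ?_⟩
  · intro h0
    apply hwv
    rw [Submodule.mem_span_singleton]
    exact ⟨-s, by rw [neg_smul]; exact (eq_neg_of_add_eq_zero_right h0).symm⟩
  · rw [hadd, hvw, pow_two, ← hs2]
    field_simp
    linear_combination (Q w) * h20

end Cfsg.Agent.S0762
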