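import Mathlib
import Cfsg.Statements.S0763

set_option autoImplicit false
open Cfsg

namespace Cfsg.Agent.S0763


/-- Binary quadratic forms in characteristic two over a finite field: if Q is a quadratic form on a 2-dimensional space whose polar form is non-degenerate, then either there are vectors v, w with Q v = Q w = 0 and polar value 1 (Q is xy in these coordinates), or there are v, w and μ with Q v = 1, Q w = μ, polar value 1 and x² + x + μ without roots in F (Q is x² + xy + μy²). -/
theorem result {F V : Type*} [Field F] [Finite F] [CharP F 2] [AddCommGroup V] [Module F V] (Q : QuadraticForm F V) (h2 : Module.finrank F V = 2) (hQ : (QuadraticMap.polarBilin Q).Nondegenerate) : (∃ v w : V, LinearIndependent F ![v, w] ∧ Q v = 0 ∧ Q w = 0 ∧ QuadraticMap.polar Q v w = 1) ∨ (∃ (v w : V) (μ : F), LinearIndependent F ![v, w] ∧ (∀ x : F, x ^ 2 + x + μ ≠ 0) ∧ Q v = 1 ∧ Q w = μ ∧ QuadraticMap.polar Q v w = 1) := by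
  classical
  have h20 : (2 : F) = 0 := CharTwo.two_eq_zero
  have hself : ∀ x, QuadraticMap.polar Q x x = 0 := by
    intro x
    rw [QuadraticMap.polar_self]
    simp [h20]
  have hpart : ∀ v : V, v ≠ 0 → ∃ w, QuadraticMap.polar Q v w = 1 := by
    intro v hv
    by_contra hcon
    push Not at hcon
    apply hv
    apply hQ.1
    intro y
    by_contra hy
    apply hcon ((QuadraticMap.polar Q v y)⁻¹ • y)
    rw [QuadraticMap.polar_smul_right, smul_eq_mul]
    exact inv_mul_cancel₀ hy
  have hli : ∀ v w : V, QuadraticMap.polar Q v w = 1 → LinearIndependent F ![v, w] := by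
    intro v w hvw
    rw [LinearIndependent.pair_iff]
    intro s t hst
    have h1 := congrArg (fun z => QuadraticMap.polar Q v z) hst
    have h2 := congrArg (fun z => QuadraticMap.polar Q z w) hst
    simp only [QuadraticMap.polar_add_right, QuadraticMap.polar_smul_right,
      QuadraticMap.polar_add_left, QuadraticMap.polar_smul_left, hself, hvw, smul_eq_mul,
      mul_zero, mul_one, zero_add, add_zero, QuadraticMap.polar_zero_right,
      QuadraticMap.polar_zero_left] at h1 h2
    exact ⟨h2, h1⟩
  have hadd : ∀ (a : F) (v w : V), Q (a • v + w) = a ^ 2 * Q v + Q w + a * QuadraticMap.polar Q v w := by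
    intro a v w
    rw [QuadraticMap.map_add Q, QuadraticMap.map_smul, QuadraticMap.polar_smul_left, smul_eq_mul,
      smul_eq_mul]
    ring
  obtain ⟨v0, hv0⟩ : ∃ v : V, v ≠ 0 := by
    have : Nontrivial V := Module.nontrivial_of_finrank_pos (R := F) (by omega)
    exact exists_ne 0
  by_cases hs : ∃ v : V, v ≠ 0 ∧ Q v = 0
  · left
    obtain ⟨v, hv, hQv⟩ := hs
    obtain ⟨w, hw⟩ := hpart v hv
    have hp : QuadraticMap.polar Q v (Q w • v + w) = 1 := by
      rw [QuadraticMap.polar_add_right, QuadraticMap.polar_smul_right, hself, hw]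
      simp
    refine ⟨v, Q w • v + w, hli _ _ hp, hQv, ?_, hp⟩
    rw [hadd, hQv, hw]
    linear_combination (Q w) * h20
  · right
    push Not at hs
    have hFin : Fintype F := Fintype.ofFinite F
    obtain ⟨s, hs2⟩ := FiniteField.isSquare_of_char_two (ringChar.eq F 2) (Q v0)
    have hQ0 : Q v0 ≠ 0 := hs v0 hv0
    have hs0 : s ≠ 0 := by
      rintro rfl
      apply hQ0
      simpa using hs2
    have hQv : Q (s⁻¹ • v0) = 1 := by
      rw [QuadraticMap.map_smul, hs2, smul_eq_mul]
      field_simp
    have hvne : s⁻¹ • v0 ≠ 0 := smul_ne_zero (inv_ne_zero hs0) hv0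
    obtain ⟨w, hw⟩ := hpart _ hvne
    refine ⟨s⁻¹ • v0, w, Q w, hli _ _ hw, ?_, hQv, rfl, hw⟩
    intro x hx
    have h0 : Q (x • (s⁻¹ • v0) + w) = 0 := by
      rw [hadd, hQv, hw]
      linear_combination hx
    have hne : x • (s⁻¹ • v0) + w ≠ 0 := by
      intro h0
      have := LinearIndependent.pair_iff.mp (hli _ _ hw) x 1 (by simpa using h0)
      exact one_ne_zero this.2
    exact hs _ hne h0

end Cfsg.Agent.S0763
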