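import Mathlib
import Cfsg.Statements.S0767
import Cfsg.Agent.Lib.Helper5.Symp

set_option autoImplicit false
open Cfsg

namespace Cfsg.Agent.S0767


/-- The root group of a point: T_v(c) T_v(d) = T_v(c + d), and for A in the symplectic group with A v = a v, the conjugate A T_v(c) A⁻¹ is again some T_v(d). -/
theorem result {F : Type*} [Field F] (m : ℕ) (v : Fin m ⊕ Fin m → F) : (∀ c d : F, Cfsg.sympTransvection m v c * Cfsg.sympTransvection m v d = Cfsg.sympTransvection m v (c + d)) ∧ ∀ (A : Matrix (Fin m ⊕ Fin m) (Fin m ⊕ Fin m) F) (a : F), A ∈ Matrix.symplecticGroup (Fin m) F → A.mulVec v = a • v → ∀ c : F, ∃ d : F, A * Cfsg.sympTransvection m v c * A⁻¹ = Cfsg.sympTransvection m v d := by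
  refine ⟨fun c d => Cfsg.Agent.Lib.Helper5.Symp.sympTransvection_mul v c d, ?_⟩
  intro A a hA hAv c
  refine ⟨c * a ^ 2, ?_⟩
  have hdet : IsUnit A.det := SymplecticGroup.symplectic_det hA
  have hpres := (Cfsg.Agent.Lib.Helper5.Symp.mem_symplecticGroup_iff_preserves A).mp hA
  rw [Matrix.ext_iff_mulVec]
  intro x
  have hx : A.mulVec (A⁻¹.mulVec x) = x := by
    rw [Matrix.mulVec_mulVec, Matrix.mul_nonsing_inv A hdet, Matrix.one_mulVec]
  rw [← Matrix.mulVec_mulVec, ← Matrix.mulVec_mulVec,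
    Cfsg.Agent.Lib.Helper5.Symp.sympTransvection_mulVec,
    Cfsg.Agent.Lib.Helper5.Symp.sympTransvection_mulVec, Matrix.mulVec_add, hx,
    Matrix.mulVec_smul, hAv]
  have h1 : Cfsg.sympForm m F (A⁻¹.mulVec x) v * a = Cfsg.sympForm m F x v * a ^ 2 := by
    have h2 := hpres (A⁻¹.mulVec x) v
    rw [hx, hAv, Cfsg.Agent.Lib.Helper5.Symp.sympForm_smul_right] at h2
    rw [← h2]; ring
  rw [smul_smul]
  congr 2
  calc c * Cfsg.sympForm m F (A⁻¹.mulVec x) v * a = c * (Cfsg.sympForm m F (A⁻¹.mulVec x) v * a) := by ring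
    _ = c * a ^ 2 * Cfsg.sympForm m F x v := by rw [h1]; ring

end Cfsg.Agent.S0767
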