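import Cfsg.Statements.S0769
import Mathlib
import Cfsg.Agent.Lib.Helper4.TriCount

set_option autoImplicit false
open Cfsg

namespace Cfsg.Agent.S0769

open Matrix Cfsg.Agent.Lib.Helper4.TriCount


/-- Order of the Borel subgroup of GL_n(q): the invertible lower-triangular n × n matrices over a field with q elements number q^(n(n-1)/2) (q-1)^n (unitriangular part times the diagonal torus). -/
theorem result {F : Type*} [Field F] [Fintype F] {q : ℕ} (hF : Fintype.card F = q) (n : ℕ) : Nat.card {g : Matrix.GeneralLinearGroup (Fin n) F // ∀ i j : Fin n, i < j → (g : Matrix (Fin n) (Fin n) F) i j = 0} = q ^ (n * (n - 1) / 2) * (q - 1) ^ n := by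
  classical
  rw [← hF, ← card_tri]
  apply Nat.card_congr
  refine ⟨fun g => ⟨g.1.1, fun i j => ⟨fun hij => g.2 i j hij, fun hij => ?_⟩⟩,
    fun M => ⟨GeneralLinearGroup.mkOfDetNeZero (Matrix.of M.1) (det_ne_zero_of_PL _ M.2),
      fun i j hij => (M.2 i j).1 hij⟩, ?_, ?_⟩
  · subst hij
    have h1 := GeneralLinearGroup.det_ne_zero g.1
    rw [det_of_isLowerTriangular g.1.1 (fun i j hij => g.2 i j hij),
      Finset.prod_ne_zero_iff] at h1
    exact h1 i (Finset.mem_univ i)
  · intro g
    apply Subtype.ext
    apply Units.ext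
    rfl
  · intro M
    rfl
end Cfsg.Agent.S0769
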