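import Mathlib
import Cfsg.Statements.S0770

set_option autoImplicit false
open Cfsg

namespace Cfsg.Agent.S0770

open Matrix in
theorem mem_diag_iff {F : Type*} [Field F] {n : ℕ} (h : Matrix.GeneralLinearGroup (Fin n) F) :
    h ∈ (Units.map (Matrix.diagonalRingHom (Fin n) F).toMonoidHom).range ↔
      ∃ d : Fin n → F, (h : Matrix (Fin n) (Fin n) F) = Matrix.diagonal d := by
  constructor
  · rintro ⟨u, rfl⟩
    exact ⟨u, rfl⟩
  · rintro ⟨d, hd⟩
    have hdet : IsUnit (h : Matrix (Fin n) (Fin n) F).det := by
      have := h.isUnit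
      exact (Matrix.isUnit_iff_isUnit_det _).mp this
    rw [hd, Matrix.det_diagonal] at hdet
    have hne : ∀ i, d i ≠ 0 := by
      intro i hi
      have : ∏ i, d i = 0 := Finset.prod_eq_zero (Finset.mem_univ i) hi
      rw [this] at hdet
      exact not_isUnit_zero hdet
    let u : (Fin n → F)ˣ := ⟨d, fun i => (d i)⁻¹, by ext i; simp [hne i], by ext i; simp [hne i]⟩
    refine ⟨u, ?_⟩
    apply Units.ext
    rw [hd]
    rfl


/-- For a field with at least 3 elements, an invertible matrix normalises the subgroup of invertible diagonal matrices of GL_n if and only if it is monomial (exactly one non-zero entry in each row). -/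
theorem result {F : Type*} [Field F] (hF : ∃ a : F, a ≠ 0 ∧ a ≠ 1) (n : ℕ) (g : Matrix.GeneralLinearGroup (Fin n) F) : g ∈ Subgroup.normalizer ((Units.map (Matrix.diagonalRingHom (Fin n) F).toMonoidHom).range : Subgroup (Matrix.GeneralLinearGroup (Fin n) F)) ↔ ∀ i : Fin n, ∃! j : Fin n, (g : Matrix (Fin n) (Fin n) F) i j ≠ 0 := by
  classical
  obtain ⟨a, ha0, ha1⟩ := hF
  set G : Matrix (Fin n) (Fin n) F := (g : Matrix (Fin n) (Fin n) F) with hG
  set Gi : Matrix (Fin n) (Fin n) F := ((g⁻¹ : Matrix.GeneralLinearGroup (Fin n) F) : Matrix (Fin n) (Fin n) F) with hGi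
  have hGGi : G * Gi = 1 := by
    rw [hG, hGi, ← Units.val_mul, mul_inv_cancel, Units.val_one]
  have hGiG : Gi * G = 1 := by
    rw [hG, hGi, ← Units.val_mul, inv_mul_cancel, Units.val_one]
  rw [Subgroup.mem_normalizer_iff]
  constructor
  · intro hnorm i
    have hex : ∃ j, G i j ≠ 0 := by
      by_contra hcon
      push Not at hcon
      have h1 : (G * Gi) i i = 1 := by rw [hGGi]; simp
      rw [Matrix.mul_apply] at h1
      simp [hcon] at h1
    obtain ⟨j, hj⟩ := hex
    refine ⟨j, hj, ?_⟩
    intro k hk
    by_contra hkj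
    have hdne : ∀ l, Function.update (1 : Fin n → F) j a l ≠ 0 := by
      intro l
      by_cases hl : l = j
      · subst hl; simpa using ha0
      · simp [Function.update_of_ne hl]
    let u : (Fin n → F)ˣ := ⟨Function.update 1 j a, fun l => (Function.update (1 : Fin n → F) j a l)⁻¹,
      by ext l; simp [hdne l], by ext l; simp [hdne l]⟩
    let h : Matrix.GeneralLinearGroup (Fin n) F := Units.map (Matrix.diagonalRingHom (Fin n) F).toMonoidHom u
    have hh : (h : Matrix (Fin n) (Fin n) F) = Matrix.diagonal (Function.update 1 j a) := rfl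
    have hmem : h ∈ (Units.map (Matrix.diagonalRingHom (Fin n) F).toMonoidHom).range := ⟨u, rfl⟩
    have h2 := (hnorm h).mp hmem
    obtain ⟨d', hd'⟩ := (mem_diag_iff _).mp h2
    have h3 : G * Matrix.diagonal (Function.update 1 j a) = Matrix.diagonal d' * G := by
      rw [← hd', Units.val_mul, Units.val_mul, hh, Matrix.mul_assoc, ← hGi, ← hG, hGiG, Matrix.mul_one]
    have e1 := congrFun (congrFun h3 i) j
    have e2 := congrFun (congrFun h3 i) k
    rw [Matrix.mul_diagonal, Matrix.diagonal_mul] at e1 e2
    rw [Function.update_self] at e1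
    rw [Function.update_of_ne hkj] at e2
    have f1 : d' i = a := by
      have : G i j * a = G i j * d' i := by rw [e1]; ring
      exact (mul_left_cancel₀ hj this).symm
    have f2 : d' i = 1 := by
      have : G i k * 1 = G i k * d' i := by
        have e2' : G i k * 1 = d' i * G i k := e2
        rw [e2']; ring
      exact (mul_left_cancel₀ hk this).symm
    exact ha1 (f1.symm.trans f2)
  · intro hmono
    choose π hπ hπu using hmono
    have hsurj : Function.Surjective π := by
      intro j
      by_contra hcon
      push Not at hcon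
      have hcol : ∀ i, G i j = 0 := by
        intro i
        by_contra hne
        exact hcon i (hπu i j hne).symm
      have h1 : (Gi * G) j j = 1 := by rw [hGiG]; simp
      rw [Matrix.mul_apply] at h1
      simp [hcol] at h1
    have hbij : Function.Bijective π := (Finite.injective_iff_surjective.mpr hsurj) |> fun hi => ⟨hi, hsurj⟩
    have hcomm : ∀ d : Fin n → F, G * Matrix.diagonal d = Matrix.diagonal (d ∘ π) * G := by
      intro d
      ext i j
      rw [Matrix.mul_diagonal, Matrix.diagonal_mul]
      by_cases hij : G i j = 0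
      · simp [hij]
      · have : j = π i := hπu i j hij
        subst this
        simp [mul_comm]
    intro h
    rw [mem_diag_iff, mem_diag_iff]
    constructor
    · rintro ⟨d, hd⟩
      refine ⟨d ∘ π, ?_⟩
      rw [Units.val_mul, Units.val_mul, hd, ← hG, ← hGi, hcomm d, Matrix.mul_assoc, hGGi, Matrix.mul_one]
    · rintro ⟨d', hd'⟩
      let e := Equiv.ofBijective π hbij
      refine ⟨d' ∘ e.symm, ?_⟩
      have h4 := hcomm (d' ∘ e.symm)
      have h5 : (d' ∘ e.symm) ∘ π = d' := by
        ext i
        simp only [Function.comp_apply]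
        congr 1
        exact e.symm_apply_apply i
      rw [h5, ← hd', Units.val_mul, Units.val_mul, ← hG, ← hGi, Matrix.mul_assoc, hGiG, Matrix.mul_one] at h4
      have h6 : Gi * (G * Matrix.diagonal (d' ∘ e.symm)) = Gi * (G * (h : Matrix (Fin n) (Fin n) F)) := by rw [h4]
      rw [← Matrix.mul_assoc, ← Matrix.mul_assoc, hGiG, Matrix.one_mul, Matrix.one_mul] at h6
      exact h6.symm

end Cfsg.Agent.S0770
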