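import Cfsg.Statements.S0773
import Mathlib

set_option autoImplicit false
open Cfsg

namespace Cfsg.Agent.S0773

open Matrix

variable {F : Type*} [Field F] {n : ℕ}

/-- the coordinate subspace -/
def Wsub (F : Type*) [Field F] (n k : ℕ) : Submodule F (Fin n → F) where
  carrier := {v | ∀ i : Fin n, k ≤ (i : ℕ) → v i = 0}
  add_mem' := by
    intro a b ha hb i hi
    rw [Pi.add_apply, ha i hi, hb i hi, add_zero]
  zero_mem' := by
    intro i _; rfl
  smul_mem' := by
    intro c a ha i hi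
    rw [Pi.smul_apply, ha i hi, smul_zero]

/-- the parabolic -/
abbrev PK (F : Type*) [Field F] (n k : ℕ) : Subgroup (GL (Fin n) F) :=
  Cfsg.stabilizing (Cfsg.glToMat (Fin n) F) {v : Fin n → F | ∀ i : Fin n, k ≤ (i : ℕ) → v i = 0}

theorem zero_of_mem {k : ℕ} (g : GL (Fin n) F) (hg : g ∈ PK F n k) (i j : Fin n)
    (hi : k ≤ (i : ℕ)) (hj : (j : ℕ) < k) : g.1 i j = 0 := by
  have h1 := (hg (Pi.single j 1)).1 (by
    intro a ha
    rw [Pi.single_apply, if_neg]
    rintro rfl
    omega)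
  have h2 := h1 i hi
  change (g.1 *ᵥ _) _ = 0 at h2
  rwa [mulVec_single_one] at h2

theorem cancel_mulVec (g : GL (Fin n) F) {a b : Fin n → F} (h : g.1 *ᵥ a = g.1 *ᵥ b) : a = b := by
  have h2 := congr_arg (fun w => g⁻¹.1 *ᵥ w) h
  simp only [mulVec_mulVec] at h2
  rw [← Units.val_mul, inv_mul_cancel] at h2
  simpa using h2

theorem mem_of_zero [Finite F] {k : ℕ} (g : GL (Fin n) F)
    (h : ∀ i j : Fin n, k ≤ (i : ℕ) → (j : ℕ) < k → g.1 i j = 0) : g ∈ PK F n k := by
  have hfw : ∀ v ∈ {v : Fin n → F | ∀ i : Fin n, k ≤ (i : ℕ) → v i = 0},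
      g.1 *ᵥ v ∈ {v : Fin n → F | ∀ i : Fin n, k ≤ (i : ℕ) → v i = 0} := by
    intro v hv i hi
    rw [mulVec, dotProduct]
    apply Finset.sum_eq_zero
    intro j _
    by_cases hj : (j : ℕ) < k
    · rw [h i j hi hj, zero_mul]
    · rw [hv j (by omega), mul_zero]
  let f : {v : Fin n → F | ∀ i : Fin n, k ≤ (i : ℕ) → v i = 0} →
      {v : Fin n → F | ∀ i : Fin n, k ≤ (i : ℕ) → v i = 0} := fun w => ⟨g.1 *ᵥ w.1, hfw _ w.2⟩
  have hinj : Function.Injective f := by
    intro a b hab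
    exact Subtype.ext (cancel_mulVec g (congr_arg Subtype.val hab))
  have hsurj := Finite.injective_iff_surjective.1 hinj
  intro v
  refine ⟨hfw v, fun hv => ?_⟩
  obtain ⟨w, hw⟩ := hsurj ⟨_, hv⟩
  have : w.1 = v := cancel_mulVec g (congr_arg Subtype.val hw)
  rw [← this]; exact w.2

/-- inverse transpose followed by reversal -/
def theta (g : GL (Fin n) F) : GL (Fin n) F where
  val := (g⁻¹.1)ᵀ.submatrix Fin.revPerm Fin.revPerm
  inv := (g.1)ᵀ.submatrix Fin.revPerm Fin.revPerm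
  val_inv := by
    rw [submatrix_mul_equiv, ← transpose_mul, ← Units.val_mul, mul_inv_cancel]
    simp
  inv_val := by
    rw [submatrix_mul_equiv, ← transpose_mul, ← Units.val_mul, inv_mul_cancel]
    simp

theorem theta_val (g : GL (Fin n) F) :
    (theta g).1 = (g⁻¹.1)ᵀ.submatrix Fin.revPerm Fin.revPerm := rfl

theorem theta_inv_val (g : GL (Fin n) F) :
    (theta g)⁻¹.1 = (g.1)ᵀ.submatrix Fin.revPerm Fin.revPerm := rfl

theorem theta_theta (g : GL (Fin n) F) : theta (theta g) = g := by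
  apply Units.ext
  rw [theta_val, theta_inv_val]
  ext i j
  simp

/-- `theta` as an automorphism -/
def thetaEquiv : GL (Fin n) F ≃* GL (Fin n) F where
  toFun := theta
  invFun := theta
  left_inv := theta_theta
  right_inv := theta_theta
  map_mul' a b := by
    apply Units.ext
    rw [Units.val_mul, theta_val, theta_val, theta_val, submatrix_mul_equiv, ← transpose_mul,
      ← Units.val_mul, _root_.mul_inv_rev]

theorem theta_mem [Finite F] {k : ℕ} (g : GL (Fin n) F) (hg : g ∈ PK F n k) :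
    theta g ∈ PK F n (n - k) := by
  apply mem_of_zero
  intro i j hi hj
  rw [theta_val, submatrix_apply, transpose_apply]
  apply zero_of_mem g⁻¹ ((PK F n k).inv_mem hg)
  · simp only [Fin.revPerm_apply, Fin.val_rev]; omega
  · simp only [Fin.revPerm_apply, Fin.val_rev]; have := i.2; omega

theorem map_theta [Finite F] {k : ℕ} (hk : k ≤ n) :
    (PK F n k).map (thetaEquiv (F := F) (n := n)).toMonoidHom = PK F n (n - k) := by
  ext x
  constructor
  · rintro ⟨g, hg, rfl⟩
    exact theta_mem g hg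
  · intro hx
    refine ⟨theta x, ?_, theta_theta x⟩
    have := theta_mem x hx
    rwa [Nat.sub_sub_self hk] at this

/-- elementary transvection in `GL` -/
noncomputable def tv (a b : Fin n) (hab : a ≠ b) : GL (Fin n) F :=
  GeneralLinearGroup.mkOfDetNeZero (Matrix.transvection a b 1)
    (by rw [det_transvection_of_ne _ _ hab]; exact one_ne_zero)

theorem tv_val (a b : Fin n) (hab : a ≠ b) :
    (tv (F := F) a b hab).1 = 1 + single a b 1 := rfl

theorem tv_mulVec (a b : Fin n) (hab : a ≠ b) (x : Fin n → F) :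
    (tv (F := F) a b hab).1 *ᵥ x = x + x b • Pi.single a 1 := by
  rw [tv_val, add_mulVec, one_mulVec]
  congr 1
  ext i
  rw [mulVec, dotProduct, Finset.sum_eq_single b]
  · by_cases h : a = i
    · subst h; simp
    · simp [single_apply, Pi.single_apply, h, Ne.symm h]
  · intro l _ hl
    rw [single_apply, if_neg (by rintro ⟨-, rfl⟩; exact hl rfl), zero_mul]
  · intro h; exact absurd (Finset.mem_univ b) h

theorem tv_mem [Finite F] {j : ℕ} (a b : Fin n) (hab : a ≠ b) (h : (a : ℕ) < j ∨ j ≤ (b : ℕ)) :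
    tv (F := F) a b hab ∈ PK F n j := by
  apply mem_of_zero
  intro i l hi hl
  rw [tv_val, Matrix.add_apply, one_apply_ne (by rintro rfl; omega), single_apply, if_neg, add_zero]
  rintro ⟨rfl, rfl⟩
  omega

theorem card_W [Finite F] {k : ℕ} (hk : k ≤ n) :
    Nat.card {v : Fin n → F | ∀ i : Fin n, k ≤ (i : ℕ) → v i = 0} = Nat.card F ^ k := by
  have : Nat.card (Fin k → F) = Nat.card F ^ k := by
    rw [Nat.card_fun]; simp
  rw [← this]
  refine Nat.card_congr ⟨fun w i => w.1 (Fin.castLE hk i),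
    fun f => ⟨fun i => if h : (i : ℕ) < k then f ⟨i, h⟩ else 0, ?_⟩, ?_, ?_⟩
  · intro i hi
    change (if h : (i : ℕ) < k then f ⟨i, h⟩ else 0) = 0
    rw [dif_neg (by omega)]
  · intro w
    apply Subtype.ext
    ext i
    by_cases h : (i : ℕ) < k
    · simp [h]
    · simp only [h, dif_neg, not_false_eq_true]
      exact (w.2 i (by omega)).symm
  · intro f
    ext i
    simp

/-- the image subspace -/
def Usub (g : GL (Fin n) F) (k : ℕ) : Submodule F (Fin n → F) :=
  (Wsub F n k).comap (Matrix.toLin' g⁻¹.1)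

theorem mem_Usub (g : GL (Fin n) F) (k : ℕ) (x : Fin n → F) :
    x ∈ Usub g k ↔ ∀ i : Fin n, k ≤ (i : ℕ) → (g⁻¹.1 *ᵥ x) i = 0 := Iff.rfl

theorem inv_U {k j : ℕ} (g : GL (Fin n) F)
    (hconj : (PK F n k).map (MulAut.conj g).toMonoidHom = PK F n j) (h : GL (Fin n) F)
    (hh : h ∈ PK F n j) (x : Fin n → F) (hx : x ∈ Usub g k) : h.1 *ᵥ x ∈ Usub g k := by
  rw [← hconj] at hh
  obtain ⟨h', hh', rfl⟩ := hh
  have e : g⁻¹.1 *ᵥ ((g * h' * g⁻¹).1 *ᵥ x) = h'.1 *ᵥ (g⁻¹.1 *ᵥ x) := by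
    rw [mulVec_mulVec, mulVec_mulVec, ← Units.val_mul, ← Units.val_mul]
    congr 2
    group
  rw [mem_Usub]
  change ∀ i : Fin n, _ → (g⁻¹.1 *ᵥ ((g * h' * g⁻¹).1 *ᵥ x)) i = 0
  rw [e]
  exact (hh' _).1 hx

theorem step [Finite F] {k j : ℕ} (g : GL (Fin n) F)
    (hconj : (PK F n k).map (MulAut.conj g).toMonoidHom = PK F n j)
    (x : Fin n → F) (hx : x ∈ Usub g k) (a b : Fin n) (hab : a ≠ b)
    (h : (a : ℕ) < j ∨ j ≤ (b : ℕ)) (hxb : x b ≠ 0) : Pi.single a (1 : F) ∈ Usub g k := by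
  have h1 := inv_U g hconj _ (tv_mem a b hab h) x hx
  rw [tv_mulVec] at h1
  have h2 := (Usub g k).sub_mem h1 hx
  rw [add_sub_cancel_left] at h2
  have h3 := (Usub g k).smul_mem (x b)⁻¹ h2
  rwa [smul_smul, inv_mul_cancel₀ hxb, one_smul] at h3

theorem eq_sum (x : Fin n → F) : x = ∑ a, x a • (Pi.single a (1 : F) : Fin n → F) := by
  ext i
  simp [Finset.sum_apply, Pi.single_apply]

theorem self_mem (U : Submodule F (Fin n → F)) (x : Fin n → F) (hx : x ∈ U) (b : Fin n)
    (hxb : x b ≠ 0) (H : ∀ a, a ≠ b → x a • (Pi.single a (1 : F) : Fin n → F) ∈ U) :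
    (Pi.single b (1 : F) : Fin n → F) ∈ U := by
  have h1 : x b • (Pi.single b (1 : F) : Fin n → F) =
      x - ∑ a ∈ Finset.univ.erase b, x a • (Pi.single a (1 : F) : Fin n → F) := by
    rw [eq_sub_iff_add_eq,
      Finset.add_sum_erase _ (fun a => x a • (Pi.single a (1 : F) : Fin n → F)) (Finset.mem_univ b),
      ← eq_sum]
  have h2 : x b • (Pi.single b (1 : F) : Fin n → F) ∈ U := by
    rw [h1]
    exact U.sub_mem hx (U.sum_mem (fun a ha => H a (Finset.ne_of_mem_erase ha)))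
  have h3 := U.smul_mem (x b)⁻¹ h2
  rwa [smul_smul, inv_mul_cancel₀ hxb, one_smul] at h3

theorem not_conj [Finite F] {k : ℕ} (hk0 : 0 < k) (hkn : k < n) (h2k : 2 * k ≠ n)
    (g : GL (Fin n) F)
    (hconj : (PK F n k).map (MulAut.conj g).toMonoidHom = PK F n (n - k)) : False := by
  set j := n - k with hj
  set U := Usub g k with hU
  have hall : ∀ y : Fin n → F, (∀ a, y a ≠ 0 → (Pi.single a (1 : F) : Fin n → F) ∈ U) → y ∈ U := by
    intro y hy
    rw [eq_sum y]
    apply U.sum_mem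
    intro a _
    by_cases h : y a = 0
    · rw [h, zero_smul]; exact U.zero_mem
    · exact U.smul_mem _ (hy a h)
  have hinv : ∀ y : Fin n → F, g⁻¹.1 *ᵥ (g.1 *ᵥ y) = y := by
    intro y
    rw [mulVec_mulVec, ← Units.val_mul, inv_mul_cancel]; simp
  have hinv' : ∀ y : Fin n → F, g.1 *ᵥ (g⁻¹.1 *ᵥ y) = y := by
    intro y
    rw [mulVec_mulVec, ← Units.val_mul, mul_inv_cancel]; simp
  by_cases hA : ∃ x ∈ U, ∃ b : Fin n, j ≤ (b : ℕ) ∧ x b ≠ 0
  · obtain ⟨x, hx, b, hb, hxb⟩ := hA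
    have h1 : ∀ a, a ≠ b → (Pi.single a (1 : F) : Fin n → F) ∈ U :=
      fun a hab => step g hconj x hx a b hab (Or.inr hb) hxb
    have h2 : (Pi.single b (1 : F) : Fin n → F) ∈ U :=
      self_mem U x hx b hxb (fun a hab => U.smul_mem _ (h1 a hab))
    have h3 : ∀ y, y ∈ U := fun y => hall y (fun a _ => by
      by_cases hab : a = b
      · subst hab; exact h2
      · exact h1 a hab)
    have h4 := h3 (g.1 *ᵥ Pi.single ⟨n - 1, by omega⟩ 1)
    rw [hU, mem_Usub] at h4
    have h5 := h4 ⟨n - 1, by omega⟩ (by simp only; omega)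
    rw [hinv] at h5
    simp at h5
  · push Not at hA
    set x0 : Fin n → F := g.1 *ᵥ Pi.single ⟨0, by omega⟩ 1 with hx0def
    have hx0 : x0 ∈ U := by
      rw [hU, mem_Usub]
      intro i hi
      rw [hx0def, hinv, Pi.single_apply, if_neg]
      intro h
      rw [h] at hi
      simp only at hi
      omega
    have hx0ne : x0 ≠ 0 := by
      intro h
      have h' := cancel_mulVec g (a := Pi.single ⟨0, by omega⟩ 1) (b := 0)
        (by rw [mulVec_zero]; exact h)
      have := congr_fun h' ⟨0, by omega⟩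
      simp at this
    obtain ⟨b, hb⟩ : ∃ b, x0 b ≠ 0 := Function.ne_iff.1 hx0ne
    have hbj : (b : ℕ) < j := by
      by_contra h
      exact hb (hA x0 hx0 b (by omega))
    have h1 : ∀ a : Fin n, a ≠ b → (a : ℕ) < j → (Pi.single a (1 : F) : Fin n → F) ∈ U :=
      fun a hab haj => step g hconj x0 hx0 a b hab (Or.inl haj) hb
    have h2 : (Pi.single b (1 : F) : Fin n → F) ∈ U := self_mem U x0 hx0 b hb (fun a hab => by
      by_cases haj : (a : ℕ) < j
      · exact U.smul_mem _ (h1 a hab haj)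
      · rw [hA x0 hx0 a (by omega), zero_smul]; exact U.zero_mem)
    have h3 : ∀ y, y ∈ U ↔ y ∈ {v : Fin n → F | ∀ i : Fin n, j ≤ (i : ℕ) → v i = 0} := by
      intro y
      constructor
      · intro hy i hi; exact hA y hy i hi
      · intro hy
        apply hall
        intro a ha
        have haj : (a : ℕ) < j := by
          by_contra h
          exact ha (hy a (by omega))
        by_cases hab : a = b
        · subst hab; exact h2
        · exact h1 a hab haj
    have hcard : Nat.card {v : Fin n → F | ∀ i : Fin n, j ≤ (i : ℕ) → v i = 0} =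
        Nat.card {v : Fin n → F | ∀ i : Fin n, k ≤ (i : ℕ) → v i = 0} := by
      refine Nat.card_congr ⟨fun y => ⟨g⁻¹.1 *ᵥ y.1, (h3 y.1).2 y.2⟩,
        fun w => ⟨g.1 *ᵥ w.1, (h3 _).1 (by
          rw [hU, mem_Usub, hinv]; exact w.2)⟩, ?_, ?_⟩
      · intro y
        exact Subtype.ext (hinv' y.1)
      · intro w
        exact Subtype.ext (hinv w.1)
    rw [card_W (by omega), card_W (by omega)] at hcard
    have hF1 : 1 < Nat.card F := Finite.one_lt_card
    have := Nat.pow_right_injective hF1 hcard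
    omega


/-- The stabilisers in GL_n(F), F finite, of the coordinate subspaces of dimensions k and n − k are isomorphic groups, but when 2k ≠ n (and 0 < k < n) no element of GL_n conjugates one onto the other. -/
theorem result {F : Type*} [Field F] [Finite F] (n k : ℕ) (hk0 : 0 < k) (hkn : k < n) (h2 : 2 * k ≠ n) : Nonempty (↥(Cfsg.stabilizing (Cfsg.glToMat (Fin n) F) {v : Fin n → F | ∀ i : Fin n, k ≤ (i : ℕ) → v i = 0}) ≃* ↥(Cfsg.stabilizing (Cfsg.glToMat (Fin n) F) {v : Fin n → F | ∀ i : Fin n, n - k ≤ (i : ℕ) → v i = 0})) ∧ ∀ g : Matrix.GeneralLinearGroup (Fin n) F, (Cfsg.stabilizing (Cfsg.glToMat (Fin n) F) {v : Fin n → F | ∀ i : Fin n, k ≤ (i : ℕ) → v i = 0}).map (MulAut.conj g).toMonoidHom ≠ Cfsg.stabilizing (Cfsg.glToMat (Fin n) F) {v : Fin n → F | ∀ i : Fin n, n - k ≤ (i : ℕ) → v i = 0} := by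
  classical
  refine ⟨⟨((thetaEquiv (F := F) (n := n)).subgroupMap (PK F n k)).trans
    (MulEquiv.subgroupCongr (map_theta hkn.le))⟩, ?_⟩
  intro g hconj
  exact not_conj hk0 hkn h2 g hconj
end Cfsg.Agent.S0773
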