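import Cfsg.Statements.S0776
import Mathlib
import Cfsg.Agent.Lib.Helper5.SympAbstract

set_option autoImplicit false
open Cfsg

namespace Cfsg.Agent.S0776

open Matrix Module Cfsg.Agent.Lib.Helper5.Symp Cfsg.Agent.Lib.Helper5.SympGen
  Cfsg.Agent.Lib.Helper5.SympBridge Cfsg.Agent.Lib.Helper5.SympPerfect
  Cfsg.Agent.Lib.Helper5.SympAbstract

variable {F : Type*} [Field F] {m : ℕ}

theorem form_split (W W' : Submodule F (Fin m ⊕ Fin m → F))
    (hperp : ∀ w ∈ W, ∀ x ∈ W', Cfsg.sympForm m F w x = 0) (a b : W) (a' b' : W') :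
    Cfsg.sympForm m F (a.1 + a'.1) (b.1 + b'.1) =
      Cfsg.sympForm m F a.1 b.1 + Cfsg.sympForm m F a'.1 b'.1 := by
  rw [sympForm_add_left, sympForm_add_right, sympForm_add_right, hperp a.1 a.2 b'.1 b'.2,
    sympForm_swap a'.1 b.1, hperp b.1 b.2 a'.1 a'.2]
  ring

theorem exists_restr {r : ℕ} (X : Submodule F (Fin m ⊕ Fin m → F))
    (χ : X ≃ₗ[F] (Fin r ⊕ Fin r → F))
    (hχ : ∀ u v : X, Cfsg.sympForm r F (χ u) (χ v) = Cfsg.sympForm m F u.1 v.1)
    (g : Matrix.symplecticGroup (Fin m) F) (hg : ∀ x ∈ X, g.1 *ᵥ x ∈ X) :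
    ∃ A : Matrix.symplecticGroup (Fin r) F, ∀ (x : Fin m ⊕ Fin m → F) (hx : x ∈ X),
      A.1 *ᵥ χ ⟨x, hx⟩ = χ ⟨g.1 *ᵥ x, hg x hx⟩ := by
  have hg' : ∀ x ∈ X, Matrix.toLin' g.1 x ∈ X := fun x hx => by
    rw [toLin'_apply]; exact hg x hx
  set L : (Fin r ⊕ Fin r → F) →ₗ[F] (Fin r ⊕ Fin r → F) :=
    (χ : X →ₗ[F] (Fin r ⊕ Fin r → F)) ∘ₗ (Matrix.toLin' g.1).restrict hg' ∘ₗ
      (χ.symm : (Fin r ⊕ Fin r → F) →ₗ[F] X) with hL
  have hLf : ∀ u v, Cfsg.sympForm r F (L u) (L v) = Cfsg.sympForm r F u v := by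
    intro u v
    simp only [hL, LinearMap.comp_apply, LinearEquiv.coe_coe]
    rw [hχ]
    simp only [LinearMap.coe_restrict_apply, toLin'_apply]
    rw [preserves, ← hχ, χ.apply_symm_apply, χ.apply_symm_apply]
  obtain ⟨A, hA⟩ := Cfsg.Agent.Lib.Helper5.SympCard.exists_sp_of_linearMap L hLf
  refine ⟨A, fun x hx => ?_⟩
  rw [hA]
  simp only [hL, LinearMap.comp_apply, LinearEquiv.coe_coe, χ.symm_apply_apply]
  congr 1

theorem mem_stab_of_le (W : Submodule F (Fin m ⊕ Fin m → F))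
    (g : Matrix.symplecticGroup (Fin m) F) (hg : ∀ x ∈ W, g.1 *ᵥ x ∈ W) :
    g ∈ Cfsg.stabilizing (Cfsg.spToMat m F) (W : Set (Fin m ⊕ Fin m → F)) := by
  have hg' : ∀ x ∈ W, Matrix.toLin' g.1 x ∈ W := fun x hx => by
    rw [toLin'_apply]; exact hg x hx
  have hinj : Function.Injective ((Matrix.toLin' g.1).restrict hg') := by
    intro a b hab
    have h1 := congr_arg Subtype.val hab
    simp only [LinearMap.coe_restrict_apply, toLin'_apply] at h1
    apply Subtype.ext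
    rw [← inv_mul_mulVec g a.1, h1, inv_mul_mulVec]
  have hsurj := LinearMap.injective_iff_surjective.1 hinj
  intro v
  refine ⟨hg v, fun hv => ?_⟩
  obtain ⟨w, hw⟩ := hsurj ⟨_, hv⟩
  have h1 := congr_arg Subtype.val hw
  simp only [LinearMap.coe_restrict_apply, toLin'_apply] at h1
  have h2 : w.1 = v := by
    rw [← inv_mul_mulVec g w.1, h1]
    exact inv_mul_mulVec g v
  rw [← h2]; exact w.2

theorem exists_glue {r s : ℕ} (W W' : Submodule F (Fin m ⊕ Fin m → F)) (hc : IsCompl W W')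
    (hperp : ∀ w ∈ W, ∀ x ∈ W', Cfsg.sympForm m F w x = 0)
    (φ : W ≃ₗ[F] (Fin r ⊕ Fin r → F))
    (hφ : ∀ u v : W, Cfsg.sympForm r F (φ u) (φ v) = Cfsg.sympForm m F u.1 v.1)
    (ψ : W' ≃ₗ[F] (Fin s ⊕ Fin s → F))
    (hψ : ∀ u v : W', Cfsg.sympForm s F (ψ u) (ψ v) = Cfsg.sympForm m F u.1 v.1)
    (A : Matrix.symplecticGroup (Fin r) F) (D : Matrix.symplecticGroup (Fin s) F) :
    ∃ G : Matrix.symplecticGroup (Fin m) F, (∀ a : W, G.1 *ᵥ a.1 = (φ.symm (A.1 *ᵥ φ a)).1) ∧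
      (∀ b : W', G.1 *ᵥ b.1 = (ψ.symm (D.1 *ᵥ ψ b)).1) := by
  set E := W.prodEquivOfIsCompl W' hc with hE
  set LA : W →ₗ[F] W := (φ.symm : _ →ₗ[F] W) ∘ₗ Matrix.toLin' A.1 ∘ₗ (φ : W →ₗ[F] _) with hLA
  set LD : W' →ₗ[F] W' := (ψ.symm : _ →ₗ[F] W') ∘ₗ Matrix.toLin' D.1 ∘ₗ (ψ : W' →ₗ[F] _) with hLD
  have hLAf : ∀ a b : W, Cfsg.sympForm m F (LA a).1 (LA b).1 = Cfsg.sympForm m F a.1 b.1 := by
    intro a b
    rw [← hφ, ← hφ a b]
    simp only [hLA, LinearMap.comp_apply, LinearEquiv.coe_coe, φ.apply_symm_apply, toLin'_apply]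
    exact preserves A _ _
  have hLDf : ∀ a b : W', Cfsg.sympForm m F (LD a).1 (LD b).1 = Cfsg.sympForm m F a.1 b.1 := by
    intro a b
    rw [← hψ, ← hψ a b]
    simp only [hLD, LinearMap.comp_apply, LinearEquiv.coe_coe, ψ.apply_symm_apply, toLin'_apply]
    exact preserves D _ _
  set T : (Fin m ⊕ Fin m → F) →ₗ[F] (Fin m ⊕ Fin m → F) :=
    (E : (W × W') →ₗ[F] (Fin m ⊕ Fin m → F)) ∘ₗ (LinearMap.prodMap LA LD) ∘ₗ
      (E.symm : (Fin m ⊕ Fin m → F) →ₗ[F] (W × W')) with hT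
  have hTE : ∀ x : W × W', T (E x) = (LA x.1).1 + (LD x.2).1 := by
    intro x
    simp only [hT, LinearMap.comp_apply, LinearEquiv.coe_coe, E.symm_apply_apply,
      LinearMap.prodMap_apply]
    rfl
  have hEx : ∀ x : W × W', E x = x.1.1 + x.2.1 := fun x => rfl
  have hTf : ∀ u v, Cfsg.sympForm m F (T u) (T v) = Cfsg.sympForm m F u v := by
    intro u v
    obtain ⟨x, rfl⟩ := E.surjective u
    obtain ⟨y, rfl⟩ := E.surjective v
    rw [hTE, hTE, hEx, hEx, form_split W W' hperp, form_split W W' hperp, hLAf, hLDf]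
  obtain ⟨G, hG⟩ := Cfsg.Agent.Lib.Helper5.SympCard.exists_sp_of_linearMap T hTf
  refine ⟨G, fun a => ?_, fun b => ?_⟩
  · have e : a.1 = E (a, 0) := by rw [hEx]; simp
    rw [hG, e, hTE]
    simp [hLA]
  · have e : b.1 = E (0, b) := by rw [hEx]; simp
    rw [hG, e, hTE]
    simp [hLD]


/-- If W ≤ F^(2m) is a 2k-dimensional subspace on which the symplectic form is non-degenerate, then the stabiliser of W in Sp_2m(F) is isomorphic to Sp_2k(F) × Sp_(2m−2k)(F). -/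
theorem result {F : Type*} [Field F] (m k : ℕ) (hk : k ≤ m) (W : Submodule F (Fin m ⊕ Fin m → F)) (hWk : Module.finrank F W = 2 * k) (hW : ∀ u ∈ W, (∀ v ∈ W, Cfsg.sympForm m F u v = 0) → u = 0) : Nonempty (↥(Cfsg.stabilizing (Cfsg.spToMat m F) (W : Set (Fin m ⊕ Fin m → F))) ≃* Matrix.symplecticGroup (Fin k) F × Matrix.symplecticGroup (Fin (m - k)) F) := by
  classical
  set B := sympB m F with hB
  set W' := B.orthogonal W with hW'
  have hperp : ∀ w ∈ W, ∀ x ∈ W', Cfsg.sympForm m F w x = 0 := fun w hw x hx => hx w hw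
  have hBW : (B.restrict W).Nondegenerate := by
    constructor
    · intro x hx
      apply Subtype.ext
      exact hW x.1 x.2 (fun v hv => hx ⟨v, hv⟩)
    · intro y hy
      apply Subtype.ext
      apply hW y.1 y.2
      intro v hv
      rw [sympForm_swap]
      have := hy ⟨v, hv⟩
      change Cfsg.sympForm m F v y.1 = 0 at this
      rw [this, neg_zero]
  have hc : IsCompl W W' :=
    LinearMap.BilinForm.isCompl_orthogonal_of_restrict_nondegenerate sympB_alt.isRefl hBW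
  have hdec : ∀ v : Fin m ⊕ Fin m → F, ∃ a : W, ∃ b : W', v = a.1 + b.1 := by
    intro v
    obtain ⟨x, rfl⟩ := (W.prodEquivOfIsCompl W' hc).surjective v
    exact ⟨x.1, x.2, rfl⟩
  have hBW' : (B.restrict W').Nondegenerate := by
    have key : ∀ x : W', (∀ y : W', Cfsg.sympForm m F x.1 y.1 = 0) → x = 0 := by
      intro x hx
      apply Subtype.ext
      apply eq_zero_of_forall
      intro v
      obtain ⟨a, b, rfl⟩ := hdec v
      rw [sympForm_add_right, hx b, sympForm_swap, hperp a.1 a.2 x.1 x.2]; simp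
    constructor
    · intro x hx; exact key x hx
    · intro y hy
      apply key
      intro x
      rw [sympForm_swap]
      have := hy x
      change Cfsg.sympForm m F x.1 y.1 = 0 at this
      rw [this, neg_zero]
  have hfin' : finrank F W' = 2 * (m - k) := by
    have := Submodule.finrank_add_eq_of_isCompl hc
    rw [hWk, Module.finrank_fintype_fun_eq_card, Fintype.card_sum, Fintype.card_fin] at this
    omega
  obtain ⟨φ, hφ⟩ := exists_equiv_std (B.restrict W) hBW (fun v => sympForm_self v.1) hWk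
  obtain ⟨ψ, hψ⟩ := exists_equiv_std (B.restrict W') hBW' (fun v => sympForm_self v.1) hfin'
  have hφ' : ∀ u v : W, Cfsg.sympForm k F (φ u) (φ v) = Cfsg.sympForm m F u.1 v.1 := hφ
  have hψ' : ∀ u v : W', Cfsg.sympForm (m - k) F (ψ u) (ψ v) = Cfsg.sympForm m F u.1 v.1 := hψ
  set S := Cfsg.stabilizing (Cfsg.spToMat m F) (W : Set (Fin m ⊕ Fin m → F)) with hS
  have hSW : ∀ g : S, ∀ x ∈ W, g.1.1 *ᵥ x ∈ W := fun g x hx => (g.2 x).1 hx
  have hSW' : ∀ g : S, ∀ x ∈ W', g.1.1 *ᵥ x ∈ W' := by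
    intro g x hx w hw
    change Cfsg.sympForm m F w (g.1.1 *ᵥ x) = 0
    have h1 : (g.1⁻¹).1 *ᵥ w ∈ W := hSW g⁻¹ w hw
    rw [← mul_inv_mulVec g.1 w, preserves]
    exact hperp _ h1 x hx
  choose A hA using fun g : S => exists_restr W φ hφ' g.1 (hSW g)
  choose D hD using fun g : S => exists_restr W' ψ hψ' g.1 (hSW' g)
  let Φ : S →* Matrix.symplecticGroup (Fin k) F × Matrix.symplecticGroup (Fin (m - k)) F :=
    MonoidHom.mk' (fun g => (A g, D g)) (by
      intro g h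
      apply Prod.ext
      · apply ext_mulVec
        intro u
        obtain ⟨x, rfl⟩ := φ.surjective u
        change (A (g * h)).1 *ᵥ φ x = ((A g) * (A h)).1 *ᵥ φ x
        rw [coe_mul_mulVec, show x = ⟨x.1, x.2⟩ from rfl, hA, hA, hA]
        congr 2
        exact coe_mul_mulVec g.1 h.1 x.1
      · apply ext_mulVec
        intro u
        obtain ⟨x, rfl⟩ := ψ.surjective u
        change (D (g * h)).1 *ᵥ ψ x = ((D g) * (D h)).1 *ᵥ ψ x
        rw [coe_mul_mulVec, show x = ⟨x.1, x.2⟩ from rfl, hD, hD, hD]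
        congr 2
        exact coe_mul_mulVec g.1 h.1 x.1)
  refine ⟨MulEquiv.ofBijective Φ ⟨?_, ?_⟩⟩
  · rw [injective_iff_map_eq_one]
    intro g hg
    have hgA : A g = 1 := congr_arg Prod.fst hg
    have hgD : D g = 1 := congr_arg Prod.snd hg
    apply Subtype.ext
    apply ext_mulVec
    intro v
    obtain ⟨a, b, rfl⟩ := hdec v
    have h1 : g.1.1 *ᵥ a.1 = a.1 := by
      have := hA g a.1 a.2
      rw [hgA, coe_one_mulVec] at this
      exact (congr_arg Subtype.val (φ.injective this)).symm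
    have h2 : g.1.1 *ᵥ b.1 = b.1 := by
      have := hD g b.1 b.2
      rw [hgD, coe_one_mulVec] at this
      exact (congr_arg Subtype.val (ψ.injective this)).symm
    rw [mulVec_add, h1, h2]
    exact (coe_one_mulVec _).symm
  · rintro ⟨A₀, D₀⟩
    obtain ⟨G, hGa, hGb⟩ := exists_glue W W' hc hperp φ hφ' ψ hψ' A₀ D₀
    have hGS : G ∈ S := mem_stab_of_le W G (fun x hx => by
      rw [hGa ⟨x, hx⟩]; exact Subtype.coe_prop _)
    refine ⟨⟨G, hGS⟩, Prod.ext ?_ ?_⟩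
    · apply ext_mulVec
      intro u
      obtain ⟨x, rfl⟩ := φ.surjective u
      change (A ⟨G, hGS⟩).1 *ᵥ φ x = A₀.1 *ᵥ φ x
      rw [show x = ⟨x.1, x.2⟩ from rfl, hA]
      have : (⟨G.1 *ᵥ x.1, hSW ⟨G, hGS⟩ x.1 x.2⟩ : W) = φ.symm (A₀.1 *ᵥ φ x) :=
        Subtype.ext (hGa x)
      rw [this, φ.apply_symm_apply]
    · apply ext_mulVec
      intro u
      obtain ⟨x, rfl⟩ := ψ.surjective u
      change (D ⟨G, hGS⟩).1 *ᵥ ψ x = D₀.1 *ᵥ ψ x
      rw [show x = ⟨x.1, x.2⟩ from rfl, hD]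
      have : (⟨G.1 *ᵥ x.1, hSW' ⟨G, hGS⟩ x.1 x.2⟩ : W') = ψ.symm (D₀.1 *ᵥ ψ x) :=
        Subtype.ext (hGb x)
      rw [this, ψ.apply_symm_apply]
end Cfsg.Agent.S0776
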