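import Cfsg.Statements.S0775
import Mathlib
import Cfsg.Agent.Lib.Helper5.SympAbstract
import Cfsg.Agent.S0776

set_option autoImplicit false
open Cfsg

namespace Cfsg.Agent.S0775

open Matrix Module Cfsg.Agent.Lib.Helper5.Symp Cfsg.Agent.Lib.Helper5.SympGen
  Cfsg.Agent.Lib.Helper5.SympBridge Cfsg.Agent.Lib.Helper5.SympPerfect
  Cfsg.Agent.Lib.Helper5.SympAbstract

variable {F : Type*} [Field F] {m : ℕ}

/-- isotropic independent families -/
def XX (F : Type*) [Field F] (m k : ℕ) : Set (Fin k → (Fin m ⊕ Fin m → F)) :=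
  {r | LinearIndependent F r ∧ ∀ i j, Cfsg.sympForm m F (r i) (r j) = 0}

/-- peel off the first vector -/
def peel (k : ℕ) : XX F m (k + 1) ≃ Σ r : XX F m k,
    {v : Fin m ⊕ Fin m → F // v ∉ Submodule.span F (Set.range r.1) ∧
      ∀ i, Cfsg.sympForm m F (r.1 i) v = 0} where
  toFun s := ⟨⟨Fin.tail s.1, (linearIndependent_finSucc.mp s.2.1).1,
      fun i j => s.2.2 i.succ j.succ⟩,
    ⟨s.1 0, (linearIndependent_finSucc.mp s.2.1).2, fun i => s.2.2 i.succ 0⟩⟩
  invFun x := ⟨Fin.cons x.2.1 x.1.1, linearIndependent_finCons.mpr ⟨x.1.2.1, x.2.2.1⟩, by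
    intro i j
    refine Fin.cases ?_ (fun i' => ?_) i <;> refine Fin.cases ?_ (fun j' => ?_) j
    · simp only [Fin.cons_zero]; exact sympForm_self _
    · simp only [Fin.cons_zero, Fin.cons_succ]; rw [sympForm_swap, x.2.2.2 j', neg_zero]
    · simp only [Fin.cons_zero, Fin.cons_succ]; exact x.2.2.2 i'
    · simp only [Fin.cons_succ]; exact x.1.2.2 i' j'⟩
  left_inv s := by
    apply Subtype.ext
    simp only [Fin.cons_self_tail]
  right_inv := by
    rintro ⟨⟨r, hr⟩, ⟨v, hv⟩⟩
    rfl

theorem card_fiber [Fintype F] {k : ℕ} (r : XX F m k) :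
    Nat.card {v : Fin m ⊕ Fin m → F // v ∉ Submodule.span F (Set.range r.1) ∧
      ∀ i, Cfsg.sympForm m F (r.1 i) v = 0} =
      Fintype.card F ^ (2 * m - k) - Fintype.card F ^ k := by
  set U := Submodule.span F (Set.range r.1) with hU
  set U' := (sympB m F).orthogonal U with hU'
  have hmem : ∀ v, (∀ i, Cfsg.sympForm m F (r.1 i) v = 0) ↔ v ∈ U' := by
    intro v
    constructor
    · intro h
      have : U ≤ LinearMap.ker ((sympB m F).flip v) := by
        rw [hU, Submodule.span_le]
        rintro _ ⟨i, rfl⟩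
        exact h i
      intro n hn
      exact this hn
    · intro h i
      exact h (r.1 i) (Submodule.subset_span ⟨i, rfl⟩)
  have hle : U ≤ U' := by
    rw [hU, Submodule.span_le]
    rintro _ ⟨j, rfl⟩
    exact (hmem _).1 (fun i => r.2.2 i j)
  have hfU : finrank F U = k := by
    rw [hU, finrank_span_eq_card r.2.1, Fintype.card_fin]
  have hfU' : finrank F U' = 2 * m - k := by
    rw [hU', LinearMap.BilinForm.finrank_orthogonal sympB_nondeg, hfU,
      Module.finrank_fintype_fun_eq_card, Fintype.card_sum, Fintype.card_fin]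
    congr 1; omega
  have h1 : Nat.card {v : Fin m ⊕ Fin m → F // v ∉ U ∧
      ∀ i, Cfsg.sympForm m F (r.1 i) v = 0} = ((U' : Set (Fin m ⊕ Fin m → F)) \ U).ncard := by
    rw [← _root_.Nat.card_coe_set_eq]
    apply Nat.card_congr
    apply Equiv.subtypeEquivRight
    intro v
    rw [hmem, Set.mem_sdiff]
    exact and_comm
  rw [h1, Set.ncard_sdiff hle, ← _root_.Nat.card_coe_set_eq, ← _root_.Nat.card_coe_set_eq]
  change Nat.card U' - Nat.card U = _
  rw [Module.natCard_eq_pow_finrank (K := F), Module.natCard_eq_pow_finrank (K := F) (V := U),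
    hfU, hfU', Nat.card_eq_fintype_card]

theorem card_XX [Fintype F] (k : ℕ) : Nat.card (XX F m k) =
    ∏ i ∈ Finset.range k, (Fintype.card F ^ (2 * m - i) - Fintype.card F ^ i) := by
  classical
  induction k with
  | zero =>
    have : Unique (XX F m 0) :=
      { default := ⟨Fin.elim0, linearIndependent_empty_type, fun i => i.elim0⟩
        uniq := fun f => Subtype.ext (funext fun i => i.elim0) }
    simp
  | succ k ih =>
    have : Fintype (XX F m k) := Fintype.ofFinite _
    rw [Nat.card_congr (peel k), Nat.card_sigma, Finset.prod_range_succ]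
    simp only [card_fiber]
    rw [Finset.sum_const, Finset.card_univ, ← Nat.card_eq_fintype_card, ih, smul_eq_mul]

theorem card_of_transitive {G X : Type*} [Group G] (ev : G → X) (hsurj : Function.Surjective ev)
    (C : Subgroup G) (hfib : ∀ a b, ev a = ev b ↔ a⁻¹ * b ∈ C) :
    Nat.card G = Nat.card X * Nat.card C := by
  rw [Subgroup.card_eq_card_quotient_mul_card_subgroup C]
  congr 1
  apply Nat.card_congr
  refine Equiv.ofBijective (Quotient.lift ev
    (fun a b hab => (hfib a b).2 (QuotientGroup.leftRel_apply.1 hab))) ⟨?_, ?_⟩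
  · intro a b
    induction a using QuotientGroup.induction_on with
    | H a =>
      induction b using QuotientGroup.induction_on with
      | H b =>
        intro h
        exact QuotientGroup.eq.2 ((hfib _ _).1 h)
  · intro x
    obtain ⟨a, rfl⟩ := hsurj x
    exact ⟨QuotientGroup.mk a, rfl⟩

/-- pointwise stabiliser of a family -/
def fixer {k : ℕ} (r : Fin k → (Fin m ⊕ Fin m → F)) :
    Subgroup (Matrix.symplecticGroup (Fin m) F) where
  carrier := {A | ∀ i, A.1 *ᵥ r i = r i}
  mul_mem' := by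
    intro a b ha hb i
    rw [coe_mul_mulVec, hb i, ha i]
  one_mem' := fun i => coe_one_mulVec _
  inv_mem' := by
    intro a ha i
    conv_lhs => rw [← ha i]
    exact inv_mul_mulVec a _

theorem li_map {k : ℕ} (A : Matrix.symplecticGroup (Fin m) F) (r : Fin k → (Fin m ⊕ Fin m → F))
    (hr : LinearIndependent F r) : LinearIndependent F (fun i => A.1 *ᵥ r i) := by
  have := hr.map' (Matrix.toLin' A.1) (LinearMap.ker_eq_bot.2 (fun a b hab => by
    simp only [toLin'_apply] at hab
    rw [← inv_mul_mulVec A a, hab, inv_mul_mulVec]))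
  exact this

theorem fib_iff {k : ℕ} (r : Fin k → (Fin m ⊕ Fin m → F))
    (a b : Matrix.symplecticGroup (Fin m) F) :
    (∀ i, a.1 *ᵥ r i = b.1 *ᵥ r i) ↔ a⁻¹ * b ∈ fixer r := by
  constructor
  · intro h i
    rw [coe_mul_mulVec, ← h i, inv_mul_mulVec]
  · intro h i
    have := h i
    rw [coe_mul_mulVec] at this
    rw [← mul_inv_mulVec a (b.1 *ᵥ r i), this]

theorem card_sp_eq {k : ℕ} (r₀ : XX F m k) :
    Nat.card (Matrix.symplecticGroup (Fin m) F) =
      Nat.card (XX F m k) * Nat.card (fixer r₀.1) := by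
  apply card_of_transitive (fun A : Matrix.symplecticGroup (Fin m) F =>
    (⟨fun i => A.1 *ᵥ r₀.1 i, li_map A r₀.1 r₀.2.1,
    fun i j => by rw [preserves]; exact r₀.2.2 i j⟩ : XX F m k))
  · intro r'
    obtain ⟨A, hA⟩ := exists_sp_family r₀.1 r'.1 r₀.2.2 r₀.2.1 r'.2.2 r'.2.1
    exact ⟨A, Subtype.ext (funext hA)⟩
  · intro a b
    rw [← fib_iff]
    constructor
    · intro h i
      exact congr_fun (congr_arg Subtype.val h) i
    · intro h
      exact Subtype.ext (funext h)

theorem mem_S_of_maps {k : ℕ} (W : Submodule F (Fin m ⊕ Fin m → F)) (b : Basis (Fin k) F W)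
    (A : Matrix.symplecticGroup (Fin m) F) (h : ∀ i, A.1 *ᵥ (b i).1 ∈ W) :
    A ∈ Cfsg.stabilizing (Cfsg.spToMat m F) (W : Set (Fin m ⊕ Fin m → F)) := by
  apply Cfsg.Agent.S0776.mem_stab_of_le
  intro x hx
  have hx' : x = ∑ i, (b.repr ⟨x, hx⟩ i) • (b i).1 := by
    have := congr_arg Subtype.val (b.sum_repr ⟨x, hx⟩)
    rw [Submodule.coe_sum] at this
    simpa only [Submodule.coe_smul] using this.symm
  rw [← toLin'_apply, hx', map_sum]
  apply W.sum_mem
  intro i _
  rw [map_smul, toLin'_apply]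
  exact W.smul_mem _ (h i)

theorem card_stab_eq {k : ℕ} (W : Submodule F (Fin m ⊕ Fin m → F)) (b : Basis (Fin k) F W)
    (hW : ∀ u ∈ W, ∀ v ∈ W, Cfsg.sympForm m F u v = 0) :
    Nat.card (Cfsg.stabilizing (Cfsg.spToMat m F) (W : Set (Fin m ⊕ Fin m → F))) =
      Nat.card {s : Fin k → W // LinearIndependent F s} *
        Nat.card (fixer (fun i => (b i).1)) := by
  set S := Cfsg.stabilizing (Cfsg.spToMat m F) (W : Set (Fin m ⊕ Fin m → F)) with hS
  have hli₀ : LinearIndependent F (fun i => (b i).1) :=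
    b.linearIndependent.map' W.subtype (Submodule.ker_subtype W)
  have hle : fixer (fun i => (b i).1) ≤ S := by
    intro A hA
    apply mem_S_of_maps W b
    intro i
    rw [hA i]
    exact (b i).2
  rw [← Nat.card_congr (Subgroup.subgroupOfEquivOfLe hle).toEquiv]
  apply card_of_transitive (fun g : S => (⟨fun i => ⟨g.1.1 *ᵥ (b i).1, (g.2 _).1 (b i).2⟩, by
    apply LinearIndependent.of_comp W.subtype
    exact li_map g.1 _ hli₀⟩ : {s : Fin k → W // LinearIndependent F s}))
  · intro s
    obtain ⟨A, hA⟩ := exists_sp_family (fun i => (b i).1) (fun i => (s.1 i).1)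
      (fun i j => hW _ (b i).2 _ (b j).2) hli₀ (fun i j => hW _ (s.1 i).2 _ (s.1 j).2)
      (s.2.map' W.subtype (Submodule.ker_subtype W))
    refine ⟨⟨A, mem_S_of_maps W b A (fun i => by rw [hA i]; exact (s.1 i).2)⟩, ?_⟩
    apply Subtype.ext
    funext i
    exact Subtype.ext (hA i)
  · intro g g'
    rw [Subgroup.mem_subgroupOf]
    change _ ↔ g.1⁻¹ * g'.1 ∈ _
    rw [← fib_iff]
    constructor
    · intro h i
      exact congr_arg Subtype.val (congr_fun (congr_arg Subtype.val h) i)
    · intro h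
      exact Subtype.ext (funext fun i => Subtype.ext (h i))

theorem arith (q m k : ℕ) (hk : k ≤ m) :
    (∏ i ∈ Finset.range k, (q ^ (2 * m - i) - q ^ i)) *
      (q ^ (k * (k + 1) / 2 + 2 * k * (m - k)) *
        (q ^ ((m - k) ^ 2) * ∏ i ∈ Finset.range (m - k), (q ^ (2 * (i + 1)) - 1))) =
      q ^ (m ^ 2) * ∏ i ∈ Finset.range m, (q ^ (2 * (i + 1)) - 1) := by
  induction k with
  | zero => simp
  | succ k ih =>
    have ih' := ih (by omega)
    rw [← ih', Finset.prod_range_succ, mul_assoc]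
    congr 1
    obtain ⟨t, ht⟩ : ∃ t, m = k + 1 + t := ⟨m - (k + 1), by omega⟩
    subst ht
    have e1 : k + 1 + t - (k + 1) = t := by omega
    have e2 : k + 1 + t - k = t + 1 := by omega
    rw [e1, e2, Finset.prod_range_succ]
    have e3 : q ^ (2 * (k + 1 + t) - k) - q ^ k = q ^ k * (q ^ (2 * (t + 1)) - 1) := by
      rw [Nat.mul_sub, mul_one, ← pow_add]
      congr 2
      omega
    have e4 : (k + 1) * (k + 1 + 1) / 2 = k * (k + 1) / 2 + (k + 1) := by
      have : (k + 1) * (k + 1 + 1) = k * (k + 1) + (k + 1) * 2 := by ring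
      rw [this, Nat.add_mul_div_right _ _ (by norm_num)]
    rw [e3, e4]
    generalize k * (k + 1) / 2 = T
    generalize q ^ (2 * (t + 1)) - 1 = Z
    generalize ∏ i ∈ Finset.range t, (q ^ (2 * (i + 1)) - 1) = P
    ring


/-- Maximal parabolics of the symplectic group: if W is a k-dimensional subspace of F^(2m) on which the symplectic form vanishes identically, its stabiliser in Sp_2m(q) has order q^(k(k+1)/2 + 2k(m−k)) · |Sp_(2m−2k)(q)| · |GL_k(q)|. -/
theorem result {F : Type*} [Field F] [Fintype F] {q : ℕ} (hF : Fintype.card F = q) (m k : ℕ) (hk : k ≤ m) (W : Submodule F (Fin m ⊕ Fin m → F)) (hWk : Module.finrank F W = k) (hW : ∀ u ∈ W, ∀ v ∈ W, Cfsg.sympForm m F u v = 0) : Nat.card ↥(Cfsg.stabilizing (Cfsg.spToMat m F) (W : Set (Fin m ⊕ Fin m → F))) = q ^ (k * (k + 1) / 2 + 2 * k * (m - k)) * (q ^ ((m - k) ^ 2) * ∏ i ∈ Finset.range (m - k), (q ^ (2 * (i + 1)) - 1)) * ∏ i : Fin k, (q ^ k - q ^ (i : ℕ)) := by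
  classical
  set b : Basis (Fin k) F W := Module.finBasisOfFinrankEq F W hWk with hb
  have hli₀ : LinearIndependent F (fun i => (b i).1) :=
    b.linearIndependent.map' W.subtype (Submodule.ker_subtype W)
  have h1 := card_sp_eq (⟨fun i => (b i).1, hli₀, fun i j => hW _ (b i).2 _ (b j).2⟩ : XX F m k)
  have h2 := card_stab_eq W b hW
  have h3 := arith q m k hk
  rw [Cfsg.Agent.Lib.Helper5.SympCard.card_sp, card_XX, hF, ← h3] at h1
  have hpos : 0 < ∏ i ∈ Finset.range k, (q ^ (2 * m - i) - q ^ i) := by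
    rcases Nat.eq_zero_or_pos (∏ i ∈ Finset.range k, (q ^ (2 * m - i) - q ^ i)) with h0 | h0
    · exfalso
      have h4 := card_sp_eq
        (⟨fun i => (b i).1, hli₀, fun i j => hW _ (b i).2 _ (b j).2⟩ : XX F m k)
      rw [card_XX, hF, h0, zero_mul] at h4
      exact (Nat.card_pos (α := Matrix.symplecticGroup (Fin m) F)).ne' h4
    · exact h0
  have h5 := Nat.eq_of_mul_eq_mul_left hpos h1
  rw [h2, ← h5, card_linearIndependent (by rw [hWk]), hWk, hF]
  ring
end Cfsg.Agent.S0775
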