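import Cfsg.Statements.S0774
import Mathlib
import Cfsg.Agent.Lib.Helper4.TriCount
import Cfsg.Agent.S0775

set_option autoImplicit false
open Cfsg

namespace Cfsg.Agent.S0774

open Matrix Module Cfsg.Agent.Lib.Helper5.Symp Cfsg.Agent.Lib.Helper5.SympGen
  Cfsg.Agent.Lib.Helper5.SympBridge Cfsg.Agent.Lib.Helper5.SympPerfect
  Cfsg.Agent.Lib.Helper4.TriCount Cfsg.Agent.S0775

variable {F : Type*} [Field F] {m : ℕ}

/-- the flag members -/
def Wk (F : Type*) [Field F] (m k : ℕ) : Submodule F (Fin m ⊕ Fin m → F) where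
  carrier := {v | (∀ i : Fin m, k < (i : ℕ) → v (Sum.inl i) = 0) ∧ ∀ i : Fin m, v (Sum.inr i) = 0}
  add_mem' := by
    rintro a b ⟨ha, ha'⟩ ⟨hb, hb'⟩
    exact ⟨fun i hi => by rw [Pi.add_apply, ha i hi, hb i hi, add_zero],
      fun i => by rw [Pi.add_apply, ha' i, hb' i, add_zero]⟩
  zero_mem' := ⟨fun _ _ => rfl, fun _ => rfl⟩
  smul_mem' := by
    rintro c a ⟨ha, ha'⟩
    exact ⟨fun i hi => by rw [Pi.smul_apply, ha i hi, smul_zero],
      fun i => by rw [Pi.smul_apply, ha' i, smul_zero]⟩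

/-- the Borel subgroup -/
abbrev BB (F : Type*) [Field F] (m : ℕ) : Subgroup (Matrix.symplecticGroup (Fin m) F) :=
  ⨅ k : Fin m, Cfsg.stabilizing (Cfsg.spToMat m F) (Wk F m k : Set (Fin m ⊕ Fin m → F))

/-- the standard isotropic frame -/
def ee (F : Type*) [Field F] (m : ℕ) (k : Fin m) : Fin m ⊕ Fin m → F := Pi.single (Sum.inl k) 1

theorem ee_mem (k : Fin m) : ee F m k ∈ Wk F m k := by
  constructor
  · intro i hi
    rw [ee, Pi.single_apply, if_neg]
    intro h
    have := Sum.inl.inj h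
    subst this
    omega
  · intro i
    rw [ee, Pi.single_apply, if_neg (by simp)]

theorem ti_of_inr_zero (u v : Fin m ⊕ Fin m → F) (hu : ∀ i, u (Sum.inr i) = 0)
    (hv : ∀ i, v (Sum.inr i) = 0) : Cfsg.sympForm m F u v = 0 := by
  rw [sympForm_explicit]
  apply Finset.sum_eq_zero
  intro i _
  rw [hu i, hv i]; ring

theorem eq_sum_ee (x : Fin m ⊕ Fin m → F) (hx : ∀ i, x (Sum.inr i) = 0) :
    x = ∑ i, x (Sum.inl i) • ee F m i := by
  ext j
  rw [Finset.sum_apply]
  rcases j with j | j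
  · simp [ee, Pi.single_apply]
  · simp [ee, hx j]

theorem Wk_mono {a b : ℕ} (h : a ≤ b) : Wk F m a ≤ Wk F m b := by
  rintro v ⟨h1, h2⟩
  exact ⟨fun i hi => h1 i (by omega), h2⟩

theorem mem_BB_of (A : Matrix.symplecticGroup (Fin m) F)
    (h : ∀ k : Fin m, A.1 *ᵥ ee F m k ∈ Wk F m k) : A ∈ BB F m := by
  rw [Subgroup.mem_iInf]
  intro k
  apply Cfsg.Agent.S0776.mem_stab_of_le
  intro x hx
  rw [← toLin'_apply, eq_sum_ee x hx.2, map_sum]
  apply (Wk F m k).sum_mem
  intro i _
  rw [map_smul, toLin'_apply]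
  by_cases hi : (k : ℕ) < (i : ℕ)
  · rw [hx.1 i hi, zero_smul]; exact (Wk F m k).zero_mem
  · exact (Wk F m k).smul_mem _ (Wk_mono (by omega) (h i))

theorem BB_maps (g : BB F m) (k : Fin m) : g.1.1 *ᵥ ee F m k ∈ Wk F m k :=
  ((Subgroup.mem_iInf.1 g.2 k) _).1 (ee_mem k)

theorem BB_diag (g : BB F m) (k : Fin m) : (g.1.1 *ᵥ ee F m k) (Sum.inl k) ≠ 0 := by
  intro h0
  have hk := BB_maps g k
  rcases Nat.eq_zero_or_pos (k : ℕ) with hk0 | hk0
  · have hz : g.1.1 *ᵥ ee F m k = 0 := by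
      ext j
      rcases j with j | j
      · by_cases hj : j = k
        · subst hj; exact h0
        · apply hk.1 j
          have : (j : ℕ) ≠ k := fun h => hj (Fin.ext h)
          omega
      · exact hk.2 j
    have h1 : ee F m k = 0 := by
      rw [← inv_mul_mulVec g.1 (ee F m k), hz, mulVec_zero]
    have := congr_fun h1 (Sum.inl k)
    simp [ee] at this
  · have hk' : (k : ℕ) - 1 < m := by have := k.2; omega
    have h1 : g.1.1 *ᵥ ee F m k ∈ Wk F m ((⟨(k : ℕ) - 1, hk'⟩ : Fin m) : ℕ) := by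
      refine ⟨fun i hi => ?_, hk.2⟩
      by_cases hj : i = k
      · subst hj; exact h0
      · apply hk.1 i
        have : (i : ℕ) ≠ k := fun h => hj (Fin.ext h)
        simp only at hi
        omega
    have h2 := ((Subgroup.mem_iInf.1 g.2 ⟨(k : ℕ) - 1, hk'⟩) _).2 h1
    have h3 := h2.1 k (by simp only; omega)
    simp [ee] at h3

theorem li_ee : LinearIndependent F (ee F m) := by
  have := (Pi.basisFun F (Fin m ⊕ Fin m)).linearIndependent.comp Sum.inl Sum.inl_injective
  convert this using 1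
  funext k
  simp [ee]

/-- lift a triangular matrix to a frame -/
def lift (M : Fin m → Fin m → F) (k : Fin m) : Fin m ⊕ Fin m → F := Sum.elim (M k) 0

theorem li_lift (M : Fin m → Fin m → F) (hM : ∀ i j, PL i j (M i j)) :
    LinearIndependent F (lift M) := by
  have h1 : LinearIndependent F (Matrix.of M).row :=
    Matrix.linearIndependent_rows_of_det_ne_zero (det_ne_zero_of_PL (Matrix.of M) hM)
  apply LinearIndependent.of_comp (LinearMap.funLeft F F (Sum.inl : Fin m → Fin m ⊕ Fin m))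
  exact h1

theorem tri_sum (m : ℕ) : m * (m - 1) / 2 + m * (m + 1) / 2 = m ^ 2 := by
  have h1 := Finset.sum_range_id_mul_two m
  have h2 : m * (m - 1) / 2 = ∑ i ∈ Finset.range m, i := (Finset.sum_range_id m).symm
  have h3 : m * (m + 1) / 2 = ∑ i ∈ Finset.range (m + 1), i := by
    rw [Finset.sum_range_id]; simp [mul_comm]
  rw [h2, h3, Finset.sum_range_succ]
  cases m with
  | zero => simp
  | succ n =>
    simp only [Nat.add_sub_cancel] at h1
    nlinarith


/-- Borel subgroup of the symplectic group: the elements of Sp_2m(q) stabilising each of the totally isotropic coordinate subspaces ⟨e_0, ..., e_k⟩ (k < m) form a subgroup of order q^(m²) (q − 1)^m. -/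
theorem result {F : Type*} [Field F] [Fintype F] {q : ℕ} (hF : Fintype.card F = q) (m : ℕ) : Nat.card ↥(⨅ k : Fin m, Cfsg.stabilizing (Cfsg.spToMat m F) {v : Fin m ⊕ Fin m → F | (∀ i : Fin m, (k : ℕ) < (i : ℕ) → v (Sum.inl i) = 0) ∧ ∀ i : Fin m, v (Sum.inr i) = 0}) = q ^ (m ^ 2) * (q - 1) ^ m := by
  classical
  change Nat.card (BB F m) = _
  have hti : ∀ i j, Cfsg.sympForm m F (ee F m i) (ee F m j) = 0 :=
    fun i j => ti_of_inr_zero _ _ (ee_mem i).2 (ee_mem j).2
  have h1 := card_sp_eq (⟨ee F m, li_ee, hti⟩ : XX F m m)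
  have h3 := arith q m m le_rfl
  have hpos : 0 < ∏ i ∈ Finset.range m, (q ^ (2 * m - i) - q ^ i) := by
    rcases Nat.eq_zero_or_pos (∏ i ∈ Finset.range m, (q ^ (2 * m - i) - q ^ i)) with h0 | h0
    · exfalso
      rw [card_XX, hF, h0, zero_mul] at h1
      exact (Nat.card_pos (α := Matrix.symplecticGroup (Fin m) F)).ne' h1
    · exact h0
  rw [Cfsg.Agent.Lib.Helper5.SympCard.card_sp, card_XX, hF, ← h3] at h1
  have h5 := Nat.eq_of_mul_eq_mul_left hpos h1
  have hle : fixer (ee F m) ≤ BB F m := by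
    intro A hA
    apply mem_BB_of
    intro k
    rw [hA k]
    exact ee_mem k
  have h6 : Nat.card (BB F m) = Nat.card {M : Fin m → Fin m → F // ∀ i j, PL i j (M i j)} *
      Nat.card (fixer (ee F m)) := by
    rw [← Nat.card_congr (Subgroup.subgroupOfEquivOfLe hle).toEquiv]
    apply card_of_transitive (fun g : BB F m =>
      (⟨fun k i => (g.1.1 *ᵥ ee F m k) (Sum.inl i), fun k i =>
        ⟨fun hki => (BB_maps g k).1 i hki, fun hki => by subst hki; exact BB_diag g k⟩⟩ :
        {M : Fin m → Fin m → F // ∀ i j, PL i j (M i j)}))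
    · intro M
      obtain ⟨A, hA⟩ := exists_sp_family (ee F m) (lift M.1) hti li_ee
        (fun i j => ti_of_inr_zero _ _ (fun _ => rfl) (fun _ => rfl)) (li_lift M.1 M.2)
      have hAB : A ∈ BB F m := mem_BB_of A (fun k => by
        rw [hA k]
        exact ⟨fun i hi => (M.2 k i).1 hi, fun _ => rfl⟩)
      refine ⟨⟨A, hAB⟩, ?_⟩
      apply Subtype.ext
      funext k i
      change (A.1 *ᵥ ee F m k) (Sum.inl i) = M.1 k i
      rw [hA k]
      rfl
    · intro g g'
      rw [Subgroup.mem_subgroupOf]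
      change _ ↔ g.1⁻¹ * g'.1 ∈ _
      rw [← fib_iff]
      constructor
      · intro h k
        ext j
        rcases j with j | j
        · exact congr_fun (congr_fun (congr_arg Subtype.val h) k) j
        · rw [(BB_maps g k).2 j, (BB_maps g' k).2 j]
      · intro h
        apply Subtype.ext
        funext k i
        change (g.1.1 *ᵥ ee F m k) (Sum.inl i) = (g'.1.1 *ᵥ ee F m k) (Sum.inl i)
        rw [h k]
  rw [h6, card_tri, hF]
  change _ * Nat.card (fixer (⟨ee F m, li_ee, hti⟩ : XX F m m).1) = _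
  rw [← h5, ← tri_sum m, pow_add]
  simp only [Nat.sub_self, mul_zero, add_zero, Finset.range_zero, Finset.prod_empty, mul_one,
    ne_eq, OfNat.ofNat_ne_zero, not_false_eq_true, zero_pow, pow_zero]
  ring
end Cfsg.Agent.S0774
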