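import Cfsg.Statements.S0778
import Mathlib
import Cfsg.Agent.S0776

set_option autoImplicit false
open Cfsg

namespace Cfsg.Agent.S0778

open Matrix

variable {F : Type*} [Field F] {m : ℕ}

/-- `inr`-coordinates vanish -/
def W1 (F : Type*) [Field F] (m : ℕ) : Submodule F (Fin m ⊕ Fin m → F) where
  carrier := {v | ∀ i : Fin m, v (Sum.inr i) = 0}
  add_mem' := by
    intro a b ha hb i
    rw [Pi.add_apply, ha i, hb i, add_zero]
  zero_mem' := fun _ => rfl
  smul_mem' := by
    intro c a ha i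
    rw [Pi.smul_apply, ha i, smul_zero]

/-- `inl`-coordinates vanish -/
def U1 (F : Type*) [Field F] (m : ℕ) : Submodule F (Fin m ⊕ Fin m → F) where
  carrier := {v | ∀ i : Fin m, v (Sum.inl i) = 0}
  add_mem' := by
    intro a b ha hb i
    rw [Pi.add_apply, ha i, hb i, add_zero]
  zero_mem' := fun _ => rfl
  smul_mem' := by
    intro c a ha i
    rw [Pi.smul_apply, ha i, smul_zero]

/-- the Levi subgroup -/
abbrev LL (F : Type*) [Field F] (m : ℕ) : Subgroup (Matrix.symplecticGroup (Fin m) F) :=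
  Cfsg.stabilizing (Cfsg.spToMat m F) (W1 F m : Set (Fin m ⊕ Fin m → F)) ⊓
    Cfsg.stabilizing (Cfsg.spToMat m F) (U1 F m : Set (Fin m ⊕ Fin m → F))

theorem blk_mem (X : GL (Fin m) F) :
    fromBlocks X.1 0 0 (X⁻¹.1)ᵀ ∈ Matrix.symplecticGroup (Fin m) F := by
  rw [SymplecticGroup.mem_iff, J, fromBlocks_multiply, fromBlocks_transpose, fromBlocks_multiply]
  have h1 : X.1 * X⁻¹.1 = 1 := by rw [← Units.val_mul, mul_inv_cancel]; rfl
  have h2 : (X⁻¹.1)ᵀ * (X.1)ᵀ = 1 := by rw [← transpose_mul, h1, transpose_one]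
  simp [-Matrix.coe_units_inv, h1, h2]

/-- block diagonal embedding -/
def blkSp (X : GL (Fin m) F) : Matrix.symplecticGroup (Fin m) F :=
  ⟨fromBlocks X.1 0 0 (X⁻¹.1)ᵀ, blk_mem X⟩

theorem blkSp_val (X : GL (Fin m) F) : (blkSp X).1 = fromBlocks X.1 0 0 (X⁻¹.1)ᵀ := rfl

theorem blkSp_mem (X : GL (Fin m) F) : blkSp X ∈ LL F m := by
  constructor
  · apply Cfsg.Agent.S0776.mem_stab_of_le
    intro x hx i
    rw [blkSp_val, fromBlocks_mulVec]
    have : x ∘ Sum.inr = 0 := funext hx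
    simp [this]
  · apply Cfsg.Agent.S0776.mem_stab_of_le
    intro x hx i
    rw [blkSp_val, fromBlocks_mulVec]
    have : x ∘ Sum.inl = 0 := funext hx
    simp [this]

/-- the homomorphism -/
def blkHom : GL (Fin m) F →* LL F m where
  toFun X := ⟨blkSp X, blkSp_mem X⟩
  map_one' := by
    apply Subtype.ext
    apply Subtype.ext
    change fromBlocks _ _ _ _ = (1 : Matrix _ _ F)
    simp
  map_mul' X Y := by
    apply Subtype.ext
    apply Subtype.ext
    change fromBlocks _ _ _ _ = fromBlocks _ _ _ _ * fromBlocks _ _ _ _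
    rw [fromBlocks_multiply]
    simp [_root_.mul_inv_rev, transpose_mul]

theorem blkHom_bij : Function.Bijective (blkHom (F := F) (m := m)) := by
  constructor
  · intro X Y h
    have h1 := congr_arg (fun g : LL F m => g.1.1) h
    change fromBlocks _ _ _ _ = fromBlocks _ _ _ _ at h1
    rw [fromBlocks_inj] at h1
    exact Units.ext h1.1
  · intro g
    set M := g.1.1 with hM
    have h21 : M.toBlocks₂₁ = 0 := by
      ext i j
      have h := (g.2.1 (Pi.single (Sum.inl j) 1)).1 (fun i => by simp)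
      have := h i
      change (M *ᵥ _) _ = 0 at this
      rwa [mulVec_single_one] at this
    have h12 : M.toBlocks₁₂ = 0 := by
      ext i j
      have h := (g.2.2 (Pi.single (Sum.inr j) 1)).1 (fun i => by simp)
      have := h i
      change (M *ᵥ _) _ = 0 at this
      rwa [mulVec_single_one] at this
    have hMb : M = fromBlocks M.toBlocks₁₁ 0 0 M.toBlocks₂₂ := by
      conv_lhs => rw [← fromBlocks_toBlocks M, h21, h12]
    have hsp := SymplecticGroup.mem_iff.1 g.1.2
    change M * _ * Mᵀ = _ at hsp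
    rw [hMb, J, fromBlocks_multiply, fromBlocks_transpose, fromBlocks_multiply,
      fromBlocks_inj] at hsp
    obtain ⟨-, hA, hD, -⟩ := hsp
    have hA' : M.toBlocks₁₁ * (M.toBlocks₂₂)ᵀ = 1 := by
      simpa using hA
    have hA'' : (M.toBlocks₂₂)ᵀ * M.toBlocks₁₁ = 1 := mul_eq_one_comm.1 hA'
    refine ⟨⟨M.toBlocks₁₁, (M.toBlocks₂₂)ᵀ, hA', hA''⟩, ?_⟩
    apply Subtype.ext
    apply Subtype.ext
    change fromBlocks M.toBlocks₁₁ 0 0 ((M.toBlocks₂₂)ᵀ)ᵀ = M
    rw [transpose_transpose, ← hMb]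


/-- The elements of Sp_2m(F) stabilising both W = ⟨e_1..e_m⟩ and U = ⟨f_1..f_m⟩ form a subgroup isomorphic to GL_m(F) (block-diagonal matrices diag(X, X^(−ᵀ)) up to the sign convention of J), for m ≥ 1 or m = 0 alike. -/
theorem result {F : Type*} [Field F] (m : ℕ) : Nonempty (↥(Cfsg.stabilizing (Cfsg.spToMat m F) {v : Fin m ⊕ Fin m → F | ∀ i : Fin m, v (Sum.inr i) = 0} ⊓ Cfsg.stabilizing (Cfsg.spToMat m F) {v : Fin m ⊕ Fin m → F | ∀ i : Fin m, v (Sum.inl i) = 0}) ≃* Matrix.GeneralLinearGroup (Fin m) F) := by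
  exact ⟨(MulEquiv.ofBijective blkHom blkHom_bij).symm⟩
end Cfsg.Agent.S0778
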