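import Cfsg.Statements.S0779
import Cfsg.Agent.Lib.Helper4.UniTrans

set_option autoImplicit false
open Cfsg

namespace Cfsg.Agent.S0779



/-- Unitary transvections: let |F| = q², h the standard Hermitian form Σ x_i y_i^q and v ≠ 0 with h(v, v) = 0. The linear map x ↦ x + c h(x, v) v is an isometry of h if and only if c = 0 or c^(q−1) = −1. -/
theorem result {F : Type*} [Field F] [Fintype F] {q : ℕ} (hF : Fintype.card F = q ^ 2) (n : ℕ) (v : Fin n → F) (hv : v ≠ 0) (hv0 : Cfsg.hermForm n F q v v = 0) (c : F) : (∀ x y : Fin n → F, Cfsg.hermForm n F q ((Cfsg.unitaryTransvection n q v c).mulVec x) ((Cfsg.unitaryTransvection n q v c).mulVec y) = Cfsg.hermForm n F q x y) ↔ (c = 0 ∨ c ^ (q - 1) = -1) := by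
  open Cfsg.Agent.Lib.Helper4.UniCount Cfsg.Agent.Lib.Helper4.UniMat Cfsg.Agent.Lib.Helper4.UniTrans in
  obtain ⟨σ, hσ⟩ := exists_sig hF
  have hq := Cfsg.Agent.Lib.Helper4.UniCount.two_le_q hF
  have h2 : ∀ a, σ (σ a) = a := by
    intro a
    rw [hσ, hσ, Cfsg.Agent.Lib.Helper4.UniCount.pow_q_q hF]
  have hv0' : Cfsg.Agent.Lib.Helper4.UniMat.stdB σ n v v = 0 := by
    rw [← Cfsg.Agent.Lib.Helper4.UniMat.hermForm_eq hσ]; exact hv0
  have key := Cfsg.Agent.Lib.Helper4.UniTrans.trans_isU_iff hσ h2 v hv hv0' c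
  rw [← Cfsg.Agent.Lib.Helper4.UniMat.preserves_iff] at key
  have e1 : (∀ x y : Fin n → F, Cfsg.hermForm n F q ((Cfsg.unitaryTransvection n q v c).mulVec x) ((Cfsg.unitaryTransvection n q v c).mulVec y) = Cfsg.hermForm n F q x y) ↔
      (∀ u w, Cfsg.Agent.Lib.Helper4.UniMat.stdB σ n ((Cfsg.unitaryTransvection n q v c).mulVec u) ((Cfsg.unitaryTransvection n q v c).mulVec w) = Cfsg.Agent.Lib.Helper4.UniMat.stdB σ n u w) := by
    constructor
    · intro h u w
      rw [← Cfsg.Agent.Lib.Helper4.UniMat.hermForm_eq hσ, ← Cfsg.Agent.Lib.Helper4.UniMat.hermForm_eq hσ]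
      exact h w u
    · intro h x y
      rw [Cfsg.Agent.Lib.Helper4.UniMat.hermForm_eq hσ, Cfsg.Agent.Lib.Helper4.UniMat.hermForm_eq hσ]
      exact h y x
  rw [e1, key, hσ]
  constructor
  · intro h
    by_cases hc : c = 0
    · exact Or.inl hc
    · right
      apply mul_right_cancel₀ hc
      rw [← pow_succ, Nat.sub_add_cancel (by omega)]
      linear_combination h
  · rintro (rfl | h)
    · simp [show q ≠ 0 by omega]
    · have : c ^ q = c ^ (q - 1) * c := by rw [← pow_succ, Nat.sub_add_cancel (by omega)]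
      rw [this, h]; ring
end Cfsg.Agent.S0779
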