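import Cfsg.Statements.S0783
import Cfsg.Agent.Lib.Helper4.UniScalar

set_option autoImplicit false
open Cfsg

namespace Cfsg.Agent.S0783

open Cfsg.Agent.Lib.Helper4.UniCount Cfsg.Agent.Lib.Helper4.UniFrame Cfsg.Agent.Lib.Helper4.UniMat
open Cfsg.Agent.Lib.Helper4.UniSU Cfsg.Agent.Lib.Helper4.UniCenter Cfsg.Agent.Lib.Helper4.UniScalar
open Matrix


/-- PGU_n(q)/PSU_n(q) is cyclic of order (n, q+1): for n ≥ 2 and |F| = q² there is a surjective homomorphism from GU_n(q) onto the cyclic group of order gcd(n, q + 1) whose kernel is generated by the determinant-one elements together with the centre. -/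
theorem result {F : Type*} [Field F] [Fintype F] {q : ℕ} (hF : Fintype.card F = q ^ 2) (n : ℕ) (hn : 2 ≤ n) : ∃ φ : ↥(Cfsg.GU n F q) →* Multiplicative (ZMod (Nat.gcd n (q + 1))), Function.Surjective φ ∧ φ.ker = (Matrix.GeneralLinearGroup.det : Matrix.GeneralLinearGroup (Fin n) F →* Fˣ).ker.subgroupOf (Cfsg.GU n F q) ⊔ Subgroup.center ↥(Cfsg.GU n F q) := by
  classical
  obtain ⟨σ, hσ⟩ := exists_sig hF
  have hU : Nat.card (powMonoidHom (q + 1) : Fˣ →* Fˣ).ker = q + 1 := card_norm_ker hF
  have hrange := range_detGU (n := n) hσ (by omega : 1 ≤ n)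
  let δ : Cfsg.GU n F q →* (powMonoidHom (q + 1) : Fˣ →* Fˣ).ker :=
    (detGU n F q).codRestrict _ (fun g => by rw [← hrange]; exact ⟨g, rfl⟩)
  have hδ : ∀ g, ((δ g : Fˣ) : F) = g.1.1.det := fun g => rfl
  have hδs : Function.Surjective δ := by
    rintro ⟨u, hu⟩
    rw [← hrange] at hu
    obtain ⟨g, hg⟩ := hu
    exact ⟨g, Subtype.ext hg⟩
  let R : Subgroup (powMonoidHom (q + 1) : Fˣ →* Fˣ).ker :=
    (powMonoidHom n : (powMonoidHom (q + 1) : Fˣ →* Fˣ).ker →* (powMonoidHom (q + 1) : Fˣ →* Fˣ).ker).range
  have hRidx : R.index = Nat.gcd n (q + 1) := by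
    have h1 := Subgroup.card_mul_index R
    have h2 := Subgroup.card_mul_index
      (powMonoidHom n : (powMonoidHom (q + 1) : Fˣ →* Fˣ).ker →* (powMonoidHom (q + 1) : Fˣ →* Fˣ).ker).ker
    rw [Subgroup.index_ker, IsCyclic.card_powMonoidHom_ker, hU] at h2
    have h3 : 0 < Nat.card R := Nat.card_pos
    have h4 : Nat.card R * R.index = Nat.card R * (q + 1).gcd n := by
      rw [h1, hU, mul_comm]
      exact h2.symm
    rw [Nat.gcd_comm]
    exact Nat.eq_of_mul_eq_mul_left h3 h4
  have hd0 : NeZero (Nat.gcd n (q + 1)) := ⟨(Nat.gcd_pos_of_pos_left _ (by omega)).ne'⟩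
  let e : ((powMonoidHom (q + 1) : Fˣ →* Fˣ).ker ⧸ R) ≃* Multiplicative (ZMod (Nat.gcd n (q + 1))) :=
    mulEquivOfCyclicCardEq (by
      rw [← Subgroup.index_eq_card, hRidx]
      simp)
  refine ⟨e.toMonoidHom.comp ((QuotientGroup.mk' R).comp δ), ?_, ?_⟩
  · exact e.surjective.comp ((QuotientGroup.mk'_surjective R).comp hδs)
  · have hker : (e.toMonoidHom.comp ((QuotientGroup.mk' R).comp δ)).ker = R.comap δ := by
      ext g
      rw [MonoidHom.mem_ker, Subgroup.mem_comap]
      simp only [MonoidHom.comp_apply, MulEquiv.coe_toMonoidHom, QuotientGroup.mk'_apply,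
        EmbeddingLike.map_eq_one_iff, QuotientGroup.eq_one_iff]
    rw [hker]
    have hA : ∀ x : Cfsg.GU n F q, x ∈ (Matrix.GeneralLinearGroup.det :
        Matrix.GeneralLinearGroup (Fin n) F →* Fˣ).ker.subgroupOf (Cfsg.GU n F q) ↔ δ x = 1 := by
      intro x
      rw [Subgroup.mem_subgroupOf, MonoidHom.mem_ker]
      constructor
      · intro h
        exact Subtype.ext h
      · intro h
        exact congrArg Subtype.val h
    let i0 : Fin n := ⟨0, by omega⟩
    apply le_antisymm
    · intro g hg
      obtain ⟨u, hu⟩ := hg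
      have hu1 : ((u : Fˣ) : F) ^ (q + 1) = 1 := by
        have := congrArg Units.val (MonoidHom.mem_ker.1 u.2)
        simpa using this
      let z : Cfsg.GU n F q := mkGU hσ (diagonal fun _ => ((u : Fˣ) : F))
        (isU_diagonal _ (fun _ => by rw [hσ, ← pow_succ, hu1]))
      have hz : z ∈ Subgroup.center (Cfsg.GU n F q) := by
        rw [Subgroup.mem_center_iff]
        intro h
        apply Subtype.ext
        apply Units.ext
        show h.1.1 * (diagonal fun _ => ((u : Fˣ) : F)) = (diagonal fun _ => ((u : Fˣ) : F)) * h.1.1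
        ext a b
        rw [mul_diagonal, diagonal_mul, mul_comm]
      have hδz : δ z = u ^ n := by
        apply Subtype.ext
        apply Units.ext
        rw [hδ]
        show (diagonal fun _ => ((u : Fˣ) : F)).det = _
        rw [det_diagonal, Finset.prod_const, Finset.card_univ, Fintype.card_fin]
        simp
      have hg' : g = (g * z⁻¹) * z := by group
      rw [hg']
      apply Subgroup.mul_mem_sup _ hz
      rw [hA, map_mul, map_inv, hδz, ← hu]
      exact mul_inv_cancel _
    · apply sup_le
      · intro x hx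
        rw [Subgroup.mem_comap, (hA x).1 hx]
        exact Subgroup.one_mem _
      · intro z hz
        rw [Subgroup.mem_comap]
        have hsc := scalar_of_commute hF hσ z.1.1 (fun N hN _ => by
          have := (Subgroup.mem_center_iff.1 hz) (mkGU hσ N hN)
          exact congrArg (fun x => x.1.1) this) i0
        have hUz := (mem_GU_iff hσ z.1).1 z.2
        have h1 : z.1.1 i0 i0 ^ (q + 1) = 1 := by
          unfold IsU at hUz
          rw [hsc, diagonal_map (map_zero σ), diagonal_transpose, diagonal_mul_diagonal] at hUz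
          have := congrFun (congrFun hUz i0) i0
          rw [diagonal_apply_eq, one_apply_eq, hσ, ← pow_succ] at this
          exact this
        have h0 : z.1.1 i0 i0 ≠ 0 := by
          intro h
          rw [h] at h1
          simp at h1
        refine ⟨⟨Units.mk0 _ h0, ?_⟩, ?_⟩
        · rw [MonoidHom.mem_ker]
          apply Units.ext
          simpa using h1
        · apply Subtype.ext
          apply Units.ext
          rw [hδ]
          conv_rhs => rw [hsc, det_diagonal, Finset.prod_const, Finset.card_univ, Fintype.card_fin]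
          simp
end Cfsg.Agent.S0783
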