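import Mathlib
import Cfsg.Statements.S0785
import Cfsg.Agent.Lib.Helper5.Orth

set_option autoImplicit false
open Cfsg

namespace Cfsg.Agent.S0785


/-- det(I) = {±1}: for a quadratic form on F^n whose polar form is non-degenerate, every element of the isometry group has determinant 1 or −1, and as soon as Q takes a non-zero value some isometry has determinant −1. -/
theorem result {F : Type*} [Field F] {n : ℕ} (Q : QuadraticForm F (Fin n → F)) (hQ : (QuadraticMap.polarBilin Q).Nondegenerate) : (∀ g : ↥(Cfsg.isometryGroup F ⇑Q), ((g : Matrix.GeneralLinearGroup (Fin n) F) : Matrix (Fin n) (Fin n) F).det = 1 ∨ ((g : Matrix.GeneralLinearGroup (Fin n) F) : Matrix (Fin n) (Fin n) F).det = -1) ∧ ((∃ v, Q v ≠ 0) → ∃ g : ↥(Cfsg.isometryGroup F ⇑Q), ((g : Matrix.GeneralLinearGroup (Fin n) F) : Matrix (Fin n) (Fin n) F).det = -1) := by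
  open Cfsg.Agent.Lib.Helper5.Orth in
  refine ⟨fun g => det_sq_of_preserves Q hQ _ ((mem_isometryGroup_iff _ _).mp g.2), ?_⟩
  rintro ⟨v, hv⟩
  have hdet := Cfsg.Agent.Lib.Helper5.Orth.reflection_det Q v hv
  let g : Matrix.GeneralLinearGroup (Fin n) F :=
    Matrix.GeneralLinearGroup.mkOfDetNeZero (Cfsg.reflectionMatrix ⇑Q v) (by rw [hdet]; simp)
  refine ⟨⟨g, ?_⟩, hdet⟩
  rw [Cfsg.Agent.Lib.Helper5.Orth.mem_isometryGroup_iff]
  intro x
  exact Cfsg.Agent.Lib.Helper5.Orth.reflection_preserves Q v hv x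

end Cfsg.Agent.S0785
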