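import Mathlib
import Cfsg.Statements.S0787
import Cfsg.Agent.Lib.Helper5.OrthClass

set_option autoImplicit false
open Cfsg

namespace Cfsg.Agent.S0787

open Matrix Cfsg.Agent.Lib.Helper5.OrthCard Cfsg.Agent.Lib.Helper5.Orth
  Cfsg.Agent.Lib.Helper5.OrthGen QuadraticMap Cfsg.Agent.Lib.Helper5.OrthRefl

theorem comm_le_of_gens {G : Type*} [Group G] (S : Set G) (hS : Subgroup.closure S = ⊤)
    (N : Subgroup G) [N.Normal] (h : ∀ a ∈ S, ∀ b ∈ S, a * b * a⁻¹ * b⁻¹ ∈ N) :
    commutator G ≤ N := by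
  have hcl : Subgroup.closure ((QuotientGroup.mk' N) '' S) = ⊤ := by
    rw [← MonoidHom.map_closure, hS, ← MonoidHom.range_eq_map,
      MonoidHom.range_eq_top.mpr (QuotientGroup.mk'_surjective N)]
  have hc := Subgroup.isMulCommutative_closure (k := (QuotientGroup.mk' N) '' S) (by
    rintro _ ⟨a, ha, rfl⟩ _ ⟨b, hb, rfl⟩
    have h1 := (QuotientGroup.eq_one_iff _).mpr (h a ha b hb)
    have h2 : (QuotientGroup.mk' N a) * (QuotientGroup.mk' N b) * (QuotientGroup.mk' N a)⁻¹ *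
        (QuotientGroup.mk' N b)⁻¹ = 1 := h1
    have h3 := mul_inv_eq_one.mp h2
    exact mul_inv_eq_iff_eq_mul.mp h3)
  have hcomm : ∀ x y : G ⧸ N, x * y = y * x := by
    intro x y
    have hx : x ∈ Subgroup.closure ((QuotientGroup.mk' N) '' S) := by rw [hcl]; trivial
    have hy : y ∈ Subgroup.closure ((QuotientGroup.mk' N) '' S) := by rw [hcl]; trivial
    have := hc.is_comm.comm ⟨x, hx⟩ ⟨y, hy⟩
    exact congrArg Subtype.val this
  rw [commutator_def, Subgroup.commutator_le]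
  intro a _ b _
  rw [← QuotientGroup.eq_one_iff]
  show (QuotientGroup.mk' N a) * (QuotientGroup.mk' N b) * (QuotientGroup.mk' N a)⁻¹ *
        (QuotientGroup.mk' N b)⁻¹ = 1
  rw [hcomm (QuotientGroup.mk' N a)]
  group

theorem omega_le {F : Type*} [Field F] [Fintype F] {ι : Type} [Fintype ι] [DecidableEq ι]
    (Q : QuadraticForm F (ι → F)) (hQ : (QuadraticMap.polarBilin Q).Nondegenerate)
    (hex : Fintype.card F ≠ 2 ∨ Fintype.card ι ≠ 4)
    (H : Subgroup ↥(Cfsg.specialIsometryGroup F ⇑Q)) (hH : H.index = 2) :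
    Cfsg.Omega F ⇑Q ≤ H.map (Cfsg.specialIsometryGroup F ⇑Q).subtype := by
  have hSn : (Cfsg.specialIsometryGroup F ⇑Q).Normal := by
    unfold Cfsg.specialIsometryGroup
    infer_instance
  set T : Set ↥(Cfsg.isometryGroup F ⇑Q) :=
    {g | ∃ x ∈ Cfsg.specialIsometryGroup F ⇑Q, g = x ^ 2} with hT
  have h1 : Cfsg.Omega F ⇑Q ≤ Subgroup.normalClosure T := by
    apply comm_le_of_gens {g : ↥(Cfsg.isometryGroup F ⇑Q) | ∃ v : ι → F, Q v ≠ 0 ∧
      ((g : Matrix.GeneralLinearGroup ι F) : Matrix ι ι F) = Cfsg.reflectionMatrix ⇑Q v}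
      (R_eq_top' Q hQ hex)
    rintro a ⟨u, hu, ha⟩ b ⟨v, hv, hb⟩
    have ha' : a = refl Q u hu := mat_injective ha
    have hb' : b = refl Q v hv := mat_injective hb
    apply Subgroup.subset_normalClosure
    refine ⟨a * b, ?_, ?_⟩
    · rw [mem_special_iff, mat_mul, det_mul, ha', hb', mat_refl, mat_refl, reflection_det Q u hu,
        reflection_det Q v hv]
      ring
    · rw [ha', hb', refl_inv, refl_inv, pow_two, mul_assoc, mul_assoc]
  apply h1.trans
  unfold Subgroup.normalClosure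
  rw [Subgroup.closure_le]
  intro g hg
  obtain ⟨y, ⟨x, hx, rfl⟩, hconj⟩ := Group.mem_conjugatesOfSet_iff.mp hg
  obtain ⟨c, hc⟩ := isConj_iff.mp hconj
  have hx' : c * x * c⁻¹ ∈ Cfsg.specialIsometryGroup F ⇑Q := hSn.conj_mem x hx c
  refine ⟨⟨c * x * c⁻¹, hx'⟩ ^ 2, Subgroup.sq_mem_of_index_two hH _, ?_⟩
  rw [← hc]
  show (c * x * c⁻¹) ^ 2 = c * x ^ 2 * c⁻¹
  rw [conj_pow]

theorem main {F : Type*} [Field F] [Fintype F] {ι : Type} [Fintype ι] [DecidableEq ι]
    (Q : QuadraticForm F (ι → F)) (hQ : (QuadraticMap.polarBilin Q).Nondegenerate)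
    (hn : 2 ≤ Fintype.card ι) (hex : Fintype.card F ≠ 2 ∨ Fintype.card ι ≠ 4) :
    ∃! H : Subgroup ↥(Cfsg.specialIsometryGroup F ⇑Q), H.index = 2 := by
  classical
  have hle : Cfsg.Omega F ⇑Q ≤ Cfsg.specialIsometryGroup F ⇑Q := by
    intro g hg
    rw [mem_special_iff]
    exact Cfsg.Agent.Lib.Helper5.OrthSum.det_eq_one_of_mem_omega g hg
  have hidx : ((Cfsg.Omega F ⇑Q).subgroupOf (Cfsg.specialIsometryGroup F ⇑Q)).index = 2 := by
    have h1 := Subgroup.relIndex_mul_index hle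
    show (Cfsg.Omega F ⇑Q).relIndex (Cfsg.specialIsometryGroup F ⇑Q) = 2
    by_cases h2 : (2 : F) = 0
    · rw [Cfsg.Agent.Lib.Helper5.Dickson.index_omega Q h2 hQ hex (by omega)] at h1
      have htop : Cfsg.specialIsometryGroup F ⇑Q = ⊤ := by
        rw [eq_top_iff]
        intro g _
        rw [mem_special_iff]
        rcases det_sq_of_preserves Q hQ (mat g) (mat_preserves g) with h | h
        · exact h
        · rw [h]
          linear_combination -h2
      rw [htop, Subgroup.index_top, mul_one] at h1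
      rw [htop]
      exact h1
    · rw [Cfsg.Agent.Lib.Helper5.Spinor.index_omega Q h2 hQ hn] at h1
      obtain ⟨θ, sd, hθ, hsd, hsd1, hΩ⟩ := Cfsg.Agent.Lib.Helper5.Spinor.main Q h2 hQ hn
      obtain ⟨v₀, hv₀⟩ := Cfsg.Agent.Lib.Helper5.Dickson.exists_nonsing Q hQ (by omega)
      have hker : Cfsg.specialIsometryGroup F ⇑Q = sd.ker := by
        ext g
        rw [mem_special_iff, MonoidHom.mem_ker, hsd1]
      have h3 := Cfsg.Agent.Lib.Helper5.Spinor.index_ker_units sd (refl Q v₀ hv₀) (hsd v₀ hv₀)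
      rw [← hker] at h3
      rw [h3] at h1
      omega
  refine ⟨_, hidx, ?_⟩
  intro H hH
  have h1 := omega_le Q hQ hex H hH
  have h2 : (Cfsg.Omega F ⇑Q).subgroupOf (Cfsg.specialIsometryGroup F ⇑Q) ≤ H := by
    intro x hx
    obtain ⟨y, hy, hyx⟩ := h1 (Subgroup.mem_subgroupOf.mp hx)
    have : y = x := Subtype.ext hyx
    rw [← this]
    exact hy
  have h3 := Subgroup.relIndex_mul_index h2
  rw [hH, hidx] at h3
  have h4 : ((Cfsg.Omega F ⇑Q).subgroupOf (Cfsg.specialIsometryGroup F ⇑Q)).relIndex H = 1 := by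
    omega
  exact le_antisymm (Subgroup.relIndex_eq_one.mp h4) h2


/-- Existence and uniqueness of Ω: if F is finite, n ≥ 2, Q is a quadratic form on F^n with non-degenerate polar form and (|F|, n) ≠ (2, 4), then the group of isometries of determinant one has a unique subgroup of index 2. -/
theorem result {F : Type*} [Field F] [Fintype F] {n : ℕ} (hn : 2 ≤ n) (Q : QuadraticForm F (Fin n → F)) (hQ : (QuadraticMap.polarBilin Q).Nondegenerate) (h : Fintype.card F ≠ 2 ∨ n ≠ 4) : ∃! H : Subgroup ↥(Cfsg.specialIsometryGroup F ⇑Q), H.index = 2 := by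
  exact main Q hQ (by simpa using hn) (by simpa using h)

end Cfsg.Agent.S0787
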