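import Mathlib
import Cfsg.Statements.S0794
import Cfsg.Agent.Lib.Helper5.OrthGen
import Cfsg.Agent.S0761

set_option autoImplicit false
open Cfsg

namespace Cfsg.Agent.S0794

open Matrix Cfsg.Agent.Lib.Helper5.Orth Cfsg.Agent.Lib.Helper5.OrthGen

theorem siegel_zero {F : Type*} [Field F] {n : ℕ} (Q : QuadraticForm F (Fin n → F))
    (u v : Fin n → F) : Cfsg.siegelMatrix ⇑Q u v 0 = 1 := by
  simp [Cfsg.siegelMatrix]

theorem siegel_det_ne {F : Type*} [Field F] {n : ℕ} (Q : QuadraticForm F (Fin n → F))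
    (u v : Fin n → F) (hu : Q u = 0) (hv : Q v = 0) (huv : QuadraticMap.polar ⇑Q u v = 0) (c : F) :
    (Cfsg.siegelMatrix ⇑Q u v c).det ≠ 0 := by
  intro h0
  have h1 := siegel_mul Q u v hu hv huv c (-c)
  rw [add_neg_cancel, siegel_zero] at h1
  have h2 := congrArg Matrix.det h1
  rw [det_mul, h0, zero_mul, det_one] at h2
  exact zero_ne_one h2

theorem mem_commSet {F : Type*} [Field F] (h2 : (2 : F) ≠ 0) {n : ℕ}
    (Q : QuadraticForm F (Fin n → F)) (hQ : (QuadraticMap.polarBilin Q).Nondegenerate)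
    (u v : Fin n → F) (hu : Q u = 0) (hv : Q v = 0) (huv : QuadraticMap.polar ⇑Q u v = 0) (c : F)
    (g : ↥(Cfsg.isometryGroup F ⇑Q)) (hg : mat g = Cfsg.siegelMatrix ⇑Q u v c) :
    g ∈ commutatorSet ↥(Cfsg.isometryGroup F ⇑Q) := by
  by_cases hspan : u ∈ Submodule.span F {v}
  · obtain ⟨a, rfl⟩ := Submodule.mem_span_singleton.mp hspan
    have : g = 1 := by
      apply mat_injective
      rw [hg, mat_one, Matrix.ext_iff_mulVec]
      intro x
      rw [siegelMatrix_mulVec, one_mulVec, QuadraticMap.polar_smul_left, smul_smul, smul_eq_mul]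
      have : c * (a * QuadraticMap.polar ⇑Q v x) = c * QuadraticMap.polar ⇑Q v x * a := by ring
      rw [this]
      abel
    rw [this]
    exact ⟨1, 1, by simp⟩
  · have hsymm : LinearMap.BilinForm.IsSymm (QuadraticMap.polarBilin Q) :=
      ⟨fun x y => QuadraticMap.polar_comm _ _ _⟩
    obtain ⟨u', hu'0, huu', hvu'⟩ := Cfsg.Agent.S0761.result (QuadraticMap.polarBilin Q) hQ
      (Or.inr ⟨hsymm, h2⟩) u (Submodule.span F {v}) hspan
      (by show QuadraticMap.polar ⇑Q u u = 0; rw [polar_self', hu, mul_zero])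
      (by
        intro z hz
        obtain ⟨a, rfl⟩ := Submodule.mem_span_singleton.mp hz
        show QuadraticMap.polar ⇑Q u (a • v) = 0
        rw [QuadraticMap.polar_smul_right, huv, smul_zero])
      (by
        intro z hz z' hz'
        obtain ⟨a, rfl⟩ := Submodule.mem_span_singleton.mp hz
        obtain ⟨a', rfl⟩ := Submodule.mem_span_singleton.mp hz'
        show QuadraticMap.polar ⇑Q (a • v) (a' • v) = 0
        rw [QuadraticMap.polar_smul_right, QuadraticMap.polar_smul_left, polar_self', hv]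
        simp)
    have hQu' : Q u' = 0 := by
      have h1 : QuadraticMap.polar ⇑Q u' u' = 0 := hu'0
      rw [polar_self'] at h1
      exact (mul_eq_zero.mp h1).resolve_left h2
    have huu'' : QuadraticMap.polar ⇑Q u u' = 1 := huu'
    have hvu'' : QuadraticMap.polar ⇑Q v u' = 0 := hvu' v (Submodule.mem_span_singleton_self v)
    have hu'u : QuadraticMap.polar ⇑Q u' u = 1 := by rw [QuadraticMap.polar_comm, huu'']
    have hu'v : QuadraticMap.polar ⇑Q u' v = 0 := by rw [QuadraticMap.polar_comm, hvu'']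
    have hp : Q (u + u') = 1 := by rw [QuadraticMap.map_add Q, hu, hQu', huu'']; ring
    have hm : Q (u - u') = -1 := by rw [Cfsg.Agent.Lib.Helper5.OrthGen.map_sub', hu, hQu', hu'u]; ring
    have hp0 : Q (u + u') ≠ 0 := by rw [hp]; exact one_ne_zero
    have hm0 : Q (u - u') ≠ 0 := by rw [hm]; simp
    obtain ⟨h, hh⟩ : ∃ h, h = refl Q (u + u') hp0 * refl Q (u - u') hm0 := ⟨_, rfl⟩
    have hhu : mat h *ᵥ u = -u := by
      rw [hh, mat_mul, mat_refl, mat_refl, ← mulVec_mulVec, reflectionMatrix_mulVec Q (u - u') u,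
        QuadraticMap.polar_sub_left, polar_self', hu, hu'u, hm]
      have e1 : u - ((-1 : F)⁻¹ * (2 * 0 - 1)) • (u - u') = u' := by
        have : ((-1 : F)⁻¹ * (2 * 0 - 1)) = 1 := by norm_num
        rw [this, one_smul]; abel
      rw [e1, reflectionMatrix_mulVec, QuadraticMap.polar_add_left, polar_self', hQu', huu'', hp]
      have : ((1 : F)⁻¹ * (1 + 2 * 0)) = 1 := by norm_num
      rw [this, one_smul]; abel
    have hhv : mat h *ᵥ v = v := by
      rw [hh, mat_mul, mat_refl, mat_refl, ← mulVec_mulVec,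
        reflection_fix Q (u - u') v (by rw [QuadraticMap.polar_sub_left, huv, hu'v, sub_zero]),
        reflection_fix Q (u + u') v (by rw [QuadraticMap.polar_add_left, huv, hu'v, add_zero])]
    obtain ⟨t, ht⟩ : ∃ t : ↥(Cfsg.isometryGroup F ⇑Q), t = ofMat (Cfsg.siegelMatrix ⇑Q u v (-c / 2))
      (siegel_det_ne Q u v hu hv huv _) (siegel_preserves Q u v hu hv huv _) := ⟨_, rfl⟩
    refine ⟨h, t, ?_⟩
    rw [commutatorElement_def, mul_inv_eq_iff_eq_mul, mul_inv_eq_iff_eq_mul]
    apply mat_injective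
    rw [mat_mul, mat_mul, mat_mul, hg, ht, mat_ofMat, siegel_mul Q u v hu hv huv,
      Matrix.ext_iff_mulVec]
    intro x
    have e1 : QuadraticMap.polar ⇑Q u (mat h *ᵥ x) = - QuadraticMap.polar ⇑Q u x := by
      have := mat_polar h u x
      rw [hhu, QuadraticMap.polar_neg_left] at this
      rw [← this, neg_neg]
    have e2 : QuadraticMap.polar ⇑Q v (mat h *ᵥ x) = QuadraticMap.polar ⇑Q v x := by
      have := mat_polar h v x
      rwa [hhv] at this
    rw [← mulVec_mulVec, ← mulVec_mulVec, siegelMatrix_mulVec, siegelMatrix_mulVec, e1, e2,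
      mulVec_sub, mulVec_add, mulVec_smul, mulVec_smul, hhu, hhv]
    have e3 : c + -c / 2 = c / 2 := by field_simp; ring
    rw [e3]
    ext i
    simp only [Pi.add_apply, Pi.sub_apply, Pi.smul_apply, Pi.neg_apply, smul_eq_mul]
    ring


/-- For q odd, n ≥ 5 and Q with non-degenerate polar form: an isometry whose matrix is a Siegel transformation T_(u,v)(c) (u, v singular and orthogonal) is a commutator in the isometry group, so lies in Ω. -/
theorem result {F : Type*} [Field F] [Fintype F] (h2 : (2 : F) ≠ 0) {n : ℕ} (hn : 5 ≤ n) (Q : QuadraticForm F (Fin n → F)) (hQ : (QuadraticMap.polarBilin Q).Nondegenerate) (u v : Fin n → F) (hu : Q u = 0) (hv : Q v = 0) (huv : QuadraticMap.polar ⇑Q u v = 0) (c : F) (g : ↥(Cfsg.isometryGroup F ⇑Q)) (hg : ((g : Matrix.GeneralLinearGroup (Fin n) F) : Matrix (Fin n) (Fin n) F) = Cfsg.siegelMatrix ⇑Q u v c) : g ∈ commutatorSet ↥(Cfsg.isometryGroup F ⇑Q) ∧ g ∈ Cfsg.Omega F ⇑Q := by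
  have h1 := mem_commSet h2 Q hQ u v hu hv huv c g hg
  refine ⟨h1, ?_⟩
  show g ∈ commutator _
  rw [commutator_eq_closure]
  exact Subgroup.subset_closure h1

end Cfsg.Agent.S0794
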