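import Mathlib
import Cfsg.Statements.S0796

set_option autoImplicit false
open Cfsg

namespace Cfsg.Agent.S0796


/-- If G is finite and acts faithfully and primitively on X, H is the stabiliser of a point, A is a normal subgroup of H whose normal closure in G is G, then for every non-trivial normal subgroup K of G the quotient G ⧸ K is isomorphic to A ⧸ B for some normal subgroup B of A. -/
theorem result {G X : Type*} [Group G] [Finite G] [MulAction G X] [FaithfulSMul G X] (hprim : MulAction.IsPreprimitive G X) (x : X) (A : Subgroup G) (hA : A ≤ MulAction.stabilizer G x) (hAn : (A.subgroupOf (MulAction.stabilizer G x)).Normal) (hgen : Subgroup.normalClosure (A : Set G) = ⊤) (K : Subgroup G) [K.Normal] (hK : K ≠ ⊥) : ∃ (B : Subgroup A) (_ : B.Normal), Nonempty (G ⧸ K ≃* A ⧸ B) := by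
  classical
  set H := MulAction.stabilizer G x with hH
  have hKfix : MulAction.fixedPoints K X ≠ ⊤ := by
    intro hfix
    apply hK
    rw [eq_bot_iff]
    intro k hk
    rw [Subgroup.mem_bot]
    apply FaithfulSMul.eq_of_smul_eq_smul (α := X)
    intro y
    have hy : y ∈ MulAction.fixedPoints K X := by rw [hfix]; trivial
    rw [one_smul]
    exact hy ⟨k, hk⟩
  have hKtr : MulAction.IsPretransitive K X :=
    MulAction.IsQuasiPreprimitive.isPretransitive_of_normal hKfix
  have hHK : H ⊔ K = ⊤ := by
    rw [eq_top_iff]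
    intro g _
    obtain ⟨k, hk⟩ := MulAction.exists_smul_eq K x (g • x)
    have hk' : (k : G) • x = g • x := hk
    have h1 : (k : G)⁻¹ * g ∈ H := by
      rw [hH, MulAction.mem_stabilizer_iff, mul_smul, ← hk', inv_smul_smul]
    have : g = (k : G) * ((k : G)⁻¹ * g) := by group
    rw [this]
    exact Subgroup.mul_mem _ (Subgroup.mem_sup_right k.2) (Subgroup.mem_sup_left h1)
  have hHA : H ≤ Subgroup.normalizer (A : Set G) := by
    intro h hh
    rw [Subgroup.mem_normalizer_iff]
    intro a
    constructor
    · intro ha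
      have := hAn.conj_mem ⟨a, hA ha⟩ (Subgroup.mem_subgroupOf.mpr ha) ⟨h, hh⟩
      exact Subgroup.mem_subgroupOf.mp this
    · intro ha
      have := hAn.conj_mem ⟨h * a * h⁻¹, hA ha⟩ (Subgroup.mem_subgroupOf.mpr ha) ⟨h⁻¹, H.inv_mem hh⟩
      have h2 := Subgroup.mem_subgroupOf.mp this
      simpa [mul_assoc] using h2
  have hnorm : (A ⊔ K).Normal := by
    rw [← Subgroup.normalizer_eq_top_iff, eq_top_iff, ← hHK, sup_le_iff]
    constructor
    · refine le_trans ?_ (Subgroup.normalizer_inf_normalizer_le_normalizer_sup A K)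
      refine le_inf hHA ?_
      rw [Subgroup.normalizer_eq_top]
      exact le_top
    · exact le_trans le_sup_right Subgroup.le_normalizer
  have hAK : A ⊔ K = ⊤ := by
    rw [eq_top_iff, ← hgen]
    exact Subgroup.normalClosure_le_normal (fun a ha => Subgroup.mem_sup_left ha)
  let φ : A →* G ⧸ K := (QuotientGroup.mk' K).comp A.subtype
  have hφ : Function.Surjective φ := by
    intro q
    obtain ⟨g, rfl⟩ := QuotientGroup.mk'_surjective K q
    have hg : g ∈ A ⊔ K := by rw [hAK]; trivial
    obtain ⟨a, ha, k, hk, rfl⟩ := Subgroup.mem_sup_of_normal_right.mp hg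
    refine ⟨⟨a, ha⟩, ?_⟩
    show (QuotientGroup.mk' K) a = (QuotientGroup.mk' K) (a * k)
    have hk1 : (QuotientGroup.mk' K) k = 1 := (QuotientGroup.eq_one_iff k).mpr hk
    rw [map_mul, hk1, mul_one]
  exact ⟨φ.ker, inferInstance, ⟨(QuotientGroup.quotientKerEquivOfSurjective φ hφ).symm⟩⟩

end Cfsg.Agent.S0796
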