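import Mathlib
import Cfsg.Statements.S0798
import Cfsg.Agent.Lib.Helper5.OrthNormClass

set_option autoImplicit false
open Cfsg

namespace Cfsg.Agent.S0798


/-- For q odd, n ≥ 2 even, Q with non-degenerate polar form (n, |F|) ≠ (4, 3), and a fixed c ≠ 0: the subgroup of the isometry group generated by the reflections r_v with Q(v) ∈ c·(F^×)² has index 2. -/
theorem result {F : Type*} [Field F] [Fintype F] (h2 : (2 : F) ≠ 0) {n : ℕ} (hn : 2 ≤ n) (heven : Even n) (Q : QuadraticForm F (Fin n → F)) (hQ : (QuadraticMap.polarBilin Q).Nondegenerate) (h43 : ¬ (n = 4 ∧ Fintype.card F = 3)) (c : F) (hc : c ≠ 0) : (Subgroup.closure {g : ↥(Cfsg.isometryGroup F ⇑Q) | ∃ (v : Fin n → F) (t : F), t ≠ 0 ∧ Q v = c * t ^ 2 ∧ ((g : Matrix.GeneralLinearGroup (Fin n) F) : Matrix (Fin n) (Fin n) F) = Cfsg.reflectionMatrix ⇑Q v}).index = 2 := by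
  classical
  have hF2 : Fintype.card F ≠ 2 := by
    intro h
    apply h2
    have h3 : ((Fintype.card F : ℕ) : F) = 0 := Nat.cast_card_eq_zero F
    rw [h] at h3
    exact_mod_cast h3
  have hF1 : 1 < Fintype.card F := Fintype.one_lt_card
  exact Cfsg.Agent.Lib.Helper5.OrthNormClass.index_Hc Q h2 hQ (by
    rw [Fintype.card_fin]
    obtain ⟨k, hk⟩ := heven
    by_cases h4 : n = 4
    · right
      refine ⟨by omega, Or.inr ?_⟩
      have : Fintype.card F ≠ 3 := fun h => h43 ⟨h4, h⟩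
      omega
    · omega) hc

end Cfsg.Agent.S0798
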