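import Cfsg.Statements.S0813
import Cfsg.Agent.Lib.Helper4.PSLnPhi
import Cfsg.Agent.S2602

set_option autoImplicit false
open Cfsg

namespace Cfsg.Agent.S0813

open Cfsg.Agent.Lib.Helper4.PSLn

theorem card_range_cbar {F : Type*} [Field F] {n : ℕ} (hn : 2 ≤ n) :
    Nat.card (cbar : GL (Fin n) F →* MulAut (Matrix.ProjectiveSpecialLinearGroup (Fin n) F)).range =
      Nat.card (Matrix.ProjGenLinGroup (Fin n) F) := by
  rw [← Subgroup.index_ker, cbar_ker hn]
  rfl


/-- |Aut(PSL_n(q))|, q = p^f: for n ≥ 3 it is 2 f |PGL_n(q)|, and for n = 2 (q ≥ 4) it is f |PGL_2(q)|. -/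
theorem result {F : Type*} [Field F] [Fintype F] (p f : ℕ) [Fact p.Prime] (hf : 1 ≤ f) (hF : Fintype.card F = p ^ f) (n : ℕ) (hn : 2 ≤ n) (h2 : n = 2 → 4 ≤ p ^ f) : Nat.card (MulAut (Matrix.ProjectiveSpecialLinearGroup (Fin n) F)) = (if n = 2 then 1 else 2) * f * Nat.card (Matrix.ProjGenLinGroup (Fin n) F) := by
  classical
  obtain ⟨hcyc, hcard⟩ := Cfsg.Agent.S2602.ringAut_cyclic hF
  by_cases h : n = 2
  · subst h
    rw [if_pos rfl, one_mul]
    have hchar : CharP F p := charP_of_card_eq_prime_pow hF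
    let Φ := Cfsg.Agent.Lib.Helper4.PSL2Aut.Phi (F := F) p
    have hker : Φ.ker = (cbar : GL (Fin 2) F →* MulAut (Matrix.ProjectiveSpecialLinearGroup (Fin 2) F)).range := by
      ext α
      rw [MonoidHom.mem_ker, MonoidHom.mem_range]
      constructor
      · intro hα
        obtain ⟨P, hP⟩ := Cfsg.Agent.Lib.Helper4.PSL2Aut.exists_cbar_of_Phi p α hα
        exact ⟨P, by rw [hP, cbar_two]⟩
      · rintro ⟨P, rfl⟩
        rw [← cbar_two]
        exact Cfsg.Agent.Lib.Helper4.PSL2Aut.Phi_cbar p P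
    have h1 := Φ.ker.card_mul_index
    rw [Subgroup.index_ker, MonoidHom.range_eq_top.2 (Cfsg.Agent.Lib.Helper4.PSL2Aut.Phi_surjective p), hker,
      card_range_cbar hn, Subgroup.card_top, hcard] at h1
    rw [← h1, mul_comm]
  · rw [if_neg h]
    have hn3 : 3 ≤ n := by omega
    have h1 := (Phi (F := F) hn3).ker.card_mul_index
    rw [Subgroup.index_ker, MonoidHom.range_eq_top.2 (Phi_surjective hn3), Phi_ker hn3,
      card_range_cbar hn, Subgroup.card_top, Nat.card_prod, hcard] at h1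
    have h2 : Nat.card (Multiplicative (ZMod 2)) = 2 := by
      rw [Nat.card_eq_fintype_card]; rfl
    rw [h2] at h1
    rw [← h1]; ring
end Cfsg.Agent.S0813
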