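import Cfsg.Statements.S0820
import Cfsg.Agent.S2579

set_option autoImplicit false
open Cfsg

namespace Cfsg.Agent.S0820

open Cfsg.Agent.Lib.Helper4.PSLn Cfsg.Agent.Lib.Helper4.SLnTv Matrix

theorem exists_tv_lift {F : Type*} [Field F] [Fintype F] (h2 : (2 : F) = 0)
    (x : Matrix.ProjectiveSpecialLinearGroup (Fin 3) F) (hx : orderOf x = 2) :
    ∃ g : Matrix.SpecialLinearGroup (Fin 3) F, QuotientGroup.mk g = x ∧ Cfsg.IsTransvection g.1 := by
  obtain ⟨g₀, rfl⟩ := QuotientGroup.mk_surjective x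
  have hsq : (QuotientGroup.mk g₀ : Matrix.ProjectiveSpecialLinearGroup (Fin 3) F) ^ 2 = 1 := by
    rw [← hx]; exact pow_orderOf_eq_one _
  have hne : (QuotientGroup.mk g₀ : Matrix.ProjectiveSpecialLinearGroup (Fin 3) F) ≠ 1 := by
    intro h
    rw [h, orderOf_one] at hx
    norm_num at hx
  rw [← QuotientGroup.mk_pow, QuotientGroup.eq_one_iff, Matrix.SpecialLinearGroup.mem_center_iff] at hsq
  obtain ⟨r, hr, hr2⟩ := hsq
  rw [Fintype.card_fin] at hr
  have hdz : (Matrix.scalar (Fin 3) r).det = 1 := by simp [hr]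
  let z : Matrix.SpecialLinearGroup (Fin 3) F := ⟨Matrix.scalar (Fin 3) r, hdz⟩
  have hz : z ∈ Subgroup.center (Matrix.SpecialLinearGroup (Fin 3) F) :=
    Matrix.SpecialLinearGroup.mem_center_iff.2 ⟨r, by rw [Fintype.card_fin, hr], rfl⟩
  let g := g₀ * z
  have hmk : (QuotientGroup.mk g : Matrix.ProjectiveSpecialLinearGroup (Fin 3) F) = QuotientGroup.mk g₀ := by
    rw [QuotientGroup.mk_mul, (QuotientGroup.eq_one_iff z).2 hz, mul_one]
  have hg2 : g.1 * g.1 = 1 := by
    have h1 : g₀.1 * g₀.1 = Matrix.scalar (Fin 3) r := by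
      have := hr2.symm
      rw [pow_two] at this
      exact this
    change (g₀.1 * Matrix.scalar (Fin 3) r) * (g₀.1 * Matrix.scalar (Fin 3) r) = 1
    have hc : Matrix.scalar (Fin 3) r * g₀.1 = g₀.1 * Matrix.scalar (Fin 3) r :=
      (Matrix.scalar_commute r (fun _ => mul_comm _ _) g₀.1)
    calc (g₀.1 * Matrix.scalar (Fin 3) r) * (g₀.1 * Matrix.scalar (Fin 3) r)
        = g₀.1 * (Matrix.scalar (Fin 3) r * g₀.1) * Matrix.scalar (Fin 3) r := by simp only [Matrix.mul_assoc]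
      _ = (g₀.1 * g₀.1) * (Matrix.scalar (Fin 3) r * Matrix.scalar (Fin 3) r) := by
          rw [hc]; simp only [Matrix.mul_assoc]
      _ = Matrix.scalar (Fin 3) (r ^ 3) := by
          rw [h1, ← map_mul, ← map_mul]; congr 1; ring
      _ = 1 := by rw [hr, map_one]
  have hN2 : (g.1 - 1) * (g.1 - 1) = 0 := by
    have : (g.1 - 1) * (g.1 - 1) = g.1 * g.1 - (2 : F) • g.1 + 1 := by
      rw [two_smul]; noncomm_ring
    rw [this, hg2, h2, zero_smul, sub_zero]
    have h3 : (1 : Matrix (Fin 3) (Fin 3) F) + 1 = (2 : F) • 1 := by rw [two_smul]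
    rw [h3, h2, zero_smul]
  have hN0 : g.1 - 1 ≠ 0 := by
    intro h
    apply hne
    rw [← hmk]
    have : g = 1 := Subtype.ext (sub_eq_zero.1 h)
    rw [this]; rfl
  refine ⟨g, hmk, ?_, hN2⟩
  have h4 := Matrix.rank_add_rank_le_card_of_mul_eq_zero hN2
  rw [Fintype.card_fin] at h4
  have h5 : (g.1 - 1).rank ≠ 0 := by
    intro h
    apply hN0
    rw [Matrix.rank, Submodule.finrank_eq_zero, LinearMap.range_eq_bot] at h
    ext i j
    have h6 := congrFun (congrArg (fun f => f (Pi.single j 1)) h) i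
    simp only [Matrix.mulVecLin_apply, Matrix.mulVec_single_one, LinearMap.zero_apply] at h6
    exact h6
  omega


/-- Any two elements of order 2 of PSL_3(4) are conjugate. -/
theorem result {F : Type*} [Field F] [Fintype F] (hF : Fintype.card F = 4) (x y : Matrix.ProjectiveSpecialLinearGroup (Fin 3) F) (hx : orderOf x = 2) (hy : orderOf y = 2) : IsConj x y := by
  have h2 : (2 : F) = 0 := by
    obtain ⟨p', hp'⟩ := CharP.exists F
    have hp'prime : Fact p'.Prime := ⟨CharP.char_is_prime F p'⟩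
    obtain ⟨n, hn1, hn2⟩ := FiniteField.card F p'
    rw [hF] at hn2
    have h1 : p' ∣ 2 ^ 2 := by
      have : (4 : ℕ) = 2 ^ 2 := by norm_num
      rw [← this, hn2]; exact dvd_pow_self p' n.ne_zero
    have h3 : p' ∣ 2 := hn1.dvd_of_dvd_pow h1
    have h4 : p' = 2 := (Nat.prime_dvd_prime_iff_eq hn1 Nat.prime_two).1 h3
    subst h4
    exact_mod_cast CharP.cast_eq_zero F 2
  obtain ⟨g, rfl, hg⟩ := exists_tv_lift h2 x hx
  obtain ⟨g', rfl, hg'⟩ := exists_tv_lift h2 y hy
  exact (QuotientGroup.mk' _).map_isConj (Cfsg.Agent.S2579.result (le_refl 3) g g' hg hg')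
end Cfsg.Agent.S0820
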