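import Mathlib
import Cfsg.Statements.S0824
import Cfsg.Agent.Lib.Helper5.SymOrth
import Cfsg.Agent.Lib.Helper5.OrthMinus

set_option autoImplicit false
open Cfsg

namespace Cfsg.Agent.S0824

open Cfsg.Agent.Lib.Helper5

/-- explicit coordinates -/
def cvec (a b c d : ZMod 2) : Fin 6 → ZMod 2 :=
  ![0, b, a, a + b + d, a + b + c, a + b + c + d]

/-- the coordinate map -/
def C : ((Fin 1 ⊕ Fin 1) ⊕ Fin 2 → ZMod 2) →ₗ[ZMod 2] (Fin 6 → ZMod 2) where
  toFun u := cvec (u (.inl (.inl 0))) (u (.inl (.inr 0))) (u (.inr 0)) (u (.inr 1))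
  map_add' u v := by
    funext i
    fin_cases i <;> simp [cvec] <;> ring
  map_smul' c u := by
    funext i
    fin_cases i <;> simp [cvec] <;> ring

theorem cvec_sum : ∀ a b c d : ZMod 2, ∑ i, cvec a b c d i = 0 := by
  decide

theorem cvec_qq : ∀ a b c d : ZMod 2,
    SymOrth.qq (cvec a b c d) = a * b + (c ^ 2 + 1 * c * d + 1 * d ^ 2) := by
  decide

theorem aniso : ∀ z₁ z₂ : ZMod 2, z₁ ^ 2 + 1 * z₁ * z₂ + 1 * z₂ ^ 2 = 0 → z₁ = 0 ∧ z₂ = 0 := by
  decide

/-- O⁻_4(2) ≅ S_5: the isometry group of the form x y + z_1² + z_1 z_2 + z_2² over the field with 2 elements is isomorphic to the symmetric group on 5 letters. -/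
theorem result {F : Type*} [Field F] [Fintype F] (hF : Fintype.card F = 2) : Nonempty (↥(Cfsg.isometryGroup F (Cfsg.quadFormMinus 1 F 1 1)) ≃* Equiv.Perm (Fin 5)) := by
  obtain ⟨Q, hQc, hQ, -, -⟩ := OrthMinus.good_minus (F := ZMod 2) 1 1 aniso 1
  have h1 : ∃ f : Equiv.Perm (Fin 5) →* ↥(Cfsg.isometryGroup (ZMod 2) ⇑Q),
      Function.Injective f := by
    apply SymOrth.exists_hom Q hQ (by decide) (by norm_num) (0 : Fin 6) (by simp) C ?_ ?_
      (Equiv.Perm.extendDomainHom (finSuccAboveEquiv (0 : Fin 6)))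
      (Equiv.Perm.extendDomainHom_injective _) (Or.inr ?_)
    · intro u
      rw [SymRep.mem_Vs]
      exact ⟨cvec_sum _ _ _ _, rfl⟩
    · intro u
      rw [hQc, Cfsg.quadFormMinus, Fin.sum_univ_one]
      exact cvec_qq _ _ _ _
    · intro g
      exact Equiv.Perm.extendDomain_apply_not_subtype _ _ (by simp)
  rw [hQc] at h1
  obtain ⟨f, hf⟩ := h1
  have : Fact (Nat.Prime 2) := ⟨Nat.prime_two⟩
  let e : ZMod 2 ≃+* F := ZMod.ringEquivOfPrime F Nat.prime_two hF
  obtain ⟨t, ht⟩ := SymOrth.exists_transport e (Cfsg.quadFormMinus 1 (ZMod 2) 1 1)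
    (Cfsg.quadFormMinus 1 F 1 1) (by
      intro w
      simp only [Cfsg.quadFormMinus, map_add, map_mul, map_pow, map_one, map_sum])
  have hg : Function.Injective (t.comp f) := ht.comp hf
  have hanF : ∀ z₁ z₂ : F, z₁ ^ 2 + 1 * z₁ * z₂ + 1 * z₂ ^ 2 = 0 → z₁ = 0 ∧ z₂ = 0 := by
    intro z₁ z₂ h
    have h2 := aniso (e.symm z₁) (e.symm z₂) (by
      apply e.injective
      simp only [map_add, map_mul, map_pow, map_one, map_zero, RingEquiv.apply_symm_apply]
      exact h)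
    constructor
    · simpa using h2.1
    · simpa using h2.2
  have hcard : Nat.card ↥(Cfsg.isometryGroup F (Cfsg.quadFormMinus 1 F 1 1)) =
      Nat.card (Equiv.Perm (Fin 5)) := by
    rw [OrthMinus.card_minus 1 1 hanF 2 (by norm_num), hF, Nat.card_eq_fintype_card,
      Fintype.card_perm, Fintype.card_fin]
    decide
  have : Finite ↥(Cfsg.isometryGroup F (Cfsg.quadFormMinus 1 F 1 1)) :=
    Nat.finite_of_card_ne_zero (by
      rw [hcard, Nat.card_eq_fintype_card]; exact Fintype.card_ne_zero)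
  have hbij : Function.Bijective (t.comp f) :=
    (Nat.bijective_iff_injective_and_card _).mpr ⟨hg, hcard.symm⟩
  exact ⟨(MulEquiv.ofBijective _ hbij).symm⟩

end Cfsg.Agent.S0824
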