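import Cfsg.Statements.S0828
import Cfsg.Agent.Lib.Helper4.LineCount
import Cfsg.Agent.Lib.Helper5.SympBridge

set_option autoImplicit false
open Cfsg

namespace Cfsg.Agent.S0828

open Cfsg.Agent.Lib.Helper4.LineCount Cfsg.Agent.Lib.Helper5.SympBridge Cfsg.Agent.Lib.Helper5.Symp


/-- The symplectic generalised quadrangle over a field with q elements: the number of 2-dimensional subspaces of F^4 on which the symplectic form vanishes is (q + 1)(q² + 1), and every non-zero vector lies in exactly q + 1 of them. -/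
theorem result {F : Type*} [Field F] [Fintype F] {q : ℕ} (hF : Fintype.card F = q) : Nat.card {W : Submodule F (Fin 2 ⊕ Fin 2 → F) // Module.finrank F W = 2 ∧ ∀ u ∈ W, ∀ v ∈ W, Cfsg.sympForm 2 F u v = 0} = (q + 1) * (q ^ 2 + 1) ∧ ∀ v : Fin 2 ⊕ Fin 2 → F, v ≠ 0 → Nat.card {W : Submodule F (Fin 2 ⊕ Fin 2 → F) // Module.finrank F W = 2 ∧ v ∈ W ∧ ∀ u ∈ W, ∀ w ∈ W, Cfsg.sympForm 2 F u w = 0} = q + 1 := by
  classical
  have hq : 2 ≤ q := by rw [← hF]; exact Fintype.one_lt_card
  have hfin : Module.finrank F (Fin 2 ⊕ Fin 2 → F) = 4 := by simp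
  let P : Submodule F (Fin 2 ⊕ Fin 2 → F) → Prop := fun W => ∀ u ∈ W, ∀ v ∈ W, Cfsg.sympForm 2 F u v = 0
  have hP : ∀ s : Fin 2 → (Fin 2 ⊕ Fin 2 → F), P (Submodule.span F (Set.range s)) ↔
      Cfsg.sympForm 2 F (s 0) (s 1) = 0 := by
    intro s
    have := ti_span_iff (sympB 2 F) s
    simp only [sympB_apply] at this
    show (∀ u ∈ Submodule.span F (Set.range s), ∀ v ∈ Submodule.span F (Set.range s),
      Cfsg.sympForm 2 F u v = 0) ↔ _
    rw [this]
    constructor
    · intro h; exact h 0 1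
    · intro h i j
      fin_cases i <;> fin_cases j
      · exact sympForm_self _
      · exact h
      · show Cfsg.sympForm 2 F (s 1) (s 0) = 0
        rw [sympForm_swap, h, neg_zero]
      · exact sympForm_self _
  have hN : ∀ u : Fin 2 ⊕ Fin 2 → F, u ≠ 0 → Nat.card {v // Cfsg.sympForm 2 F u v = 0} = q ^ 3 := by
    intro u hu
    have := card_fiber_functional (sympB 2 F u) (fun h => hu (sympB_nondeg.1 u (fun y => by rw [h]; rfl))) 0
    rw [hfin, hF] at this
    exact this
  have hspan : ∀ u : Fin 2 ⊕ Fin 2 → F, ∀ a : F, Cfsg.sympForm 2 F u (a • u) = 0 := by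
    intro u a
    rw [sympForm_smul_right, sympForm_self, mul_zero]
  have a1 : 1 ≤ q ^ 2 := Nat.one_le_pow _ _ (by omega)
  have a2 : q ≤ q ^ 2 := by nlinarith
  have a3 : 1 ≤ q ^ 4 := Nat.one_le_pow _ _ (by omega)
  have a4 : q ≤ q ^ 3 := by nlinarith [a2]
  have a5 : q < q ^ 2 := by nlinarith
  have a6 : 1 < q ^ 2 := by nlinarith
  constructor
  · have h1 := card_pairs (K := F) P
    have h2 := card_pairs_sum (K := F) (V := Fin 2 ⊕ Fin 2 → F) (fun _ => True)
      (fun u v => Cfsg.sympForm 2 F u v = 0) (q ^ 3) (fun u _ a => hspan u a) (fun u hu _ => hN u hu)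
    have h3 : Nat.card {s : Fin 2 → (Fin 2 ⊕ Fin 2 → F) // LinearIndependent F s ∧
        P (Submodule.span F (Set.range s))} = Nat.card {s : Fin 2 → (Fin 2 ⊕ Fin 2 → F) //
          LinearIndependent F s ∧ True ∧ Cfsg.sympForm 2 F (s 0) (s 1) = 0} := by
      apply Nat.card_congr
      apply Equiv.subtypeEquivRight
      intro s
      rw [hP]; simp
    have h4 : Nat.card {u : Fin 2 ⊕ Fin 2 → F // u ≠ 0 ∧ True} = q ^ 4 - 1 := by
      rw [card_ne_zero_and (fun _ => True) trivial, Nat.card_congr (Equiv.subtypeUnivEquiv (fun _ => trivial)),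
        Module.natCard_eq_pow_finrank (K := F), hfin, Nat.card_eq_fintype_card, hF]
    rw [h3, h2, h4, hF] at h1
    have hpos : 0 < (q ^ 2 - 1) * (q ^ 2 - q) := Nat.mul_pos (by omega) (by omega)
    apply Nat.eq_of_mul_eq_mul_right hpos
    rw [← h1]
    zify [a1, a2, a3, a4]
    ring
  · intro v hv
    have h1 := card_through (K := F) v hv P
    have h2 := card_not_multiple (K := F) v hv (fun w => Cfsg.sympForm 2 F v w = 0) (hspan v)
    have h3 : Nat.card {w : Fin 2 ⊕ Fin 2 → F // (∀ a : F, a • v ≠ w) ∧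
        P (Submodule.span F (Set.range ![v, w]))} = Nat.card {w : Fin 2 ⊕ Fin 2 → F //
          Cfsg.sympForm 2 F v w = 0 ∧ ∀ a : F, a • v ≠ w} := by
      apply Nat.card_congr
      apply Equiv.subtypeEquivRight
      intro w
      rw [hP]
      exact and_comm
    rw [h3, h2, hN v hv, hF] at h1
    have hpos : 0 < q ^ 2 - q := by omega
    apply Nat.eq_of_mul_eq_mul_right hpos
    rw [← h1]
    zify [a2, a4]
    ring
end Cfsg.Agent.S0828
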