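import Cfsg.Statements.S0830
import Cfsg.Agent.Lib.Helper4.UniLines

set_option autoImplicit false
open Cfsg

namespace Cfsg.Agent.S0830



/-- The unitary quadrangle of PSU_5(q): with |F| = q², the number of 2-dimensional subspaces of F^5 on which the Hermitian form vanishes is (q³ + 1)(q⁵ + 1). -/
theorem result {F : Type*} [Field F] [Fintype F] {q : ℕ} (hF : Fintype.card F = q ^ 2) : Nat.card {W : Submodule F (Fin 5 → F) // Module.finrank F W = 2 ∧ ∀ u ∈ W, ∀ v ∈ W, Cfsg.hermForm 5 F q u v = 0} = (q ^ 3 + 1) * (q ^ 5 + 1) := by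
  have hq := Cfsg.Agent.Lib.Helper4.UniCount.two_le_q hF
  have h := Cfsg.Agent.Lib.Helper4.UniLines.card_ti_lines hF 5 (q ^ 7) (by ring)
  have hz := Cfsg.Agent.Lib.Helper4.UniCount.A_zero hF 5
  rw [if_neg (by decide)] at hz
  simp only [show 5 - 1 = 4 by norm_num] at hz
  have a1 : 1 ≤ q ^ 2 := Nat.one_le_pow _ _ (by omega)
  have a2 : 1 ≤ q ^ 4 := Nat.one_le_pow _ _ (by omega)
  have a3 : 1 ≤ (q ^ 2) ^ 2 := Nat.one_le_pow _ _ (by omega)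
  have a4 : q ^ 2 ≤ (q ^ 2) ^ 2 := by nlinarith
  have a5 : 1 < q ^ 2 := by nlinarith
  have a6 : q ^ 2 < (q ^ 2) ^ 2 := by nlinarith
  have hM : (q ^ 5 + 1) * (q ^ 4 - 1) + 1 = q ^ 2 * (q ^ 3 + 1) * (q ^ 2 - 1) + q ^ 2 + (q ^ 2 - 1) * q ^ 7 := by
    zify [a1, a2]
    ring
  have e1 : Cfsg.Agent.Lib.Helper4.UniCount.A F q 5 0 - 1 = (q ^ 5 + 1) * (q ^ 4 - 1) := by omega
  have e2 : Cfsg.Agent.Lib.Helper4.UniCount.A F q 5 0 - (q ^ 2 - 1) * q ^ 7 - q ^ 2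
      = q ^ 2 * (q ^ 3 + 1) * (q ^ 2 - 1) := by omega
  rw [e1, e2] at h
  have hpos : 0 < ((q ^ 2) ^ 2 - 1) * ((q ^ 2) ^ 2 - q ^ 2) := Nat.mul_pos (by omega) (by omega)
  apply Nat.eq_of_mul_eq_mul_right hpos
  rw [h]
  zify [a1, a2, a3, a4]
  ring
end Cfsg.Agent.S0830
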