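import Mathlib
import Cfsg.Statements.S0831
import Cfsg.Agent.Lib.Helper5.OrthFam2

set_option autoImplicit false
open Cfsg

namespace Cfsg.Agent.S0831


/-- The two families of maximal totally singular subspaces of the hyperbolic quadric: for the form Σ x_i y_i on F^(2m), m ≥ 1, and m-dimensional subspaces U, W, X on which it vanishes, the parities of m − dim(U ∩ W), m − dim(W ∩ X) and m − dim(U ∩ X) sum to an even number (so 'even codimension of the intersection' is an equivalence relation), and there exist two such subspaces meeting in codimension 1 (so there are exactly two classes). -/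
theorem result {F : Type*} [Field F] (m : ℕ) (hm : 1 ≤ m) : (∀ U W X : Submodule F (Fin m ⊕ Fin m → F), (Module.finrank F U = m ∧ ∀ w ∈ U, Cfsg.quadFormPlus m F w = 0) → (Module.finrank F W = m ∧ ∀ w ∈ W, Cfsg.quadFormPlus m F w = 0) → (Module.finrank F X = m ∧ ∀ w ∈ X, Cfsg.quadFormPlus m F w = 0) → Even ((m - Module.finrank F ↥(U ⊓ W)) + (m - Module.finrank F ↥(W ⊓ X)) + (m - Module.finrank F ↥(U ⊓ X)))) ∧ ∃ U W : Submodule F (Fin m ⊕ Fin m → F), (Module.finrank F U = m ∧ ∀ w ∈ U, Cfsg.quadFormPlus m F w = 0) ∧ (Module.finrank F W = m ∧ ∀ w ∈ W, Cfsg.quadFormPlus m F w = 0) ∧ Module.finrank F ↥(U ⊓ W) + 1 = m := by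
  classical
  have hQf := Cfsg.Agent.Lib.Helper5.OrthFam2.plusForm_coe F m
  have hnd := Cfsg.Agent.Lib.Helper5.OrthFam2.plusForm_nondeg F m
  have hcard : Fintype.card (Fin m ⊕ Fin m) = 2 * m := by
    rw [Fintype.card_sum, Fintype.card_fin]; ring
  have hlag : ∀ U : Submodule F (Fin m ⊕ Fin m → F),
      (Module.finrank F U = m ∧ ∀ w ∈ U, Cfsg.quadFormPlus m F w = 0) →
      Cfsg.Agent.Lib.Helper5.OrthClass.Lag (Cfsg.Agent.Lib.Helper5.OrthFam2.plusForm F m) U := by
    rintro U ⟨h1, h2⟩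
    refine ⟨?_, by rw [h1, hcard]⟩
    intro x hx
    rw [hQf]
    exact h2 x hx
  have hlag' : ∀ U : Submodule F (Fin m ⊕ Fin m → F),
      Cfsg.Agent.Lib.Helper5.OrthClass.Lag (Cfsg.Agent.Lib.Helper5.OrthFam2.plusForm F m) U →
      (Module.finrank F U = m ∧ ∀ w ∈ U, Cfsg.quadFormPlus m F w = 0) := by
    rintro U ⟨h1, h2⟩
    refine ⟨by omega, ?_⟩
    intro x hx
    rw [← hQf]
    exact h1 x hx
  refine ⟨?_, ?_⟩
  · intro U W X hU hW hX
    exact Cfsg.Agent.Lib.Helper5.OrthFam2.three _ hnd (hlag U hU) (hlag W hW) (hlag X hX) m hcard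
  · obtain ⟨hL, hfr⟩ := Cfsg.Agent.Lib.Helper5.OrthClass.lag_std
      (Cfsg.Agent.Lib.Helper5.OrthFam2.plusForm F m) hQf
    have hv : (Cfsg.Agent.Lib.Helper5.OrthFam2.plusForm F m)
        (Pi.single (Sum.inl ⟨0, hm⟩) 1 + Pi.single (Sum.inr ⟨0, hm⟩) 1) ≠ 0 := by
      rw [hQf]
      unfold Cfsg.quadFormPlus
      rw [Finset.sum_eq_single ⟨0, hm⟩]
      · simp
      · intro b _ hb
        simp [Pi.single_apply, hb]
      · simp
    have h1 := Cfsg.Agent.Lib.Helper5.OrthFam2.exists_neighbour _ hnd hL _ hv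
    rw [hfr] at h1
    exact ⟨_, _, hlag' _ hL, hlag' _ (hL.img _ _), h1⟩

end Cfsg.Agent.S0831
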