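import Mathlib
import Cfsg.Statements.S0832
import Cfsg.Agent.Lib.Helper5.OrthFam2

set_option autoImplicit false
open Cfsg

namespace Cfsg.Agent.S0832


/-- For the form Σ x_i y_i on F^(2m) over a finite field, m ≥ 1: an (m−1)-dimensional subspace on which the form vanishes is contained in exactly two m-dimensional subspaces on which it vanishes. -/
theorem result {F : Type*} [Field F] [Finite F] (m : ℕ) (hm : 1 ≤ m) (U : Submodule F (Fin m ⊕ Fin m → F)) (hU : Module.finrank F U + 1 = m ∧ ∀ u ∈ U, Cfsg.quadFormPlus m F u = 0) : Nat.card {W : Submodule F (Fin m ⊕ Fin m → F) // Module.finrank F W = m ∧ (∀ w ∈ W, Cfsg.quadFormPlus m F w = 0) ∧ U ≤ W} = 2 := by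
  classical
  have hQf := Cfsg.Agent.Lib.Helper5.OrthFam2.plusForm_coe F m
  have hnd := Cfsg.Agent.Lib.Helper5.OrthFam2.plusForm_nondeg F m
  have hcard : Fintype.card (Fin m ⊕ Fin m) = 2 * m := by
    rw [Fintype.card_sum, Fintype.card_fin]; ring
  obtain ⟨hL, hfr⟩ := Cfsg.Agent.Lib.Helper5.OrthClass.lag_std
    (Cfsg.Agent.Lib.Helper5.OrthFam2.plusForm F m) hQf
  have key := Cfsg.Agent.Lib.Helper5.OrthFam2.card_over _ hnd hL m hcard U hU.1 (by
    intro u hu
    rw [hQf]
    exact hU.2 u hu)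
  rw [hQf] at key
  exact key

end Cfsg.Agent.S0832
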