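import Mathlib
import Cfsg.Statements.S0833
import Cfsg.Agent.Lib.Helper5.Witt

set_option autoImplicit false
open Cfsg

namespace Cfsg.Agent.S0833


/-- If B₁, B₂ are non-degenerate alternating forms on U (dim 2k) and W (dim 2l), then B₁ ⊗ B₂ on U ⊗ W is symmetric, non-degenerate, and vanishes identically on some subspace of dimension 2kl (half of dim U ⊗ W). -/
theorem result {F U W : Type*} [Field F] [Fintype F] [AddCommGroup U] [Module F U] [FiniteDimensional F U] [AddCommGroup W] [Module F W] [FiniteDimensional F W] (B₁ : LinearMap.BilinForm F U) (B₂ : LinearMap.BilinForm F W) (h₁ : B₁.Nondegenerate) (h₂ : B₂.Nondegenerate) (hA₁ : B₁.IsAlt) (hA₂ : B₂.IsAlt) (k l : ℕ) (hU : Module.finrank F U = 2 * k) (hW : Module.finrank F W = 2 * l) : (B₁.tmul B₂).IsSymm ∧ (B₁.tmul B₂).Nondegenerate ∧ (∃ X : Submodule F (TensorProduct F U W), Module.finrank F X = 2 * k * l ∧ ∀ x ∈ X, ∀ y ∈ X, (B₁.tmul B₂) x y = 0) := by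
  classical
  open Cfsg.Agent.Lib.Helper5.AltForm Cfsg.Agent.Lib.Helper5.Witt in
  obtain ⟨m, e, f, _, b₁, h, _, hbe, hbf, hfin⟩ := exists_hyp_basis h₁ hA₁ (Fin.elim0 : Fin 0 → U)
    Fin.elim0 ⟨fun i => i.elim0, fun i => i.elim0, fun i => i.elim0⟩
  obtain rfl : m = k := by omega
  let b₂ : Module.Basis (Fin (2 * l)) F W := Module.finBasisOfFinrankEq F W hW
  refine ⟨?_, ?_, ?_⟩
  · rw [LinearMap.isSymm_iff_eq_flip]
    apply TensorProduct.ext'
    intro x₁ x₂
    apply TensorProduct.ext'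
    intro y₁ y₂
    show B₂ x₂ y₂ • B₁ x₁ y₁ = B₂ y₂ x₂ • B₁ y₁ x₁
    rw [← hA₁.neg_eq x₁ y₁, ← hA₂.neg_eq x₂ y₂]
    simp
  · show LinearMap.BilinForm.Nondegenerate (B₁.tmul B₂)
    rw [LinearMap.BilinForm.nondegenerate_iff_det_ne_zero (b₁.tensorProduct b₂)]
    have hM : LinearMap.BilinForm.toMatrix (b₁.tensorProduct b₂) (B₁.tmul B₂) =
        Matrix.kroneckerMap (· * ·) (LinearMap.BilinForm.toMatrix b₁ B₁)
          (LinearMap.BilinForm.toMatrix b₂ B₂) := by
      ext ⟨i, j⟩ ⟨i', j'⟩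
      simp [LinearMap.BilinForm.toMatrix_apply, Module.Basis.tensorProduct_apply, mul_comm]
    rw [hM, Matrix.det_kronecker]
    exact mul_ne_zero
      (pow_ne_zero _ ((LinearMap.BilinForm.nondegenerate_iff_det_ne_zero b₁).mp h₁))
      (pow_ne_zero _ ((LinearMap.BilinForm.nondegenerate_iff_det_ne_zero b₂).mp h₂))
  · let t : Fin m × Fin (2 * l) → TensorProduct F U W := fun p => e p.1 ⊗ₜ b₂ p.2
    have ht : t = (b₁.tensorProduct b₂) ∘ (fun p : Fin m × Fin (2 * l) => (Sum.inl p.1, p.2)) := by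
      funext p
      simp [t, Module.Basis.tensorProduct_apply, hbe]
    have hli : LinearIndependent F t := by
      rw [ht]
      apply (b₁.tensorProduct b₂).linearIndependent.comp
      intro p q hpq
      simp only [Prod.mk.injEq, Sum.inl.injEq] at hpq
      exact Prod.ext hpq.1 hpq.2
    refine ⟨Submodule.span F (Set.range t), ?_, ?_⟩
    · rw [finrank_span_eq_card hli]
      simp; ring
    · intro x hx y hy
      induction hx, hy using Submodule.span_induction₂ with
      | mem_mem x y hx hy =>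
        obtain ⟨p, rfl⟩ := hx
        obtain ⟨q, rfl⟩ := hy
        show B₂ _ _ • B₁ (e p.1) (e q.1) = 0
        rw [h.ee]; simp
      | zero_left y hy => simp
      | zero_right x hx => simp
      | add_left x y z hx hy hz h1 h2 => simp [h1, h2]
      | add_right x y z hx hy hz h1 h2 => simp [h1, h2]
      | smul_left r x y hx hy h1 => simp [h1]
      | smul_right r x y hx hy h1 => simp [h1]

end Cfsg.Agent.S0833
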