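import Cfsg.Statements.S0835
import Cfsg.Agent.Lib.Helper4.QuadType

set_option autoImplicit false
open Cfsg

namespace Cfsg.Agent.S0835



/-- Over a finite field with 2 ≠ 0: if B₁ on U (dim 2k, k ≥ 1) is non-degenerate symmetric of minus type (no totally isotropic k-subspace) and B₂ on W (dim 2l + 1) is non-degenerate symmetric, then B₁ ⊗ B₂ (dimension 2k(2l+1)) admits no totally isotropic subspace of dimension k(2l+1) (minus type). -/
theorem result {F U W : Type*} [Field F] [Fintype F] [AddCommGroup U] [Module F U] [FiniteDimensional F U] [AddCommGroup W] [Module F W] [FiniteDimensional F W] (h2 : (2 : F) ≠ 0) (B₁ : LinearMap.BilinForm F U) (B₂ : LinearMap.BilinForm F W) (h₁ : B₁.Nondegenerate) (h₂ : B₂.Nondegenerate) (hS₁ : B₁.IsSymm) (hS₂ : B₂.IsSymm) (k l : ℕ) (hk : 1 ≤ k) (hU : Module.finrank F U = 2 * k) (hW : Module.finrank F W = 2 * l + 1) (hm₁ : ¬ (∃ X : Submodule F (U), Module.finrank F X = k ∧ ∀ x ∈ X, ∀ y ∈ X, (B₁) x y = 0)) : ¬ (∃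 X : Submodule F (TensorProduct F U W), Module.finrank F X = k * (2 * l + 1) ∧ ∀ x ∈ X, ∀ y ∈ X, (B₁.tmul B₂) x y = 0) := by
  classical
  let b₁ : Module.Basis (Fin (2 * k)) F U := Module.finBasisOfFinrankEq F U hU
  let b₂ : Module.Basis (Fin (2 * l + 1)) F W := Module.finBasisOfFinrankEq F W hW
  have hM : LinearMap.BilinForm.toMatrix (b₁.tensorProduct b₂) (B₁.tmul B₂) =
      Matrix.kroneckerMap (· * ·) (LinearMap.BilinForm.toMatrix b₁ B₁)
        (LinearMap.BilinForm.toMatrix b₂ B₂) := by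
    ext ⟨i, j⟩ ⟨i', j'⟩
    simp [LinearMap.BilinForm.toMatrix_apply, Module.Basis.tensorProduct_apply, mul_comm]
  have hd₁ := (LinearMap.BilinForm.nondegenerate_iff_det_ne_zero b₁).mp h₁
  have hd₂ := (LinearMap.BilinForm.nondegenerate_iff_det_ne_zero b₂).mp h₂
  have hnd : LinearMap.BilinForm.Nondegenerate (B₁.tmul B₂) := by
    rw [LinearMap.BilinForm.nondegenerate_iff_det_ne_zero (b₁.tensorProduct b₂), hM, Matrix.det_kronecker]
    exact mul_ne_zero (pow_ne_zero _ hd₁) (pow_ne_zero _ hd₂)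
  have hsym : LinearMap.BilinForm.IsSymm (B₁.tmul B₂) :=
    LinearMap.BilinForm.isSymm_iff.2
      (LinearMap.IsSymm.tmul (LinearMap.BilinForm.isSymm_iff.1 hS₁) (LinearMap.BilinForm.isSymm_iff.1 hS₂))
  have hfin : Module.finrank F (TensorProduct F U W) = 2 * (k * (2 * l + 1)) := by
    rw [Module.finrank_tensorProduct, hU, hW]; ring
  have hpos : 1 ≤ k * (2 * l + 1) := Nat.mul_pos hk (by omega)
  rw [Cfsg.Agent.Lib.Helper4.QuadType.type_criterion rfl h2 _ hsym hnd hpos hfin (b₁.tensorProduct b₂),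
    hM, Matrix.det_kronecker]
  rw [Cfsg.Agent.Lib.Helper4.QuadType.type_criterion rfl h2 B₁ hS₁ h₁ hk hU b₁] at hm₁
  simp only [Fintype.card_fin]
  have hq : Odd (Fintype.card F) := by
    rw [Nat.odd_iff]
    exact FiniteField.odd_card_of_char_ne_two (fun h => h2 (by
      have := CharP.cast_eq_zero F (ringChar F)
      rw [h] at this
      exact_mod_cast this))
  obtain ⟨r, hr⟩ := hq
  have e1 : IsSquare ((LinearMap.BilinForm.toMatrix b₁ B₁).det ^ (2 * l + 1)
      * (LinearMap.BilinForm.toMatrix b₂ B₂).det ^ (2 * k)) ↔ IsSquare (LinearMap.BilinForm.toMatrix b₁ B₁).det := by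
    rw [show (LinearMap.BilinForm.toMatrix b₁ B₁).det ^ (2 * l + 1)
      * (LinearMap.BilinForm.toMatrix b₂ B₂).det ^ (2 * k)
      = ((LinearMap.BilinForm.toMatrix b₁ B₁).det ^ l * (LinearMap.BilinForm.toMatrix b₂ B₂).det ^ k) ^ 2
        * (LinearMap.BilinForm.toMatrix b₁ B₁).det by ring]
    exact Cfsg.Agent.Lib.Helper4.QuadFin.isSquare_sq_mul (mul_ne_zero (pow_ne_zero _ hd₁) (pow_ne_zero _ hd₂))
  have e2 : Even (k * (2 * l + 1) * (Fintype.card F - 1) / 2) ↔ Even (k * (Fintype.card F - 1) / 2) := by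
    rw [hr, Nat.add_sub_cancel]
    rw [show k * (2 * l + 1) * (2 * r) = 2 * (k * (2 * l + 1) * r) by ring,
      show k * (2 * r) = 2 * (k * r) by ring, Nat.mul_div_cancel_left _ (by norm_num),
      Nat.mul_div_cancel_left _ (by norm_num)]
    have h3 : ¬ Even (2 * l + 1) := by simp
    simp only [Nat.even_mul, h3, or_false]
  rw [e1, e2]
  exact hm₁
end Cfsg.Agent.S0835
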