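import Cfsg.Statements.S0836
import Cfsg.Agent.Lib.Helper3.SLn

set_option autoImplicit false
open Cfsg

namespace Cfsg.Agent.S0836

open Matrix Matrix.SpecialLinearGroup
open scoped commutatorElement

theorem diag_conj {F : Type*} [Field F] {n : ℕ} {i j : Fin n} (hij : i ≠ j) (x : F) (hx : x ≠ 0) (b : F) :
    diag2n hij x hx * transvection hij b = transvection hij (x ^ 2 * b) * diag2n hij x hx := by
  apply Subtype.ext
  simp only [coe_mul, transvection_coe, diag2n_coe]
  ext a c
  rw [Matrix.diagonal_mul, Matrix.mul_diagonal]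
  simp only [Matrix.add_apply, Matrix.one_apply, Matrix.single_apply]
  by_cases h1 : a = c <;> by_cases h2 : i = a <;> by_cases h3 : j = c <;> simp_all
  rw [if_neg (fun h => h1 h.symm)]
  field_simp


/-- For i ≠ j and any scalar c, the elementary transvection 1 + c E_ij is a commutator ⁅g, h⁆ of two elements of SL_n(F) provided n ≥ 3, or n = 2 and F contains x ≠ 0 with x² ≠ 1. -/
theorem result {F : Type*} [Field F] (n : ℕ) (hn : 3 ≤ n ∨ (n = 2 ∧ ∃ x : F, x ≠ 0 ∧ x ^ 2 ≠ 1)) (i j : Fin n) (hij : i ≠ j) (c : F) (t : Matrix.SpecialLinearGroup (Fin n) F) (ht : (t : Matrix (Fin n) (Fin n) F) = Matrix.transvection i j c) : t ∈ commutatorSet (Matrix.SpecialLinearGroup (Fin n) F) := by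
  have ht' : t = transvection hij c := Subtype.ext (by rw [ht, transvection_coe]; rfl)
  rw [ht']
  rcases hn with h3 | ⟨-, x, hx0, hx2⟩
  · obtain ⟨k, hki, hkj⟩ : ∃ k : Fin n, k ≠ i ∧ k ≠ j := by
      by_contra hcon
      push Not at hcon
      have h1 : (Finset.univ : Finset (Fin n)) ⊆ {i, j} := by
        intro k _
        by_cases hk : k = i
        · simp [hk]
        · simp [hcon k hk]
      have h2 := Finset.card_le_card h1
      rw [Finset.card_univ, Fintype.card_fin] at h2
      have h4 : ({i, j} : Finset (Fin n)).card ≤ 2 := Finset.card_le_two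
      omega
    exact ⟨_, _, (Cfsg.Agent.Lib.Helper3.SLn.transvection_eq_commutator hij hki.symm hkj c).symm⟩
  · have hne : x ^ 2 - 1 ≠ 0 := sub_ne_zero.2 hx2
    refine ⟨diag2n hij x hx0, transvection hij (c / (x ^ 2 - 1)), ?_⟩
    rw [commutatorElement_def, diag_conj, mul_inv_cancel_right, transvection_inv, ← transvection_add]
    congr 1
    field_simp
    ring
end Cfsg.Agent.S0836
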