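import Cfsg.Statements.S0837
import Mathlib
import Cfsg.Agent.Lib.Helper4.UniMat

set_option autoImplicit false
open Cfsg

namespace Cfsg.Agent.S0837

open Matrix Module Cfsg.Agent.Lib.Helper4.UniCount Cfsg.Agent.Lib.Helper4.UniFrame
  Cfsg.Agent.Lib.Helper4.UniMat

variable {F : Type*} [Field F] {σ : F →+* F} {q n : ℕ}

theorem gu_preserves (hσ : ∀ x, σ x = x ^ q) (A : Cfsg.GU n F q) (u v : Fin n → F) :
    stdB σ n (A.1.1 *ᵥ u) (A.1.1 *ᵥ v) = stdB σ n u v :=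
  (preserves_iff A.1.1).2 ((mem_GU_iff hσ A.1).1 A.2) u v

theorem gu_ext {A B : Cfsg.GU n F q} (h : ∀ x, A.1.1 *ᵥ x = B.1.1 *ᵥ x) : A = B :=
  Subtype.ext (Units.ext (Matrix.ext_iff_mulVec.mpr h))

theorem gu_mul (A B : Cfsg.GU n F q) (x : Fin n → F) :
    (A * B).1.1 *ᵥ x = A.1.1 *ᵥ (B.1.1 *ᵥ x) := by
  rw [mulVec_mulVec]; rfl

theorem gu_one (x : Fin n → F) : (1 : Cfsg.GU n F q).1.1 *ᵥ x = x := by
  change (1 : Matrix (Fin n) (Fin n) F) *ᵥ x = x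
  simp

theorem gu_mul_inv (A : Cfsg.GU n F q) (x : Fin n → F) : A.1.1 *ᵥ (A⁻¹.1.1 *ᵥ x) = x := by
  rw [← gu_mul, mul_inv_cancel, gu_one]

theorem gu_inv_mul (A : Cfsg.GU n F q) (x : Fin n → F) : A⁻¹.1.1 *ᵥ (A.1.1 *ᵥ x) = x := by
  rw [← gu_mul, inv_mul_cancel, gu_one]

theorem exists_gu_of_linearMap (hσ : ∀ x, σ x = x ^ q) (L : (Fin n → F) →ₗ[F] (Fin n → F))
    (hL : ∀ u v, stdB σ n (L u) (L v) = stdB σ n u v) :
    ∃ A : Cfsg.GU n F q, ∀ x, A.1.1 *ᵥ x = L x := by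
  have hmv : ∀ x, LinearMap.toMatrix' L *ᵥ x = L x := by
    intro x
    rw [← Matrix.toLin'_apply, Matrix.toLin'_toMatrix']
  have hU : IsU σ (LinearMap.toMatrix' L) :=
    (preserves_iff _).1 (fun u v => by rw [hmv, hmv]; exact hL u v)
  exact ⟨⟨⟨LinearMap.toMatrix' L, ((LinearMap.toMatrix' L).map σ)ᵀ, hU.mul_conj, hU⟩,
    (mem_GU_iff hσ _).2 hU⟩, hmv⟩

theorem swap0 (h2 : ∀ a, σ (σ a) = a) {u v : Fin n → F} (h : stdB σ n u v = 0) :
    stdB σ n v u = 0 := by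
  rw [← LinearMap.isSymm_def.mp (stdB_isSymm h2) u v, h, map_zero]

theorem exists_std [Finite F] (h1 : σ ≠ RingHom.id F) (h2 : ∀ a, σ (σ a) = a)
    (X : Submodule F (Fin n → F)) {r : ℕ} (hr : finrank F X = r)
    (hX : ∀ u ∈ X, (∀ v ∈ X, stdB σ n u v = 0) → u = 0) :
    ∃ χ : X ≃ₗ[F] (Fin r → F), ∀ u v : X, stdB σ r (χ u) (χ v) = stdB σ n u.1 v.1 := by
  subst hr
  have hS : ((stdB σ n).domRestrict₁₂ X X).IsSymm := (stdB_isSymm h2).domRestrict _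
  have hB : ((stdB σ n).domRestrict₁₂ X X).Nondegenerate := by
    constructor
    · intro u hu
      exact Subtype.ext (hX u.1 u.2 (fun v hv => hu ⟨v, hv⟩))
    · intro v hv
      apply Subtype.ext
      apply hX v.1 v.2
      intro u hu
      have := hv ⟨u, hu⟩
      simp only [LinearMap.domRestrict₁₂_apply] at this
      exact swap0 h2 this
  obtain ⟨b, hb⟩ := Cfsg.Agent.S0755.result σ h1 h2 _ hS hB
  refine ⟨b.equivFun, fun u v => ?_⟩
  have := B_basis _ b hb u v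
  simp only [LinearMap.domRestrict₁₂_apply] at this
  rw [this, stdB_apply]
  rfl

theorem exists_proj {r : ℕ} (X : Submodule F (Fin n → F)) (χ : X ≃ₗ[F] (Fin r → F))
    (hχ : ∀ u v : X, stdB σ r (χ u) (χ v) = stdB σ n u.1 v.1) (v : Fin n → F) :
    ∃ a : X, ∀ w ∈ X, stdB σ n w (v - a.1) = 0 := by
  refine ⟨χ.symm (fun i => stdB σ n (χ.symm (Pi.single i 1)).1 v), fun w hw => ?_⟩
  rw [map_sub, sub_eq_zero]
  have e1 : stdB σ n w (χ.symm (fun i => stdB σ n (χ.symm (Pi.single i 1)).1 v)).1 =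
      stdB σ r (χ ⟨w, hw⟩) (fun i => stdB σ n (χ.symm (Pi.single i 1)).1 v) := by
    rw [← χ.apply_symm_apply (fun i => stdB σ n (χ.symm (Pi.single i 1)).1 v), hχ,
      χ.apply_symm_apply]
  have e3 : stdB σ r (χ ⟨w, hw⟩) (fun i => stdB σ n (χ.symm (Pi.single i 1)).1 v) =
      ∑ i, σ (χ ⟨w, hw⟩ i) * stdB σ n (χ.symm (Pi.single i 1)).1 v := rfl
  rw [e1, e3]
  have h3 : χ ⟨w, hw⟩ = ∑ i, (χ ⟨w, hw⟩ i) • (Pi.single i (1 : F) : Fin r → F) := by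
    ext j
    simp [Finset.sum_apply, Pi.single_apply]
  have h4 : (⟨w, hw⟩ : X) = ∑ i, (χ ⟨w, hw⟩ i) • χ.symm (Pi.single i 1) := by
    calc (⟨w, hw⟩ : X) = χ.symm (χ ⟨w, hw⟩) := (χ.symm_apply_apply _).symm
      _ = χ.symm (∑ i, (χ ⟨w, hw⟩ i) • (Pi.single i (1 : F) : Fin r → F)) := by rw [← h3]
      _ = _ := by rw [map_sum]; simp only [map_smul]
  have h5 : w = ∑ i, (χ ⟨w, hw⟩ i) • (χ.symm (Pi.single i 1)).1 := by
    have := congr_arg Subtype.val h4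
    rw [Submodule.coe_sum] at this
    simpa only [Submodule.coe_smul] using this
  conv_lhs => rw [h5]
  rw [map_sum, LinearMap.sum_apply]
  simp only [map_smulₛₗ, LinearMap.smul_apply, smul_eq_mul]

/-- orthogonal complement -/
def perpS (σ : F →+* F) (X : Submodule F (Fin n → F)) : Submodule F (Fin n → F) where
  carrier := {x | ∀ w ∈ X, stdB σ n w x = 0}
  add_mem' := by
    intro a b ha hb w hw
    rw [map_add, ha w hw, hb w hw, add_zero]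
  zero_mem' := by
    intro w _
    rw [map_zero]
  smul_mem' := by
    intro c a ha w hw
    rw [map_smul, ha w hw, smul_zero]

theorem isCompl_perp {r : ℕ} (h2 : ∀ a, σ (σ a) = a) (X : Submodule F (Fin n → F))
    (χ : X ≃ₗ[F] (Fin r → F))
    (hχ : ∀ u v : X, stdB σ r (χ u) (χ v) = stdB σ n u.1 v.1)
    (hX : ∀ u ∈ X, (∀ v ∈ X, stdB σ n u v = 0) → u = 0) : IsCompl X (perpS σ X) := by
  constructor
  · rw [Submodule.disjoint_def]
    intro x hx hx'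
    exact hX x hx (fun v hv => swap0 h2 (hx' v hv))
  · rw [codisjoint_iff, eq_top_iff]
    intro v _
    obtain ⟨a, ha⟩ := exists_proj X χ hχ v
    rw [Submodule.mem_sup]
    exact ⟨a.1, a.2, v - a.1, ha, by abel⟩

theorem form_split (h2 : ∀ a, σ (σ a) = a) (W W' : Submodule F (Fin n → F))
    (hperp : ∀ w ∈ W, ∀ x ∈ W', stdB σ n w x = 0) (a b : W) (a' b' : W') :
    stdB σ n (a.1 + a'.1) (b.1 + b'.1) = stdB σ n a.1 b.1 + stdB σ n a'.1 b'.1 := by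
  simp only [map_add, LinearMap.add_apply]
  rw [hperp a.1 a.2 b'.1 b'.2, swap0 h2 (hperp b.1 b.2 a'.1 a'.2)]
  ring

theorem exists_restr {r : ℕ} (hσ : ∀ x, σ x = x ^ q) (X : Submodule F (Fin n → F))
    (χ : X ≃ₗ[F] (Fin r → F))
    (hχ : ∀ u v : X, stdB σ r (χ u) (χ v) = stdB σ n u.1 v.1)
    (g : Cfsg.GU n F q) (hg : ∀ x ∈ X, g.1.1 *ᵥ x ∈ X) :
    ∃ A : Cfsg.GU r F q, ∀ (x : Fin n → F) (hx : x ∈ X),
      A.1.1 *ᵥ χ ⟨x, hx⟩ = χ ⟨g.1.1 *ᵥ x, hg x hx⟩ := by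
  have hg' : ∀ x ∈ X, Matrix.toLin' g.1.1 x ∈ X := fun x hx => by
    rw [toLin'_apply]; exact hg x hx
  set L : (Fin r → F) →ₗ[F] (Fin r → F) :=
    (χ : X →ₗ[F] (Fin r → F)) ∘ₗ (Matrix.toLin' g.1.1).restrict hg' ∘ₗ
      (χ.symm : (Fin r → F) →ₗ[F] X) with hL
  have hLf : ∀ u v, stdB σ r (L u) (L v) = stdB σ r u v := by
    intro u v
    simp only [hL, LinearMap.comp_apply, LinearEquiv.coe_coe]
    rw [hχ]
    simp only [LinearMap.coe_restrict_apply, toLin'_apply]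
    rw [gu_preserves hσ, ← hχ, χ.apply_symm_apply, χ.apply_symm_apply]
  obtain ⟨A, hA⟩ := exists_gu_of_linearMap hσ L hLf
  refine ⟨A, fun x hx => ?_⟩
  rw [hA]
  simp only [hL, LinearMap.comp_apply, LinearEquiv.coe_coe, χ.symm_apply_apply]
  congr 1

theorem mem_stab_of_le (W : Submodule F (Fin n → F))
    (g : Cfsg.GU n F q) (hg : ∀ x ∈ W, g.1.1 *ᵥ x ∈ W) :
    g.1 ∈ Cfsg.stabilizing (Cfsg.glToMat (Fin n) F) (W : Set (Fin n → F)) := by
  have hg' : ∀ x ∈ W, Matrix.toLin' g.1.1 x ∈ W := fun x hx => by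
    rw [toLin'_apply]; exact hg x hx
  have hinj : Function.Injective ((Matrix.toLin' g.1.1).restrict hg') := by
    intro a b hab
    have h1 := congr_arg Subtype.val hab
    simp only [LinearMap.coe_restrict_apply, toLin'_apply] at h1
    apply Subtype.ext
    rw [← gu_inv_mul g a.1, h1, gu_inv_mul]
  have hsurj := LinearMap.injective_iff_surjective.1 hinj
  intro v
  refine ⟨hg v, fun hv => ?_⟩
  obtain ⟨w, hw⟩ := hsurj ⟨_, hv⟩
  have h1 := congr_arg Subtype.val hw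
  simp only [LinearMap.coe_restrict_apply, toLin'_apply] at h1
  have h2 : w.1 = v := by
    rw [← gu_inv_mul g w.1, h1]
    exact gu_inv_mul g v
  rw [← h2]; exact w.2

theorem exists_glue {r s : ℕ} (hσ : ∀ x, σ x = x ^ q) (h2 : ∀ a, σ (σ a) = a)
    (W W' : Submodule F (Fin n → F)) (hc : IsCompl W W')
    (hperp : ∀ w ∈ W, ∀ x ∈ W', stdB σ n w x = 0)
    (φ : W ≃ₗ[F] (Fin r → F))
    (hφ : ∀ u v : W, stdB σ r (φ u) (φ v) = stdB σ n u.1 v.1)
    (ψ : W' ≃ₗ[F] (Fin s → F))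
    (hψ : ∀ u v : W', stdB σ s (ψ u) (ψ v) = stdB σ n u.1 v.1)
    (A : Cfsg.GU r F q) (D : Cfsg.GU s F q) :
    ∃ G : Cfsg.GU n F q, (∀ a : W, G.1.1 *ᵥ a.1 = (φ.symm (A.1.1 *ᵥ φ a)).1) ∧
      (∀ b : W', G.1.1 *ᵥ b.1 = (ψ.symm (D.1.1 *ᵥ ψ b)).1) := by
  set E := W.prodEquivOfIsCompl W' hc with hE
  set LA : W →ₗ[F] W := (φ.symm : _ →ₗ[F] W) ∘ₗ Matrix.toLin' A.1.1 ∘ₗ (φ : W →ₗ[F] _) with hLA
  set LD : W' →ₗ[F] W' := (ψ.symm : _ →ₗ[F] W') ∘ₗ Matrix.toLin' D.1.1 ∘ₗ (ψ : W' →ₗ[F] _)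
    with hLD
  have hLAf : ∀ a b : W, stdB σ n (LA a).1 (LA b).1 = stdB σ n a.1 b.1 := by
    intro a b
    rw [← hφ, ← hφ a b]
    simp only [hLA, LinearMap.comp_apply, LinearEquiv.coe_coe, φ.apply_symm_apply, toLin'_apply]
    exact gu_preserves hσ A _ _
  have hLDf : ∀ a b : W', stdB σ n (LD a).1 (LD b).1 = stdB σ n a.1 b.1 := by
    intro a b
    rw [← hψ, ← hψ a b]
    simp only [hLD, LinearMap.comp_apply, LinearEquiv.coe_coe, ψ.apply_symm_apply, toLin'_apply]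
    exact gu_preserves hσ D _ _
  set T : (Fin n → F) →ₗ[F] (Fin n → F) :=
    (E : (W × W') →ₗ[F] (Fin n → F)) ∘ₗ (LinearMap.prodMap LA LD) ∘ₗ
      (E.symm : (Fin n → F) →ₗ[F] (W × W')) with hT
  have hTE : ∀ x : W × W', T (E x) = (LA x.1).1 + (LD x.2).1 := by
    intro x
    simp only [hT, LinearMap.comp_apply, LinearEquiv.coe_coe, E.symm_apply_apply,
      LinearMap.prodMap_apply]
    rfl
  have hEx : ∀ x : W × W', E x = x.1.1 + x.2.1 := fun x => rfl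
  have hTf : ∀ u v, stdB σ n (T u) (T v) = stdB σ n u v := by
    intro u v
    obtain ⟨x, rfl⟩ := E.surjective u
    obtain ⟨y, rfl⟩ := E.surjective v
    rw [hTE, hTE, hEx, hEx, form_split h2 W W' hperp, form_split h2 W W' hperp, hLAf, hLDf]
  obtain ⟨G, hG⟩ := exists_gu_of_linearMap hσ T hTf
  refine ⟨G, fun a => ?_, fun b => ?_⟩
  · have e : a.1 = E (a, 0) := by rw [hEx]; simp
    rw [hG, e, hTE]
    simp [hLA]
  · have e : b.1 = E (0, b) := by rw [hEx]; simp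
    rw [hG, e, hTE]
    simp [hLD]


/-- If W ≤ F^n (|F| = q²) is a k-dimensional subspace on which the Hermitian form Σ x_i y_i^q is non-degenerate, then the stabiliser of W in GU_n(q) is isomorphic to GU_k(q) × GU_(n−k)(q). -/
theorem result {F : Type*} [Field F] [Fintype F] {q : ℕ} (hF : Fintype.card F = q ^ 2) (n k : ℕ) (hk : k ≤ n) (W : Submodule F (Fin n → F)) (hWk : Module.finrank F W = k) (hW : ∀ u ∈ W, (∀ v ∈ W, Cfsg.hermForm n F q u v = 0) → u = 0) : Nonempty (↥((Cfsg.stabilizing (Cfsg.glToMat (Fin n) F) (W : Set (Fin n → F))).subgroupOf (Cfsg.GU n F q)) ≃* ↥(Cfsg.GU k F q) × ↥(Cfsg.GU (n - k) F q)) := by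
  classical
  obtain ⟨σ, hσ⟩ := exists_sig hF
  have h1 : σ ≠ RingHom.id F := by
    obtain ⟨x, hx⟩ := sig_ne_id hF
    intro h
    apply hx
    rw [← hσ, h]; rfl
  have h2 : ∀ a, σ (σ a) = a := by
    intro a
    rw [hσ, hσ, pow_q_q hF]
  have hW1 : ∀ u ∈ W, (∀ v ∈ W, stdB σ n u v = 0) → u = 0 := by
    intro u hu h
    apply hW u hu
    intro v hv
    rw [hermForm_eq hσ]
    exact swap0 h2 (h v hv)
  obtain ⟨φ, hφ⟩ := exists_std h1 h2 W hWk hW1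
  set W' := perpS σ W with hW'
  have hperp : ∀ w ∈ W, ∀ x ∈ W', stdB σ n w x = 0 := fun w hw x hx => hx w hw
  have hc : IsCompl W W' := isCompl_perp h2 W φ hφ hW1
  have hdec : ∀ v : Fin n → F, ∃ a : W, ∃ b : W', v = a.1 + b.1 := by
    intro v
    obtain ⟨x, rfl⟩ := (W.prodEquivOfIsCompl W' hc).surjective v
    exact ⟨x.1, x.2, rfl⟩
  have hW1' : ∀ u ∈ W', (∀ v ∈ W', stdB σ n u v = 0) → u = 0 := by
    intro x hx h
    apply (stdB_nondeg (σ := σ) (n := n)).1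
    intro v
    obtain ⟨a, b, rfl⟩ := hdec v
    rw [map_add, h b.1 b.2, swap0 h2 (hperp a.1 a.2 x hx), add_zero]
  have hfin' : finrank F W' = n - k := by
    have := Submodule.finrank_add_eq_of_isCompl hc
    rw [hWk, Module.finrank_fintype_fun_eq_card, Fintype.card_fin] at this
    omega
  obtain ⟨ψ, hψ⟩ := exists_std h1 h2 W' hfin' hW1'
  set S := (Cfsg.stabilizing (Cfsg.glToMat (Fin n) F) (W : Set (Fin n → F))).subgroupOf
    (Cfsg.GU n F q) with hS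
  have hSW : ∀ g : S, ∀ x ∈ W, g.1.1.1 *ᵥ x ∈ W := fun g x hx =>
    ((Subgroup.mem_subgroupOf.1 g.2) x).1 hx
  have hSW' : ∀ g : S, ∀ x ∈ W', g.1.1.1 *ᵥ x ∈ W' := by
    intro g x hx w hw
    have h3 : (g.1⁻¹).1.1 *ᵥ w ∈ W := hSW g⁻¹ w hw
    rw [← gu_mul_inv g.1 w, gu_preserves hσ]
    exact hperp _ h3 x hx
  choose A hA using fun g : S => exists_restr hσ W φ hφ g.1 (hSW g)
  choose D hD using fun g : S => exists_restr hσ W' ψ hψ g.1 (hSW' g)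
  let Φ : S →* Cfsg.GU k F q × Cfsg.GU (n - k) F q :=
    MonoidHom.mk' (fun g => (A g, D g)) (by
      intro g h
      apply Prod.ext
      · apply gu_ext
        intro u
        obtain ⟨x, rfl⟩ := φ.surjective u
        change (A (g * h)).1.1 *ᵥ φ x = ((A g) * (A h)).1.1 *ᵥ φ x
        rw [gu_mul, show x = ⟨x.1, x.2⟩ from rfl, hA, hA, hA]
        congr 2
        exact gu_mul g.1 h.1 x.1
      · apply gu_ext
        intro u
        obtain ⟨x, rfl⟩ := ψ.surjective u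
        change (D (g * h)).1.1 *ᵥ ψ x = ((D g) * (D h)).1.1 *ᵥ ψ x
        rw [gu_mul, show x = ⟨x.1, x.2⟩ from rfl, hD, hD, hD]
        congr 2
        exact gu_mul g.1 h.1 x.1)
  refine ⟨MulEquiv.ofBijective Φ ⟨?_, ?_⟩⟩
  · rw [injective_iff_map_eq_one]
    intro g hg
    have hgA : A g = 1 := congr_arg Prod.fst hg
    have hgD : D g = 1 := congr_arg Prod.snd hg
    apply Subtype.ext
    apply gu_ext
    intro v
    obtain ⟨a, b, rfl⟩ := hdec v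
    have e1 : g.1.1.1 *ᵥ a.1 = a.1 := by
      have := hA g a.1 a.2
      rw [hgA, gu_one] at this
      exact (congr_arg Subtype.val (φ.injective this)).symm
    have e2 : g.1.1.1 *ᵥ b.1 = b.1 := by
      have := hD g b.1 b.2
      rw [hgD, gu_one] at this
      exact (congr_arg Subtype.val (ψ.injective this)).symm
    rw [mulVec_add, e1, e2]
    exact (gu_one _).symm
  · rintro ⟨A₀, D₀⟩
    obtain ⟨G, hGa, hGb⟩ := exists_glue hσ h2 W W' hc hperp φ hφ ψ hψ A₀ D₀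
    have hGS : G ∈ S := Subgroup.mem_subgroupOf.2 (mem_stab_of_le W G (fun x hx => by
      rw [hGa ⟨x, hx⟩]; exact Subtype.coe_prop _))
    refine ⟨⟨G, hGS⟩, Prod.ext ?_ ?_⟩
    · apply gu_ext
      intro u
      obtain ⟨x, rfl⟩ := φ.surjective u
      change (A ⟨G, hGS⟩).1.1 *ᵥ φ x = A₀.1.1 *ᵥ φ x
      rw [show x = ⟨x.1, x.2⟩ from rfl, hA]
      have : (⟨G.1.1 *ᵥ x.1, hSW ⟨G, hGS⟩ x.1 x.2⟩ : W) = φ.symm (A₀.1.1 *ᵥ φ x) :=
        Subtype.ext (hGa x)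
      rw [this, φ.apply_symm_apply]
    · apply gu_ext
      intro u
      obtain ⟨x, rfl⟩ := ψ.surjective u
      change (D ⟨G, hGS⟩).1.1 *ᵥ ψ x = D₀.1.1 *ᵥ ψ x
      rw [show x = ⟨x.1, x.2⟩ from rfl, hD]
      have : (⟨G.1.1 *ᵥ x.1, hSW' ⟨G, hGS⟩ x.1 x.2⟩ : W') = ψ.symm (D₀.1.1 *ᵥ ψ x) :=
        Subtype.ext (hGb x)
      rw [this, ψ.apply_symm_apply]
end Cfsg.Agent.S0837
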