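import Cfsg.Statements.S0838
import Mathlib
import Cfsg.Agent.Lib.Helper4.QuadDisc

set_option autoImplicit false
open Cfsg

namespace Cfsg.Agent.S0838



/-- Over a finite field with 2 ≠ 0 and n odd: two quadratic forms Q₁, Q₂ on F^n with non-degenerate polar forms are similar — there are an invertible linear map g and a scalar c ≠ 0 with Q₂ (g v) = c · Q₁ v for all v. -/
theorem result {F : Type*} [Field F] [Fintype F] (h2 : (2 : F) ≠ 0) {n : ℕ} (hn : Odd n) (Q₁ Q₂ : QuadraticForm F (Fin n → F)) (h₁ : (QuadraticMap.polarBilin Q₁).Nondegenerate) (h₂ : (QuadraticMap.polarBilin Q₂).Nondegenerate) : ∃ (g : (Fin n → F) ≃ₗ[F] (Fin n → F)) (c : F), c ≠ 0 ∧ ∀ v, Q₂ (g v) = c * Q₁ v := by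
  have hd₁ := Lib.Helper4.QuadFin.det_ne_zero_of_nondegenerate h₁
  have hd₂ := Lib.Helper4.QuadFin.det_ne_zero_of_nondegenerate h₂
  set d₁ := (LinearMap.BilinForm.toMatrix' (QuadraticMap.polarBilin Q₁)).det with hd₁'
  set d₂ := (LinearMap.BilinForm.toMatrix' (QuadraticMap.polarBilin Q₂)).det with hd₂'
  have hc : d₁ * d₂ ≠ 0 := mul_ne_zero hd₁ hd₂
  obtain ⟨k, hk⟩ := hn
  have hnd : Lib.Helper4.QuadFin.ND ((d₁ * d₂) • Q₁) := by
    intro v hv
    apply Lib.Helper4.QuadFin.nd_of_nondegenerate h₁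
    intro w
    have h := hv w
    have e2 : QuadraticMap.polar ((d₁ * d₂) • Q₁) v w = (d₁ * d₂) * QuadraticMap.polar Q₁ v w := by
      simp [QuadraticMap.polar]; ring
    rw [e2] at h
    exact (mul_eq_zero.1 h).resolve_left hc
  have hdet : (LinearMap.BilinForm.toMatrix' (QuadraticMap.polarBilin ((d₁ * d₂) • Q₁))).det = (d₁ * d₂) ^ n * d₁ := by
    have := Lib.Helper4.QuadFin.isSquare_of_isometric Q₁ ((d₁ * d₂) • Q₁) LinearMap.id (d₁ * d₂) (by intro v; simp)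
    rw [LinearMap.toMatrix'_id, Matrix.det_one, one_pow, one_mul] at this
    exact this.symm
  obtain ⟨g, hg⟩ := Lib.Helper4.QuadFin.isometric_of_isSquare h2 ((d₁ * d₂) • Q₁) Q₂ hnd
    (Lib.Helper4.QuadFin.nd_of_nondegenerate h₂) (by
      rw [hdet, ← hd₂']
      have hpow : (d₁ * d₂) ^ n = (d₁ * d₂) ^ (2 * k + 1) := by rw [hk]
      rw [hpow]
      exact ⟨(d₁ * d₂) ^ (k + 1), by ring⟩)
  exact ⟨g, d₁ * d₂, hc, fun v => by rw [hg]; simp⟩
end Cfsg.Agent.S0838
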