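import Cfsg.Statements.S0839
import Cfsg.Agent.S2579

set_option autoImplicit false
open Cfsg

namespace Cfsg.Agent.S0839

open Cfsg.Agent.Lib.Helper4.PSLn Cfsg.Agent.Lib.Helper4.SLnTv Matrix


/-- Every transvection t ∈ SL_(n+2)(F) (rank(t − 1) = 1, (t − 1)² = 0) is conjugate in SL_(n+2)(F) to 1 + v·e_0ᵀ for some column vector v with v_0 = 0 (the group A of matrices that are the identity except in the first column below the diagonal); the dimension is written n + 2 ≥ 2. -/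
theorem result {F : Type*} [Field F] (n : ℕ) (t : Matrix.SpecialLinearGroup (Fin (n + 2)) F) (ht : Cfsg.IsTransvection (t : Matrix (Fin (n + 2)) (Fin (n + 2)) F)) : ∃ (g : Matrix.SpecialLinearGroup (Fin (n + 2)) F) (v : Fin (n + 2) → F), v 0 = 0 ∧ ((g⁻¹ * t * g : Matrix.SpecialLinearGroup (Fin (n + 2)) F) : Matrix (Fin (n + 2)) (Fin (n + 2)) F) = 1 + Matrix.vecMulVec v (Pi.single 0 1) := by
  obtain ⟨v, φ, hv, hφ, h0, rfl⟩ := Cfsg.Agent.S2579.exists_tv t ht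
  obtain ⟨h, hh⟩ := exists_move (n := n + 2) (by omega) 0 hφ
  let g : Matrix.SpecialLinearGroup (Fin (n + 2)) F := h.transpose
  have hg : φ ᵥ* g.1 = e 0 := by
    change φ ᵥ* h.1ᵀ = _
    rw [vecMul_transpose, hh]
  have h1 := conj_tv g⁻¹ h0
  rw [inv_inv] at h1
  have h2 : (φ ᵥ* g.1) ⬝ᵥ ((g⁻¹).1 *ᵥ v) = 0 := by
    have hinv : g.1 * (g⁻¹).1 = 1 := congrArg Subtype.val (mul_inv_cancel g)
    rw [← dotProduct_mulVec, mulVec_mulVec, hinv, one_mulVec, h0]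
  refine ⟨g, (g⁻¹).1 *ᵥ v, ?_, ?_⟩
  · rw [hg, e_dot] at h2
    exact h2
  · rw [h1, tv_val h2, hg]
    rfl
end Cfsg.Agent.S0839
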