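import Cfsg.Statements.S0849
import Cfsg.Agent.Lib.Helper7.All1
-- import your own Cfsg.Agent.* helpers here

set_option autoImplicit false
open Cfsg
open Cfsg.Agent.Lib.Helper7.CharBasic Cfsg.Agent.Lib.Helper7.CharIrr Cfsg.Agent.Lib.Helper7.CharDecomp Cfsg.Agent.Lib.Helper7.CharComplete Cfsg.Agent.Lib.Helper7.CharOrth Cfsg.Agent.Lib.Helper7.CharInd Cfsg.Agent.Lib.Helper7.CharIntegral Cfsg.Agent.Lib.Helper7.CharBurnside Cfsg.Agent.Lib.Helper7.CharLinear Cfsg.Agent.Lib.Helper7.CharEquiv Cfsg.Agent.Lib.Helper7.CharMore Cfsg.Agent.Lib.Helper7.CharCount Cfsg.Agent.Lib.Helper7.CharMisc Cfsg.Agent.Lib.Helper7.CharMisc2 Cfsg.Agent.Lib.Helper7.CharNormal Cfsg.Agent.Lib.Helper7.CharOdd Cfsg.Agent.Lib.Helper7.CharClifford Cfsg.Agent.Lib.Helper7.CharProd Cfsg.Agent.Lib.Helper7.CharPerm Cfsg.Agent.Lib.Helper7.CharClassAlg Cfsg.Agent.Lib.Helper7.CharClassAlg2 Cfsg.Agent.Lib.Helper7.CharCentral Cfsg.Agent.Lib.Helper7.CharNormal2 Cfsg.Agent.Lib.Helper7.CharCliffordCorr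
open scoped ComplexConjugate

namespace Cfsg.Agent.S0849

/-- Let H be a subgroup of a finite group G and S a subset of H that is mapped to itself under conjugation by H, is disjoint from its conjugate by any element outside H, and is closed under inverses. Let φ be a class function of H vanishing on H away from S, and let u, v be involutions of G. Then the sum of the induced function of φ over all products a * b with a conjugate to u and b conjugate to v equals the index of H times the sum of φ (a * b) over such pairs with a and b in H. -/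
theorem result {G : Type*} [Group G] [Fintype G] (H : Subgroup G) (S : Set G) (hSH : S ⊆ H) (hHS : ∀ h ∈ H, ∀ s ∈ S, h * s * h⁻¹ ∈ S) (hTI : ∀ g : G, g ∉ H → ∀ s ∈ S, g * s * g⁻¹ ∉ S) (hinv : ∀ s ∈ S, s⁻¹ ∈ S) (φ : H → ℂ) (hφ : Cfsg.IsClassFunction H φ) (hφS : ∀ x : H, (x : G) ∉ S → φ x = 0) (u v : G) (hu : orderOf u = 2) (hv : orderOf v = 2) : ∑ᶠ p ∈ {p : G × G | IsConj u p.1 ∧ IsConj v p.2}, Cfsg.indFun H φ (p.1 * p.2) = (H.index : ℂ) * ∑ᶠ p ∈ {p : H × H | IsConj u (p.1 : G) ∧ IsConj v (p.2 : G)}, φ (p.1 * p.2) := by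
  classical
  haveI : Fintype H := Fintype.ofFinite _
  have hsq : ∀ w a : G, orderOf w = 2 → IsConj w a → a * a = 1 := by
    intro w a hw hc
    obtain ⟨c, hc⟩ := isConj_iff.mp hc
    have : w * w = 1 := by rw [← pow_two, ← hw]; exact pow_orderOf_eq_one w
    rw [← hc]
    calc c * w * c⁻¹ * (c * w * c⁻¹) = c * (w * w) * c⁻¹ := by group
      _ = 1 := by rw [this]; group
  rw [finsum_mem_def, finsum_eq_sum_of_fintype, finsum_mem_def, finsum_eq_sum_of_fintype]
  simp only [Set.indicator_apply, Set.mem_setOf_eq]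
  have h1 : ∀ x : G, ∑ p : G × G, (if IsConj u p.1 ∧ IsConj v p.2 then
      extendByZero H φ (x⁻¹ * (p.1 * p.2) * x) else 0) =
      ∑ p : G × G, (if IsConj u p.1 ∧ IsConj v p.2 then extendByZero H φ (p.1 * p.2) else 0) := by
    intro x
    let e : G × G ≃ G × G :=
      { toFun := fun p => (x⁻¹ * p.1 * x, x⁻¹ * p.2 * x)
        invFun := fun p => (x * p.1 * x⁻¹, x * p.2 * x⁻¹)
        left_inv := by intro p; ext <;> simp [mul_assoc]
        right_inv := by intro p; ext <;> simp [mul_assoc] }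
    apply Fintype.sum_equiv e
    intro p
    have ha : ∀ w a : G, IsConj w (x⁻¹ * a * x) ↔ IsConj w a := by
      intro w a
      have : IsConj a (x⁻¹ * a * x) := isConj_iff.mpr ⟨x⁻¹, by simp⟩
      exact ⟨fun h => h.trans this.symm, fun h => h.trans this⟩
    simp only [e, Equiv.coe_fn_mk, ha]
    congr 2
    group
  have h2 : ∑ p : H × H, (if IsConj u (p.1 : G) ∧ IsConj v (p.2 : G) then φ (p.1 * p.2) else 0) =
      ∑ p : G × G, (if IsConj u p.1 ∧ IsConj v p.2 then extendByZero H φ (p.1 * p.2) else 0) := by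
    apply Fintype.sum_of_injective (fun p : H × H => ((p.1 : G), (p.2 : G)))
    · intro p q h
      simp only [Prod.mk.injEq] at h
      ext
      · exact h.1
      · exact h.2
    · intro p hp
      split_ifs with hc
      · by_contra hne
        apply hp
        have hmem : p.1 * p.2 ∈ H := by
          by_contra hn
          exact hne (extendByZero_of_not_mem H φ hn)
        have hS : p.1 * p.2 ∈ S := by
          by_contra hn
          apply hne
          rw [extendByZero_of_mem H φ hmem]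
          exact hφS _ hn
        have e1 := hsq u p.1 hu hc.1
        have e2 := hsq v p.2 hv hc.2
        have i1 : p.1⁻¹ = p.1 := inv_eq_of_mul_eq_one_left e1
        have i2 : p.2⁻¹ = p.2 := inv_eq_of_mul_eq_one_left e2
        have hp1 : p.1 ∈ H := by
          by_contra hn
          apply hTI p.1 hn _ hS
          have : p.1 * (p.1 * p.2) * p.1⁻¹ = (p.1 * p.2)⁻¹ := by
            rw [mul_inv_rev, ← mul_assoc, e1, one_mul, i1, i2]
          rw [this]
          exact hinv _ hS
        have hp2 : p.2 ∈ H := by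
          have : p.2 = p.1⁻¹ * (p.1 * p.2) := by group
          rw [this]
          exact H.mul_mem (H.inv_mem hp1) hmem
        exact ⟨(⟨p.1, hp1⟩, ⟨p.2, hp2⟩), rfl⟩
      · rfl
    · intro p
      simp only
      have : extendByZero H φ ((p.1 : G) * (p.2 : G)) = φ (p.1 * p.2) := by
        rw [← Subgroup.coe_mul, extendByZero_coe]
      rw [this]
  rw [h2]
  unfold indFun
  have h3 : ∀ p : G × G, (if IsConj u p.1 ∧ IsConj v p.2 then
      (Nat.card H : ℂ)⁻¹ * ∑ x : G, extendByZero H φ (x⁻¹ * (p.1 * p.2) * x) else 0) =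
      (Nat.card H : ℂ)⁻¹ * ∑ x : G, (if IsConj u p.1 ∧ IsConj v p.2 then
        extendByZero H φ (x⁻¹ * (p.1 * p.2) * x) else 0) := by
    intro p
    split_ifs
    · rfl
    · simp
  simp only [h3]
  rw [← Finset.mul_sum, Finset.sum_comm]
  simp only [h1]
  rw [Finset.sum_const, Finset.card_univ, nsmul_eq_mul, ← mul_assoc]
  congr 1
  have hH : (Nat.card H : ℂ) ≠ 0 := by exact_mod_cast Nat.card_pos.ne'
  have := Subgroup.card_mul_index H
  rw [Nat.card_eq_fintype_card (α := G)] at this
  rw [← this]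
  push_cast
  field_simp

end Cfsg.Agent.S0849
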