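import Cfsg.Statements.S4456
import Cfsg.Agent.Lib.Helper7.All1
import Cfsg.Agent.Lib.Helper7.OpRes1
-- import your own Cfsg.Agent.* helpers here

set_option autoImplicit false
open Cfsg
open Cfsg.Agent.Lib.Helper7.CharBasic Cfsg.Agent.Lib.Helper7.CharIrr Cfsg.Agent.Lib.Helper7.CharDecomp Cfsg.Agent.Lib.Helper7.CharComplete Cfsg.Agent.Lib.Helper7.CharOrth Cfsg.Agent.Lib.Helper7.CharInd Cfsg.Agent.Lib.Helper7.CharIntegral Cfsg.Agent.Lib.Helper7.CharBurnside Cfsg.Agent.Lib.Helper7.CharLinear Cfsg.Agent.Lib.Helper7.CharEquiv Cfsg.Agent.Lib.Helper7.CharMore Cfsg.Agent.Lib.Helper7.CharCount Cfsg.Agent.Lib.Helper7.CharMisc Cfsg.Agent.Lib.Helper7.CharMisc2 Cfsg.Agent.Lib.Helper7.CharNormal Cfsg.Agent.Lib.Helper7.CharOdd Cfsg.Agent.Lib.Helper7.CharClifford Cfsg.Agent.Lib.Helper7.CharProd Cfsg.Agent.Lib.Helper7.CharPerm Cfsg.Agent.Lib.Helper7.CharClassAlg Cfsg.Agent.Lib.Helper7.CharClassAlg2 Cfsg.Agent.Lib.Helper7.CharCentral Cfsg.Agent.Lib.Helper7.CharNormal2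 Cfsg.Agent.Lib.Helper7.CharCliffordCorr Cfsg.Agent.Lib.Helper7.OpRes1 Cfsg.Agent.Lib.Helper7.CharDeg Cfsg.Agent.Lib.Helper7.Transfer1 Cfsg.Agent.Lib.Helper7.ProjExt5
open scoped ComplexConjugate

namespace Cfsg.Agent.S4456

/-- Let p be a prime and G a finite group such that p divides the degree of every irreducible character of G of degree greater than one. Then G has a normal p-complement: a normal subgroup of order prime to p whose index is a power of p. -/
theorem result {G : Type*} [Group G] [Finite G] (p : ℕ) (hp : p.Prime) (hdeg : ∀ χ : Cfsg.IrrCharacter G, Cfsg.charDegree (χ : G → ℂ) ≠ 1 → p ∣ Cfsg.charDegree (χ : G → ℂ)) : ∃ N : Subgroup G, N.Normal ∧ (Nat.card N).Coprime p ∧ ∃ k : ℕ, N.index = p ^ k := by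
  classical
  haveI : Fact p.Prime := ⟨hp⟩
  haveI := pResidual_normal (G := G) p
  haveI := Fintype.ofFinite G
  haveI := Fintype.ofFinite (IrrCharacter G)
  obtain ⟨k, hk⟩ := pResidual_index (G := G) (p := p)
  have h1 := main (Cfsg.pResidual p G) hk pResidual_hom
  refine ⟨pResidual p G, inferInstance, ?_, k, hk⟩
  have hone : ∀ l : G →* ℂˣ, charDegree (fun g => ((l g : ℂˣ) : ℂ)) = 1 :=
    fun l => charDegree_of_eq (by simp)
  have hdet : ∀ l : G →* ℂˣ, detOrder (fun g => ((l g : ℂˣ) : ℂ)) = orderOf l := by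
    intro l
    unfold detOrder
    rw [detChar_of_hom, orderOf_homToFun]
  have hp1 : ¬ p ∣ 1 := hp.one_lt.ne' ∘ Nat.dvd_one.mp
  have h2 : (∑ᶠ χ ∈ {χ : IrrCharacter G | ¬ p ∣ charDegree (χ : G → ℂ) ∧
      ¬ p ∣ detOrder (χ : G → ℂ)}, (charDegree (χ : G → ℂ) : ℤ) ^ 2) =
      (Nat.card {l : G →* ℂˣ // ¬ p ∣ orderOf l} : ℤ) := by
    rw [finsum_mem_eq_toFinset_sum]
    rw [Finset.sum_congr rfl (g := fun _ => (1 : ℤ))]
    · rw [Finset.sum_const, Set.toFinset_card, ← Nat.card_eq_fintype_card]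
      simp only [nsmul_eq_mul, mul_one]
      congr 1
      symm
      refine Nat.card_congr (Equiv.ofBijective (fun l => ⟨⟨_, isIrrCharacter_of_hom l.1⟩, ?_⟩) ⟨?_, ?_⟩)
      · refine ⟨?_, ?_⟩
        · change ¬ p ∣ charDegree (fun g => ((l.1 g : ℂˣ) : ℂ))
          rw [hone]; exact hp1
        · change ¬ p ∣ detOrder (fun g => ((l.1 g : ℂˣ) : ℂ))
          rw [hdet]; exact l.2
      · intro a b hab
        apply Subtype.ext
        refine MonoidHom.ext fun g => Units.ext ?_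
        exact congrFun (congrArg (fun x => x.1.1) hab) g
      · rintro ⟨χ, hχ1, hχ2⟩
        have hd : charDegree χ.1 = 1 := by
          by_contra h
          exact hχ1 (hdeg χ h)
        obtain ⟨l, hl⟩ := exists_hom_of_irr_of_one (IsIrrCharacter.isCharacter χ.2)
          ((charDegree_eq_one_iff (IsIrrCharacter.isCharacter χ.2)).mp hd)
        refine ⟨⟨l, ?_⟩, ?_⟩
        · rw [← hdet, ← hl]; exact hχ2
        · apply Subtype.ext
          apply Subtype.ext
          exact hl.symm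
    · intro χ hχ
      simp only [Set.mem_toFinset, Set.mem_setOf_eq] at hχ
      have hd : charDegree χ.1 = 1 := by
        by_contra h
        exact hχ.1 (hdeg χ h)
      rw [hd]; simp
  rw [h2] at h1
  have h3 := (Int.natCast_modEq_iff).mp h1
  rw [Nat.coprime_comm, Nat.Prime.coprime_iff_not_dvd hp]
  intro h4
  exact not_dvd_card_hom (G := G) (p := p) ((Nat.modEq_zero_iff_dvd.mp (h3.symm.trans (Nat.modEq_zero_iff_dvd.mpr h4))))

end Cfsg.Agent.S4456
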