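import Cfsg.Statements.S0855
import Cfsg.Agent.Lib.Helper7.All1
import Cfsg.Agent.S4456
import Cfsg.Agent.S0887
import Cfsg.Agent.Lib.Helper7.CharCenter
import Cfsg.Agent.Lib.Helper7.ProjExt4
import Cfsg.Agent.Lib.Helper7.CharDeg
-- import your own Cfsg.Agent.* helpers here

set_option autoImplicit false
open Cfsg
open Cfsg.Agent.Lib.Helper7.CharBasic Cfsg.Agent.Lib.Helper7.CharIrr Cfsg.Agent.Lib.Helper7.CharDecomp Cfsg.Agent.Lib.Helper7.CharComplete Cfsg.Agent.Lib.Helper7.CharOrth Cfsg.Agent.Lib.Helper7.CharInd Cfsg.Agent.Lib.Helper7.CharIntegral Cfsg.Agent.Lib.Helper7.CharBurnside Cfsg.Agent.Lib.Helper7.CharLinear Cfsg.Agent.Lib.Helper7.CharEquiv Cfsg.Agent.Lib.Helper7.CharMore Cfsg.Agent.Lib.Helper7.CharCount Cfsg.Agent.Lib.Helper7.CharMisc Cfsg.Agent.Lib.Helper7.CharMisc2 Cfsg.Agent.Lib.Helper7.CharNormal Cfsg.Agent.Lib.Helper7.CharOdd Cfsg.Agent.Lib.Helper7.CharClifford Cfsg.Agent.Lib.Helper7.CharProd Cfsg.Agent.Lib.Helper7.CharPerm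 Cfsg.Agent.Lib.Helper7.CharClassAlg Cfsg.Agent.Lib.Helper7.CharClassAlg2 Cfsg.Agent.Lib.Helper7.CharCentral Cfsg.Agent.Lib.Helper7.CharNormal2 Cfsg.Agent.Lib.Helper7.CharCliffordCorr Cfsg.Agent.Lib.Helper7.CharCenter Cfsg.Agent.Lib.Helper7.ProjExt4 Cfsg.Agent.Lib.Helper7.CharDeg
open scoped ComplexConjugate

namespace Cfsg.Agent.S0855

/-- For a finite group G and a prime p: every irreducible character of G has degree a power of p if and only if G has an abelian normal subgroup whose order is prime to p and whose index is a power of p. -/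
theorem result {G : Type*} [Group G] [Finite G] (p : ℕ) (hp : p.Prime) : (∀ χ : Cfsg.IrrCharacter G, ∃ k : ℕ, (χ : G → ℂ) 1 = (p : ℂ) ^ k) ↔ ∃ A : Subgroup G, A.Normal ∧ (∀ a ∈ A, ∀ b ∈ A, a * b = b * a) ∧ Nat.Coprime (Nat.card A) p ∧ ∃ k : ℕ, A.index = p ^ k := by
  classical
  haveI := Fintype.ofFinite G
  constructor
  · intro hdeg
    have hdeg' : ∀ χ : Cfsg.IrrCharacter G, ∃ k : ℕ, charDegree (χ : G → ℂ) = p ^ k := by
      intro χ
      obtain ⟨k, hk⟩ := hdeg χ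
      exact ⟨k, charDegree_of_eq (by rw [hk]; push_cast; rfl)⟩
    obtain ⟨N, hN, hcop, k, hk⟩ := Cfsg.Agent.S4456.result (G := G) p hp (by
      intro χ hχ
      obtain ⟨k, hk⟩ := hdeg' χ
      rw [hk] at hχ ⊢
      apply dvd_pow_self
      rintro rfl
      exact hχ (pow_zero p))
    haveI := hN
    haveI := Fintype.ofFinite N
    refine ⟨N, hN, ?_, hcop, k, hk⟩
    have hlin : ∀ θ : IrrCharacter N, (θ : N → ℂ) 1 = 1 := by
      intro θ
      obtain ⟨χ, hχ, hcon⟩ := exists_over N θ.2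
      obtain ⟨j, hj⟩ := hdeg' ⟨χ, hχ⟩
      obtain ⟨h1, _⟩ := Cfsg.Agent.S0887.result N χ hχ θ.1 θ.2 hcon (charDegree χ) (charDegree θ.1)
        (charDegree_cast (IsIrrCharacter.isCharacter hχ)).symm
        (charDegree_cast (IsIrrCharacter.isCharacter θ.2)).symm
      have h2 : charDegree θ.1 ∣ Nat.card N := charDegree_dvd_card θ.2
      have hj' : charDegree χ = p ^ j := hj
      rw [hj'] at h1
      have h3 : charDegree θ.1 = 1 :=
        Nat.eq_one_of_dvd_coprimes (Nat.Coprime.pow_right j hcop) h2 h1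
      rw [← charDegree_cast (IsIrrCharacter.isCharacter θ.2), h3, Nat.cast_one]
    have hc := (comm_iff_all_linear (G := N)).mpr hlin
    intro a ha b hb
    exact congrArg Subtype.val (hc ⟨a, ha⟩ ⟨b, hb⟩)
  · rintro ⟨A, hA, hcomm, _, k, hk⟩ χ
    haveI := hA
    have h1 := ito χ.2 (charDegree_cast (IsIrrCharacter.isCharacter χ.2)).symm A hcomm
    rw [hk] at h1
    obtain ⟨j, _, hj⟩ := (Nat.dvd_prime_pow hp).mp h1
    refine ⟨j, ?_⟩
    rw [← charDegree_cast (IsIrrCharacter.isCharacter χ.2), hj]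
    push_cast
    rfl

end Cfsg.Agent.S0855
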