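import Cfsg.Statements.S0860
import Cfsg.Agent.Lib.Helper7.CharCount

set_option autoImplicit false
open scoped ComplexConjugate
open Cfsg

namespace Cfsg.Agent.S0860

open Cfsg.Agent.Lib.Helper7.CharIrr Cfsg.Agent.Lib.Helper7.CharOrth
  Cfsg.Agent.Lib.Helper7.CharCount Cfsg.Agent.Lib.Helper7.CharComplete

/-- Let a group A act on the set of irreducible characters and on the set of conjugacy classes of a finite group G in such a way that (a • χ) evaluated on the class a • C equals χ evaluated on C, for all a, χ and C. Then every element of A fixes exactly as many irreducible characters as it fixes conjugacy classes. -/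
theorem result {G : Type*} [Group G] [Finite G] {A : Type*} [Group A] [MulAction A (Cfsg.IrrCharacter G)] [MulAction A (ConjClasses G)] (hcompat : ∀ (a : A) (χ : Cfsg.IrrCharacter G) (g g' : G), ConjClasses.mk g' = a • ConjClasses.mk g → ((a • χ : Cfsg.IrrCharacter G) : G → ℂ) g' = (χ : G → ℂ) g) (a : A) : Nat.card {χ : Cfsg.IrrCharacter G // a • χ = χ} = Nat.card {C : ConjClasses G // a • C = C} := by
  classical
  haveI := Fintype.ofFinite G
  haveI := Fintype.ofFinite (IrrCharacter G)
  have h2 := card_classes_eq_sum (G := G) (fun C => a • C = C)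
  -- the representative of the preimage class
  let τ : G → G := fun g' => (a⁻¹ • ConjClasses.mk g').out
  have hτ : ∀ g', ConjClasses.mk g' = a • ConjClasses.mk (τ g') := by
    intro g'
    have : ConjClasses.mk (τ g') = a⁻¹ • ConjClasses.mk g' := Quotient.out_eq _
    rw [this, smul_inv_smul]
  have h3 : ∀ g' : G, (a • ConjClasses.mk g' = ConjClasses.mk g') ↔ IsConj g' (τ g') := by
    intro g'
    rw [← ConjClasses.mk_eq_mk_iff_isConj]
    have : ConjClasses.mk (τ g') = a⁻¹ • ConjClasses.mk g' := Quotient.out_eq _
    rw [this, eq_inv_smul_iff]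
  simp only [h3] at h2
  have h1 : ∀ g : G, (if IsConj g (τ g) then (Nat.card (Subgroup.centralizer {g}) : ℂ) else 0) =
      ∑ χ : IrrCharacter G, (χ : G → ℂ) g * conj ((χ : G → ℂ) (τ g)) := fun g =>
    (col_orth g (τ g)).symm
  simp only [h1] at h2
  rw [Finset.sum_comm, Finset.mul_sum] at h2
  have h4 : ∀ χ : IrrCharacter G, (Nat.card G : ℂ)⁻¹ *
      ∑ g : G, (χ : G → ℂ) g * conj ((χ : G → ℂ) (τ g)) = if a • χ = χ then 1 else 0 := by
    intro χ
    have := classInner_irr χ.2 (a • χ).2
    rw [classInner] at this
    have h5 : ∀ g, ((a • χ : IrrCharacter G) : G → ℂ) g = (χ : G → ℂ) (τ g) := fun g =>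
      hcompat a χ (τ g) g (hτ g)
    simp only [h5] at this
    rw [this]
    have h6 : ((χ : G → ℂ) = ((a • χ : IrrCharacter G) : G → ℂ)) ↔ a • χ = χ := by
      constructor
      · intro h; exact (Subtype.ext h).symm
      · intro h; rw [h]
    simp only [h6]
  simp only [h4] at h2
  rw [Finset.sum_boole] at h2
  rw [Nat.card_eq_fintype_card (α := {χ : IrrCharacter G // a • χ = χ}), Fintype.card_subtype]
  exact_mod_cast h2.symm

end Cfsg.Agent.S0860
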