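import Cfsg.Statements.S0865
import Cfsg.Agent.Lib.Helper7.All1
import Cfsg.Agent.Lib.Helper7.Transfer1
-- import your own Cfsg.Agent.* helpers here

set_option autoImplicit false
open Cfsg
open Cfsg.Agent.Lib.Helper7.CharBasic Cfsg.Agent.Lib.Helper7.CharIrr Cfsg.Agent.Lib.Helper7.CharDecomp Cfsg.Agent.Lib.Helper7.CharComplete Cfsg.Agent.Lib.Helper7.CharOrth Cfsg.Agent.Lib.Helper7.CharInd Cfsg.Agent.Lib.Helper7.CharIntegral Cfsg.Agent.Lib.Helper7.CharBurnside Cfsg.Agent.Lib.Helper7.CharLinear Cfsg.Agent.Lib.Helper7.CharEquiv Cfsg.Agent.Lib.Helper7.CharMore Cfsg.Agent.Lib.Helper7.CharCount Cfsg.Agent.Lib.Helper7.CharMisc Cfsg.Agent.Lib.Helper7.CharMisc2 Cfsg.Agent.Lib.Helper7.CharNormal Cfsg.Agent.Lib.Helper7.CharOdd Cfsg.Agent.Lib.Helper7.CharClifford Cfsg.Agent.Lib.Helper7.CharProd Cfsg.Agent.Lib.Helper7.CharPerm Cfsg.Agent.Lib.Helper7.CharClassAlg Cfsg.Agent.Lib.Helper7.CharClassAlg2 Cfsg.Agent.Lib.Helper7.CharCentral Cfsg.Agent.Lib.Helper7.CharNormal2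 Cfsg.Agent.Lib.Helper7.CharCliffordCorr Cfsg.Agent.Lib.Helper7.Transfer1
open scoped ComplexConjugate

namespace Cfsg.Agent.S0865

/-- Let N be a normal subgroup of the finite group G and λ a character of N of degree 1, invariant under conjugation by G, whose order (under pointwise multiplication) is coprime to the index of N. Then there is a character μ of G of degree 1 restricting to λ with the same order as λ, and μ is the only degree-1 character of G restricting to λ whose order is coprime to the index of N. -/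
theorem result {G : Type*} [Group G] [Finite G] (N : Subgroup G) [hN : N.Normal] (lam : N → ℂ) (hlam : Cfsg.IsCharacter N lam ∧ lam 1 = 1) (hinv : ∀ (g : G) (n : N), lam ⟨g * n * g⁻¹, hN.conj_mem (n : G) n.2 g⟩ = lam n) (hcop : Nat.Coprime N.index (orderOf lam)) : ∃ μ : G → ℂ, (Cfsg.IsCharacter G μ ∧ μ 1 = 1 ∧ (∀ n : N, μ n = lam n) ∧ orderOf μ = orderOf lam) ∧ ∀ μ' : G → ℂ, Cfsg.IsCharacter G μ' ∧ μ' 1 = 1 → (∀ n : N, μ' n = lam n) → Nat.Coprime N.index (orderOf μ') → μ' = μ := by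
  obtain ⟨l, hl⟩ := exists_hom_of_irr_of_one hlam.1 hlam.2
  have hl' : ∀ n : N, lam n = ((l n : ℂˣ) : ℂ) := fun n => congrFun hl n
  have hord : orderOf lam = orderOf l := by rw [hl]; exact orderOf_homToFun l
  obtain ⟨μ, hμ, hμo, huniq⟩ := coprime_ext N l
    (fun g n => by
      apply Units.ext
      rw [← hl', ← hl']
      exact hinv g n) (hord ▸ hcop)
  refine ⟨fun g => ((μ g : ℂˣ) : ℂ), ⟨IsIrrCharacter.isCharacter (isIrrCharacter_of_hom μ),
    by simp, fun n => by
      show ((μ (n : G) : ℂˣ) : ℂ) = lam n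
      rw [hμ n, hl'], by rw [orderOf_homToFun, hμo, hord]⟩, ?_⟩
  intro μ' hμ' hμ'N hcop'
  obtain ⟨m', hm'⟩ := exists_hom_of_irr_of_one hμ'.1 hμ'.2
  have h1 : m' = μ := by
    apply huniq
    · intro n
      apply Units.ext
      rw [← hl', ← hμ'N n, hm']
    · rw [← orderOf_homToFun m', ← hm']
      exact hcop'
  rw [hm', h1]

end Cfsg.Agent.S0865
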