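import Cfsg.Statements.S0868
import Cfsg.Agent.Lib.Helper7.All1
import Cfsg.Agent.Lib.Helper7.CharKer
import Cfsg.Agent.Lib.Helper7.CharRes
import Cfsg.Agent.Lib.Helper7.CharGen
import Cfsg.Agent.Lib.Helper7.CharGallagher
import Cfsg.Agent.Lib.Helper7.CharGallagher2
-- import your own Cfsg.Agent.* helpers here

set_option autoImplicit false
open scoped ComplexConjugate
open Cfsg
open Cfsg.Agent.Lib.Helper7.CharBasic Cfsg.Agent.Lib.Helper7.CharIrr Cfsg.Agent.Lib.Helper7.CharDecomp Cfsg.Agent.Lib.Helper7.CharComplete Cfsg.Agent.Lib.Helper7.CharOrth Cfsg.Agent.Lib.Helper7.CharInd Cfsg.Agent.Lib.Helper7.CharIntegral Cfsg.Agent.Lib.Helper7.CharBurnside Cfsg.Agent.Lib.Helper7.CharLinear Cfsg.Agent.Lib.Helper7.CharEquiv Cfsg.Agent.Lib.Helper7.CharMore Cfsg.Agent.Lib.Helper7.CharCount Cfsg.Agent.Lib.Helper7.CharMisc Cfsg.Agent.Lib.Helper7.CharMisc2 Cfsg.Agent.Lib.Helper7.CharNormal Cfsg.Agent.Lib.Helper7.CharOdd Cfsg.Agent.Lib.Helper7.CharClifford Cfsg.Agent.Lib.Helper7.CharProd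 Cfsg.Agent.Lib.Helper7.CharPerm Cfsg.Agent.Lib.Helper7.CharClassAlg Cfsg.Agent.Lib.Helper7.CharClassAlg2 Cfsg.Agent.Lib.Helper7.CharCentral Cfsg.Agent.Lib.Helper7.CharNormal2 Cfsg.Agent.Lib.Helper7.CharCliffordCorr Cfsg.Agent.Lib.Helper7.CharKer Cfsg.Agent.Lib.Helper7.CharRes Cfsg.Agent.Lib.Helper7.CharGen Cfsg.Agent.Lib.Helper7.CharGallagher Cfsg.Agent.Lib.Helper7.CharGallagher2
open scoped ComplexConjugate

namespace Cfsg.Agent.S0868

/-- Let N be a normal subgroup of the finite group G, χ an irreducible character of G whose restriction ϑ to N is irreducible, and ψ an irreducible character of G. Define η on G by η g = (1 / order of N) * Σ over n in N of ψ (n * g) * conj (χ (n * g)). Then: if the restriction of ψ to N has nonzero inner product with ϑ, η is an irreducible character of G; if that inner product is zero, η vanishes identically; and if ψ = χ then η is identically 1. -/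
theorem result {G : Type*} [Group G] [Fintype G] (N : Subgroup G) [N.Normal] [Fintype N] (χ : G → ℂ) (hχ : Cfsg.IsIrrCharacter G χ) (hχN : Cfsg.IsIrrCharacter N (fun n : N => χ n)) (ψ : G → ℂ) (hψ : Cfsg.IsIrrCharacter G ψ) (η : G → ℂ) (hη : η = fun g => (Nat.card N : ℂ)⁻¹ * ∑ n : N, ψ ((n : G) * g) * conj (χ ((n : G) * g))) : (Cfsg.classInner (fun n : N => ψ n) (fun n : N => χ n) ≠ 0 → Cfsg.IsIrrCharacter G η) ∧ (Cfsg.classInner (fun n : N => ψ n) (fun n : N => χ n) = 0 → η = 0) ∧ (ψ = χ → η = fun _ => 1) := by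
  classical
  obtain ⟨g1, g2, g3⟩ := gallagher N hχ hχN
  have hη' : η = cosetAvg N (fun g => ψ g * conj (χ g)) := hη
  have hF : IsClassFunction G (fun g => ψ g * conj (χ g)) := by
    intro g x
    simp only [IsIrrCharacter.isClassFunction hψ g x, IsIrrCharacter.isClassFunction hχ g x]
  have hηcl : IsClassFunction G η := by rw [hη']; exact isClassFunction_cosetAvg N hF
  have hin : ∀ γ : G → ℂ, IsIrrCharacter G γ → classInner η γ =
      if (∀ n ∈ N, γ n = γ 1) then classInner ψ (γ * χ) else 0 := by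
    intro γ hγ
    rw [hη', classInner_cosetAvg N _ hγ]
    congr 1
    unfold classInner
    congr 1
    apply Finset.sum_congr rfl
    intro g _
    simp only [Pi.mul_apply, map_mul]
    ring
  have key : ∀ β : G → ℂ, IsIrrCharacter G β → (∀ n ∈ N, β n = β 1) → β * χ = ψ → η = β := by
    intro β hβ hk hβψ
    rw [← sub_eq_zero]
    apply eq_zero_of_classInner_eq_zero (isClassFunction_sub hηcl (IsIrrCharacter.isClassFunction hβ))
    intro γ hγ
    rw [classInner_sub_left, hin γ hγ, classInner_irr hβ hγ]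
    split_ifs with h1 h2 h2
    · subst h2
      rw [← hβψ, (isIrrCharacter_iff_norm_one.mp (g1 β hβ hk)).2, sub_self]
    · rw [← hβψ, classInner_irr (g1 β hβ hk) (g1 γ hγ h1),
        if_neg (fun h => h2 (g2 β γ hβ hk hγ h1 h)), sub_zero]
    · exact absurd (h2 ▸ hk) h1
    · rw [sub_zero]
  refine ⟨?_, ?_, ?_⟩
  · intro hc
    obtain ⟨β, hβ, hk, hβψ⟩ := g3 ψ hψ hc
    rw [key β hβ hk hβψ]; exact hβ
  · intro hc
    apply eq_zero_of_classInner_eq_zero hηcl
    intro γ hγ
    rw [hin γ hγ]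
    split_ifs with h1
    · rw [classInner_irr hψ (g1 γ hγ h1), if_neg]
      intro h
      have h2 : (fun n : N => ψ n) = γ 1 • (fun n : N => χ n) := by
        funext n
        rw [h]
        simp [h1 n n.2]
      rw [h2, classInner_smul_left, (isIrrCharacter_iff_norm_one.mp hχN).2, mul_one] at hc
      exact irr_one_ne_zero hγ hc
    · rfl
  · intro h
    exact key (fun _ => 1) isIrrCharacter_one (fun _ _ => rfl) (by rw [h]; funext g; simp)

end Cfsg.Agent.S0868
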