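import Mathlib
import Cfsg.Statements.S0880
import Cfsg.Agent.S0741
import Cfsg.Agent.Lib.Lead.Derange

set_option autoImplicit false
open Cfsg

namespace Cfsg.Agent.S0880

open MulAction

theorem card_fixedBy_emb {G Ω : Type*} [Group G] [MulAction G Ω] [Finite Ω] (g : G) :
    Nat.card (fixedBy (Fin 2 ↪ Ω) g) =
      Nat.card (fixedBy Ω g) * (Nat.card (fixedBy Ω g) - 1) := by
  classical
  haveI := Fintype.ofFinite (fixedBy Ω g)
  have e : fixedBy (Fin 2 ↪ Ω) g ≃ (Fin 2 ↪ fixedBy Ω g) :=
    { toFun := fun x => ⟨fun i => ⟨x.1 i, DFunLike.congr_fun x.2 i⟩, fun i j h =>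
        x.1.injective (congrArg Subtype.val h)⟩
      invFun := fun y => ⟨⟨fun i => (y i).1, fun i j h => y.injective (Subtype.ext h)⟩, by
        ext i
        exact (y i).2⟩
      left_inv := fun _ => rfl
      right_inv := fun _ => rfl }
  rw [Nat.card_congr e, Nat.card_eq_fintype_card, Fintype.card_embedding_eq,
    Nat.card_eq_fintype_card]
  simp [Nat.descFactorial]
  ring

/-- order of a 2-transitive group -/
theorem card_eq {G Ω : Type*} [Group G] [MulAction G Ω] [Fintype Ω]
    (h2t : IsMultiplyPretransitive G Ω 2) {a b : Ω} (hab : a ≠ b) :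
    Fintype.card Ω * (Fintype.card Ω - 1) * Nat.card ↥(stabilizer G a ⊓ stabilizer G b) =
      Nat.card G := by
  classical
  have h1 : (stabilizer G (Function.Embedding.embFinTwo hab)).index = Nat.card (Fin 2 ↪ Ω) := by
    rw [index_stabilizer, ← Set.ncard_univ]
    congr 1
    ext y
    simp only [Set.mem_univ, iff_true]
    obtain ⟨g, hg⟩ := (isMultiplyPretransitive_iff.mp h2t) (Function.Embedding.embFinTwo hab) y
    exact ⟨g, hg⟩
  have h2 : stabilizer G (Function.Embedding.embFinTwo hab) = stabilizer G a ⊓ stabilizer G b := by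
    ext g
    rw [mem_stabilizer_iff, Subgroup.mem_inf, mem_stabilizer_iff, mem_stabilizer_iff]
    constructor
    · intro h
      exact ⟨DFunLike.congr_fun h 0, DFunLike.congr_fun h 1⟩
    · rintro ⟨ha, hb⟩
      ext i
      by_cases hi : i = 0
      · rw [hi]; exact ha
      · rw [Fin.eq_one_of_ne_zero i hi]; exact hb
  rw [← Subgroup.index_mul_card (stabilizer G a ⊓ stabilizer G b), ← h2, h1,
    Nat.card_eq_fintype_card (α := Fin 2 ↪ Ω), Fintype.card_embedding_eq]
  congr 1
  simp [Nat.descFactorial]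
  ring

/-- the number of derangements of a Zassenhaus group -/
theorem card_der {G Ω : Type*} [Group G] [Finite G] [MulAction G Ω] [Fintype Ω]
    (hZ : Cfsg.IsZassenhausGroup G Ω) :
    2 * {g : G | ∀ c : Ω, g • c ≠ c}.ncard + Fintype.card Ω * (Fintype.card Ω - 1) + 2 =
      Nat.card G + 2 * Fintype.card Ω := by
  classical
  cases nonempty_fintype G
  have h3card := S0738.three_le_card hZ
  obtain ⟨hfaith, h2t, h3, hex, hnoreg⟩ := hZ
  haveI : Nonempty Ω := Fintype.card_pos_iff.mp (by omega)
  haveI htr : IsPretransitive G Ω := isPretransitive_of_is_two_pretransitive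
  haveI : Nonempty (Fin 2 ↪ Ω) := Function.Embedding.nonempty_of_card_le (by simp; omega)
  haveI : IsPretransitive G (Fin 2 ↪ Ω) := h2t
  have B1 := Der.burnside G Ω
  rw [Der.card_quotient_of_transitive, one_mul] at B1
  have B2 := Der.burnside G (Fin 2 ↪ Ω)
  rw [Der.card_quotient_of_transitive, one_mul] at B2
  simp only [card_fixedBy_emb] at B2
  set D : Set G := {g : G | ∀ c : Ω, g • c ≠ c} with hD
  have key : ∀ g : G, 2 * (if g ∈ D then 1 else 0) + 2 * Nat.card (fixedBy Ω g) +
      (if g = 1 then Fintype.card Ω * (Fintype.card Ω - 1) + 2 else 0) =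
      2 + Nat.card (fixedBy Ω g) * (Nat.card (fixedBy Ω g) - 1) +
      (if g = 1 then 2 * Fintype.card Ω else 0) := by
    intro g
    by_cases h1 : g = 1
    · subst h1
      have h2 : (1 : G) ∉ D := by
        intro h
        obtain ⟨a⟩ := ‹Nonempty Ω›
        exact h a (one_smul _ _)
      have h4 : Nat.card (fixedBy Ω (1 : G)) = Fintype.card Ω := by
        rw [fixedBy_one_eq_univ, Nat.card_coe_set_eq, Set.ncard_univ, Nat.card_eq_fintype_card]
      rw [if_neg h2, if_pos rfl, if_pos rfl, h4]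
      ring
    · rw [if_neg h1, if_neg h1]
      have hle : Nat.card (fixedBy Ω g) ≤ 2 := by
        by_contra hlt
        push Not at hlt
        rw [Nat.card_coe_set_eq] at hlt
        obtain ⟨x, y, z, hx, hy, hz, hxy, hxz, hyz⟩ := (Set.two_lt_ncard_iff (Set.toFinite _)).mp hlt
        exact h1 (h3 g x y z hxy hyz hxz hx hy hz)
      by_cases h2 : g ∈ D
      · rw [if_pos h2]
        have : IsEmpty (fixedBy Ω g) := ⟨fun a => h2 a.1 a.2⟩
        rw [Nat.card_of_isEmpty]
      · rw [if_neg h2]
        have h5 : ∃ a : Ω, g • a = a := by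
          by_contra hcon
          push Not at hcon
          exact h2 hcon
        obtain ⟨a, ha⟩ := h5
        haveI : Nonempty (fixedBy Ω g) := ⟨⟨a, ha⟩⟩
        have hpos : 0 < Nat.card (fixedBy Ω g) := Nat.card_pos
        interval_cases (Nat.card (fixedBy Ω g)) <;> simp
  have hsum := Finset.sum_congr rfl (fun g (_ : g ∈ Finset.univ) => key g)
  simp only [Finset.sum_add_distrib, ← Finset.mul_sum] at hsum
  rw [B1, B2, Finset.sum_ite_eq' Finset.univ (1 : G), Finset.sum_ite_eq' Finset.univ (1 : G),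
    if_pos (Finset.mem_univ _), if_pos (Finset.mem_univ _), Finset.sum_boole, Finset.sum_const,
    Finset.card_univ, smul_eq_mul, ← Nat.card_eq_fintype_card (α := G)] at hsum
  have h4 : D.ncard = (Finset.univ.filter (· ∈ D)).card := by
    rw [Set.ncard_eq_toFinset_card', Set.filter_mem_univ_eq_toFinset]
  rw [h4]
  simp only [Nat.cast_id] at hsum
  omega

/-- the two point stabiliser of a Zassenhaus group is non-trivial -/
theorem one_lt_card_two_point {G Ω : Type*} [Group G] [Finite G] [MulAction G Ω]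
    (hZ : Cfsg.IsZassenhausGroup G Ω) {a b : Ω} (hab : a ≠ b) :
    1 < Nat.card ↥(stabilizer G a ⊓ stabilizer G b) := by
  obtain ⟨hfaith, h2t, h3, ⟨g, hg1, a', b', hab', ha', hb'⟩, hnoreg⟩ := hZ
  obtain ⟨γ, hγa, hγb⟩ := (is_two_pretransitive_iff.mp h2t) hab' hab
  rw [Finite.one_lt_card_iff_nontrivial]
  refine ⟨⟨⟨γ * g * γ⁻¹, ?_, ?_⟩, 1, ?_⟩⟩
  · show (γ * g * γ⁻¹) • a = a
    rw [← hγa, mul_smul, mul_smul, inv_smul_smul, ha']
  · show (γ * g * γ⁻¹) • b = b
    rw [← hγb, mul_smul, mul_smul, inv_smul_smul, hb']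
  · intro h
    exact S0738.conj_ne_one hg1 (congrArg Subtype.val h)

/-- Let G be a finite simple Zassenhaus group on Ω with n points whose two-point stabilizer E has odd order less than n - 2. Then there are two elements of G, each fixing no point of Ω, that are not conjugate. -/
theorem result {G Ω : Type*} [Group G] [Finite G] [MulAction G Ω] [Fintype Ω] (hZ : Cfsg.IsZassenhausGroup G Ω) {a b : Ω} (hab : a ≠ b) [IsSimpleGroup G] (hodd : Odd (Nat.card ↥(MulAction.stabilizer G a ⊓ MulAction.stabilizer G b : Subgroup G))) (hlt : Nat.card ↥(MulAction.stabilizer G a ⊓ MulAction.stabilizer G b : Subgroup G) < Fintype.card Ω - 2) : ∃ x y : G, (∀ c : Ω, x • c ≠ c) ∧ (∀ c : Ω, y • c ≠ c) ∧ ¬ IsConj x y := by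
  classical
  have h3card := S0738.three_le_card hZ
  have hD := card_der hZ
  have hG := card_eq hZ.2.1 hab
  have hE1 := one_lt_card_two_point hZ hab
  obtain ⟨k, hk⟩ := hodd
  have hk1 : 1 ≤ k := by omega
  obtain ⟨M, hM⟩ : ∃ M, Fintype.card Ω = M + 1 := ⟨Fintype.card Ω - 1, by omega⟩
  rw [hk, hM, Nat.add_sub_cancel] at hG
  rw [hM, Nat.add_sub_cancel, ← hG] at hD
  set D : Set G := {g : G | ∀ c : Ω, g • c ≠ c} with hDdef
  have hDval : D.ncard = M * ((M + 1) * k + 1) := by nlinarith
  by_contra hcon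
  push Not at hcon
  have hDpos : 0 < D.ncard := by
    rw [hDval]
    apply Nat.mul_pos (by omega) (by omega)
  obtain ⟨x, hx⟩ := (Set.ncard_pos (Set.toFinite _)).mp hDpos
  have h1 := Cfsg.Agent.Lib.Helper1.FrobCount.index_centralizer_eq x
  have h2 : Nat.card {y : G // IsConj x y} = D.ncard := by
    rw [← Nat.card_coe_set_eq]
    apply Nat.card_congr
    apply Equiv.subtypeEquivRight
    intro y
    constructor
    · intro hxy
      obtain ⟨c, hc⟩ := isConj_iff.mp hxy
      rw [← hc]
      intro ω hω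
      apply hx (c⁻¹ • ω)
      rw [mul_smul, mul_smul, ← eq_inv_smul_iff] at hω
      exact hω
    · intro hy
      exact hcon x y hx hy
  have h3 : D.ncard ∣ Nat.card G := by
    rw [← h2, ← h1]; exact Subgroup.index_dvd_card _
  rw [hDval, ← hG] at h3
  have h4 : M * ((M + 1) * k + 1) ∣ M * ((M + 1) * (2 * k + 1)) := by
    convert h3 using 1; ring
  have h5 := Nat.dvd_of_mul_dvd_mul_left (by omega : 0 < M) h4
  have hcop : Nat.Coprime ((M + 1) * k + 1) (M + 1) := by
    rw [mul_comm, Nat.coprime_mul_right_add_left]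
    exact Nat.coprime_one_left _
  have h6 := hcop.dvd_of_dvd_mul_left h5
  have h7 := Nat.le_of_dvd (by omega) h6
  have h8 : 3 * k ≤ (M + 1) * k := Nat.mul_le_mul_right _ (by omega)
  omega

end Cfsg.Agent.S0880
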