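import Mathlib
import Cfsg.Statements.S0879
import Cfsg.Agent.S0880

set_option autoImplicit false
open Cfsg

namespace Cfsg.Agent.S0879

open MulAction

/-- Let G be a Zassenhaus group on the finite set Ω and E the stabilizer of two distinct points a, b. Then an element outside the normalizer of E conjugates no non-identity element of E into E, and E has index 2 in its normalizer. -/
theorem result {G Ω : Type*} [Group G] [Finite G] [MulAction G Ω] [Fintype Ω] (hZ : Cfsg.IsZassenhausGroup G Ω) {a b : Ω} (hab : a ≠ b) : (∀ g : G, g ∉ Subgroup.normalizer ((MulAction.stabilizer G a ⊓ MulAction.stabilizer G b : Subgroup G) : Set G) → ∀ x ∈ (MulAction.stabilizer G a ⊓ MulAction.stabilizer G b : Subgroup G), g * x * g⁻¹ ∈ (MulAction.stabilizer G a ⊓ MulAction.stabilizer G b : Subgroup G) → x = 1) ∧ ((MulAction.stabilizer G a ⊓ MulAction.stabilizer G b : Subgroup G).subgroupOf (Subgroup.normalizer ((MulAction.stabilizer G a ⊓ MulAction.stabilizer G b : Subgroup G) : Set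 G))).index = 2 := by
  have hE1 := S0880.one_lt_card_two_point hZ hab
  obtain ⟨hfaith, h2t, h3, -, -⟩ := hZ
  obtain ⟨E, hE⟩ : ∃ E : Subgroup G, E = stabilizer G a ⊓ stabilizer G b := ⟨_, rfl⟩
  rw [← hE] at hE1 ⊢
  have hmem : ∀ x : G, x ∈ E ↔ x • a = a ∧ x • b = b := by
    intro x; rw [hE]; rfl
  have dich : ∀ g x : G, x ∈ E → x ≠ 1 → g * x * g⁻¹ ∈ E →
      (g • a = a ∧ g • b = b) ∨ (g • a = b ∧ g • b = a) := by
    intro g x hx hx1 hgx
    have hy1 : g * x * g⁻¹ ≠ 1 := by
      intro h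
      apply hx1
      have : x = g⁻¹ * (g * x * g⁻¹) * g := by group
      rw [this, h]; group
    have hya := ((hmem _).mp hgx).1
    have hyb := ((hmem _).mp hgx).2
    have hyga : (g * x * g⁻¹) • (g • a) = g • a := by
      rw [mul_smul, mul_smul, inv_smul_smul, ((hmem x).mp hx).1]
    have hygb : (g * x * g⁻¹) • (g • b) = g • b := by
      rw [mul_smul, mul_smul, inv_smul_smul, ((hmem x).mp hx).2]
    have h1 : ∀ c : Ω, (g * x * g⁻¹) • c = c → c = a ∨ c = b := by
      intro c hc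
      by_contra hcon
      push Not at hcon
      exact hy1 (h3 _ a b c hab hcon.2.symm hcon.1.symm hya hyb hc)
    have hne : g • a ≠ g • b := fun h => hab (smul_left_cancel g h)
    rcases h1 _ hyga with h | h <;> rcases h1 _ hygb with h' | h'
    · exact absurd (h.trans h'.symm) hne
    · exact Or.inl ⟨h, h'⟩
    · exact Or.inr ⟨h, h'⟩
    · exact absurd (h.trans h'.symm) hne
  have norm_of : ∀ g : G, (g • a = a ∧ g • b = b) ∨ (g • a = b ∧ g • b = a) →
      g ∈ Subgroup.normalizer (E : Set G) := by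
    intro g hg
    apply Subgroup.mem_normalizer_fintype
    intro h hh
    have hh' := (hmem h).mp hh
    show g * h * g⁻¹ ∈ E
    rw [hmem]
    rcases hg with ⟨h1, h2⟩ | ⟨h1, h2⟩
    · constructor
      · rw [mul_smul, mul_smul, inv_smul_eq_iff.mpr h1.symm, hh'.1, h1]
      · rw [mul_smul, mul_smul, inv_smul_eq_iff.mpr h2.symm, hh'.2, h2]
    · constructor
      · rw [mul_smul, mul_smul, inv_smul_eq_iff.mpr h2.symm, hh'.2, h2]
      · rw [mul_smul, mul_smul, inv_smul_eq_iff.mpr h1.symm, hh'.1, h1]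
  constructor
  · intro g hg x hx hgx
    by_contra hx1
    exact hg (norm_of g (dich g x hx hx1 hgx))
  · obtain ⟨x, hx1⟩ : ∃ x : E, x ≠ 1 := by
      rw [Finite.one_lt_card_iff_nontrivial] at hE1
      exact exists_ne 1
    have hx1' : x.1 ≠ 1 := fun h => hx1 (Subtype.ext h)
    have dich' : ∀ g : G, g ∈ Subgroup.normalizer (E : Set G) →
        (g • a = a ∧ g • b = b) ∨ (g • a = b ∧ g • b = a) := fun g hg =>
      dich g x.1 x.2 hx1' ((Subgroup.mem_normalizer_iff.mp hg x.1).mp x.2)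
    obtain ⟨t, hta, htb⟩ := (is_two_pretransitive_iff.mp h2t) hab hab.symm
    rw [Subgroup.index_eq_two_iff]
    refine ⟨⟨t, norm_of t (Or.inr ⟨hta, htb⟩)⟩, fun g => ?_⟩
    rw [Subgroup.mem_subgroupOf, Subgroup.mem_subgroupOf]
    show Xor' (g.1 * t ∈ E) (g.1 ∈ E)
    rw [hmem, hmem, mul_smul, mul_smul, hta, htb]
    rcases dich' g.1 g.2 with ⟨h1, h2⟩ | ⟨h1, h2⟩
    · right
      refine ⟨⟨h1, h2⟩, ?_⟩
      rintro ⟨h4, -⟩
      exact hab (h4.symm.trans h2)
    · left
      refine ⟨⟨h2, h1⟩, ?_⟩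
      rintro ⟨h4, -⟩
      exact hab (h4.symm.trans h1)

end Cfsg.Agent.S0879
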