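import Cfsg.Statements.S0893
import Cfsg.Agent.Lib.Helper7.All1
import Cfsg.Agent.Lib.Helper7.CharKer
import Cfsg.Agent.Lib.Helper7.CharRes
import Cfsg.Agent.Lib.Helper7.CharZ
import Cfsg.Agent.Lib.Helper7.CharExtra
-- import your own Cfsg.Agent.* helpers here

set_option autoImplicit false
open Cfsg
open Cfsg.Agent.Lib.Helper7.CharBasic Cfsg.Agent.Lib.Helper7.CharIrr Cfsg.Agent.Lib.Helper7.CharDecomp Cfsg.Agent.Lib.Helper7.CharComplete Cfsg.Agent.Lib.Helper7.CharOrth Cfsg.Agent.Lib.Helper7.CharInd Cfsg.Agent.Lib.Helper7.CharIntegral Cfsg.Agent.Lib.Helper7.CharBurnside Cfsg.Agent.Lib.Helper7.CharLinear Cfsg.Agent.Lib.Helper7.CharEquiv Cfsg.Agent.Lib.Helper7.CharMore Cfsg.Agent.Lib.Helper7.CharCount Cfsg.Agent.Lib.Helper7.CharMisc Cfsg.Agent.Lib.Helper7.CharMisc2 Cfsg.Agent.Lib.Helper7.CharNormal Cfsg.Agent.Lib.Helper7.CharOdd Cfsg.Agent.Lib.Helper7.CharClifford Cfsg.Agent.Lib.Helper7.CharProd Cfsg.Agent.Lib.Helper7.CharPerm Cfsg.Agent.Lib.Helper7.CharClassAlg Cfsg.Agent.Lib.Helper7.CharClassAlg2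 Cfsg.Agent.Lib.Helper7.CharCentral Cfsg.Agent.Lib.Helper7.CharNormal2 Cfsg.Agent.Lib.Helper7.CharCliffordCorr Cfsg.Agent.Lib.Helper7.CharKer Cfsg.Agent.Lib.Helper7.CharRes Cfsg.Agent.Lib.Helper7.CharZ Cfsg.Agent.Lib.Helper7.CharExtra
open scoped ComplexConjugate

namespace Cfsg.Agent.S0893

/-- Let P be an extraspecial p-group of order p ^ (2 * n + 1), A an abelian subgroup of order p ^ (n + 1), and λ a character of A of degree 1 that is not identically 1 on the elements of A lying in the centre of P. Then the function induced from λ to P is an irreducible character of P and vanishes at every element outside the centre. -/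
theorem result {P : Type*} [Group P] [Fintype P] (p n : ℕ) [Fact p.Prime] (hP : Cfsg.IsExtraspecial p P) (hcard : Nat.card P = p ^ (2 * n + 1)) (A : Subgroup P) (hab : ∀ a ∈ A, ∀ b ∈ A, a * b = b * a) (hA : Nat.card A = p ^ (n + 1)) (lam : A → ℂ) (hlam : Cfsg.IsCharacter A lam ∧ lam 1 = 1) (hZ : ∃ a : A, (a : P) ∈ Subgroup.center P ∧ lam a ≠ 1) : Cfsg.IsIrrCharacter P (Cfsg.indFun A lam) ∧ ∀ x : P, x ∉ Subgroup.center P → Cfsg.indFun A lam x = 0 := by
  classical
  have hp : p.Prime := Fact.out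
  obtain ⟨⟨hpg, hfr, hcomm⟩, hZc⟩ := hP
  haveI : Fintype A := Fintype.ofFinite _
  have hidx : (Subgroup.center P).index = p ^ (2 * n) := by
    have h := Subgroup.card_mul_index (Subgroup.center P)
    rw [hZc, hcard, pow_succ, mul_comm] at h
    exact Nat.eq_of_mul_eq_mul_right hp.pos h
  have hidxA : A.index = p ^ n := by
    have h := Subgroup.card_mul_index A
    rw [hA, hcard] at h
    have h2 : p ^ (2 * n + 1) = p ^ (n + 1) * p ^ n := by rw [← pow_add]; congr 1; omega
    rw [h2] at h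
    exact Nat.eq_of_mul_eq_mul_left (pow_pos hp.pos _) h
  have hθ : IsCharacter P (indFun A lam) := isCharacter_indFun A lam hlam.1
  have hθ1 : indFun A lam 1 = (p : ℂ) ^ n := by
    rw [indFun_one, hlam.2, hidxA]; push_cast; ring
  have hθne : indFun A lam ≠ 0 := by
    intro h
    rw [h] at hθ1
    have : ((p : ℂ) ^ n) ≠ 0 := pow_ne_zero _ (by exact_mod_cast hp.ne_zero)
    exact this hθ1.symm
  obtain ⟨χ, hχ, hc⟩ := exists_constituent (IsCharacter.isClassFunction hθ) hθne
  have hc0 := hc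
  rw [frobenius_reciprocity A lam χ (IsIrrCharacter.isClassFunction hχ)] at hc
  obtain ⟨a, haZ, hla⟩ := hZ
  obtain ⟨l, hl⟩ := exists_hom_of_irr_of_one hlam.1 hlam.2
  have hmul : ∀ x y : A, lam (x * y) = lam x * lam y := by
    intro x y
    rw [hl]; simp
  have hkey : classInner lam (fun h : A => χ h) =
      (lam a * conj (χ a / χ 1)) * classInner lam (fun h : A => χ h) := by
    unfold classInner
    have hsum : ∑ b : A, lam b * conj (χ b) =
        (lam a * conj (χ a / χ 1)) * ∑ b : A, lam b * conj (χ b) := by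
      calc ∑ b : A, lam b * conj (χ b) = ∑ b : A, lam (a * b) * conj (χ ((a * b : A) : P)) :=
            (Equiv.sum_comp (Equiv.mulLeft a) (fun b : A => lam b * conj (χ b))).symm
        _ = (lam a * conj (χ a / χ 1)) * ∑ b : A, lam b * conj (χ b) := by
            rw [Finset.mul_sum]
            apply Finset.sum_congr rfl
            intro b _
            simp only [hmul, Subgroup.coe_mul, irr_mul_central hχ haZ, map_mul, map_div₀]
            ring
    rw [mul_left_comm, ← hsum]
  have hkey2 : lam a * conj (χ a / χ 1) = 1 := by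
    have : (lam a * conj (χ a / χ 1) - 1) * classInner lam (fun h : A => χ h) = 0 := by
      rw [sub_mul, ← hkey, one_mul, sub_self]
    rcases mul_eq_zero.mp this with h | h
    · exact sub_eq_zero.mp h
    · exact absurd h hc
  have hχ1 : χ 1 ≠ 1 := by
    intro h1
    have := linear_on_commutator (IsIrrCharacter.isCharacter hχ) h1 a (by rw [hcomm]; exact haZ)
    rw [this, h1] at hkey2
    simp at hkey2
    exact hla hkey2
  have hv := vanish_off_center hp hcomm hZc hχ hχ1
  have hdeg : χ 1 = (p : ℂ) ^ n := by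
    have h2 := degree_sq_of_vanish_off_center hχ hv
    obtain ⟨d, -, hd⟩ := irr_one_pos hχ
    rw [hd, hidx] at h2
    rw [hd]
    have h3 : d ^ 2 = (p ^ n) ^ 2 := by
      rw [← pow_mul, mul_comm n 2]
      exact_mod_cast h2
    have h4 : d = p ^ n := Nat.pow_left_injective (n := 2) (by norm_num) h3
    rw [h4]; push_cast; rfl
  have hsub := isCharacter_sub_of_constituent hθ hχ hc0
  have hz := eq_zero_of_isCharacter_of_degree_zero hsub (by
    simp only [Pi.sub_apply, hθ1, hdeg, sub_self])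
  have heq : indFun A lam = χ := sub_eq_zero.mp hz
  rw [heq]
  exact ⟨hχ, hv⟩

end Cfsg.Agent.S0893
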