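import Cfsg.Statements.S0894
import Cfsg.Agent.Lib.Helper7.All1
import Cfsg.Agent.Lib.Helper7.CharKer
import Cfsg.Agent.Lib.Helper7.CharRes
import Cfsg.Agent.Lib.Helper7.CharZ
import Cfsg.Agent.Lib.Helper7.CharExtra
-- import your own Cfsg.Agent.* helpers here

set_option autoImplicit false
open Cfsg
open Cfsg.Agent.Lib.Helper7.CharBasic Cfsg.Agent.Lib.Helper7.CharIrr Cfsg.Agent.Lib.Helper7.CharDecomp Cfsg.Agent.Lib.Helper7.CharComplete Cfsg.Agent.Lib.Helper7.CharOrth Cfsg.Agent.Lib.Helper7.CharInd Cfsg.Agent.Lib.Helper7.CharIntegral Cfsg.Agent.Lib.Helper7.CharBurnside Cfsg.Agent.Lib.Helper7.CharLinear Cfsg.Agent.Lib.Helper7.CharEquiv Cfsg.Agent.Lib.Helper7.CharMore Cfsg.Agent.Lib.Helper7.CharCount Cfsg.Agent.Lib.Helper7.CharMisc Cfsg.Agent.Lib.Helper7.CharMisc2 Cfsg.Agent.Lib.Helper7.CharNormal Cfsg.Agent.Lib.Helper7.CharOdd Cfsg.Agent.Lib.Helper7.CharClifford Cfsg.Agent.Lib.Helper7.CharProd Cfsg.Agent.Lib.Helper7.CharPerm Cfsg.Agent.Lib.Helper7.CharClassAlg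 Cfsg.Agent.Lib.Helper7.CharClassAlg2 Cfsg.Agent.Lib.Helper7.CharCentral Cfsg.Agent.Lib.Helper7.CharNormal2 Cfsg.Agent.Lib.Helper7.CharCliffordCorr Cfsg.Agent.Lib.Helper7.CharKer Cfsg.Agent.Lib.Helper7.CharRes Cfsg.Agent.Lib.Helper7.CharZ Cfsg.Agent.Lib.Helper7.CharExtra
open scoped ComplexConjugate

namespace Cfsg.Agent.S0894

/-- Let P be an extraspecial p-group of order p ^ (2 * n + 1). Then every irreducible character of P has degree 1 or p ^ n, and exactly p - 1 of them have degree p ^ n. -/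
theorem result {P : Type*} [Group P] [Finite P] (p n : ℕ) [Fact p.Prime] (hP : Cfsg.IsExtraspecial p P) (hcard : Nat.card P = p ^ (2 * n + 1)) : (∀ χ : Cfsg.IrrCharacter P, (χ : P → ℂ) 1 = 1 ∨ (χ : P → ℂ) 1 = (p : ℂ) ^ n) ∧ Nat.card {χ : Cfsg.IrrCharacter P // (χ : P → ℂ) 1 = (p : ℂ) ^ n} = p - 1 := by
  classical
  have hp : p.Prime := Fact.out
  obtain ⟨⟨hpg, hfr, hcomm⟩, hZ⟩ := hP
  haveI := Fintype.ofFinite P
  haveI : Fintype (IrrCharacter P) := Fintype.ofFinite _
  have hidx : (Subgroup.center P).index = p ^ (2 * n) := by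
    have h := Subgroup.card_mul_index (Subgroup.center P)
    rw [hZ, hcard, pow_succ, mul_comm] at h
    exact Nat.eq_of_mul_eq_mul_right hp.pos h
  have hn : n ≠ 0 := by
    rintro rfl
    simp only [mul_zero, pow_zero] at hidx
    have htop : Subgroup.center P = ⊤ := Subgroup.index_eq_one.mp hidx
    have hbot : commutator P = ⊥ := by
      rw [commutator_def, Subgroup.commutator_eq_bot_iff_le_centralizer, Subgroup.coe_top,
        Subgroup.centralizer_univ, htop]
    rw [← hcomm, hbot] at hZ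
    simp only [Subgroup.card_bot] at hZ
    exact hp.one_lt.ne hZ
  have hdeg : ∀ χ : IrrCharacter P, (χ : P → ℂ) 1 ≠ 1 → (χ : P → ℂ) 1 = (p : ℂ) ^ n := by
    intro χ h1
    have h2 := degree_sq_of_vanish_off_center χ.2 (vanish_off_center hp hcomm hZ χ.2 h1)
    obtain ⟨d, -, hd⟩ := irr_one_pos χ.2
    rw [hd, hidx] at h2
    rw [hd]
    have h3 : d ^ 2 = (p ^ n) ^ 2 := by
      rw [← pow_mul, mul_comm n 2]
      exact_mod_cast h2
    have h4 : d = p ^ n := Nat.pow_left_injective (n := 2) (by norm_num) h3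
    rw [h4]; push_cast; rfl
  have hpn : ((p : ℂ) ^ n) ≠ 1 := by
    have : p ^ n ≠ 1 := by
      intro h
      rcases Nat.pow_eq_one.mp h with h | h
      · exact hp.one_lt.ne' h
      · exact hn h
    exact_mod_cast this
  refine ⟨fun χ => ?_, ?_⟩
  · by_cases h1 : (χ : P → ℂ) 1 = 1
    · exact Or.inl h1
    · exact Or.inr (hdeg χ h1)
  · have hs := sum_sq_degrees (G := P)
    rw [finsum_eq_sum_of_fintype] at hs
    have hl := card_linear (G := P)
    rw [hcomm, hidx, Nat.card_eq_fintype_card, Fintype.card_subtype] at hl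
    rw [Nat.card_eq_fintype_card, Fintype.card_subtype]
    have hsplit : ∀ χ : IrrCharacter P, (χ : P → ℂ) 1 ^ 2 =
        (if (χ : P → ℂ) 1 = 1 then 1 else 0) +
        (if (χ : P → ℂ) 1 = (p : ℂ) ^ n then ((p : ℂ) ^ (2 * n)) else 0) := by
      intro χ
      by_cases h1 : (χ : P → ℂ) 1 = 1
      · rw [if_pos h1, if_neg (by rw [h1]; exact hpn.symm), h1]; simp
      · rw [if_neg h1, if_pos (hdeg χ h1), hdeg χ h1, ← pow_mul, mul_comm n 2]; simp
    simp only [hsplit] at hs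
    rw [Finset.sum_add_distrib, ← Finset.sum_filter, ← Finset.sum_filter, Finset.sum_const,
      Finset.sum_const, hl, hcard] at hs
    simp only [nsmul_eq_mul, mul_one] at hs
    set k := (Finset.univ.filter (fun χ : IrrCharacter P => (χ : P → ℂ) 1 = (p : ℂ) ^ n)).card
    have h5 : p ^ (2 * n) + k * p ^ (2 * n) = p ^ (2 * n + 1) := by exact_mod_cast hs
    have h6 : (1 + k) * p ^ (2 * n) = p * p ^ (2 * n) := by
      rw [add_mul, one_mul, h5, pow_succ, mul_comm]
    have h7 := Nat.eq_of_mul_eq_mul_right (pow_pos hp.pos _) h6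
    omega

end Cfsg.Agent.S0894
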