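import Cfsg.Statements.S0900
import Cfsg.Agent.Lib.Helper7.All1
import Cfsg.Agent.Lib.Helper7.CharRes
-- import your own Cfsg.Agent.* helpers here

set_option autoImplicit false
open Cfsg
open Cfsg.Agent.Lib.Helper7.CharBasic Cfsg.Agent.Lib.Helper7.CharIrr Cfsg.Agent.Lib.Helper7.CharDecomp Cfsg.Agent.Lib.Helper7.CharComplete Cfsg.Agent.Lib.Helper7.CharOrth Cfsg.Agent.Lib.Helper7.CharInd Cfsg.Agent.Lib.Helper7.CharIntegral Cfsg.Agent.Lib.Helper7.CharBurnside Cfsg.Agent.Lib.Helper7.CharLinear Cfsg.Agent.Lib.Helper7.CharEquiv Cfsg.Agent.Lib.Helper7.CharMore Cfsg.Agent.Lib.Helper7.CharCount Cfsg.Agent.Lib.Helper7.CharMisc Cfsg.Agent.Lib.Helper7.CharMisc2 Cfsg.Agent.Lib.Helper7.CharNormal Cfsg.Agent.Lib.Helper7.CharOdd Cfsg.Agent.Lib.Helper7.CharClifford Cfsg.Agent.Lib.Helper7.CharProd Cfsg.Agent.Lib.Helper7.CharPerm Cfsg.Agent.Lib.Helper7.CharClassAlg Cfsg.Agent.Lib.Helper7.CharClassAlg2 Cfsg.Agent.Lib.Helper7.CharCentral Cfsg.Agent.Lib.Helper7.CharNormal2 Cfsg.Agent.Lib.Helper7.CharCliffordCorr Cfsg.Agent.Lib.Helper7.CharKer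 Cfsg.Agent.Lib.Helper7.CharRes
open scoped ComplexConjugate

namespace Cfsg.Agent.S0900

/-- Let N be a normal subgroup of the finite group G, χ an irreducible character of G and ϑ an irreducible character of N having nonzero inner product with the restriction of χ. Consider: (a) the restriction of χ to N is e • ϑ for a natural number e with e ^ 2 equal to the index of N; (b) χ vanishes outside N and ϑ is invariant under conjugation by G; (c) ϑ is invariant and every irreducible character of G having nonzero inner product with the function induced from ϑ equals χ. Then (a) ↔ (b) and (a) ↔ (c). -/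
theorem result {G : Type*} [Group G] [Fintype G] (N : Subgroup G) [hN : N.Normal] [Fintype N] (χ : G → ℂ) (hχ : Cfsg.IsIrrCharacter G χ) (ϑ : N → ℂ) (hϑ : Cfsg.IsIrrCharacter N ϑ) (hcon : Cfsg.classInner (fun n : N => χ n) ϑ ≠ 0) : ((∃ e : ℕ, (fun n : N => χ n) = (e : ℂ) • ϑ ∧ e ^ 2 = N.index) ↔ ((∀ g : G, g ∉ N → χ g = 0) ∧ ∀ (g : G) (n : N), ϑ ⟨g * n * g⁻¹, hN.conj_mem (n : G) n.2 g⟩ = ϑ n)) ∧ ((∃ e : ℕ, (fun n : N => χ n) = (e : ℂ) • ϑ ∧ e ^ 2 = N.index) ↔ (∀ (g : G) (n : N), ϑ ⟨g * n * g⁻¹, hN.conj_mem (n : G) n.2 g⟩ = ϑ n ∧ ∀ ψ : G → ℂ, Cfsg.IsIrrCharacter G ψ → Cfsg.classInner (Cfsg.indFun N ϑ) ψ ≠ 0 → ψ = χ)) := by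
  classical
  haveI := Fintype.ofFinite (IrrCharacter G)
  have hχ1 : classInner χ χ = 1 := (isIrrCharacter_iff_norm_one.mp hχ).2
  have hϑ1 : classInner ϑ ϑ = 1 := (isIrrCharacter_iff_norm_one.mp hϑ).2
  have hcl := IsIrrCharacter.isClassFunction hχ
  obtain ⟨e0, he0⟩ := classInner_isCharacter_nat
    (isCharacter_restrict N (IsIrrCharacter.isCharacter hχ)) (IsIrrCharacter.isCharacter hϑ)
  have hidx0 : N.index ≠ 0 := Subgroup.index_ne_zero_of_finite
  have hA_inv : (∃ e : ℕ, (fun n : N => χ n) = (e : ℂ) • ϑ ∧ e ^ 2 = N.index) →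
      ∀ g, conjFun N ϑ g = ϑ := by
    rintro ⟨e, h1, h2⟩ g
    have he : (e : ℂ) ≠ 0 := by
      intro h
      have : e = 0 := by exact_mod_cast h
      rw [this] at h2
      exact hidx0 (by rw [← h2]; norm_num)
    exact invariant_of_restrict_eq_smul N hcl he h1 g
  have hnorm : ∀ e : ℕ, (fun n : N => χ n) = (e : ℂ) • ϑ →
      classInner (fun n : N => χ n) (fun n : N => χ n) = (e : ℂ) ^ 2 := by
    intro e h
    rw [h, classInner_smul_left, classInner_smul_right, hϑ1, map_natCast]
    ring
  have hres : (∀ g, conjFun N ϑ g = ϑ) → (fun n : N => χ n) = (e0 : ℂ) • ϑ := by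
    intro h
    rw [← he0]
    exact restrict_of_invariant N hχ hϑ hcon h
  have hfrob : classInner (indFun N ϑ) χ = (e0 : ℂ) := by
    rw [frobenius_reciprocity _ _ _ hcl, ← classInner_conj_symm, he0, map_natCast]
  constructor
  · constructor
    · intro hA
      refine ⟨?_, fun g n => congrFun (hA_inv hA g) n⟩
      obtain ⟨e, h1, h2⟩ := hA
      apply (vanish_off_iff_norm_restrict N hχ1).mpr
      rw [hnorm e h1]
      exact_mod_cast h2
    · rintro ⟨hv, hi⟩
      have h1 := hres (fun g => funext (hi g))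
      refine ⟨e0, h1, ?_⟩
      have h2 := (vanish_off_iff_norm_restrict N hχ1).mp hv
      rw [hnorm e0 h1] at h2
      exact_mod_cast h2
  · constructor
    · intro hA g n
      have hinv := hA_inv hA
      refine ⟨congrFun (hinv g) n, ?_⟩
      obtain ⟨e, h1, h2⟩ := hA
      have hee : e = e0 := by
        have h3 : classInner (fun n : N => χ n) ϑ = (e : ℂ) := by
          rw [h1, classInner_smul_left, hϑ1, mul_one]
        rw [he0] at h3
        exact_mod_cast h3.symm
      subst hee
      have hnn : classInner (indFun N ϑ) (indFun N ϑ) = (N.index : ℂ) := by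
        have h3 := card_mul_norm_indFun N ϑ hϑ
        have h4 : Nat.card {g : G // ∀ h : N, ϑ ⟨g * h * g⁻¹, hN.conj_mem h h.2 g⟩ = ϑ h} =
            Nat.card G := by
          apply Nat.card_congr
          exact Equiv.subtypeUnivEquiv (fun g h => congrFun (hinv g) h)
        rw [h4, ← Subgroup.card_mul_index N, Nat.cast_mul] at h3
        exact mul_left_cancel₀ card_ne_zero h3
      have hz : indFun N ϑ - (e : ℂ) • χ = 0 := by
        apply eq_zero_of_classInner_self
        rw [classInner_sub_left, classInner_sub_right, classInner_sub_right, classInner_smul_left,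
          classInner_smul_left, classInner_smul_right, classInner_smul_right, hnn, hfrob, hχ1,
          ← classInner_conj_symm, hfrob, map_natCast, ← h2]
        push_cast
        ring
      intro ψ hψ hne
      rw [sub_eq_zero.mp hz, classInner_smul_left, classInner_irr hχ hψ] at hne
      by_contra hcon2
      rw [if_neg (fun h => hcon2 h.symm), mul_zero] at hne
      exact hne rfl
    · intro hC
      have hinv : ∀ g, conjFun N ϑ g = ϑ := fun g => funext (fun n => (hC g n).1)
      have huniq := (hC 1 1).2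
      have h1 := hres hinv
      refine ⟨e0, h1, ?_⟩
      have h2 : indFun N ϑ = (e0 : ℂ) • χ := by
        have h3 := classFunction_eq_sum (indFun_isClassFunction N ϑ)
        rw [Finset.sum_eq_single (⟨χ, hχ⟩ : IrrCharacter G)] at h3
        · rw [h3]
          simp only
          rw [hfrob]
        · intro ψ _ hψ
          by_cases h4 : classInner (indFun N ϑ) (ψ : G → ℂ) = 0
          · rw [h4, zero_smul]
          · exact absurd (Subtype.ext (huniq ψ ψ.2 h4)) hψ
        · intro h; exact absurd (Finset.mem_univ _) h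
      have h3 := congrFun h2 1
      have h4 := congrFun h1 1
      rw [indFun_one] at h3
      simp only [Pi.smul_apply, smul_eq_mul, OneMemClass.coe_one] at h3 h4
      rw [h4] at h3
      have h5 := irr_one_ne_zero hϑ
      have h6 : (N.index : ℂ) = (e0 : ℂ) ^ 2 := by
        apply mul_right_cancel₀ h5
        rw [h3]; ring
      exact_mod_cast h6.symm

end Cfsg.Agent.S0900
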