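import Cfsg.Statements.S0901
import Mathlib

set_option autoImplicit false
open Cfsg

namespace Cfsg.Agent.S0901

theorem charP_quot (p : ℕ) [hp : Fact p.Prime] (M : Ideal Cfsg.AlgInt) (hmax : M.IsMaximal) (hpM : (p : Cfsg.AlgInt) ∈ M) :
    CharP (Cfsg.AlgInt ⧸ M) p := by
  have : Nontrivial (Cfsg.AlgInt ⧸ M) := Ideal.Quotient.nontrivial_iff.2 hmax.ne_top
  have h0 : ((p : ℕ) : Cfsg.AlgInt ⧸ M) = 0 := by
    have := Ideal.Quotient.eq_zero_iff_mem.2 hpM
    simpa using this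
  have hd : ringChar (Cfsg.AlgInt ⧸ M) ∣ p := ringChar.dvd h0
  rcases (Nat.dvd_prime hp.out).1 hd with h1 | h1
  · exact absurd h1 (CharP.ringChar_ne_one)
  · rw [← h1]; exact ringChar.charP _

open Polynomial in
theorem part2 (p : ℕ) [hp : Fact p.Prime] (M : Ideal Cfsg.AlgInt) (hmax : M.IsMaximal) (hpM : (p : Cfsg.AlgInt) ∈ M)
    (a : Cfsg.AlgInt) (ha : a ∉ M) :
    ∃ ε : Cfsg.AlgInt, (∃ m : ℕ, ¬ p ∣ m ∧ (ε : ℂ) ^ m = 1) ∧ a - ε ∈ M := by
  classical
  let : Field (Cfsg.AlgInt ⧸ M) := Ideal.Quotient.field M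
  have hchar : CharP (Cfsg.AlgInt ⧸ M) p := charP_quot p M hmax hpM
  let : Algebra (ZMod p) (Cfsg.AlgInt ⧸ M) := ZMod.algebra _ p
  set φ := Ideal.Quotient.mk M with hφ
  have ha0 : φ a ≠ 0 := fun h => ha (Ideal.Quotient.eq_zero_iff_mem.1 h)
  -- integrality
  have hint : IsIntegral ℤ a := by
    have h1 : IsIntegral ℤ (a : ℂ) := a.2
    exact (isIntegral_algHom_iff (Cfsg.AlgInt.val) Subtype.val_injective).1 h1
  have hint2 : IsIntegral ℤ (φ a) := hint.map (Ideal.Quotient.mkₐ ℤ M)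
  have hint3 : IsIntegral (ZMod p) (φ a) := hint2.tower_top
  have : FiniteDimensional (ZMod p) (IntermediateField.adjoin (ZMod p) {φ a}) :=
    IntermediateField.adjoin.finiteDimensional hint3
  have : Finite (IntermediateField.adjoin (ZMod p) {φ a}) := Module.finite_of_finite (ZMod p)
  have : Fintype (IntermediateField.adjoin (ZMod p) {φ a}) := Fintype.ofFinite _
  set E := IntermediateField.adjoin (ZMod p) {φ a}
  let x : E := ⟨φ a, IntermediateField.mem_adjoin_simple_self _ _⟩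
  have hx0 : x ≠ 0 := by
    intro h; apply ha0; exact congrArg Subtype.val h
  have hpow := FiniteField.pow_card_sub_one_eq_one x hx0
  obtain ⟨n, _, hq⟩ := FiniteField.card E p
  set N := Fintype.card E - 1 with hN
  have hq1 : 1 < Fintype.card E := Fintype.one_lt_card
  have hNpos : 0 < N := by omega
  have hpN : ¬ p ∣ N := by
    intro hd
    have h2 : p ∣ Fintype.card E := by rw [hq]; exact dvd_pow_self p n.ne_zero
    have h3 : p ∣ Fintype.card E - N := Nat.dvd_sub h2 hd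
    have h4 : Fintype.card E - N = 1 := by omega
    rw [h4] at h3
    exact hp.out.one_lt.ne' (Nat.dvd_one.1 h3)
  have hpow' : φ a ^ N = 1 := by
    have := congrArg Subtype.val hpow
    simpa using this
  have hmem : a ^ N - 1 ∈ M := by
    apply Ideal.Quotient.eq_zero_iff_mem.1
    rw [map_sub, map_pow, map_one]
    exact sub_eq_zero.2 hpow'
  -- primitive root in AlgInt
  have hζ : IsPrimitiveRoot (Complex.exp (2 * Real.pi * Complex.I / N)) N :=
    Complex.isPrimitiveRoot_exp N hNpos.ne'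
  let ζ : Cfsg.AlgInt := ⟨_, hζ.isIntegral hNpos⟩
  have hζ' : IsPrimitiveRoot ζ N :=
    IsPrimitiveRoot.of_map_of_injective (f := Cfsg.AlgInt.val) hζ Subtype.val_injective
  have hprod := X_pow_sub_one_eq_prod hNpos hζ'
  have heval := congrArg (Polynomial.eval a) hprod
  simp only [eval_sub, eval_pow, eval_X, eval_one, eval_prod, eval_C] at heval
  rw [heval] at hmem
  have := hmax.isPrime
  obtain ⟨ε, hε, hεM⟩ := Ideal.IsPrime.prod_mem_iff.1 hmem
  refine ⟨ε, ⟨N, hpN, ?_⟩, hεM⟩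
  have := (mem_nthRootsFinset hNpos 1).1 hε
  have h2 := congrArg Subtype.val this
  simpa using h2

theorem part1 (p : ℕ) [hp : Fact p.Prime] (M : Ideal Cfsg.AlgInt) (hmax : M.IsMaximal) (hpM : (p : Cfsg.AlgInt) ∈ M)
    (ε₁ ε₂ : Cfsg.AlgInt) (h1 : ∃ m : ℕ, ¬ p ∣ m ∧ (ε₁ : ℂ) ^ m = 1) (h2 : ∃ m : ℕ, ¬ p ∣ m ∧ (ε₂ : ℂ) ^ m = 1)
    (hM : ε₁ - ε₂ ∈ M) : ε₁ = ε₂ := by
  obtain ⟨m₁, hm₁, he₁⟩ := h1
  obtain ⟨m₂, hm₂, he₂⟩ := h2
  set m := m₁ * m₂ with hm
  have hpm : ¬ p ∣ m := by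
    intro h; rcases (hp.out.dvd_mul).1 h with h | h
    · exact hm₁ h
    · exact hm₂ h
  have hmpos : 0 < m := Nat.pos_of_ne_zero (by rintro h; exact hpm (h ▸ dvd_zero p))
  have e1 : ε₁ ^ m = 1 := by
    apply Subtype.val_injective
    simp only [SubmonoidClass.coe_pow, OneMemClass.coe_one, hm, pow_mul, he₁, one_pow]
  have e2 : ε₂ ^ m = 1 := by
    apply Subtype.val_injective
    simp only [SubmonoidClass.coe_pow, OneMemClass.coe_one, hm, mul_comm m₁ m₂, pow_mul, he₂, one_pow]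
  by_contra hne
  set ζ := ε₁ * ε₂ ^ (m - 1) with hζ
  have e2' : ε₂ * ε₂ ^ (m - 1) = 1 := by rw [← pow_succ', Nat.sub_add_cancel hmpos, e2]
  have hζm : ζ ^ m = 1 := by
    rw [hζ, mul_pow, e1, one_mul, ← pow_mul, mul_comm, pow_mul, e2, one_pow]
  have hζ1 : ζ ≠ 1 := by
    intro h
    apply hne
    calc ε₁ = ε₁ * (ε₂ * ε₂ ^ (m - 1)) := by rw [e2', mul_one]
      _ = ζ * ε₂ := by rw [hζ]; ring
      _ = ε₂ := by rw [h, one_mul]
  have hζM : ζ - 1 ∈ M := by
    have : ζ - 1 = (ε₁ - ε₂) * ε₂ ^ (m - 1) := by rw [sub_mul, e2', hζ]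
    rw [this]; exact M.mul_mem_right _ hM
  have hsum : ∑ i ∈ Finset.range m, ζ ^ i = 0 := by
    have h := mul_neg_geom_sum ζ m
    have h3 : (1 - ζ) * ∑ i ∈ Finset.range m, ζ ^ i = 0 := by rw [h, hζm, sub_self]
    rcases mul_eq_zero.1 h3 with h4 | h4
    · exact absurd (sub_eq_zero.1 h4).symm hζ1
    · exact h4
  set φ := Ideal.Quotient.mk M
  have hφζ : φ ζ = 1 := by
    have := Ideal.Quotient.eq_zero_iff_mem.2 hζM
    rw [map_sub, map_one] at this
    exact sub_eq_zero.1 this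
  have hmM : (m : Cfsg.AlgInt) ∈ M := by
    apply Ideal.Quotient.eq_zero_iff_mem.1
    have := congrArg φ hsum
    rw [map_sum] at this
    simp only [map_pow, hφζ, one_pow, Finset.sum_const, Finset.card_range, map_zero, nsmul_eq_mul, mul_one] at this
    simpa using this
  have hcop : Nat.Coprime m p := ((Nat.Prime.coprime_iff_not_dvd hp.out).2 hpm).symm
  have hic : IsCoprime (m : ℤ) (p : ℤ) := Nat.isCoprime_iff_coprime.2 hcop
  obtain ⟨u, v, huv⟩ := hic
  have h1M : (1 : Cfsg.AlgInt) ∈ M := by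
    have : (1 : Cfsg.AlgInt) = (u : Cfsg.AlgInt) * (m : Cfsg.AlgInt) + (v : Cfsg.AlgInt) * (p : Cfsg.AlgInt) := by
      have := congrArg (Int.cast : ℤ → Cfsg.AlgInt) huv
      push_cast at this
      exact this.symm
    rw [this]
    exact M.add_mem (M.mul_mem_left _ hmM) (M.mul_mem_left _ hpM)
  exact hmax.ne_top ((Ideal.eq_top_iff_one M).2 h1M)


/-- Let M be a maximal ideal of the ring of algebraic integers containing the prime p, and let U be the set of complex roots of unity of order prime to p. Then reduction modulo M is injective on U, and every algebraic integer not in M is congruent modulo M to an element of U (so U maps bijectively onto the nonzero residues). -/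
theorem result (p : ℕ) [Fact p.Prime] (M : Ideal Cfsg.AlgInt) (hM : Cfsg.IsPModular p M) : (∀ ε₁ ε₂ : Cfsg.AlgInt, (∃ m : ℕ, ¬ p ∣ m ∧ (ε₁ : ℂ) ^ m = 1) → (∃ m : ℕ, ¬ p ∣ m ∧ (ε₂ : ℂ) ^ m = 1) → ε₁ - ε₂ ∈ M → ε₁ = ε₂) ∧ (∀ a : Cfsg.AlgInt, a ∉ M → ∃ ε : Cfsg.AlgInt, (∃ m : ℕ, ¬ p ∣ m ∧ (ε : ℂ) ^ m = 1) ∧ a - ε ∈ M) := by
  obtain ⟨_, hmax, hpM⟩ := hM
  exact ⟨fun ε₁ ε₂ h1 h2 h => part1 p M hmax hpM ε₁ ε₂ h1 h2 h, fun a ha => part2 p M hmax hpM a ha⟩
end Cfsg.Agent.S0901
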