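import Mathlib
import Cfsg.Statements.S0903
import Cfsg.Agent.Lib.Helper2.CentralMod

set_option autoImplicit false
open Cfsg

namespace Cfsg.Agent.S0903

open Cfsg.Agent.Lib.Helper2.CentralMod

/-- Let P be a p-subgroup of the finite group G, let c centralize P and let g, h ∈ G. The number of pairs (x, y) with x conjugate to g, y conjugate to h and x * y = c is congruent modulo p to the number of such pairs in which x and y both centralize P. (This is why the Brauer map on class sums is multiplicative.) -/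
theorem result {G : Type*} [Group G] [Finite G] (p : ℕ) [Fact p.Prime] (P : Subgroup G) (hP : IsPGroup p P) (c : G) (hc : c ∈ Subgroup.centralizer (P : Set G)) (g h : G) : Nat.card {xy : G × G // IsConj g xy.1 ∧ IsConj h xy.2 ∧ xy.1 * xy.2 = c} ≡ Nat.card {xy : G × G // IsConj g xy.1 ∧ IsConj h xy.2 ∧ xy.1 * xy.2 = c ∧ xy.1 ∈ Subgroup.centralizer (P : Set G) ∧ xy.2 ∈ Subgroup.centralizer (P : Set G)} [MOD p] := by
  classical
  have hc' : ∀ q ∈ P, q * c = c * q := fun q hq => Subgroup.mem_centralizer_iff.mp hc q hq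
  have h1 := card_modEq_fixed (p := p) P hP {x : G | IsConj g x ∧ IsConj h (x⁻¹ * c)} (by
    rintro q hq x ⟨hx1, hx2⟩
    refine ⟨hx1.trans (isConj_iff.mpr ⟨q, rfl⟩), ?_⟩
    have e : (q * x * q⁻¹)⁻¹ * c = q * (x⁻¹ * c) * q⁻¹ := by
      have : q⁻¹ * c = c * q⁻¹ := by
        calc q⁻¹ * c = q⁻¹ * (c * q) * q⁻¹ := by group
          _ = q⁻¹ * (q * c) * q⁻¹ := by rw [hc' q hq]
          _ = c * q⁻¹ := by group
      calc (q * x * q⁻¹)⁻¹ * c = q * x⁻¹ * (q⁻¹ * c) := by group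
        _ = q * x⁻¹ * (c * q⁻¹) := by rw [this]
        _ = q * (x⁻¹ * c) * q⁻¹ := by group
    rw [e]
    exact hx2.trans (isConj_iff.mpr ⟨q, rfl⟩))
  have e1 : Nat.card {xy : G × G // IsConj g xy.1 ∧ IsConj h xy.2 ∧ xy.1 * xy.2 = c} =
      Nat.card ({x : G | IsConj g x ∧ IsConj h (x⁻¹ * c)} : Set G) := by
    apply Nat.card_congr
    refine ⟨fun xy => ⟨xy.1.1, xy.2.1, ?_⟩, fun x => ⟨(x.1, x.1⁻¹ * c), x.2.1, x.2.2, by simp⟩,
      ?_, ?_⟩
    · have h3 := xy.2.2.2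
      have h4 : xy.1.1⁻¹ * c = xy.1.2 := by
        rw [inv_mul_eq_iff_eq_mul]; exact h3.symm
      have h5 := xy.2.2.1
      exact h4.symm ▸ h5
    · rintro ⟨⟨x, y⟩, h1, h2, h3⟩
      apply Subtype.ext
      simp only [Prod.mk.injEq, true_and]
      rw [← h3, inv_mul_cancel_left]
    · rintro ⟨x, hx⟩
      rfl
  have e2 : Nat.card {xy : G × G // IsConj g xy.1 ∧ IsConj h xy.2 ∧ xy.1 * xy.2 = c ∧
      xy.1 ∈ Subgroup.centralizer (P : Set G) ∧ xy.2 ∈ Subgroup.centralizer (P : Set G)} =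
      Nat.card {x : G // x ∈ ({x : G | IsConj g x ∧ IsConj h (x⁻¹ * c)} : Set G) ∧
        ∀ q ∈ P, q * x = x * q} := by
    apply Nat.card_congr
    refine ⟨fun xy => ⟨xy.1.1, ⟨xy.2.1, ?_⟩, ?_⟩,
      fun x => ⟨(x.1, x.1⁻¹ * c), x.2.1.1, x.2.1.2, by simp, ?_, ?_⟩, ?_, ?_⟩
    · have h3 := xy.2.2.2.1
      have h4 : xy.1.1⁻¹ * c = xy.1.2 := by
        rw [inv_mul_eq_iff_eq_mul]; exact h3.symm
      have h5 := xy.2.2.1
      exact h4.symm ▸ h5
    · intro q hq
      exact Subgroup.mem_centralizer_iff.mp xy.2.2.2.2.1 q hq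
    · rw [Subgroup.mem_centralizer_iff]
      intro q hq
      exact x.2.2 q hq
    · apply Subgroup.mul_mem _ (Subgroup.inv_mem _ _) hc
      rw [Subgroup.mem_centralizer_iff]
      intro q hq
      exact x.2.2 q hq
    · rintro ⟨⟨x, y⟩, h1, h2, h3, h4⟩
      apply Subtype.ext
      simp only [Prod.mk.injEq, true_and]
      rw [← h3, inv_mul_cancel_left]
    · rintro ⟨x, hx⟩
      rfl
  rw [e1, e2]
  exact h1

end Cfsg.Agent.S0903
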