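import Mathlib
import Cfsg.Statements.S0909
import Cfsg.Agent.Lib.Helper2.BlockZ

set_option autoImplicit false
open Cfsg

namespace Cfsg.Agent.S0909

open Cfsg.Agent.Lib.Helper2.LocRing Cfsg.Agent.Lib.Helper2.BlockZ

/-- Let A be a set of irreducible characters of the finite group G such that, for every g, the inverse of the group order times the sum over χ ∈ A of χ 1 * conj (χ g) is a local integer at the maximal ideal M (containing the prime p) of the algebraic integers. Then A is a union of blocks relative to M: it contains the whole block of each of its members. -/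
theorem result {G : Type*} [Group G] [Finite G] (p : ℕ) [Fact p.Prime] (M : Ideal Cfsg.AlgInt) (hM : Cfsg.IsPModular p M) (A : Set (Cfsg.IrrCharacter G)) (hA : ∀ g : G, Cfsg.MemLocalRing M (Cfsg.blockCoeff A g)) (χ : Cfsg.IrrCharacter G) (hχ : χ ∈ A) : Cfsg.blockOf M (χ : G → ℂ) ⊆ A := by
  classical
  have := Fintype.ofFinite G
  have : M.IsPrime := hM.2.1.isPrime
  intro ψ hψ
  by_contra hψA
  have h1 := W_sub_mem_Iloc (M := M) (χ := χ) (ψ := ψ) hψ (blockCoeff_isClass A) hA
  rw [W_blockCoeff, W_blockCoeff, if_pos hχ, if_neg hψA, sub_zero] at h1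
  exact one_notMem_Iloc h1

end Cfsg.Agent.S0909
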