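import Mathlib
import Cfsg.Statements.S0910
import Cfsg.Agent.Lib.Helper2.BlockZ
import Cfsg.Agent.Lib.Helper7.CharBurnside

set_option autoImplicit false
open Cfsg

namespace Cfsg.Agent.S0910

open Cfsg.Agent.Lib.Helper2.BlockZ Cfsg.Agent.Lib.Helper2.LocRing
  Cfsg.Agent.Lib.Helper7.CharBurnside Cfsg.Agent.Lib.Helper7.CharIrr Cfsg.Agent.Lib.Helper7
open Module

theorem exists_ne_one_not_dvd_index {G : Type*} [Group G] [Finite G] [Nontrivial G] (p : ℕ)
    [Fact p.Prime] : ∃ g : G, g ≠ 1 ∧ ¬ p ∣ (Subgroup.centralizer ({g} : Set G)).index := by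
  obtain ⟨P⟩ : Nonempty (Sylow p G) := inferInstance
  by_cases hP : Nontrivial (P : Subgroup G)
  · have := P.2.center_nontrivial
    obtain ⟨z, hz⟩ := exists_ne (1 : Subgroup.center (P : Subgroup G))
    refine ⟨((z : (P : Subgroup G)) : G), ?_, ?_⟩
    · intro h
      apply hz
      apply Subtype.ext
      apply Subtype.ext
      exact h
    · intro hd
      apply P.not_dvd_index
      refine hd.trans (Subgroup.index_dvd_of_le ?_)
      intro q hq
      rw [Subgroup.mem_centralizer_singleton_iff]
      have := Subgroup.mem_center_iff.mp z.2 ⟨q, hq⟩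
      exact congrArg Subtype.val this
  · obtain ⟨g, hg⟩ := exists_ne (1 : G)
    refine ⟨g, hg, ?_⟩
    intro hd
    apply P.not_dvd_index
    rw [not_nontrivial_iff_subsingleton] at hP
    have hP' : (P : Subgroup G) = ⊥ := (Subgroup.eq_bot_iff_forall _).mpr (fun x hx => by
      have := Subsingleton.elim (⟨x, hx⟩ : (P : Subgroup G)) 1
      exact congrArg Subtype.val this)
    rw [hP', Subgroup.index_bot]
    exact hd.trans (Subgroup.index_dvd_card _)

/-- Let G be a non-abelian finite simple group and p a prime. If an irreducible character χ lies in the principal block (relative to a maximal ideal of the algebraic integers containing p) and χ 1 is a power of p, then χ is the principal character. -/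
theorem result {G : Type*} [Group G] [Finite G] (p : ℕ) [Fact p.Prime] (M : Ideal Cfsg.AlgInt) (hM : Cfsg.IsPModular p M) [IsSimpleGroup G] (hna : ∃ a b : G, a * b ≠ b * a) (χ : Cfsg.IrrCharacter G) (hχ : χ ∈ Cfsg.principalBlock M G) (k : ℕ) (hdeg : (χ : G → ℂ) 1 = (p : ℂ) ^ k) : (χ : G → ℂ) = fun _ => 1 := by
  classical
  have := Fintype.ofFinite G
  have := hM.2.1.isPrime
  have hp := hM.1
  by_contra hχ1
  obtain ⟨g, hg, hidx⟩ := exists_ne_one_not_dvd_index (G := G) p
  obtain ⟨n, ρ, hρ, hρχ⟩ := χ.2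
  have h1 : (χ : G → ℂ) 1 = n := by rw [← hρχ, Representation.char_one]; simp
  have hn : n = p ^ k := by
    rw [h1] at hdeg
    exact_mod_cast hdeg
  have hcop : Nat.Coprime (finrank ℂ (Fin n → ℂ)) (Subgroup.centralizer ({g} : Set G)).index := by
    rw [Module.finrank_fin_fun, hn]
    exact Nat.Coprime.pow_left k ((Nat.Prime.coprime_iff_not_dvd hp).mpr hidx)
  rcases char_eq_zero_or_norm_eq ρ g hcop with h0 | h0
  · have h2 := hχ g
    have h3 : Cfsg.centralChar (χ : G → ℂ) g = 0 := by
      rw [Cfsg.centralChar, ← hρχ, h0, mul_zero, zero_div]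
    have h4 : Cfsg.centralChar (fun _ : G => (1 : ℂ)) g =
        ((Subgroup.centralizer ({g} : Set G)).index : ℂ) := by
      rw [Cfsg.centralChar]; simp
    rw [h3, h4, sub_zero] at h2
    exact hidx ((natCast_mem_Iloc_iff hM _).mp h2)
  · obtain ⟨ω, hω⟩ := (CharBasic.norm_char_eq_finrank_iff ρ g).mp h0
    have hgZ := mem_repCenter_of_scalar ρ hω
    have hZ : repCenter ρ = ⊤ := ((repCenter_normal ρ).eq_bot_or_eq_top).resolve_left
      (fun h => hg (by rw [h] at hgZ; exact Subgroup.mem_bot.mp hgZ))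
    rcases (MonoidHom.normal_ker ρ).eq_bot_or_eq_top with hk | hk
    · obtain ⟨a, b, hab⟩ := hna
      apply hab
      have h3 : ρ (a * b) = ρ (b * a) := by
        rw [map_mul, map_mul]
        exact (hZ ▸ Subgroup.mem_top a : a ∈ repCenter ρ) b
      exact (MonoidHom.ker_eq_bot_iff ρ).mp hk h3
    · apply hχ1
      have hall : ∀ x, ρ x = 1 := fun x => MonoidHom.mem_ker.mp (hk ▸ Subgroup.mem_top x)
      have hdim : finrank ℂ (Fin n → ℂ) = 1 :=
        finrank_eq_one_of_forall_scalar ρ (fun x => ⟨1, by rw [hall x, one_smul]; rfl⟩)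
      rw [← hρχ]
      ext x
      rw [Representation.character, hall x, LinearMap.trace_one, hdim]
      simp

end Cfsg.Agent.S0910
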