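import Mathlib
import Cfsg.Statements.S0914
import Cfsg.Agent.Lib.Helper2.BlockOrth
import Cfsg.Agent.Lib.Helper2.BlockAvg
import Cfsg.Agent.Lib.Helper7.CharDeg
import Cfsg.Agent.S0909

set_option autoImplicit false
open Cfsg

namespace Cfsg.Agent.S0914

open Cfsg.Agent.Lib.Helper2.LocRing Cfsg.Agent.Lib.Helper2.BlockZ Cfsg.Agent.Lib.Helper2.BlockOrth
  Cfsg.Agent.Lib.Helper2.BlockAvg Cfsg.Agent.Lib.Helper7.CharDeg Cfsg.Agent.Lib.Helper7.CharIntegral
  Cfsg.Agent.Lib.Helper7.CharMore Cfsg.Agent.Lib.Helper7.CharGalois Cfsg.Agent.Lib.Helper7.CharComplete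
  Cfsg.Agent.Lib.Helper7.CharIrr
open scoped ComplexConjugate

theorem blockCoeff_singleton {G : Type*} [Group G] [Finite G] (χ : Cfsg.IrrCharacter G) (g : G) :
    Cfsg.blockCoeff {χ} g = (Nat.card G : ℂ)⁻¹ * ((χ : G → ℂ) 1 * conj ((χ : G → ℂ) g)) := by
  rw [Cfsg.blockCoeff, finsum_mem_singleton]

/-- Let χ be an irreducible character of the finite group G, p a prime and M a maximal ideal of the algebraic integers containing p. Then p does not divide the integer (Nat.card G) / χ(1) if and only if the block of χ relative to M consists of χ alone. -/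
theorem result {G : Type*} [Group G] [Finite G] (p : ℕ) [Fact p.Prime] (M : Ideal Cfsg.AlgInt) (hM : Cfsg.IsPModular p M) (χ : Cfsg.IrrCharacter G) : ¬ p ∣ Nat.card G / Cfsg.charDegree (χ : G → ℂ) ↔ Cfsg.blockOf M (χ : G → ℂ) = {χ} := by
  classical
  have := Fintype.ofFinite G
  have : M.IsPrime := hM.2.1.isPrime
  have hdvd := charDegree_dvd_card χ.2
  have hpos := charDegree_pos χ.2
  have hcast := charDegree_cast (IsIrrCharacter.isCharacter χ.2)
  have hG : (Nat.card G : ℂ) ≠ 0 := card_ne_zero
  constructor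
  · intro hp
    apply Set.Subset.antisymm
    · apply Cfsg.Agent.S0909.result p M hM {χ} _ χ rfl
      intro g
      rw [blockCoeff_singleton]
      obtain ⟨n, hn⟩ := hdvd
      have hn' : Nat.card G / Cfsg.charDegree (χ : G → ℂ) = n := by
        rw [hn, Nat.mul_div_cancel_left _ hpos]
      rw [hn'] at hp
      have h1 : (Nat.card G : ℂ)⁻¹ * ((χ : G → ℂ) 1 * conj ((χ : G → ℂ) g)) =
          (n : ℂ)⁻¹ * conj ((χ : G → ℂ) g) := by
        rw [hn, ← hcast]
        push_cast
        have h2 : (Cfsg.charDegree (χ : G → ℂ) : ℂ) ≠ 0 := by exact_mod_cast hpos.ne'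
        have h3 : (n : ℂ) ≠ 0 := by
          intro h0
          apply hp
          have : n = 0 := by exact_mod_cast h0
          rw [this]; exact dvd_zero p
        field_simp
      rw [h1]
      apply Subring.mul_mem (Rloc M) (natCast_inv_mem_Rloc hM hp)
      apply integral_mem_Rloc
      exact isIntegral_of_isCharacter (IsIrrCharacter.isCharacter (isIrrCharacter_conj χ.2)) g
    · intro ψ hψ
      rw [Set.mem_singleton_iff.mp hψ]
      exact sameBlock_refl (M := M) _
  · intro hB
    have hBl : Cfsg.IsPBlock M ({χ} : Set (Cfsg.IrrCharacter G)) := ⟨χ, hB.symm⟩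
    have hvan : ∀ y : G, p ∣ orderOf y → (χ : G → ℂ) y = 0 := by
      intro y hy
      have h1 := blockCoeff_eq_zero hM _ (block_closed hBl) y hy
      rw [blockCoeff_singleton] at h1
      have h2 := (mul_eq_zero.mp h1).resolve_left (inv_ne_zero hG)
      have h3 := (mul_eq_zero.mp h2).resolve_left (irr_one_ne_zero χ.2)
      simpa using h3
    obtain ⟨P⟩ : Nonempty (Sylow p G) := inferInstance
    have h1 := isIntegral_avg (IsIrrCharacter.isCharacter χ.2) (P : Subgroup G) 1 (by simp)
    have h2 : ∑ x : G, (if x ∈ (P : Subgroup G) then (χ : G → ℂ) (x * 1) else 0) =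
        (χ : G → ℂ) 1 := by
      rw [Finset.sum_eq_single (1 : G)]
      · simp [one_mem]
      · intro x _ hx
        split_ifs with hxP
        · rw [mul_one]
          apply hvan
          obtain ⟨k, hk⟩ := (IsPGroup.iff_orderOf.mp P.2 ⟨x, hxP⟩)
          rw [Subgroup.orderOf_mk] at hk
          rw [hk]
          apply dvd_pow_self
          rintro rfl
          rw [pow_zero, orderOf_eq_one_iff] at hk
          exact hx hk
        · rfl
      · intro h; exact absurd (Finset.mem_univ _) h
    rw [h2, ← hcast, mul_comm, ← div_eq_mul_inv] at h1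
    have h3 := nat_dvd_of_isIntegral_div (Nat.card_pos (α := (P : Subgroup G))).ne' h1
    intro hp
    have h4 : Nat.card (P : Subgroup G) * p ∣ Nat.card G := by
      obtain ⟨n, hn⟩ := hdvd
      have hn' : Nat.card G / Cfsg.charDegree (χ : G → ℂ) = n := by
        rw [hn, Nat.mul_div_cancel_left _ hpos]
      rw [hn'] at hp
      rw [hn]
      exact mul_dvd_mul h3 hp
    rw [P.card_eq_multiplicity, ← pow_succ] at h4
    exact Nat.pow_succ_factorization_not_dvd (Nat.card_pos (α := G)).ne' (Fact.out) h4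

end Cfsg.Agent.S0914
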