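import Mathlib
import Cfsg.Statements.S0915
import Cfsg.Agent.Lib.Helper2.BlockN
import Cfsg.Agent.Lib.Helper1.Cores
import Cfsg.Agent.Lib.Helper9.PSolv

set_option autoImplicit false
open Cfsg

namespace Cfsg.Agent.S0915

open Cfsg.Agent.Lib.Helper2.LocRing Cfsg.Agent.Lib.Helper2.BlockZ Cfsg.Agent.Lib.Helper2.BlockN
  Cfsg.Agent.Lib.Helper2.BlockOrth Cfsg.Agent.Lib.Helper7.CharMore

/-- Let G be a finite p-solvable group with trivial largest normal subgroup of order prime to p. Then any two irreducible characters of G lie in the same block relative to every maximal ideal M of the algebraic integers containing p: G has a single p-block. -/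
theorem result {G : Type*} [Group G] [Finite G] (p : ℕ) [Fact p.Prime] (M : Ideal Cfsg.AlgInt) (hM : Cfsg.IsPModular p M) (hsolv : Cfsg.IsPSolvable p G) (hcore : Cfsg.pPrimeCore p G = ⊥) (χ ψ : Cfsg.IrrCharacter G) : Cfsg.SameBlock M (χ : G → ℂ) (ψ : G → ℂ) := by
  classical
  have := Fintype.ofFinite G
  have := Fintype.ofFinite (ConjClasses G)
  have : M.IsPrime := hM.2.1.isPrime
  by_contra hcon
  set B := Cfsg.blockOf M (χ : G → ℂ) with hBdef
  have hB : Cfsg.IsPBlock M B := ⟨χ, rfl⟩
  have hχB : χ ∈ B := sameBlock_refl (M := M) _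
  have hψB : ψ ∉ B := hcon
  have hn : (Cfsg.pCore p G).Normal := Cfsg.Agent.Lib.Helper1.pCore_normal p
  have hp : IsPGroup p (Cfsg.pCore p G) := Cfsg.Agent.Lib.Helper1.pCore_isPGroup p
  have hHH := Cfsg.Agent.Lib.Helper9.PSolv.hall_higman hsolv hcore
  have h1 : W χ (Cfsg.blockCoeff B) - W ψ (Cfsg.blockCoeff B) ∈ Iloc M := by
    rw [W_eq_sum_classes χ.2 (blockCoeff_isClass B), W_eq_sum_classes ψ.2 (blockCoeff_isClass B),
      ← Finset.sum_sub_distrib]
    apply Submodule.sum_mem
    intro K _
    rw [← mul_sub]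
    by_cases hk1 : K.out = 1
    · rw [hk1]
      have e : ∀ θ : Cfsg.IrrCharacter G, Cfsg.centralChar (θ : G → ℂ) 1 =
          ((Subgroup.centralizer ({1} : Set G)).index : ℂ) := by
        intro θ
        rw [Cfsg.centralChar, mul_div_assoc, div_self (irr_one_ne_zero θ.2), mul_one]
      rw [e, e, sub_self, mul_zero]
      exact (Iloc M).zero_mem
    · by_cases hk : p ∣ orderOf K.out
      · rw [blockCoeff_eq_zero hM B (block_closed hB) _ hk, zero_mul]
        exact (Iloc M).zero_mem
      · have hkP : K.out ∉ Cfsg.pCore p G := by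
          intro hmem
          obtain ⟨n, hn⟩ := (IsPGroup.iff_orderOf.mp hp ⟨K.out, hmem⟩)
          rw [Subgroup.orderOf_mk] at hn
          rcases Nat.eq_zero_or_pos n with rfl | hpos
          · rw [pow_zero, orderOf_eq_one_iff] at hn
            exact hk1 hn
          · exact hk (hn ▸ dvd_pow_self p hpos.ne')
        have hkC : K.out ∉ Subgroup.centralizer (Cfsg.pCore p G : Set G) := fun h => hkP (hHH h)
        apply mul_mem_Iloc (blockCoeff_mem_Rloc B (block_closed hB) _)
        exact (Iloc M).sub_mem (centralChar_mem_Iloc_of_normal' hM _ hp _ hkC χ)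
          (centralChar_mem_Iloc_of_normal' hM _ hp _ hkC ψ)
  rw [W_blockCoeff, W_blockCoeff, if_pos hχB, if_neg hψB, sub_zero] at h1
  exact one_notMem_Iloc h1

end Cfsg.Agent.S0915
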