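import Mathlib
import Cfsg.Statements.S0923
import Cfsg.Agent.Lib.Helper2.BlockSM5

set_option autoImplicit false
open Cfsg

namespace Cfsg.Agent.S0923

open Cfsg.Agent.Lib.Helper2.BlockSM4 Cfsg.Agent.Lib.Helper2.BlockSM5 Cfsg.Agent.Lib.Helper2.BlockBr2
  Cfsg.Agent.Lib.Helper7.CharComplete

/-- Brauer's Second Main Theorem, in terms of ordinary characters. Let x be a p-element of the finite group G with centralizer C, let χ lie in the block B of G and let b be a block of C that does not induce B (relative to a maximal ideal M of the algebraic integers containing p). Form the class function ϑ(c) = χ(x c) on C and its b-part (the sum over ψ ∈ b of the inner product of ϑ with ψ, times ψ). Then the b-part of ϑ vanishes at every p-regular element of C. (Equivalently, the generalized decomposition numbers of χ with respect to b are zero.) -/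
theorem result {G : Type*} [Group G] [Finite G] (p : ℕ) [Fact p.Prime] (M : Ideal Cfsg.AlgInt) (hM : Cfsg.IsPModular p M) (x : G) (hx : ∃ k : ℕ, orderOf x = p ^ k) (B : Set (Cfsg.IrrCharacter G)) (hB : Cfsg.IsPBlock M B) (χ : Cfsg.IrrCharacter G) (hχ : χ ∈ B) (b : Set (Cfsg.IrrCharacter (Subgroup.centralizer ({x} : Set G)))) (hb : Cfsg.IsPBlock M b) (hnot : ¬ Cfsg.IsInducedBlock M (Subgroup.centralizer ({x} : Set G)) b B) (y : Subgroup.centralizer ({x} : Set G)) (hy : ¬ p ∣ orderOf y) : Cfsg.blockPart b (fun c : Subgroup.centralizer ({x} : Set G) => (χ : G → ℂ) (x * (c : G))) y = 0 := by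
  classical
  have := Fintype.ofFinite G
  have : M.IsPrime := hM.2.1.isPrime
  have hχc := IsIrrCharacter.isClassFunction χ.2
  have hcomm : ∀ k : Subgroup.centralizer ({x} : Set G), (k : G) * x = x * k :=
    fun k => Subgroup.mem_centralizer_singleton_iff.mp k.2
  have hϑ : Cfsg.IsClassFunction (Subgroup.centralizer ({x} : Set G))
      (fun c : Subgroup.centralizer ({x} : Set G) => (χ : G → ℂ) (x * (c : G))) := by
    intro c k
    change (χ : G → ℂ) (x * ((k : G) * c * (k : G)⁻¹)) = (χ : G → ℂ) (x * c)
    have h1 : x * ((k : G) * c * (k : G)⁻¹) = (k : G) * (x * c) * (k : G)⁻¹ := by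
      calc x * ((k : G) * c * (k : G)⁻¹) = (x * k) * c * (k : G)⁻¹ := by group
        _ = ((k : G) * x) * c * (k : G)⁻¹ := by rw [hcomm k]
        _ = (k : G) * (x * c) * (k : G)⁻¹ := by group
    rw [h1, hχc]
  rw [blockPart_eq_sum b hϑ]
  obtain ⟨B', hB'⟩ := exists_induced_centralizer hM x hx hb
  have hχB' : χ ∉ B' := by
    intro h1
    apply hnot
    rw [block_eq_of_mem hB hB'.2.1 hχ h1]
    exact hB'
  have hxH : x ∈ Subgroup.centralizer ({x} : Set G) := by
    rw [Subgroup.mem_centralizer_singleton_iff]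
  have h2 := second_main hM _ hB' (⟨x, hxH⟩ * y) (by
    intro z hz
    have h3 : Cfsg.IsPPart p (x * (y : G)) x :=
      ⟨y, rfl, (hcomm y).symm, hx, by rw [Subgroup.orderOf_coe]; exact hy⟩
    rw [isPPart_unique hM.1 hz h3]) χ hχB'
  rw [← h2]
  apply Finset.sum_congr rfl
  intro k _
  congr 2
  change (χ : G → ℂ) (x * ((k : G) * y)) = (χ : G → ℂ) ((k : G) * (x * y))
  have e : x * ((k : G) * y) = (k : G) * (x * y) := by
    calc x * ((k : G) * y) = (x * k) * y := by group
      _ = ((k : G) * x) * y := by rw [hcomm k]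
      _ = (k : G) * (x * y) := by group
  rw [e]

end Cfsg.Agent.S0923
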