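import Mathlib
import Cfsg.Statements.S0926
import Cfsg.Agent.Lib.Helper2.BlockSM6
import Cfsg.Agent.Lib.Helper2.BlockHt
import Cfsg.Agent.S0959

set_option autoImplicit false
open Cfsg

namespace Cfsg.Agent.S0926

open Cfsg.Agent.Lib.Helper2.LocRing Cfsg.Agent.Lib.Helper2.BlockZ Cfsg.Agent.Lib.Helper2.BlockSM6
  Cfsg.Agent.Lib.Helper2.BlockHt Cfsg.Agent.Lib.Helper2.BlockDef Cfsg.Agent.Lib.Helper2.BlockBr2

/-- Let B be a block of the finite group G with defect group D (relative to a maximal ideal M of the algebraic integers containing p), let χ ∈ B have height zero, and let x be a p-element. Then some conjugate of x lies in D if and only if χ does not vanish on the whole p-section of x (the elements whose p-part is conjugate to x). -/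
theorem result {G : Type*} [Group G] [Finite G] (p : ℕ) [Fact p.Prime] (M : Ideal Cfsg.AlgInt) (hM : Cfsg.IsPModular p M) (B : Set (Cfsg.IrrCharacter G)) (hB : Cfsg.IsPBlock M B) (D : Subgroup G) (hD : Cfsg.IsDefectGroup p M B D) (χ : Cfsg.IrrCharacter G) (hχ : χ ∈ B) (h0 : Cfsg.blockHeight p B (χ : G → ℂ) = 0) (x : G) (hx : ∃ k : ℕ, orderOf x = p ^ k) : (∃ g : G, g * x * g⁻¹ ∈ D) ↔ ∃ u : G, (∃ z : G, Cfsg.IsPPart p u z ∧ IsConj x z) ∧ (χ : G → ℂ) u ≠ 0 := by
  classical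
  have := Fintype.ofFinite G
  have : M.IsPrime := hM.2.1.isPrime
  have hBχ : Cfsg.blockOf M (χ : G → ℂ) = B :=
    block_eq_of_mem (M := M) ⟨χ, rfl⟩ hB (sameBlock_refl (M := M) _) hχ
  constructor
  · rintro ⟨g, hg⟩
    obtain ⟨y₀, hy₀, S, rfl⟩ := hD
    obtain ⟨r, hr, hr'⟩ := hg
    have hr'' : (r : G) = g * x * g⁻¹ := hr'
    have hcomm : g * x * g⁻¹ * y₀ = y₀ * (g * x * g⁻¹) := by
      rw [← hr'']
      exact Subgroup.mem_centralizer_singleton_iff.mp r.2
    obtain ⟨k, hk⟩ := hx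
    have hord : orderOf (g * x * g⁻¹) = p ^ k := by
      have := orderOf_injective (MulAut.conj g).toMonoidHom (MulAut.conj g).injective x
      rw [← hk]
      exact this
    refine ⟨g * x * g⁻¹ * y₀, ⟨g * x * g⁻¹, ⟨y₀, rfl, hcomm, ⟨k, hord⟩, ?_⟩,
      isConj_iff.mpr ⟨g, rfl⟩⟩, ?_⟩
    · exact preg_of_blockCoeff_ne hM hB (ne_zero_of_notMem_Iloc (M := M) hy₀.2.1)
    · apply ne_zero_of_notMem_Iloc (M := M)
      apply val_notMem hM hB hy₀ hχ (degree_le_of_height_zero hM hB hy₀ h0) _ hcomm k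
      rw [← hord, pow_orderOf_eq_one]
  · rintro ⟨u, ⟨z, hu, hxz⟩, hne⟩
    by_contra hcon
    push Not at hcon
    apply hne
    apply char_eq_zero_of_not_mem_defect hM χ u z hu
    intro D' hD' hz
    rw [hBχ] at hD'
    have hD'' := hD'
    obtain ⟨g', hg', S', hS'⟩ := hD''
    have hD'p : IsPGroup p D' := by rw [hS']; exact S'.2.map _
    have hg'c : g' ∈ Subgroup.centralizer (D' : Set G) := by
      rw [Subgroup.mem_centralizer_iff, hS']
      rintro _ ⟨q, _, rfl⟩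
      exact Subgroup.mem_centralizer_singleton_iff.mp q.2
    obtain ⟨c, hc⟩ := (Cfsg.Agent.S0959.result p M hM B hB D hD D' hD'p).1
      ⟨g', hg'.1, hg'.2.1, g', IsConj.refl _, hg'c⟩
    obtain ⟨d, rfl⟩ := isConj_iff.mp hxz
    apply hcon (c * d)
    have h1 : c * (d * x * d⁻¹) * c⁻¹ ∈ D := hc ⟨_, hz, rfl⟩
    have h2 : c * d * x * (c * d)⁻¹ = c * (d * x * d⁻¹) * c⁻¹ := by group
    rw [h2]
    exact h1

end Cfsg.Agent.S0926
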