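import Mathlib
import Cfsg.Statements.S0927
import Cfsg.Agent.Lib.Helper2.BlockHt

set_option autoImplicit false
open Cfsg

namespace Cfsg.Agent.S0927

open Cfsg.Agent.Lib.Helper2.BlockHt

/-- Let B be a block of the finite group G relative to a maximal ideal M of the algebraic integers containing p, let y represent a defect class of B and let P be a Sylow p-subgroup of the centralizer of y. (a) If x ∈ P and χ ∈ B has height zero, then χ (x * y) is not in the local ideal at M. (b) If x lies in the centre of P, then for every χ ∈ B the central character of χ at x * y is not in the local ideal at M. -/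
theorem result {G : Type*} [Group G] [Finite G] (p : ℕ) [Fact p.Prime] (M : Ideal Cfsg.AlgInt) (hM : Cfsg.IsPModular p M) (B : Set (Cfsg.IrrCharacter G)) (hB : Cfsg.IsPBlock M B) (y : G) (hy : Cfsg.IsDefectClass M B y) (P : Sylow p (Subgroup.centralizer ({y} : Set G))) (x : Subgroup.centralizer ({y} : Set G)) (hx : x ∈ (P : Subgroup (Subgroup.centralizer ({y} : Set G)))) : (∀ χ ∈ B, Cfsg.blockHeight p B (χ : G → ℂ) = 0 → ¬ Cfsg.MemLocalIdeal M ((χ : G → ℂ) ((x : G) * y))) ∧ ((∀ w ∈ (P : Subgroup (Subgroup.centralizer ({y} : Set G))), x * w = w * x) → ∀ χ ∈ B, ¬ Cfsg.MemLocalIdeal M (Cfsg.centralChar (χ : G → ℂ) ((x : G) * y))) := by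
  classical
  have := Fintype.ofFinite G
  have hxy : (x : G) * y = y * x := Subgroup.mem_centralizer_singleton_iff.mp x.2
  obtain ⟨k, hk⟩ := P.2 ⟨x, hx⟩
  have hxk : (x : G) ^ p ^ k = 1 := by
    have h1 := congrArg Subtype.val hk
    have h2 := congrArg Subtype.val h1
    simpa using h2
  constructor
  · intro χ hχ h0
    exact val_notMem hM hB hy hχ (degree_le_of_height_zero hM hB hy h0) x hxy k hxk
  · intro hc χ hχ
    apply centralChar_notMem hM hB hy x hxy k hxk _ χ hχ
    have hle : (P : Subgroup (Subgroup.centralizer ({y} : Set G))).map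
        (Subgroup.centralizer ({y} : Set G)).subtype ≤
        Subgroup.centralizer ({(x : G) * y} : Set G) := by
      rintro _ ⟨w, hw, rfl⟩
      rw [Subgroup.mem_centralizer_singleton_iff]
      have h1 : (w : G) * y = y * w := Subgroup.mem_centralizer_singleton_iff.mp w.2
      have h2 : (x : G) * w = w * x := congrArg Subtype.val (hc w hw)
      change (w : G) * (x * y) = x * y * w
      calc (w : G) * (x * y) = ((w : G) * x) * y := by group
        _ = (x * w) * y := by rw [h2]
        _ = x * ((w : G) * y) := by group
        _ = x * (y * w) := by rw [h1]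
        _ = x * y * w := by group
    have h3 := Subgroup.card_dvd_of_le hle
    have h4 : Nat.card ((P : Subgroup (Subgroup.centralizer ({y} : Set G))).map
        (Subgroup.centralizer ({y} : Set G)).subtype) =
        p ^ (Nat.card (Subgroup.centralizer ({y} : Set G))).factorization p := by
      rw [← P.card_eq_multiplicity]
      exact Nat.card_congr
        (Subgroup.equivMapOfInjective _ _ (Subgroup.subtype_injective _)).symm.toEquiv
    rw [h4] at h3
    exact (Nat.Prime.pow_dvd_iff_le_factorization Fact.out Nat.card_pos.ne').mp h3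

end Cfsg.Agent.S0927
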