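import Mathlib
import Cfsg.Statements.S0929
import Cfsg.Agent.Lib.Helper2.BlockSM6
import Cfsg.Agent.Lib.Helper2.BlockFMT
import Cfsg.Agent.S0920
import Cfsg.Agent.S0959

set_option autoImplicit false
open Cfsg

namespace Cfsg.Agent.S0929

open Cfsg.Agent.Lib.Helper2.LocRing Cfsg.Agent.Lib.Helper2.BlockZ Cfsg.Agent.Lib.Helper2.BlockSM6
  Cfsg.Agent.Lib.Helper2.BlockBr2 Cfsg.Agent.Lib.Helper2.BlockBr Cfsg.Agent.Lib.Helper2.BlockFMT
  Cfsg.Agent.Lib.Helper2.BlockSM3 Cfsg.Agent.Lib.Helper2.BlockSM5 Cfsg.Agent.Lib.Helper2.BlockSub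

theorem isPPart_coe {G : Type*} [Group G] {p : ℕ} (N : Subgroup G) {l z : N}
    (h : Cfsg.IsPPart p l z) : Cfsg.IsPPart p (l : G) (z : G) := by
  obtain ⟨y, hzy, hc, ⟨j, hj⟩, hy⟩ := h
  refine ⟨y, ?_, ?_, ⟨j, ?_⟩, ?_⟩
  · exact congrArg Subtype.val hzy
  · exact congrArg Subtype.val hc.eq
  · rw [Subgroup.orderOf_coe, hj]
  · rw [Subgroup.orderOf_coe]; exact hy

/-- Let B be a block of the finite group G with defect group P (relative to a maximal ideal M of the algebraic integers containing p), and let g be an element at which the central character of some member of B is not in the local ideal at M. Then some conjugate x of g centralizes P and has its p-part in the centre of P. -/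
theorem result {G : Type*} [Group G] [Finite G] (p : ℕ) [Fact p.Prime] (M : Ideal Cfsg.AlgInt) (hM : Cfsg.IsPModular p M) (B : Set (Cfsg.IrrCharacter G)) (hB : Cfsg.IsPBlock M B) (P : Subgroup G) (hP : Cfsg.IsDefectGroup p M B P) (g : G) (hg : ∃ χ ∈ B, ¬ Cfsg.MemLocalIdeal M (Cfsg.centralChar (χ : G → ℂ) g)) : ∃ x : G, IsConj g x ∧ x ∈ Subgroup.centralizer (P : Set G) ∧ ∀ z : G, Cfsg.IsPPart p x z → z ∈ P ∧ ∀ w ∈ P, z * w = w * z := by
  classical
  have := Fintype.ofFinite G
  have : M.IsPrime := hM.2.1.isPrime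
  have hPp : IsPGroup p P := by
    obtain ⟨g₀, _, S, hS⟩ := hP
    rw [hS]; exact S.2.map _
  obtain ⟨b, hb, hbD, hind⟩ := Cfsg.Agent.S0920.exist2 p M hM P hPp B hB hP
  have := Fintype.ofFinite (ConjClasses (Subgroup.normalizer (P : Set G)))
  obtain ⟨χ, hχ, hg⟩ := hg
  obtain ⟨ξ, hξ⟩ := block_nonempty hb
  have h1 := induced_br hM hPp Subgroup.le_normalizer le_rfl hind hξ hχ g
  have h2 : W (ξ : Subgroup.normalizer (P : Set G) → ℂ)
      (br P (Subgroup.normalizer (P : Set G)) (cl g)) ∉ Iloc M :=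
    notMem_of_sub_mem (sub_mem_Iloc_symm h1) hg
  rw [W_eq_sum_classes ξ.2 (br_isClass le_rfl (cl_isClass g))] at h2
  obtain ⟨L, hL⟩ : ∃ L : ConjClasses (Subgroup.normalizer (P : Set G)),
      br P (Subgroup.normalizer (P : Set G)) (cl g) L.out *
        Cfsg.centralChar (ξ : Subgroup.normalizer (P : Set G) → ℂ) L.out ∉ Iloc M := by
    by_contra hcon
    push Not at hcon
    exact h2 (Submodule.sum_mem (Iloc M) fun K _ => hcon K)
  set l := L.out with hl
  have hl1 : br P (Subgroup.normalizer (P : Set G)) (cl g) l ≠ 0 := by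
    intro h0
    apply hL
    rw [h0, zero_mul]
    exact (Iloc M).zero_mem
  have hl2 : (ξ : Subgroup.normalizer (P : Set G) → ℂ) l ≠ 0 := by
    intro h0
    apply hL
    rw [Cfsg.centralChar, h0, mul_zero, zero_div, mul_zero]
    exact (Iloc M).zero_mem
  rw [br_apply] at hl1
  have hlc : (l : G) ∈ Subgroup.centralizer (P : Set G) := by
    by_contra hcon
    rw [if_neg hcon] at hl1
    exact hl1 rfl
  rw [if_pos hlc] at hl1
  have hgl : IsConj g (l : G) := by
    by_contra hcon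
    apply hl1
    unfold cl
    rw [if_neg hcon]
  refine ⟨l, hgl, hlc, ?_⟩
  intro z hz
  obtain ⟨a, ha1, _⟩ := exists_ppart_exp (Subgroup.normalizer (P : Set G)) p hM.1
  have hz' := isPPart_unique hM.1 hz (isPPart_coe _ (ha1 l))
  have hbξ : Cfsg.blockOf M (ξ : Subgroup.normalizer (P : Set G) → ℂ) = b :=
    block_eq_of_mem (M := M) ⟨ξ, rfl⟩ hb (sameBlock_refl (M := M) _) hξ
  constructor
  · by_contra hzP
    apply hl2
    apply char_eq_zero_of_not_mem_defect hM ξ l (l ^ a) (ha1 l)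
    intro D' hD' hmem
    rw [hbξ] at hD'
    have hD'' := hD'
    obtain ⟨g', hg', S', hS'⟩ := hD''
    have hD'p : IsPGroup p D' := by rw [hS']; exact S'.2.map _
    have hg'c : g' ∈ Subgroup.centralizer (D' : Set (Subgroup.normalizer (P : Set G))) := by
      rw [Subgroup.mem_centralizer_iff, hS']
      rintro _ ⟨q, _, rfl⟩
      exact Subgroup.mem_centralizer_singleton_iff.mp q.2
    obtain ⟨c, hc⟩ := (Cfsg.Agent.S0959.result p M hM b hb _ hbD D' hD'p).1
      ⟨g', hg'.1, hg'.2.1, g', IsConj.refl _, hg'c⟩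
    have h3 : c * l ^ a * c⁻¹ ∈ P.subgroupOf (Subgroup.normalizer (P : Set G)) :=
      hc ⟨_, hmem, rfl⟩
    have hn : (P.subgroupOf (Subgroup.normalizer (P : Set G))).Normal :=
      Subgroup.normal_subgroupOf_of_le_normalizer le_rfl
    have h4 := hn.conj_mem _ h3 c⁻¹
    have h5 : c⁻¹ * (c * l ^ a * c⁻¹) * c⁻¹⁻¹ = l ^ a := by group
    rw [h5] at h4
    apply hzP
    rw [hz']
    exact Subgroup.mem_subgroupOf.mp h4
  · intro w hw
    rw [hz']
    have h3 : w * (l : G) = l * w := Subgroup.mem_centralizer_iff.mp hlc w hw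
    have h4 : Commute w (l : G) := h3
    have h5 : ((l ^ a : Subgroup.normalizer (P : Set G)) : G) = (l : G) ^ a := by
      simp
    rw [h5]
    exact (h4.zpow_right a).eq.symm

end Cfsg.Agent.S0929
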