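import Mathlib
import Cfsg.Statements.S0930
import Cfsg.Agent.Lib.Helper2.BlockSM6
import Cfsg.Agent.S0927
import Cfsg.Agent.S0929

set_option autoImplicit false
open Cfsg

namespace Cfsg.Agent.S0930

open Cfsg.Agent.Lib.Helper2.LocRing Cfsg.Agent.Lib.Helper2.BlockZ Cfsg.Agent.Lib.Helper2.BlockSM6
  Cfsg.Agent.Lib.Helper2.BlockSM3 Cfsg.Agent.Lib.Helper2.BlockSM5 Cfsg.Agent.Lib.Helper2.BlockSub
  Cfsg.Agent.Lib.Helper2.BlockDef

/-- Let H be a subgroup of the finite group G and fix a maximal ideal M of the algebraic integers containing the prime p. If the block b of H with defect group D induces the block B of G with defect group P, then every element of the centre of P is conjugate in G to an element of the centre of D. -/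
theorem result {G : Type*} [Group G] [Finite G] (p : ℕ) [Fact p.Prime] (M : Ideal Cfsg.AlgInt) (hM : Cfsg.IsPModular p M) (H : Subgroup G) (b : Set (Cfsg.IrrCharacter H)) (B : Set (Cfsg.IrrCharacter G)) (hind : Cfsg.IsInducedBlock M H b B) (D : Subgroup H) (hD : Cfsg.IsDefectGroup p M b D) (P : Subgroup G) (hP : Cfsg.IsDefectGroup p M B P) (x : G) (hx : x ∈ P) (hxc : ∀ w ∈ P, x * w = w * x) : ∃ g : G, g * x * g⁻¹ ∈ D.map H.subtype ∧ ∀ w ∈ D.map H.subtype, (g * x * g⁻¹) * w = w * (g * x * g⁻¹) := by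
  classical
  have := Fintype.ofFinite G
  have : M.IsPrime := hM.2.1.isPrime
  have := Fintype.ofFinite (ConjClasses H)
  have hb := hind.1
  have hB := hind.2.1
  obtain ⟨ξ, hξ⟩ := block_nonempty hb
  obtain ⟨χ, hχ⟩ := block_nonempty hB
  obtain ⟨y₀, hy₀, S, rfl⟩ := hP
  obtain ⟨x', hx'S, hx'⟩ := hx
  have hx'' : (x' : G) = x := hx'
  have hcen : ∀ w ∈ (S : Subgroup (Subgroup.centralizer ({y₀} : Set G))), x' * w = w * x' := by
    intro w hw
    apply Subtype.ext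
    change (x' : G) * w = w * x'
    rw [hx'']
    exact hxc w ⟨w, hw, rfl⟩
  have h1 := (Cfsg.Agent.S0927.result p M hM B hB y₀ hy₀ S x' hx'S).2 hcen χ hχ
  rw [hx''] at h1
  have h2 : Cfsg.inducedCentralChar H (ξ : H → ℂ) (x * y₀) ∉ Iloc M :=
    notMem_of_sub_mem (sub_mem_Iloc_symm (hind.2.2 ξ hξ χ hχ (x * y₀))) h1
  rw [inducedCentralChar_eq_W, W_eq_sum_classes ξ.2 (restrict_isClass H (cl_isClass _))] at h2
  obtain ⟨L, hL⟩ : ∃ L : ConjClasses H,
      cl (x * y₀) (L.out : G) * Cfsg.centralChar (ξ : H → ℂ) L.out ∉ Iloc M := by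
    by_contra hcon
    push Not at hcon
    exact h2 (Submodule.sum_mem (Iloc M) fun K _ => hcon K)
  set l := L.out with hl
  have hl1 : IsConj (x * y₀) (l : G) := by
    by_contra hcon
    apply hL
    unfold cl
    rw [if_neg hcon, zero_mul]
    exact (Iloc M).zero_mem
  have hl2 : Cfsg.centralChar (ξ : H → ℂ) l ∉ Iloc M :=
    fun h => hL (mul_mem_Iloc (cl_mem_Rloc _ _) h)
  obtain ⟨t, hlt, _, ht⟩ := Cfsg.Agent.S0929.result p M hM b hb D hD l ⟨ξ, hξ, hl2⟩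
  obtain ⟨a, ha1, _⟩ := exists_ppart_exp H p hM.1
  obtain ⟨hzD, hzc⟩ := ht _ (ha1 t)
  have hconj : IsConj (x * y₀) (t : G) := by
    obtain ⟨d, hd⟩ := isConj_iff.mp hlt
    apply hl1.trans
    rw [← hd]
    exact isConj_iff.mpr ⟨(d : G), rfl⟩
  obtain ⟨c, hc⟩ := isConj_iff.mp hconj
  have hxy : x * y₀ = y₀ * x := by
    rw [← hx'']
    exact Subgroup.mem_centralizer_singleton_iff.mp x'.2
  have hxo : ∃ k : ℕ, orderOf x = p ^ k := by
    obtain ⟨k, hk⟩ := (IsPGroup.iff_orderOf.mp S.2 ⟨x', hx'S⟩)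
    refine ⟨k, ?_⟩
    rw [← hk, ← hx'', Subgroup.orderOf_mk, Subgroup.orderOf_coe]
  have hp1 : Cfsg.IsPPart p (x * y₀) x :=
    ⟨y₀, rfl, hxy, hxo, preg_of_blockCoeff_ne hM hB (ne_zero_of_notMem_Iloc (M := M) hy₀.2.1)⟩
  have hp2 := isPPart_conj hp1 c
  rw [hc] at hp2
  have hp3 := Cfsg.Agent.S0929.isPPart_coe H (ha1 t)
  have heq := isPPart_unique hM.1 hp2 hp3
  refine ⟨c, ?_, ?_⟩
  · rw [heq]
    exact ⟨_, hzD, rfl⟩
  · rintro _ ⟨w, hw, rfl⟩
    rw [heq]
    exact congrArg Subtype.val (hzc w hw)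

end Cfsg.Agent.S0930
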