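import Mathlib
import Cfsg.Statements.S0931
import Cfsg.Agent.Lib.Helper2.BlockSub
import Cfsg.Agent.S0906
import Cfsg.Agent.S0917
import Cfsg.Agent.S0930

set_option autoImplicit false
open Cfsg

namespace Cfsg.Agent.S0931

open Cfsg.Agent.Lib.Helper2.BlockSub

/-- Let H be a subgroup of the finite group G and fix a maximal ideal M of the algebraic integers containing the prime p. If the block b of H induces the block B of G, then b has defect 0 if and only if B has defect 0. -/
theorem result {G : Type*} [Group G] [Finite G] (p : ℕ) [Fact p.Prime] (M : Ideal Cfsg.AlgInt) (hM : Cfsg.IsPModular p M) (H : Subgroup G) (b : Set (Cfsg.IrrCharacter H)) (B : Set (Cfsg.IrrCharacter G)) (hind : Cfsg.IsInducedBlock M H b B) : Cfsg.blockDefect p b = 0 ↔ Cfsg.blockDefect p B = 0 := by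
  classical
  have := Fintype.ofFinite G
  have hb := hind.1
  have hB := hind.2.1
  have hp : p.Prime := Fact.out
  obtain ⟨y, hy⟩ := Cfsg.Agent.S0906.result p M hM b hb
  obtain ⟨S⟩ : Nonempty (Sylow p (Subgroup.centralizer ({y} : Set H))) := inferInstance
  have hD : Cfsg.IsDefectGroup p M b ((S : Subgroup (Subgroup.centralizer ({y} : Set H))).map
    (Subgroup.centralizer ({y} : Set H)).subtype) := ⟨y, hy, S, rfl⟩
  set D := (S : Subgroup (Subgroup.centralizer ({y} : Set H))).map
    (Subgroup.centralizer ({y} : Set H)).subtype with hDdef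
  have hcD := card_defectGroup hM hb hD
  constructor
  · intro h0
    rw [h0, pow_zero] at hcD
    have hDbot : D = ⊥ := (Subgroup.card_eq_one).mp hcD
    obtain ⟨g₀, hg₀⟩ := Cfsg.Agent.S0906.result p M hM B hB
    obtain ⟨T⟩ : Nonempty (Sylow p (Subgroup.centralizer ({g₀} : Set G))) := inferInstance
    have hP : Cfsg.IsDefectGroup p M B ((T : Subgroup (Subgroup.centralizer ({g₀} : Set G))).map
      (Subgroup.centralizer ({g₀} : Set G)).subtype) := ⟨g₀, hg₀, T, rfl⟩
    set P := (T : Subgroup (Subgroup.centralizer ({g₀} : Set G))).map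
      (Subgroup.centralizer ({g₀} : Set G)).subtype with hPdef
    have hPp : IsPGroup p P := T.2.map _
    have hcP := card_defectGroup hM hB hP
    by_contra hne
    have hnt : Nontrivial P := by
      rw [← Finite.one_lt_card_iff_nontrivial, hcP]
      exact Nat.one_lt_pow hne hp.one_lt
    have hcen := hPp.center_nontrivial
    obtain ⟨z, hz⟩ := exists_ne (1 : Subgroup.center P)
    obtain ⟨g, hg, _⟩ := Cfsg.Agent.S0930.result p M hM H b B hind D hD P hP (z : P) (z : P).2 (by
      intro w hw
      have := Subgroup.mem_center_iff.mp z.2 ⟨w, hw⟩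
      exact (congrArg Subtype.val this).symm)
    rw [hDbot, Subgroup.map_bot, Subgroup.mem_bot] at hg
    apply hz
    apply Subtype.ext
    apply Subtype.ext
    have h1 : ((z : P) : G) = g⁻¹ * (g * ((z : P) : G) * g⁻¹) * g := by group
    rw [h1, hg]
    simp
  · intro h0
    obtain ⟨E, hE, hDE⟩ := Cfsg.Agent.S0917.result p M hM H b hb B hB hind D hD
    have hcE := card_defectGroup hM hB hE
    rw [h0, pow_zero] at hcE
    have h1 : Nat.card (D.map H.subtype) = Nat.card D :=
      Nat.card_congr (Subgroup.equivMapOfInjective _ _ (Subgroup.subtype_injective _)).symm.toEquiv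
    have h2 := Subgroup.card_le_of_le hDE
    rw [h1, hcE, hcD] at h2
    by_contra hne
    have := Nat.one_lt_pow hne hp.one_lt
    omega

end Cfsg.Agent.S0931
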