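import Mathlib
import Cfsg.Statements.S0933
import Cfsg.Agent.Lib.Helper2.BlockSub
import Cfsg.Agent.S0932

set_option autoImplicit false
open Cfsg

namespace Cfsg.Agent.S0933

open Cfsg.Agent.Lib.Helper2.BlockSub Cfsg.Agent.Lib.Helper2.BlockZ Cfsg.Agent.Lib.Helper2.LocRing
  Cfsg.Agent.Lib.Helper7.CharIrr

/-- Let H be a subgroup of the finite group G and ξ an irreducible character of H such that the induced function ξ^G is an irreducible character of G. Then, relative to any maximal ideal M of the algebraic integers containing the prime p, the block of ξ induces the block of ξ^G. -/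
theorem result {G : Type*} [Group G] [Fintype G] (p : ℕ) [Fact p.Prime] (M : Ideal Cfsg.AlgInt) (hM : Cfsg.IsPModular p M) (H : Subgroup G) (ξ : Cfsg.IrrCharacter H) (hind : Cfsg.IsIrrCharacter G (Cfsg.indFun H (ξ : H → ℂ))) : Cfsg.IsInducedBlock M H (Cfsg.blockOf M (ξ : H → ℂ)) (Cfsg.blockOf M (Cfsg.indFun H (ξ : H → ℂ))) := by
  classical
  have := hM.2.1.isPrime
  refine ⟨⟨ξ, rfl⟩, ⟨⟨Cfsg.indFun H (ξ : H → ℂ), hind⟩, rfl⟩, ?_⟩
  intro ξ' hξ' χ' hχ' g
  have h1 : Cfsg.inducedCentralChar H (ξ' : H → ℂ) g - Cfsg.inducedCentralChar H (ξ : H → ℂ) g ∈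
      Iloc M := by
    rw [inducedCentralChar_eq_W, inducedCentralChar_eq_W]
    exact W_sub_mem_Iloc (sameBlock_symm (M := M) hξ') (restrict_isClass H (cl_isClass g))
      (fun h => cl_mem_Rloc g _)
  rw [Cfsg.Agent.S0932.result H _ (IsIrrCharacter.isCharacter ξ.2)] at h1
  have h2 : Cfsg.centralChar (Cfsg.indFun H (ξ : H → ℂ)) g - Cfsg.centralChar (χ' : G → ℂ) g ∈
      Iloc M := hχ' g
  have h3 := (Iloc M).add_mem h1 h2
  rwa [sub_add_sub_cancel] at h3

end Cfsg.Agent.S0933
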