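import Mathlib
import Cfsg.Statements.S0934
import Cfsg.Agent.Lib.Helper2.BlockSub

set_option autoImplicit false
open Cfsg

namespace Cfsg.Agent.S0934

open Cfsg.Agent.Lib.Helper2.BlockSub Cfsg.Agent.Lib.Helper2.BlockZ Cfsg.Agent.Lib.Helper2.LocRing
  Cfsg.Agent.Lib.Helper7.CharIrr
open scoped ComplexConjugate

/-- Let H be a subgroup of the finite group G and fix a maximal ideal M of the algebraic integers containing the prime p. If the block b of H induces the block B of G and ξ ∈ b, then there is χ ∈ B whose restriction to H has nonzero inner product with ξ. -/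
theorem result {G : Type*} [Group G] [Fintype G] (p : ℕ) [Fact p.Prime] (M : Ideal Cfsg.AlgInt) (hM : Cfsg.IsPModular p M) (H : Subgroup G) [Fintype H] (b : Set (Cfsg.IrrCharacter H)) (B : Set (Cfsg.IrrCharacter G)) (hind : Cfsg.IsInducedBlock M H b B) (ξ : Cfsg.IrrCharacter H) (hξ : ξ ∈ b) : ∃ χ ∈ B, Cfsg.classInner (fun h : H => (χ : G → ℂ) h) (ξ : H → ℂ) ≠ 0 := by
  classical
  have := hM.2.1.isPrime
  have := Fintype.ofFinite (Cfsg.IrrCharacter G)
  by_contra hcon
  push Not at hcon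
  obtain ⟨χ₀, hχ₀⟩ := block_nonempty hind.2.1
  have h1 := induced_W hind hξ hχ₀ (blockCoeff_isClass B)
    (blockCoeff_mem_Rloc B (block_closed hind.2.1))
  rw [W_blockCoeff, if_pos hχ₀] at h1
  have h2 : W (ξ : H → ℂ) (fun h : H => Cfsg.blockCoeff B (h : G)) = 0 := by
    unfold W
    rw [blockCoeff_eq_sum]
    have h3 : ∑ g : H, (∑ χ ∈ Finset.univ.filter (fun χ => χ ∈ B), eI (χ : G → ℂ)) (g : G) *
        (ξ : H → ℂ) g = 0 := by
      simp only [Finset.sum_apply, Finset.sum_mul]
      rw [Finset.sum_comm]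
      apply Finset.sum_eq_zero
      intro χ hχ
      have hχB : χ ∈ B := (Finset.mem_filter.mp hχ).2
      have h4 := hcon χ hχB
      unfold Cfsg.classInner at h4
      have hH0 : (Nat.card H : ℂ)⁻¹ ≠ 0 := inv_ne_zero (Nat.cast_ne_zero.mpr Nat.card_pos.ne')
      have h5 := (mul_eq_zero.mp h4).resolve_left hH0
      have h6 := congrArg conj h5
      rw [map_sum, map_zero] at h6
      simp only [map_mul, Complex.conj_conj] at h6
      unfold eI
      have h7 : ∀ x : H, (Nat.card G : ℂ)⁻¹ * ((χ : G → ℂ) 1 * conj ((χ : G → ℂ) (x : G))) *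
          (ξ : H → ℂ) x = (Nat.card G : ℂ)⁻¹ * (χ : G → ℂ) 1 *
          (conj ((χ : G → ℂ) (x : G)) * (ξ : H → ℂ) x) := by
        intro x; ring
      rw [Finset.sum_congr rfl (fun x _ => h7 x), ← Finset.mul_sum, h6, mul_zero]
    rw [h3, zero_div]
  rw [h2, zero_sub] at h1
  have h8 := (Iloc M).neg_mem h1
  rw [neg_neg] at h8
  exact one_notMem_Iloc h8

end Cfsg.Agent.S0934
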