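import Cfsg.Statements.S0944
import Cfsg.Agent.Lib.Helper7.CharCount

set_option autoImplicit false
open Cfsg

namespace Cfsg.Agent.S0944

open Cfsg.Agent.Lib.Helper7

/-- Let χ be an irreducible character of the finite group G and u an involution. Then χ u is a rational integer n with n ≡ χ 1 (mod 2). -/
theorem result {G : Type*} [Group G] [Finite G] (χ : Cfsg.IrrCharacter G) (u : G) (hu : orderOf u = 2) : ∃ n : ℤ, (χ : G → ℂ) u = (n : ℂ) ∧ (2 : ℤ) ∣ (Cfsg.charDegree (χ : G → ℂ) : ℤ) - n := by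
  obtain ⟨d, ρ, hρ, hχ⟩ := χ.2
  obtain ⟨b, μ, h1, h2⟩ := CharBasic.exists_eigenbasis_rep ρ u
  rw [hu] at h2
  have h3 : ∀ i, ∃ e : ℤ, μ i = (e : ℂ) ∧ (2 : ℤ) ∣ 1 - e := by
    intro i
    have hsq : μ i * μ i = 1 := by rw [← sq]; exact h2 i
    rcases mul_self_eq_one_iff.mp hsq with h | h
    · exact ⟨1, by simp [h], by simp⟩
    · exact ⟨-1, by simp [h], by norm_num⟩
  choose e he1 he2 using h3
  refine ⟨∑ i, e i, ?_, ?_⟩
  · rw [← hχ, CharBasic.char_eq_sum ρ u b μ h1]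
    push_cast
    exact Finset.sum_congr rfl (fun i _ => he1 i)
  · have hdeg : Cfsg.charDegree (χ : G → ℂ) = Module.finrank ℂ (Fin d → ℂ) := by
      rw [Cfsg.charDegree, ← hχ, Representation.char_one]
      simp
    rw [hdeg]
    have : ((Module.finrank ℂ (Fin d → ℂ) : ℕ) : ℤ) - ∑ i, e i = ∑ i, (1 - e i) := by
      rw [Finset.sum_sub_distrib]
      simp
    rw [this]
    exact Finset.dvd_sum (fun i _ => he2 i)

end Cfsg.Agent.S0944
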