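import Cfsg.Statements.S0946
import Cfsg.Agent.Lib.Helper3.Index2

set_option autoImplicit false
open Cfsg

namespace Cfsg.Agent.S0946

theorem two_tors (m : ℕ) (u : ZMod (2 ^ (m + 1))) (hu : u + u = 0) :
    u = 0 ∨ u = ((2 ^ m : ℕ) : ZMod (2 ^ (m + 1))) := by
  haveI : NeZero (2 ^ (m + 1)) := ⟨by positivity⟩
  have h1 : ((u.val + u.val : ℕ) : ZMod (2 ^ (m + 1))) = 0 := by
    push_cast
    rw [ZMod.natCast_zmod_val]; exact hu
  rw [ZMod.natCast_eq_zero_iff] at h1
  have h2 : u.val < 2 ^ (m + 1) := ZMod.val_lt u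
  obtain ⟨t, ht⟩ : ∃ t, u.val = t := ⟨_, rfl⟩
  rw [ht] at h1 h2
  obtain ⟨c, hc⟩ := h1
  have e1 : 2 ^ (m + 1) * c = 2 * (2 ^ m * c) := by ring
  have e2 : 2 ^ (m + 1) = 2 * 2 ^ m := by ring
  have h3 : t = 2 ^ m * c := by omega
  have hpos : 0 < 2 ^ m := by positivity
  have hc2 : c < 2 := by
    by_contra hcc
    push Not at hcc
    have : 2 ^ m * 2 ≤ 2 ^ m * c := Nat.mul_le_mul_left _ hcc
    omega
  interval_cases c
  · left
    rw [mul_zero] at h3
    exact (ZMod.val_eq_zero u).1 (ht.trans h3)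
  · right
    rw [mul_one] at h3
    rw [← h3, ← ht, ZMod.natCast_zmod_val]

theorem three_invol (m : ℕ) (a b c : ZMod (2 ^ (m + 1)) × ZMod (2 ^ (m + 1)))
    (ha : a + a = 0) (hb : b + b = 0) (hc : c + c = 0) (ha0 : a ≠ 0) (hb0 : b ≠ 0) (hc0 : c ≠ 0)
    (hab : a ≠ b) : c = a ∨ c = b ∨ c = a + b := by
  obtain ⟨a1, a2⟩ := a
  obtain ⟨b1, b2⟩ := b
  obtain ⟨c1, c2⟩ := c
  simp only [Prod.mk_add_mk, Prod.mk_eq_zero] at ha hb hc
  generalize hh : ((2 ^ m : ℕ) : ZMod (2 ^ (m + 1))) = h at *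
  have key := fun u hu => hh ▸ two_tors m u hu
  have hhh : h + h = 0 := by
    rw [← hh, ← Nat.cast_add, ZMod.natCast_eq_zero_iff]
    exact ⟨1, by ring⟩
  rcases key a1 ha.1 with rfl | rfl <;> rcases key a2 ha.2 with rfl | rfl <;>
  rcases key b1 hb.1 with rfl | rfl <;> rcases key b2 hb.2 with rfl | rfl <;>
  rcases key c1 hc.1 with rfl | rfl <;> rcases key c2 hc.2 with rfl | rfl <;>
  simp_all

/-- Let P be a Sylow 2-subgroup of the finite group G isomorphic to Z/2^m × Z/2^m with m ≥ 1. Then either P has a normal complement in G, or all involutions of G are conjugate. -/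
theorem result {G : Type*} [Group G] [Finite G] (P : Sylow 2 G) (m : ℕ) (hm : 1 ≤ m) (e : (P : Subgroup G) ≃* Multiplicative (ZMod (2 ^ m) × ZMod (2 ^ m))) : (∃ N : Subgroup G, N.Normal ∧ Subgroup.IsComplement' N (P : Subgroup G)) ∨ ∀ s t : G, orderOf s = 2 → orderOf t = 2 → IsConj s t := by
  obtain ⟨m, rfl⟩ : ∃ m', m = m' + 1 := ⟨m - 1, by omega⟩
  have hPc : ∀ a ∈ P, ∀ b ∈ P, a * b = b * a := by
    intro a ha b hb
    have h1 : e ⟨a, ha⟩ * e ⟨b, hb⟩ = e ⟨b, hb⟩ * e ⟨a, ha⟩ := mul_comm _ _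
    rw [← map_mul, ← map_mul] at h1
    exact congrArg Subtype.val (e.injective h1)
  have h3 : ∀ a ∈ P, ∀ b ∈ P, ∀ c ∈ P, orderOf a = 2 → orderOf b = 2 → orderOf c = 2 → a ≠ b →
      c = a ∨ c = b ∨ c = a * b := by
    intro a ha b hb c hc hao hbo hco hab
    have finj : ∀ x y : (P : Subgroup G), Multiplicative.toAdd (e x) = Multiplicative.toAdd (e y) →
        x = y := fun x y h => e.injective (Multiplicative.toAdd.injective h)
    have key : ∀ x (hx : x ∈ P), orderOf x = 2 →
        Multiplicative.toAdd (e ⟨x, hx⟩) + Multiplicative.toAdd (e ⟨x, hx⟩) = 0 ∧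
        Multiplicative.toAdd (e ⟨x, hx⟩) ≠ 0 := by
      intro x hx hxo
      constructor
      · rw [← toAdd_mul, ← map_mul]
        have : (⟨x, hx⟩ : (P : Subgroup G)) * ⟨x, hx⟩ = 1 := by
          apply Subtype.ext
          show x * x = 1
          rw [← pow_two, ← hxo, pow_orderOf_eq_one]
        rw [this, map_one, toAdd_one]
      · intro h
        have h1 : (⟨x, hx⟩ : (P : Subgroup G)) = 1 := finj _ _ (by rw [h, map_one, toAdd_one])
        have h2 : x = 1 := congrArg Subtype.val h1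
        rw [h2, orderOf_one] at hxo
        norm_num at hxo
    obtain ⟨a1, a2⟩ := key a ha hao
    obtain ⟨b1, b2⟩ := key b hb hbo
    obtain ⟨c1, c2⟩ := key c hc hco
    rcases three_invol m _ _ _ a1 b1 c1 a2 b2 c2
      (fun h => hab (congrArg Subtype.val (finj _ _ h))) with h | h | h
    · exact Or.inl (congrArg Subtype.val (finj _ _ h))
    · exact Or.inr (Or.inl (congrArg Subtype.val (finj _ _ h)))
    · right; right
      rw [← toAdd_mul, ← map_mul] at h
      exact congrArg Subtype.val (finj _ _ h)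
  have hconjP : ∀ g ∈ Subgroup.normalizer ((P : Subgroup G) : Set G), ∀ v ∈ P, g * v * g⁻¹ ∈ P :=
    fun g hg v hv => (Subgroup.mem_normalizer_iff.1 hg v).1 hv
  have hconjo : ∀ (g w : G), orderOf (g * w * g⁻¹) = orderOf w := by
    intro g w
    have := (MulAut.conj g).orderOf_eq w
    rwa [MulAut.conj_apply] at this
  -- Claim B
  have hB : ∀ g ∈ Subgroup.normalizer ((P : Subgroup G) : Set G), Odd (orderOf g) →
      (∀ a ∈ P, orderOf a = 2 → g * a * g⁻¹ = a) → ∀ v ∈ P, g * v * g⁻¹ = v := by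
    intro g hg hodd hinv
    have hind : ∀ j : ℕ, ∀ v ∈ P, v ^ 2 ^ j = 1 → g * v * g⁻¹ = v := by
      intro j
      induction j with
      | zero =>
        intro v _ hv
        rw [pow_zero, pow_one] at hv
        rw [hv]; group
      | succ j ih =>
        intro v hv hvj
        have h1 := ih (v ^ 2) (Subgroup.pow_mem _ hv 2) (by rw [← pow_mul, ← pow_succ']; exact hvj)
        obtain ⟨w, hw⟩ : ∃ w, w = g * v * g⁻¹ * v⁻¹ := ⟨_, rfl⟩
        have hwP : w ∈ P := hw ▸ mul_mem (hconjP g hg v hv) (inv_mem hv)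
        have hgv : g * v * g⁻¹ = v * w := by
          rw [hPc v hv w hwP, hw]; group
        have hw2 : w ^ 2 = 1 := by
          have e1 : (g * v * g⁻¹) ^ 2 = v ^ 2 := by rw [conj_pow]; exact h1
          rw [hgv, (show Commute v w from hPc v hv w hwP).mul_pow] at e1
          exact mul_eq_left.1 e1
        have hgw : g * w * g⁻¹ = w := by
          by_cases hw1 : w = 1
          · rw [hw1]; group
          · exact hinv w hwP (orderOf_eq_prime hw2 hw1)
        have hpow : ∀ i : ℕ, g ^ i * v * (g ^ i)⁻¹ = v * w ^ i := by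
          intro i
          induction i with
          | zero => simp
          | succ i ihi =>
            have e1 : g ^ (i + 1) * v * (g ^ (i + 1))⁻¹ = g * (g ^ i * v * (g ^ i)⁻¹) * g⁻¹ := by
              rw [pow_succ']; group
            have e2 : g * (v * w ^ i) * g⁻¹ = (g * v * g⁻¹) * (g * w * g⁻¹) ^ i := by
              rw [conj_pow]; group
            rw [e1, ihi, e2, hgv, hgw, mul_assoc, ← pow_succ']
        have h2 := hpow (orderOf g)
        rw [pow_orderOf_eq_one, one_mul, inv_one, mul_one, left_eq_mul] at h2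
        obtain ⟨c, hc⟩ := hodd
        rw [hc, pow_succ, pow_mul, hw2, one_pow, one_mul] at h2
        rw [hgv, h2, mul_one]
    intro v hv
    obtain ⟨j, hj⟩ := P.2 ⟨v, hv⟩
    exact hind j v hv (congrArg Subtype.val hj)
  by_cases hall : ∀ g ∈ Subgroup.normalizer ((P : Subgroup G) : Set G), Odd (orderOf g) →
      ∀ a ∈ P, orderOf a = 2 → g * a * g⁻¹ = a
  · left
    have hNC : Subgroup.normalizer ((P : Subgroup G) : Set G) ≤
        Subgroup.centralizer ((P : Subgroup G) : Set G) := by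
      intro n hn
      obtain ⟨s, t, ht, hst⟩ := Nat.exists_eq_pow_mul_and_not_dvd (orderOf_pos n).ne' 2 (by norm_num)
      have htodd : Odd t := by
        rw [← Nat.not_even_iff_odd, even_iff_two_dvd]; exact ht
      have h1 : n ^ 2 ^ s ∈ Subgroup.centralizer ((P : Subgroup G) : Set G) := by
        have ho : Odd (orderOf (n ^ 2 ^ s)) := by
          have : orderOf (n ^ 2 ^ s) ∣ t := by
            apply orderOf_dvd_of_pow_eq_one
            rw [← pow_mul, ← hst, pow_orderOf_eq_one]
          exact Odd.of_dvd_nat htodd this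
        rw [Subgroup.mem_centralizer_iff]
        intro v hv
        have := hB _ (Subgroup.pow_mem _ hn _) ho (hall _ (Subgroup.pow_mem _ hn _) ho) v hv
        exact (mul_inv_eq_iff_eq_mul.1 this).symm
      have h2 : n ^ t ∈ Subgroup.centralizer ((P : Subgroup G) : Set G) := by
        have hP2 : IsPGroup 2 (Subgroup.zpowers (n ^ t)) := by
          have h5 : (n ^ t) ^ 2 ^ s = 1 := by
            rw [← pow_mul, mul_comm, ← hst, pow_orderOf_eq_one]
          obtain ⟨b, _, hb⟩ := (Nat.dvd_prime_pow Nat.prime_two).1 (orderOf_dvd_of_pow_eq_one h5)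
          exact IsPGroup.of_card (n := b) (by rw [Nat.card_zpowers, hb])
        have h3' := hP2.inf_normalizer_sylow P
        have h4 : n ^ t ∈ Subgroup.zpowers (n ^ t) ⊓
            Subgroup.normalizer ((P : Subgroup G) : Set G) :=
          Subgroup.mem_inf.2 ⟨Subgroup.mem_zpowers _, Subgroup.pow_mem _ hn t⟩
        have h4' : n ^ t ∈ Subgroup.zpowers (n ^ t) ⊓ (P : Subgroup G) := by
          rw [← h3']; exact h4
        rw [Subgroup.mem_centralizer_iff]
        intro v hv
        exact hPc v hv _ h4'.2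
      have hcop : Nat.Coprime (2 ^ s) t := Nat.Coprime.pow_left s (Nat.coprime_two_left.2 htodd)
      have h5 : n ^ (Nat.gcd (2 ^ s) t : ℤ) ∈ Subgroup.centralizer ((P : Subgroup G) : Set G) := by
        rw [Nat.gcd_eq_gcd_ab, zpow_add, zpow_mul, zpow_mul, zpow_natCast, zpow_natCast]
        exact mul_mem (Subgroup.zpow_mem _ h1 _) (Subgroup.zpow_mem _ h2 _)
      rw [hcop] at h5
      simpa using h5
    exact ⟨_, inferInstance, MonoidHom.ker_transferSylow_isComplement' P hNC⟩
  · right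
    push Not at hall
    obtain ⟨g, hg, hodd, a, ha, hao, hga⟩ := hall
    have hbP := hconjP g hg a ha
    have hbo : orderOf (g * a * g⁻¹) = 2 := by rw [hconjo, hao]
    have hcP := hconjP g hg _ hbP
    have hco : orderOf (g * (g * a * g⁻¹) * g⁻¹) = 2 := by rw [hconjo, hbo]
    have hc : g * (g * a * g⁻¹) * g⁻¹ = a * (g * a * g⁻¹) := by
      rcases h3 a ha _ hbP _ hcP hao hbo hco (Ne.symm hga) with h | h | h
      · exfalso
        apply hga
        have h1 : Commute (g ^ 2) a := by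
          have e1 : g ^ 2 * a * (g ^ 2)⁻¹ = g * (g * a * g⁻¹) * g⁻¹ := by
            rw [pow_two]; group
          rw [h] at e1
          exact mul_inv_eq_iff_eq_mul.1 e1
        obtain ⟨c, hc⟩ := hodd
        have h2 : g = (g ^ 2) ^ (c + 1) := by
          rw [← pow_mul]
          have : 2 * (c + 1) = orderOf g + 1 := by omega
          rw [this, pow_succ, pow_orderOf_eq_one, one_mul]
        have h4 : Commute g a := by
          rw [h2]; exact h1.pow_left _
        exact mul_inv_eq_iff_eq_mul.2 h4.eq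
      · exfalso
        apply hga
        exact mul_left_cancel (mul_right_cancel h)
      · exact h
    have key1 : ∀ x ∈ P, orderOf x = 2 → ∃ h : G, h * a * h⁻¹ = x := by
      intro x hx hxo
      rcases h3 a ha _ hbP x hx hao hbo hxo (Ne.symm hga) with h | h | h
      · exact ⟨1, by rw [h]; group⟩
      · exact ⟨g, h.symm⟩
      · exact ⟨g * g, by rw [h, ← hc]; group⟩
    have key2 : ∀ s : G, orderOf s = 2 → ∃ h : G, h * a * h⁻¹ = s := by
      intro s hs
      obtain ⟨g1, hg1⟩ := Cfsg.Agent.Lib.Helper3.Invol.exists_conj_mem_sylow P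
        (K := Subgroup.zpowers s) (IsPGroup.of_card (n := 1) (by rw [Nat.card_zpowers, hs, pow_one]))
      obtain ⟨h, hh⟩ := key1 _ (hg1 s (Subgroup.mem_zpowers s)) (by rw [hconjo, hs])
      exact ⟨g1⁻¹ * h, by
        have e1 : g1⁻¹ * h * a * (g1⁻¹ * h)⁻¹ = g1⁻¹ * (h * a * h⁻¹) * g1 := by group
        rw [e1, hh]; group⟩
    intro s t hs ht
    obtain ⟨h1, rfl⟩ := key2 s hs
    obtain ⟨h2, rfl⟩ := key2 t ht
    rw [isConj_iff]
    exact ⟨h2 * h1⁻¹, by group⟩

end Cfsg.Agent.S0946
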