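import Mathlib
import Cfsg.Statements.S0954
import Cfsg.Agent.Lib.Helper2.BlockCov2

set_option autoImplicit false
open Cfsg

namespace Cfsg.Agent.S0954

open Cfsg.Agent.Lib.Helper2.BlockCov Cfsg.Agent.Lib.Helper2.BlockCov2 Cfsg.Agent.Lib.Helper2.BlockZ
  Cfsg.Agent.Lib.Helper2.LocRing

/-- Let N be a normal subgroup of the finite group G of order prime to p and of p-power index (a normal p-complement), and fix a maximal ideal M of the algebraic integers containing p. Then two irreducible characters χ, ψ of G lie in the same block if and only if some irreducible character of N has nonzero inner product with both the restriction of χ and the restriction of ψ. -/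
theorem result {G : Type*} [Group G] [Fintype G] (p : ℕ) [Fact p.Prime] (M : Ideal Cfsg.AlgInt) (hM : Cfsg.IsPModular p M) (N : Subgroup G) [N.Normal] [Fintype N] (hN : ¬ p ∣ Nat.card N) (hidx : ∃ k : ℕ, N.index = p ^ k) (χ ψ : Cfsg.IrrCharacter G) : Cfsg.SameBlock M (χ : G → ℂ) (ψ : G → ℂ) ↔ ∃ θ : Cfsg.IrrCharacter N, Cfsg.classInner (fun n : N => (χ : G → ℂ) n) (θ : N → ℂ) ≠ 0 ∧ Cfsg.classInner (fun n : N => (ψ : G → ℂ) n) (θ : N → ℂ) ≠ 0 := by
  have := hM.2.1.isPrime
  constructor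
  · intro h
    obtain ⟨θ, hθ⟩ := exists_constituent_restrict N χ
    exact ⟨θ, hθ, constituent_of_sameBlock N hM hN h θ hθ⟩
  · rintro ⟨θ, h1, h2⟩
    obtain ⟨B, _, huniq⟩ := existsUnique_covers_of_index N hM hidx
      (b := Cfsg.blockOf M (θ : N → ℂ)) ⟨θ, rfl⟩
    have e1 := huniq (Cfsg.blockOf M (χ : G → ℂ))
      ⟨⟨χ, rfl⟩, χ, sameBlock_refl (M := M) _, θ, sameBlock_refl (M := M) _, h1⟩
    have e2 := huniq (Cfsg.blockOf M (ψ : G → ℂ))
      ⟨⟨ψ, rfl⟩, ψ, sameBlock_refl (M := M) _, θ, sameBlock_refl (M := M) _, h2⟩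
    have h3 : ψ ∈ Cfsg.blockOf M (ψ : G → ℂ) := sameBlock_refl (M := M) _
    rw [e2, ← e1] at h3
    exact h3

end Cfsg.Agent.S0954
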