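import Mathlib
import Cfsg.Statements.S0955
import Cfsg.Agent.Lib.Helper2.BlockBr2
import Cfsg.Agent.Lib.Helper1.Cores
import Cfsg.Agent.S0959

set_option autoImplicit false
open Cfsg

namespace Cfsg.Agent.S0955

open Cfsg.Agent.Lib.Helper2.LocRing Cfsg.Agent.Lib.Helper2.BlockZ Cfsg.Agent.Lib.Helper2.BlockBr
  Cfsg.Agent.Lib.Helper2.BlockBr2 Cfsg.Agent.Lib.Helper2.BlockN

/-- Let D be a defect group of a block of the finite group G relative to a maximal ideal M of the algebraic integers containing the prime p. Then D is the largest normal p-subgroup of its own normalizer: O_p(N_G(D)) = D. -/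
theorem result {G : Type*} [Group G] [Finite G] (p : ℕ) [Fact p.Prime] (M : Ideal Cfsg.AlgInt) (hM : Cfsg.IsPModular p M) (B : Set (Cfsg.IrrCharacter G)) (hB : Cfsg.IsPBlock M B) (D : Subgroup G) (hD : Cfsg.IsDefectGroup p M B D) : (Cfsg.pCore p (Subgroup.normalizer (D : Set G))).map (Subgroup.normalizer (D : Set G)).subtype = D := by
  classical
  have := Fintype.ofFinite G
  have : M.IsPrime := hM.2.1.isPrime
  have hD' := hD
  obtain ⟨g₀, hg₀, S, hS⟩ := hD'
  have hDp : IsPGroup p D := by rw [hS]; exact S.2.map _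
  have hg₀c : g₀ ∈ Subgroup.centralizer (D : Set G) := by
    rw [Subgroup.mem_centralizer_iff, hS]
    rintro _ ⟨q, _, rfl⟩
    exact Subgroup.mem_centralizer_singleton_iff.mp q.2
  set N := Subgroup.normalizer (D : Set G) with hN
  have := Fintype.ofFinite (ConjClasses N)
  have hCN : Subgroup.centralizer (D : Set G) ≤ N := Subgroup.centralizer_le_normalizer _
  have heR := blockCoeff_mem_Rloc (M := M) B (block_closed hB)
  obtain ⟨ξ, hξ⟩ := exists_irr_br hM hDp hCN le_rfl hB g₀ hg₀c hg₀.2.1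
  rw [W_eq_sum_classes ξ.2 (br_isClass le_rfl (blockCoeff_isClass B))] at hξ
  obtain ⟨L, hL⟩ : ∃ L : ConjClasses N,
      br D N (Cfsg.blockCoeff B) L.out * Cfsg.centralChar (ξ : N → ℂ) L.out ∉ Iloc M := by
    by_contra hcon
    push Not at hcon
    exact hξ (Submodule.sum_mem (Iloc M) fun K _ => hcon K)
  set l := L.out with hl
  have hl1 : br D N (Cfsg.blockCoeff B) l ∉ Iloc M :=
    fun h => hL (mul_mem_Iloc' h (centralChar_mem_Rloc ξ _))
  have hl2 : Cfsg.centralChar (ξ : N → ℂ) l ∉ Iloc M :=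
    fun h => hL (mul_mem_Iloc (br_mem_Rloc D N heR _) h)
  have hl3 : Cfsg.blockCoeff B (l : G) ∉ Iloc M := by
    rw [br_apply] at hl1
    split_ifs at hl1 with h1
    · exact hl1
    · exact absurd (Iloc M).zero_mem hl1
  have hQn : (Cfsg.pCore p N).Normal := Cfsg.Agent.Lib.Helper1.pCore_normal p
  have hQp : IsPGroup p (Cfsg.pCore p N) := Cfsg.Agent.Lib.Helper1.pCore_isPGroup p
  have hlQ : l ∈ Subgroup.centralizer (Cfsg.pCore p N : Set N) := by
    by_contra hcon
    exact hl2 (centralChar_mem_Iloc_of_normal' hM _ hQp l hcon ξ)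
  set Q' := (Cfsg.pCore p N).map N.subtype with hQ'
  have hQ'p : IsPGroup p Q' := hQp.map _
  have hlQ' : (l : G) ∈ Subgroup.centralizer (Q' : Set G) := by
    rw [Subgroup.mem_centralizer_iff]
    rintro _ ⟨q, hq, rfl⟩
    exact congrArg Subtype.val (Subgroup.mem_centralizer_iff.mp hlQ q hq)
  obtain ⟨x, hx⟩ := (Cfsg.Agent.S0959.result p M hM B hB D hD Q' hQ'p).1
    ⟨l, heR _, hl3, l, IsConj.refl _, hlQ'⟩
  have hDQ : D ≤ Q' := by
    intro d hd
    have hn : (D.subgroupOf N).Normal := Subgroup.normal_subgroupOf_of_le_normalizer le_rfl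
    have hP' : IsPGroup p (D.subgroupOf N) :=
      IsPGroup.comap_of_injective hDp _ (Subgroup.subtype_injective _)
    have h2 := Cfsg.Agent.Lib.Helper1.le_pCore hn hP'
    have h3 : (⟨d, Subgroup.le_normalizer hd⟩ : N) ∈ D.subgroupOf N :=
      Subgroup.mem_subgroupOf.mpr hd
    exact ⟨_, h2 h3, rfl⟩
  have hcard : Nat.card Q' ≤ Nat.card D := by
    have h3 : Nat.card (Q'.map (MulAut.conj x).toMonoidHom) = Nat.card Q' :=
      Nat.card_congr (Subgroup.equivMapOfInjective _ _ (MulAut.conj x).injective).symm.toEquiv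
    rw [← h3]
    exact Subgroup.card_le_of_le hx
  exact (Subgroup.eq_of_le_of_card_ge hDQ hcard).symm

end Cfsg.Agent.S0955
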