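import Mathlib
import Cfsg.Statements.S0957
import Cfsg.Agent.Lib.Helper2.BlockGr2

set_option autoImplicit false
open Cfsg

namespace Cfsg.Agent.S0957

open Cfsg.Agent.Lib.Helper2.BlockGr2 Cfsg.Agent.Lib.Helper7.CharCount

/-- Let P be a Sylow p-subgroup of the finite group G, let g, h ∈ G and let p ^ d be the order of a Sylow p-subgroup of the centralizer of g. Then the number of pairs (y, z) with y conjugate to g, z conjugate to h and z * y⁻¹ ∈ P is divisible by the order of P divided by p ^ d. -/
theorem result {G : Type*} [Group G] [Finite G] (p : ℕ) [Fact p.Prime] (P : Sylow p G) (g h : G) (S : Sylow p (Subgroup.centralizer ({g} : Set G))) : Nat.card P / Nat.card S ∣ Nat.card {yz : G × G // IsConj g yz.1 ∧ IsConj h yz.2 ∧ yz.2 * yz.1⁻¹ ∈ (P : Subgroup G)} := by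
  classical
  have := Fintype.ofFinite G
  have hp : p.Prime := Fact.out
  obtain ⟨m, hm⟩ : ∃ m, m = Nat.card P / Nat.card S := ⟨_, rfl⟩
  rw [← hm]
  let _ := conjAct' (P : Subgroup G)
  obtain ⟨c, hc⟩ : ∃ c : G → ℕ, c = fun y => (Finset.univ.filter (fun z : G =>
    IsConj g y ∧ IsConj h z ∧ z * y⁻¹ ∈ (P : Subgroup G))).card := ⟨_, rfl⟩
  have hsum : ∑ y, (c y : ℂ) = (Nat.card {yz : G × G // IsConj g yz.1 ∧ IsConj h yz.2 ∧
      yz.2 * yz.1⁻¹ ∈ (P : Subgroup G)} : ℂ) := by
    rw [Nat.card_eq_fintype_card, Fintype.card_subtype, Finset.card_filter,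
      Fintype.sum_prod_type, hc]
    push_cast
    apply Finset.sum_congr rfl
    intro y _
    rw [Finset.card_filter]
    push_cast
    rfl
  have hinv : ∀ (q : (P : Subgroup G)) (y : G), c ((q : G) * y * (q : G)⁻¹) = c y := by
    intro q y
    rw [hc]
    symm
    apply Finset.card_bij (fun z _ => (q : G) * z * (q : G)⁻¹)
    · intro z hz
      obtain ⟨h1, h2, h3⟩ := (Finset.mem_filter.mp hz).2
      refine Finset.mem_filter.mpr ⟨Finset.mem_univ _, h1.trans (isConj_iff.mpr ⟨(q : G), rfl⟩),
        h2.trans (isConj_iff.mpr ⟨(q : G), rfl⟩), ?_⟩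
      have e : (q : G) * z * (q : G)⁻¹ * ((q : G) * y * (q : G)⁻¹)⁻¹ =
          (q : G) * (z * y⁻¹) * (q : G)⁻¹ := by group
      rw [e]
      exact (P : Subgroup G).mul_mem ((P : Subgroup G).mul_mem q.2 h3)
        ((P : Subgroup G).inv_mem q.2)
    · intro z _ z' _ hzz
      simpa using hzz
    · intro w hw
      obtain ⟨h1, h2, h3⟩ := (Finset.mem_filter.mp hw).2
      refine ⟨(q : G)⁻¹ * w * (q : G), Finset.mem_filter.mpr ⟨Finset.mem_univ _,
        h1.trans (isConj_iff.mpr ⟨(q : G), rfl⟩).symm,
        h2.trans (isConj_iff.mpr ⟨(q : G)⁻¹, by group⟩), ?_⟩, by group⟩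
      have e : (q : G)⁻¹ * w * (q : G) * y⁻¹ =
          (q : G)⁻¹ * (w * ((q : G) * y * (q : G)⁻¹)⁻¹) * (q : G) := by group
      rw [e]
      exact (P : Subgroup G).mul_mem ((P : Subgroup G).mul_mem ((P : Subgroup G).inv_mem q.2) h3)
        q.2
  have hmem : ∑ y, (c y : ℂ) ∈ AddMonoidHom.mrange
      ((Nat.castAddMonoidHom ℂ).comp (AddMonoidHom.mulLeft m)) := by
    apply sum_orbit_mem (Q := (P : Subgroup G)) (fun y => (c y : ℂ))
    · intro q y
      show ((c ((q : G) * y * (q : G)⁻¹) : ℕ) : ℂ) = _
      rw [hinv]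
    · intro y
      by_cases hy : IsConj g y
      swap
      · have : c y = 0 := by
          rw [hc]
          apply Finset.card_eq_zero.mpr
          apply Finset.filter_eq_empty_iff.mpr
          intro z _ hz
          exact hy hz.1
        rw [this, Nat.cast_zero, mul_zero]
        exact zero_mem _
      have hdvd : m ∣ Nat.card (MulAction.orbit (P : Subgroup G) y) := by
        have h2 := card_orbit_conj (P : Subgroup G) y
        have hPc : Nat.card (P : Subgroup G) = p ^ (Nat.card G).factorization p :=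
          P.card_eq_multiplicity
        have hSc : Nat.card S =
            p ^ (Nat.card (Subgroup.centralizer ({g} : Set G))).factorization p :=
          S.card_eq_multiplicity
        have hQp : IsPGroup p ((P : Subgroup G) ⊓ Subgroup.centralizer ({y} : Set G) :
          Subgroup G) := P.2.to_le inf_le_left
        obtain ⟨k, hk⟩ := IsPGroup.iff_card.mp hQp
        have hk2 : p ^ k ∣ Nat.card (Subgroup.centralizer ({g} : Set G)) := by
          rw [← hk, card_centralizer_eq_of_isConj hy]
          exact Subgroup.card_dvd_of_le inf_le_right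
        have hk3 := (hp.pow_dvd_iff_le_factorization Nat.card_pos.ne').mp hk2
        have hc4 : (Nat.card (Subgroup.centralizer ({g} : Set G))).factorization p ≤
            (Nat.card G).factorization p :=
          (Nat.factorization_le_iff_dvd Nat.card_pos.ne' Nat.card_pos.ne').mpr
            (Subgroup.card_subgroup_dvd_card _) p
        obtain ⟨a, ha⟩ : ∃ a, a = (Nat.card G).factorization p := ⟨_, rfl⟩
        obtain ⟨c', hc'⟩ : ∃ c', c' =
          (Nat.card (Subgroup.centralizer ({g} : Set G))).factorization p := ⟨_, rfl⟩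
        rw [← ha] at hPc hc4
        rw [← hc'] at hSc hk3 hc4
        have hm2 : m = p ^ (a - c') := by
          rw [hm]
          change Nat.card (P : Subgroup G) / Nat.card S = _
          rw [hPc, hSc, Nat.pow_div hc4 hp.pos]
        rw [hk, hPc] at h2
        have h5 : Nat.card (MulAction.orbit (P : Subgroup G) y) = p ^ (a - k) := by
          have e : p ^ a = p ^ (a - k) * p ^ k := by rw [← pow_add]; congr 1; omega
          rw [e] at h2
          exact Nat.eq_of_mul_eq_mul_right (pow_pos hp.pos k) h2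
        rw [hm2, h5]
        exact pow_dvd_pow p (by omega)
      obtain ⟨t, ht⟩ := hdvd
      refine ⟨t * c y, ?_⟩
      rw [ht]
      simp [mul_assoc]
  rw [hsum] at hmem
  obtain ⟨t, ht⟩ := hmem
  refine ⟨t, ?_⟩
  have : ((m * t : ℕ) : ℂ) = _ := ht
  exact_mod_cast this.symm

end Cfsg.Agent.S0957
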