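import Mathlib
import Cfsg.Statements.S0958
import Cfsg.Agent.Lib.Helper2.BlockBr2
import Cfsg.Agent.Lib.Helper1.Cores
import Cfsg.Agent.S0906
import Cfsg.Agent.S0912
import Cfsg.Agent.S0917
import Cfsg.Agent.S0959

set_option autoImplicit false
open Cfsg

namespace Cfsg.Agent.S0958

open Cfsg.Agent.Lib.Helper2.LocRing Cfsg.Agent.Lib.Helper2.BlockZ Cfsg.Agent.Lib.Helper2.BlockBr
  Cfsg.Agent.Lib.Helper2.BlockBr2

/-- Let P be a p-subgroup of the finite group G and H a subgroup with P ⊔ C_G(P) ≤ H ≤ N_G(P); fix a maximal ideal M of the algebraic integers containing p. Then a block B of G is induced by some block of H if and only if some conjugate of P is contained in a defect group of B. -/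
theorem result {G : Type*} [Group G] [Finite G] (p : ℕ) [Fact p.Prime] (M : Ideal Cfsg.AlgInt) (hM : Cfsg.IsPModular p M) (P H : Subgroup G) (hP : IsPGroup p P) (hPH : P ⊔ Subgroup.centralizer (P : Set G) ≤ H) (hHN : H ≤ Subgroup.normalizer (P : Set G)) (B : Set (Cfsg.IrrCharacter G)) (hB : Cfsg.IsPBlock M B) : (∃ b : Set (Cfsg.IrrCharacter H), Cfsg.IsInducedBlock M H b B) ↔ ∃ D : Subgroup G, Cfsg.IsDefectGroup p M B D ∧ ∃ x : G, P.map (MulAut.conj x).toMonoidHom ≤ D := by
  classical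
  have := Fintype.ofFinite G
  have : M.IsPrime := hM.2.1.isPrime
  have hPH' : P ≤ H := le_sup_left.trans hPH
  have hCH : Subgroup.centralizer (P : Set G) ≤ H := le_sup_right.trans hPH
  constructor
  · rintro ⟨b, hind⟩
    obtain ⟨y, hy⟩ := Cfsg.Agent.S0906.result p M hM b hind.1
    obtain ⟨S⟩ : Nonempty (Sylow p (Subgroup.centralizer ({y} : Set H))) := inferInstance
    have hD : Cfsg.IsDefectGroup p M b ((S : Subgroup (Subgroup.centralizer ({y} : Set H))).map
      (Subgroup.centralizer ({y} : Set H)).subtype) := ⟨y, hy, S, rfl⟩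
    have h1 := Cfsg.Agent.S0912.result p M hM b hind.1 _ hD
    obtain ⟨E, hE, hDE⟩ := Cfsg.Agent.S0917.result p M hM H b hind.1 B hB hind _ hD
    refine ⟨E, hE, 1, ?_⟩
    rintro _ ⟨q, hq, rfl⟩
    have hn : (P.subgroupOf H).Normal := Subgroup.normal_subgroupOf_of_le_normalizer hHN
    have hP' : IsPGroup p (P.subgroupOf H) :=
      IsPGroup.comap_of_injective hP _ (Subgroup.subtype_injective _)
    have h2 := Cfsg.Agent.Lib.Helper1.le_pCore hn hP'
    have h3 : (⟨q, hPH' hq⟩ : H) ∈ P.subgroupOf H := Subgroup.mem_subgroupOf.mpr hq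
    have h4 : q ∈ E := hDE ⟨_, h1 (h2 h3), rfl⟩
    simpa using h4
  · rintro ⟨D, hD, hx⟩
    obtain ⟨g, _, hg, c, hgc, hc⟩ := (Cfsg.Agent.S0959.result p M hM B hB D hD P hP).2 hx
    have hgc' : Cfsg.blockCoeff B c = Cfsg.blockCoeff B g := by
      obtain ⟨d, rfl⟩ := isConj_iff.mp hgc
      exact blockCoeff_isClass B g d
    obtain ⟨ξ, hξ⟩ := exists_irr_br hM hP hCH hHN hB c hc (hgc' ▸ hg)
    exact ⟨_, exists_correspondent hM hP hPH' hCH hHN hB ξ hξ⟩

end Cfsg.Agent.S0958
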