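import Mathlib
import Cfsg.Statements.S0967
import Cfsg.Agent.Lib.Helper2.BlockKer

set_option autoImplicit false
open Cfsg

namespace Cfsg.Agent.S0967

open Cfsg.Agent.Lib.Helper2.BlockKer Cfsg.Agent.Lib.Helper2.BlockZ Cfsg.Agent.Lib.Helper2.LocRing
  Cfsg.Agent.Lib.Helper7.CharKer Cfsg.Agent.Lib.Helper2.BlockSub

theorem W_inflate {G : Type*} [Group G] [Fintype G] (N : Subgroup G) [N.Normal]
    [Fintype (G ⧸ N)] (φ a : G ⧸ N → ℂ) :
    W (fun g : G => φ (g : G ⧸ N)) (fun g : G => a (g : G ⧸ N)) = (Nat.card N : ℂ) * W φ a := by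
  unfold W
  have h1 := sum_comp_mk N (fun q => a q * φ q)
  rw [h1, mul_div_assoc]
  rfl

/-- Let N be a normal subgroup of the finite group G of order prime to p and fix a maximal ideal M of the algebraic integers containing p. If χ is an irreducible character of G ⧸ N and ψ lies in the block of its inflation χ ∘ (quotient map), then ψ is itself inflated from an irreducible character ψ' of G ⧸ N lying in the block of χ. (Over a normal p'-subgroup, blocks of the quotient are whole blocks of G.) -/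
theorem result {G : Type*} [Group G] [Finite G] (p : ℕ) [Fact p.Prime] (M : Ideal Cfsg.AlgInt) (hM : Cfsg.IsPModular p M) (N : Subgroup G) [N.Normal] (hN : ¬ p ∣ Nat.card N) (χ : Cfsg.IrrCharacter (G ⧸ N)) (ψ : Cfsg.IrrCharacter G) (hψ : ψ ∈ Cfsg.blockOf M ((χ : G ⧸ N → ℂ) ∘ QuotientGroup.mk)) : ∃ ψ' : Cfsg.IrrCharacter (G ⧸ N), (ψ : G → ℂ) = (ψ' : G ⧸ N → ℂ) ∘ QuotientGroup.mk ∧ Cfsg.SameBlock M (χ : G ⧸ N → ℂ) (ψ' : G ⧸ N → ℂ) := by
  classical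
  have := Fintype.ofFinite G
  have := hM.2.1.isPrime
  obtain ⟨χ', hχ'⟩ : ∃ χ' : Cfsg.IrrCharacter G, χ' =
    ⟨fun g : G => (χ : G ⧸ N → ℂ) (g : G ⧸ N), isIrrCharacter_comp_mk N χ.2⟩ := ⟨_, rfl⟩
  have hχv : (χ' : G → ℂ) = fun g : G => (χ : G ⧸ N → ℂ) (g : G ⧸ N) := by rw [hχ']
  have hs : Cfsg.SameBlock M (χ' : G → ℂ) (ψ : G → ℂ) := by
    rw [hχv]; exact hψ
  have hker : ∀ n ∈ N, (χ' : G → ℂ) n = (χ' : G → ℂ) 1 := by
    intro n hn
    rw [hχv]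
    show (χ : G ⧸ N → ℂ) (n : G ⧸ N) = (χ : G ⧸ N → ℂ) ((1 : G) : G ⧸ N)
    rw [(QuotientGroup.eq_one_iff n).mpr hn]
    rfl
  have h1 := ker_of_sameBlock hM hs N hN hker
  obtain ⟨φ, hφ, hφv⟩ := exists_quot_of_irr N ψ.2 ((W_eN_eq_one_iff ψ.2 N).mp h1)
  refine ⟨⟨φ, hφ⟩, hφv, ?_⟩
  intro q
  have hac : Cfsg.IsClassFunction G (fun g : G => cl q (g : G ⧸ N)) := by
    intro g h
    exact cl_isClass q (g : G ⧸ N) (h : G ⧸ N)
  have h2 := W_sub_mem_Iloc hs hac (fun g => cl_mem_Rloc q _)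
  rw [hχv, hφv, W_inflate, W_inflate, W_cl χ.2, W_cl hφ, ← mul_sub] at h2
  have h3 := mul_mem_Iloc (natCast_inv_mem_Rloc hM hN) h2
  have hN0 : (Nat.card N : ℂ) ≠ 0 := Nat.cast_ne_zero.mpr Nat.card_pos.ne'
  rwa [← mul_assoc, inv_mul_cancel₀ hN0, one_mul] at h3

end Cfsg.Agent.S0967
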