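import Mathlib
import Cfsg.Statements.S0971
import Cfsg.Agent.Lib.Helper2.BlockCov2

set_option autoImplicit false
open Cfsg

namespace Cfsg.Agent.S0971

open Cfsg.Agent.Lib.Helper2.BlockCov Cfsg.Agent.Lib.Helper2.BlockCov2 Cfsg.Agent.Lib.Helper2.BlockZ
  Cfsg.Agent.Lib.Helper2.LocRing

/-- Let Q be a normal p-subgroup of the finite group G, let N = Q ⊔ C_G(Q) (a normal subgroup) and let b be a block of N relative to a maximal ideal M of the algebraic integers containing p. Then b induces some block of G, and every block B of G containing a character whose restriction to N has a constituent in b is induced by b. -/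
theorem result {G : Type*} [Group G] [Fintype G] (p : ℕ) [Fact p.Prime] (M : Ideal Cfsg.AlgInt) (hM : Cfsg.IsPModular p M) (Q : Subgroup G) [Q.Normal] (hQ : IsPGroup p Q) [Fintype ↥(Q ⊔ Subgroup.centralizer (Q : Set G))] (b : Set (Cfsg.IrrCharacter ↥(Q ⊔ Subgroup.centralizer (Q : Set G)))) (hb : Cfsg.IsPBlock M b) : Cfsg.InducedBlockDefined M (Q ⊔ Subgroup.centralizer (Q : Set G)) b ∧ ∀ B : Set (Cfsg.IrrCharacter G), Cfsg.IsPBlock M B → (∃ χ ∈ B, ∃ θ ∈ b, Cfsg.classInner (fun n : ↥(Q ⊔ Subgroup.centralizer (Q : Set G)) => (χ : G → ℂ) n) (θ : ↥(Q ⊔ Subgroup.centralizer (Q : Set G)) → ℂ) ≠ 0) → Cfsg.IsInducedBlock M (Q ⊔ Subgroup.centralizer (Q : Set G)) b B := by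
  classical
  have := hM.2.1.isPrime
  have hnorm : (Q ⊔ Subgroup.centralizer (Q : Set G)).Normal := inferInstance
  constructor
  · obtain ⟨B, hB, _⟩ := Cfsg.Agent.Lib.Helper2.BlockBr.exists_isInducedBlock hM hQ
      (H := Q ⊔ Subgroup.centralizer (Q : Set G)) le_sup_left le_sup_right
      (by rw [Subgroup.normalizer_eq_top]; exact le_top) hb
    exact ⟨B, hB⟩
  · intro B hB hcov
    refine ⟨hb, hB, ?_⟩
    intro ξ hξ χ hχ g
    by_cases hg : g ∈ Q ⊔ Subgroup.centralizer (Q : Set G)
    · have h1 := passman_mp _ hB hb hcov χ hχ ξ hξ ⟨g, hg⟩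
      exact sub_mem_Iloc_symm h1
    · have h1 : Cfsg.inducedCentralChar (Q ⊔ Subgroup.centralizer (Q : Set G))
          (ξ : ↥(Q ⊔ Subgroup.centralizer (Q : Set G)) → ℂ) g = 0 := by
        unfold Cfsg.inducedCentralChar
        have h2 : {h : ↥(Q ⊔ Subgroup.centralizer (Q : Set G)) | IsConj g (h : G)} = ∅ := by
          ext h
          simp only [Set.mem_setOf_eq, Set.mem_empty_iff_false, iff_false]
          intro hc
          obtain ⟨c, hc⟩ := isConj_iff.mp hc
          apply hg
          have h3 := hnorm.conj_mem _ h.2 c⁻¹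
          rw [← hc] at h3
          have e : c⁻¹ * (c * g * c⁻¹) * c⁻¹⁻¹ = g := by group
          rwa [e] at h3
        rw [h2, finsum_mem_empty]
      rw [h1, zero_sub]
      have h4 := Cfsg.Agent.Lib.Helper2.BlockN.centralChar_mem_Iloc_of_normal' hM Q hQ g
        (fun h => hg (le_sup_right (a := Q) h)) χ
      exact (Iloc M).neg_mem h4

end Cfsg.Agent.S0971
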