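import Mathlib
import Cfsg.Statements.S0986
import Mathlib
import Cfsg.Agent.Lib.Helper6.PAct

set_option autoImplicit false
open Cfsg

namespace Cfsg.Agent.S0986

/-- Let P and Q be distinct Sylow p-subgroups of a finite group G chosen so that the order of P ∩ Q is as large as possible among intersections of two distinct Sylow p-subgroups, and let N be the normalizer of P ∩ Q. Then N has more than one Sylow p-subgroup, any two distinct Sylow p-subgroups of N intersect exactly in P ∩ Q, and each Sylow p-subgroup of N lies in exactly one Sylow p-subgroup of G. -/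
theorem result {G : Type*} [Group G] [Finite G] (p : ℕ) [Fact p.Prime] (P Q : Sylow p G) (hPQ : P ≠ Q) (hmax : ∀ P' Q' : Sylow p G, P' ≠ Q' → Nat.card ↥((P' : Subgroup G) ⊓ (Q' : Subgroup G)) ≤ Nat.card ↥((P : Subgroup G) ⊓ (Q : Subgroup G))) : 1 < Nat.card (Sylow p ↥(Subgroup.normalizer (((P : Subgroup G) ⊓ (Q : Subgroup G) : Subgroup G) : Set G))) ∧ (∀ S T : Sylow p ↥(Subgroup.normalizer (((P : Subgroup G) ⊓ (Q : Subgroup G) : Subgroup G) : Set G)), S ≠ T → (S : Subgroup _) ⊓ (T : Subgroup _) = ((P : Subgroup G) ⊓ (Q : Subgroup G)).subgroupOf (Subgroup.normalizer (((P : Subgroup G) ⊓ (Q : Subgroup G) : Subgroup G) : Set G))) ∧ ∀ S : Sylow p ↥(Subgroup.normalizer (((P : Subgroup G) ⊓ (Q : Subgroup G) : Subgroup G) : Set G)), ∃! T : Sylow p G, (S : Subgroup _).map (Subgroup.normalizer (((P : Subgroup G) ⊓ (Q : Subgroup G) : Subgroup G) : Set G)).subtype ≤ (T : Subgroup G) := by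
  classical
  obtain ⟨D, hD⟩ : ∃ D : Subgroup G, D = (P : Subgroup G) ⊓ (Q : Subgroup G) := ⟨_, rfl⟩
  rw [← hD] at hmax ⊢
  obtain ⟨N, hN⟩ : ∃ N : Subgroup G, N = Subgroup.normalizer (D : Set G) := ⟨_, rfl⟩
  rw [← hN]
  have hDN : D ≤ N := by rw [hN]; exact Subgroup.le_normalizer
  have hDp : IsPGroup p D := by rw [hD]; exact P.isPGroup'.to_le inf_le_left
  have hlt : ∀ R : Sylow p G, D ≤ R → (D ≠ (R : Subgroup G)) →
      Nat.card D < Nat.card ((R : Subgroup G) ⊓ N : Subgroup G) := by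
    intro R hDR hne
    obtain ⟨s, hs, hsD, hsN⟩ := Cfsg.Agent.Lib.Helper6.PAct.exists_mem_Nz_of_lt
      (R.isPGroup'.isNilpotent) (lt_of_le_of_ne hDR hne)
    have h1 : D < (R : Subgroup G) ⊓ N := by
      apply lt_of_le_of_ne (le_inf hDR hDN)
      intro he
      apply hsD
      rw [he]
      exact ⟨hs, by rw [hN]; exact hsN⟩
    by_contra hge
    exact h1.ne (Subgroup.eq_of_le_of_card_ge h1.le (not_lt.mp hge))
  have hneP : D ≠ (P : Subgroup G) := by
    intro he
    apply hPQ
    have h1 : (P : Subgroup G) ≤ Q := by rw [← he, hD]; exact inf_le_right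
    exact Sylow.ext (P.is_maximal' Q.isPGroup' h1).symm
  have hneQ : D ≠ (Q : Subgroup G) := by
    intro he
    apply hPQ
    have h1 : (Q : Subgroup G) ≤ P := by rw [← he, hD]; exact inf_le_left
    exact Sylow.ext (Q.is_maximal' P.isPGroup' h1)
  have hPlt := hlt P (by rw [hD]; exact inf_le_left) hneP
  have hQlt := hlt Q (by rw [hD]; exact inf_le_right) hneQ
  have K : ∀ R : Subgroup G, Nat.card D < Nat.card R → ∀ T T' : Sylow p G,
      R ≤ T → R ≤ T' → T = T' := by
    intro R hR T T' h1 h2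
    by_contra hne
    have h3 := hmax T T' hne
    have h4 := Subgroup.card_le_of_le (le_inf h1 h2)
    omega
  have hcardS : ∀ S : Sylow p N, Nat.card D < Nat.card S := by
    intro S
    obtain ⟨S₀, hS₀⟩ := IsPGroup.exists_le_sylow
      ((P.isPGroup'.to_le inf_le_left : IsPGroup p ((P : Subgroup G) ⊓ N : Subgroup G)).comap_subtype
        (K := N))
    have hS₀' : ((P : Subgroup G) ⊓ N).subgroupOf N ≤ S₀ := hS₀
    have h1 := Subgroup.card_le_of_le hS₀'
    rw [Nat.card_congr (Subgroup.subgroupOfEquivOfLe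
      (inf_le_right : (P : Subgroup G) ⊓ N ≤ N)).toEquiv] at h1
    have h2 : Nat.card S = Nat.card S₀ := by
      rw [Sylow.card_eq_multiplicity, Sylow.card_eq_multiplicity]
    omega
  have hmapcard : ∀ H : Subgroup N, Nat.card (H.map N.subtype) = Nat.card H := fun H =>
    (Nat.card_congr (Subgroup.equivMapOfInjective H _ (Subgroup.subtype_injective _)).toEquiv).symm
  haveI hDn : (D.subgroupOf N).Normal :=
    Subgroup.normal_subgroupOf_of_le_normalizer (by rw [hN])
  have hDle : ∀ S : Sylow p N, D.subgroupOf N ≤ S := by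
    intro S
    have h1 : IsPGroup p ((S : Subgroup N) ⊔ D.subgroupOf N : Subgroup N) :=
      IsPGroup.to_sup_of_normal_right S.isPGroup' hDp.comap_subtype
    have h2 := S.is_maximal' h1 le_sup_left
    rw [← h2]
    exact le_sup_right
  have hex : ∀ S : Sylow p N, ∃ T : Sylow p G, (S : Subgroup N).map N.subtype ≤ T :=
    fun S => IsPGroup.exists_le_sylow (S.isPGroup'.map _)
  refine ⟨?_, ?_, ?_⟩
  · rw [Finite.one_lt_card_iff_nontrivial]
    by_contra hnt
    rw [not_nontrivial_iff_subsingleton] at hnt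
    obtain ⟨S₁, hS₁⟩ := IsPGroup.exists_le_sylow
      ((P.isPGroup'.to_le inf_le_left : IsPGroup p ((P : Subgroup G) ⊓ N : Subgroup G)).comap_subtype
        (K := N))
    obtain ⟨S₂, hS₂⟩ := IsPGroup.exists_le_sylow
      ((Q.isPGroup'.to_le inf_le_left : IsPGroup p ((Q : Subgroup G) ⊓ N : Subgroup G)).comap_subtype
        (K := N))
    have h12 : S₂ = S₁ := Subsingleton.elim _ _
    rw [h12] at hS₂
    obtain ⟨T, hT⟩ := hex S₁
    have hPT : (P : Subgroup G) ⊓ N ≤ T := fun x hx =>
      hT ⟨⟨x, hx.2⟩, hS₁ (Subgroup.mem_subgroupOf.mpr hx), rfl⟩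
    have hQT : (Q : Subgroup G) ⊓ N ≤ T := fun x hx =>
      hT ⟨⟨x, hx.2⟩, hS₂ (Subgroup.mem_subgroupOf.mpr hx), rfl⟩
    exact hPQ ((K _ hPlt P T inf_le_left hPT).trans (K _ hQlt Q T inf_le_left hQT).symm)
  · intro S T hST
    symm
    apply Subgroup.eq_of_le_of_card_ge (le_inf (hDle S) (hDle T))
    obtain ⟨S', hS'⟩ := hex S
    obtain ⟨T', hT'⟩ := hex T
    have hne : S' ≠ T' := by
      intro he
      apply hST
      rw [← he] at hT'
      have hp : IsPGroup p ((S' : Subgroup G).subgroupOf N) := S'.isPGroup'.comap_subtype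
      have h1 : (S : Subgroup N) ≤ (S' : Subgroup G).subgroupOf N := fun x hx =>
        Subgroup.mem_subgroupOf.mpr (hS' ⟨x, hx, rfl⟩)
      have h2 : (T : Subgroup N) ≤ (S' : Subgroup G).subgroupOf N := fun x hx =>
        Subgroup.mem_subgroupOf.mpr (hT' ⟨x, hx, rfl⟩)
      exact Sylow.ext ((S.is_maximal' hp h1).symm.trans (T.is_maximal' hp h2))
    have h3 := hmax S' T' hne
    have h4 : ((S : Subgroup N) ⊓ (T : Subgroup N)).map N.subtype ≤
        (S' : Subgroup G) ⊓ (T' : Subgroup G) :=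
      le_inf ((Subgroup.map_mono inf_le_left).trans hS') ((Subgroup.map_mono inf_le_right).trans hT')
    have h5 := Subgroup.card_le_of_le h4
    rw [hmapcard] at h5
    rw [Nat.card_congr (Subgroup.subgroupOfEquivOfLe hDN).toEquiv]
    omega
  · intro S
    obtain ⟨T, hT⟩ := hex S
    refine ⟨T, hT, ?_⟩
    intro T' hT'
    exact K _ (by rw [hmapcard]; exact hcardS S) T' T hT' hT

end Cfsg.Agent.S0986
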