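import Cfsg.Statements.S0987
import Mathlib
import Cfsg.Agent.Lib.Helper6.Rad

set_option autoImplicit false
open Cfsg

namespace Cfsg.Agent.S0987

/-- If a finite group has order pqr for primes p < q < r, then its Sylow r-subgroups are normal. -/
theorem result {G : Type*} [Group G] [Finite G] (p q r : ℕ) (hp : p.Prime) (hq : q.Prime) [Fact r.Prime] (hpq : p < q) (hqr : q < r) (hG : Nat.card G = p * q * r) (R : Sylow r G) : (R : Subgroup G).Normal := by
  have hr : r.Prime := Fact.out
  haveI : Fact q.Prime := ⟨hq⟩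
  have hmf : ∀ a b : ℕ, a.Prime → b.Prime → a < b → (a * b).minFac = a := by
    intro a b ha hb hab
    have h1 : (a * b).minFac.Prime := Nat.minFac_prime (by
      have := ha.two_le; have := hb.two_le; nlinarith)
    have h2 : (a * b).minFac ∣ a * b := Nat.minFac_dvd _
    have h3 : (a * b).minFac ≤ a := Nat.minFac_le_of_dvd ha.two_le (dvd_mul_right a b)
    rcases (Nat.Prime.dvd_mul h1).mp h2 with h | h
    · exact (Nat.prime_dvd_prime_iff_eq h1 ha).mp h
    · have := (Nat.prime_dvd_prime_iff_eq h1 hb).mp h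
      omega
  have hfac : ∀ a b : ℕ, a ≠ 0 → b.Prime → ¬ b ∣ a → (a * b).factorization b = 1 := by
    intro a b ha hb hab
    rw [Nat.factorization_mul ha hb.ne_zero, Finsupp.add_apply,
      Nat.factorization_eq_zero_of_not_dvd hab, hb.factorization_self]
  have hrpq : ¬ r ∣ p * q := by
    intro h
    rcases (Nat.Prime.dvd_mul hr).mp h with h | h
    · have := Nat.le_of_dvd hp.pos h; omega
    · have := Nat.le_of_dvd hq.pos h; omega
  have hRc : Nat.card (R : Subgroup G) = r := by
    rw [R.card_eq_multiplicity, hG, hfac _ _ (Nat.mul_ne_zero hp.ne_zero hq.ne_zero) hr hrpq, pow_one]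
  have hRi : (R : Subgroup G).index = p * q := by
    have h1 := (R : Subgroup G).card_mul_index
    rw [hRc, hG, mul_comm] at h1
    exact Nat.eq_of_mul_eq_mul_right hr.pos h1
  have hn1 : Nat.card (Sylow r G) ∣ p * q := hRi ▸ R.card_dvd_index
  have hn2 : Nat.card (Sylow r G) ≡ 1 [MOD r] := card_sylow_modEq_one r G
  have hn3 : Nat.card (Sylow r G) = (Subgroup.normalizer ((R : Subgroup G) : Set G)).index :=
    R.card_eq_index_normalizer
  have hlt : ∀ a : ℕ, a < r → a ≡ 1 [MOD r] → a = 1 := by
    intro a ha h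
    unfold Nat.ModEq at h
    rwa [Nat.mod_eq_of_lt ha, Nat.mod_eq_of_lt hr.one_lt] at h
  obtain ⟨a, b, ha, hb, hab⟩ := (Nat.dvd_mul).mp hn1
  have hcases : Nat.card (Sylow r G) = 1 ∨ Nat.card (Sylow r G) = p * q := by
    rcases (Nat.dvd_prime hp).mp ha with ha | ha <;> rcases (Nat.dvd_prime hq).mp hb with hb | hb
    · left; rw [← hab, ha, hb]
    · exfalso
      rw [← hab, ha, hb, one_mul] at hn2
      exact hq.one_lt.ne' (hlt q hqr hn2)
    · exfalso
      rw [← hab, ha, hb, mul_one] at hn2
      exact hp.one_lt.ne' (hlt p (hpq.trans hqr) hn2)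
    · right; rw [← hab, ha, hb]
  rcases hcases with h1 | hpq'
  · rw [h1] at hn3
    exact Subgroup.normalizer_eq_top_iff.mp (Subgroup.index_eq_one.mp hn3.symm)
  exfalso
  rw [hpq'] at hn3
  have hNc : Nat.card (Subgroup.normalizer ((R : Subgroup G) : Set G)) = r := by
    have h1 := (Subgroup.normalizer ((R : Subgroup G) : Set G)).card_mul_index
    rw [← hn3, hG, mul_comm] at h1
    exact Nat.eq_of_mul_eq_mul_left (Nat.mul_pos hp.pos hq.pos) h1
  have hNR : (R : Subgroup G) = Subgroup.normalizer ((R : Subgroup G) : Set G) :=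
    Subgroup.eq_of_le_of_card_ge Subgroup.le_normalizer (by rw [hNc, hRc])
  have hcyc : IsCyclic (R : Subgroup G) := isCyclic_of_prime_card hRc
  have hRcen : Subgroup.normalizer ((R : Subgroup G) : Set G) ≤ Subgroup.centralizer ((R : Subgroup G) : Set G) := by
    rw [← hNR]
    intro x hx
    rw [Subgroup.mem_centralizer_iff]
    intro y hy
    have := hcyc.commGroup.mul_comm (⟨y, hy⟩ : (R : Subgroup G)) ⟨x, hx⟩
    exact congrArg Subtype.val this
  have hK := MonoidHom.ker_transferSylow_isComplement' R hRcen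
  set K := (MonoidHom.transferSylow R hRcen).ker with hKdef
  have hKn : K.Normal := by rw [hKdef]; infer_instance
  have hKc : Nat.card K = p * q := by
    have h1 := hK.card_mul_card
    rw [hRc, hG] at h1
    exact Nat.eq_of_mul_eq_mul_right hr.pos h1
  obtain ⟨Q0⟩ : Nonempty (Sylow q K) := inferInstance
  have hqp : ¬ q ∣ p := by
    intro h
    have := Nat.le_of_dvd hp.pos h; omega
  have hQ0c : Nat.card (Q0 : Subgroup K) = q := by
    rw [Q0.card_eq_multiplicity, hKc, hfac _ _ hp.ne_zero hq hqp, pow_one]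
  have hQ0i : (Q0 : Subgroup K).index = p := by
    have h1 := (Q0 : Subgroup K).card_mul_index
    rw [hQ0c, hKc, mul_comm] at h1
    exact Nat.eq_of_mul_eq_mul_right hq.pos h1
  have hQ0n : (Q0 : Subgroup K).Normal := by
    apply Subgroup.normal_of_index_eq_minFac_card
    rw [hQ0i, hKc, hmf p q hp hq hpq]
  haveI hQ0ch : (Q0 : Subgroup K).Characteristic := Q0.characteristic_of_normal hQ0n
  have hQn : ((Q0 : Subgroup K).map K.subtype).Normal := ConjAct.normal_of_characteristic_of_normal
  set Q := (Q0 : Subgroup K).map K.subtype with hQdef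
  have hQc : Nat.card Q = q := by
    rw [hQdef, Subgroup.card_map_of_injective K.subtype_injective, hQ0c]
  have hRnQ : (R : Subgroup G) ≤ Subgroup.normalizer (Q : Set G) := by
    rw [Subgroup.normalizer_eq_top_iff.mpr hQn]; exact le_top
  have hS := Cfsg.Agent.Lib.Helper6.Rad.card_sup_mul (M := Q) (N := (R : Subgroup G)) hRnQ
  have hcop : (Nat.card Q).Coprime (Nat.card (R : Subgroup G)) := by
    rw [hQc, hRc]
    exact (Nat.coprime_primes hq hr).mpr hqr.ne
  rw [(Subgroup.disjoint_of_coprime_natCard hcop).eq_bot, Subgroup.card_bot, mul_one, hQc, hRc] at hS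
  set S := Q ⊔ (R : Subgroup G) with hSdef
  have hRS : (R : Subgroup G) ≤ S := le_sup_right
  have hidx : ((R : Subgroup G).subgroupOf S).index = q := by
    have h1 := ((R : Subgroup G).subgroupOf S).card_mul_index
    rw [hS, Nat.card_congr (Subgroup.subgroupOfEquivOfLe hRS).toEquiv, hRc, mul_comm] at h1
    exact Nat.eq_of_mul_eq_mul_right hr.pos h1
  have hnorm : ((R : Subgroup G).subgroupOf S).Normal := by
    apply Subgroup.normal_of_index_eq_minFac_card
    rw [hidx, hS, hmf q r hq hr hqr]
  have h2 := (Subgroup.normal_subgroupOf_iff_le_normalizer hRS).mp hnorm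
  rw [← hNR] at h2
  have h3 : Q ≤ (R : Subgroup G) := le_sup_left.trans h2
  have h4 := Subgroup.card_dvd_of_le h3
  rw [hQc, hRc] at h4
  exact hqr.ne ((Nat.prime_dvd_prime_iff_eq hq hr).mp h4)

end Cfsg.Agent.S0987
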