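import Cfsg.Statements.S0991
import Mathlib

set_option autoImplicit false
open Cfsg

namespace Cfsg.Agent.S0991

/-- Embedding Theorem: if a non-abelian finite simple group has a proper subgroup of index n, then it is isomorphic to a subgroup of the alternating group of degree n. -/
theorem result {G : Type*} [Group G] [Finite G] [IsSimpleGroup G] (hG : ¬ IsMulCommutative G) (H : Subgroup G) (hH : H ≠ ⊤) : ∃ f : G →* ↥(alternatingGroup (Fin H.index)), Function.Injective f := by
  let e : G ⧸ H ≃ Fin H.index := Finite.equivFinOfCardEq (Subgroup.index_eq_card H).symm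
  let φ : G →* Equiv.Perm (Fin H.index) := (e.permCongrHom).toMonoidHom.comp (MulAction.toPermHom G (G ⧸ H))
  have hinj : Function.Injective φ := by
    have h1 : Function.Injective (MulAction.toPermHom G (G ⧸ H)) := by
      rw [← MonoidHom.ker_eq_bot_iff, ← Subgroup.normalCore_eq_ker]
      rcases (Subgroup.normalCore_normal H).eq_bot_or_eq_top with h | h
      · exact h
      · exact absurd (eq_top_iff.mpr (h ▸ Subgroup.normalCore_le H)) hH
    exact (e.permCongrHom).injective.comp h1
  have hsign : ∀ g, Equiv.Perm.sign (φ g) = 1 := by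
    let ψ : G →* ℤˣ := Equiv.Perm.sign.comp φ
    rcases (MonoidHom.normal_ker ψ).eq_bot_or_eq_top with h | h
    · exfalso
      apply hG
      have hψ : Function.Injective ψ := (MonoidHom.ker_eq_bot_iff ψ).mp h
      exact ⟨⟨fun a b => hψ (by rw [map_mul, map_mul, mul_comm])⟩⟩
    · intro g
      have : g ∈ ψ.ker := by rw [h]; exact Subgroup.mem_top g
      exact this
  refine ⟨φ.codRestrict (alternatingGroup (Fin H.index)) (fun g => Equiv.Perm.mem_alternatingGroup.mpr (hsign g)), ?_⟩
  intro a b hab
  apply hinj
  exact congrArg Subtype.val hab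

end Cfsg.Agent.S0991
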