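import Cfsg.Statements.S0992
import Mathlib

set_option autoImplicit false
open Cfsg

namespace Cfsg.Agent.S0992

open Subgroup

/-- a simple non-commutative group has no Sylow subgroup with `N ≤ C`, unless it is trivial -/
theorem no_burnside {G : Type*} [Group G] [Finite G] [IsSimpleGroup G] (hG : ¬ IsMulCommutative G)
    {p : ℕ} [Fact p.Prime] (T : Sylow p G) (hT1 : (T : Subgroup G) ≠ ⊥)
    (hNC : normalizer ((T : Subgroup G) : Set G) ≤ centralizer ((T : Subgroup G) : Set G)) :
    False := by
  have hcompl := MonoidHom.ker_transferSylow_isComplement' T hNC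
  rcases (MonoidHom.transferSylow T hNC).normal_ker.eq_bot_or_eq_top with h | h
  · rw [h, isComplement'_bot_left] at hcompl
    apply hG
    refine ⟨⟨fun a b => ?_⟩⟩
    have ha : a ∈ (T : Subgroup G) := hcompl ▸ mem_top a
    have hb : b ∈ (T : Subgroup G) := hcompl ▸ mem_top b
    have := hNC (le_normalizer ha)
    rw [mem_centralizer_iff] at this
    exact (this b hb).symm
  · rw [h, isComplement'_top_left] at hcompl
    exact hT1 hcompl

/-- Let G be a non-abelian finite simple group of even order not divisible by 8, and T a Sylow 2-subgroup. Then T is a Klein four-group and the centralizer of T has index 3 in the normalizer of T. -/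
theorem result {G : Type*} [Group G] [Finite G] [IsSimpleGroup G] (hG : ¬ IsMulCommutative G) (h2 : Even (Nat.card G)) (h8 : ¬ 8 ∣ Nat.card G) (T : Sylow 2 G) : IsKleinFour ↥(T : Subgroup G) ∧ (Subgroup.centralizer ((T : Subgroup G) : Set G)).relIndex (Subgroup.normalizer ((T : Subgroup G) : Set G)) = 3 := by
  classical
  have h2' : 2 ∣ Nat.card G := even_iff_two_dvd.mp h2
  have hT2 : 2 ∣ Nat.card (T : Subgroup G) := T.dvd_card_of_dvd_card h2'
  have hT1 : (T : Subgroup G) ≠ ⊥ := by
    intro h
    rw [h, Subgroup.card_bot] at hT2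
    omega
  have hncyc : ¬ IsCyclic (T : Subgroup G) := by
    intro hc
    have hmin : (Nat.card G).minFac = 2 := (Nat.minFac_eq_two_iff _).mpr h2'
    exact no_burnside hG T hT1 (hc.normalizer_le_centralizer hmin)
  have hcard : Nat.card (T : Subgroup G) = 4 := by
    obtain ⟨n, hn⟩ := IsPGroup.iff_card.mp T.2
    have hd : Nat.card (T : Subgroup G) ∣ Nat.card G := Subgroup.card_subgroup_dvd_card _
    rcases n with _ | _ | _ | n
    · rw [hn] at hT2; omega
    · exfalso
      apply hncyc
      haveI : Fact (Nat.Prime 2) := ⟨Nat.prime_two⟩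
      exact isCyclic_of_prime_card (p := 2) (by rw [hn]; norm_num)
    · rw [hn]; norm_num
    · exfalso
      apply h8
      refine dvd_trans ?_ hd
      rw [hn]
      exact (show (8:ℕ) = 2 ^ 3 by norm_num) ▸ pow_dvd_pow 2 (by omega)
  have hK : IsKleinFour (T : Subgroup G) := by
    refine ⟨hcard, ?_⟩
    haveI : Nontrivial (T : Subgroup G) := by
      rw [← Finite.one_lt_card_iff_nontrivial, hcard]; norm_num
    rw [Monoid.exponent_eq_prime_iff Nat.prime_two]
    intro g hg
    have hd : orderOf g ∣ 4 := hcard ▸ orderOf_dvd_natCard g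
    have hle : orderOf g ≤ 4 := Nat.le_of_dvd (by norm_num) hd
    have h1 : orderOf g ≠ 1 := by rwa [Ne, orderOf_eq_one_iff]
    have h4 : orderOf g ≠ 4 := by
      intro h
      exact hncyc (isCyclic_of_orderOf_eq_card g (by rw [h, hcard]))
    have h0 : 0 < orderOf g := orderOf_pos g
    interval_cases h : orderOf g <;> simp_all
  refine ⟨hK, ?_⟩
  set C := Subgroup.centralizer ((T : Subgroup G) : Set G) with hC
  set N := Subgroup.normalizer ((T : Subgroup G) : Set G) with hN
  have hTC : (T : Subgroup G) ≤ C := by
    intro a ha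
    rw [hC, Subgroup.mem_centralizer_iff]
    intro b hb
    have := (IsKleinFour.isMulCommutative (G := (T : Subgroup G))).is_comm.comm ⟨b, hb⟩ ⟨a, ha⟩
    exact congrArg Subtype.val this
  have hCN : C ≤ N := Subgroup.centralizer_le_normalizer _
  have hne1 : C.relIndex N ≠ 1 := by
    intro h
    rw [Subgroup.relIndex_eq_one] at h
    exact no_burnside hG T hT1 h
  have hodd : ¬ 2 ∣ C.relIndex N := by
    intro h
    apply T.not_dvd_index
    have h1 : (T : Subgroup G).relIndex C * C.relIndex N = (T : Subgroup G).relIndex N :=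
      Subgroup.relIndex_mul_relIndex _ _ _ hTC hCN
    have h3 : (T : Subgroup G).relIndex N * N.index = (T : Subgroup G).index :=
      Subgroup.relIndex_mul_index (hTC.trans hCN)
    rw [← h3, ← h1]
    exact Dvd.dvd.mul_right (Dvd.dvd.mul_left h _) _
  have h24 : C.relIndex N ∣ 24 := by
    have key := Subgroup.card_dvd_of_injective _
      (QuotientGroup.kerLift_injective ((MulAut.toPerm (T : Subgroup G)).comp (T : Subgroup G).normalizerMonoidHom))
    have hinj : Function.Injective (MulAut.toPerm (T : Subgroup G)) := by
      intro f g hfg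
      ext x
      exact congrArg Subtype.val (Equiv.congr_fun hfg x)
    have hker : ((MulAut.toPerm (T : Subgroup G)).comp (T : Subgroup G).normalizerMonoidHom).ker = C.subgroupOf N := by
      have h0 : C.subgroupOf N = (T : Subgroup G).normalizerMonoidHom.ker :=
        (Subgroup.normalizerMonoidHom_ker (T : Subgroup G)).symm
      rw [h0]
      ext x
      simp only [MonoidHom.mem_ker, MonoidHom.comp_apply]
      exact ⟨fun h => hinj (h.trans (map_one _).symm), fun h => by rw [h, map_one]⟩
    rw [hker] at key
    have h4 : Nat.card (Equiv.Perm (T : Subgroup G)) = 24 := by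
      rw [Nat.card_perm, hcard]; rfl
    rw [h4] at key
    exact key
  have hle : C.relIndex N ≤ 24 := Nat.le_of_dvd (by norm_num) h24
  have hpos : 0 < C.relIndex N := Nat.pos_of_dvd_of_pos h24 (by norm_num)
  generalize C.relIndex N = r at *
  interval_cases r <;> omega

end Cfsg.Agent.S0992
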