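import Cfsg.Statements.S1009
import Cfsg.Agent.Lib.Helper1.Basic

set_option autoImplicit false
open Cfsg

namespace Cfsg.Agent.S1009

open Pointwise
open Cfsg.Agent.Lib.Helper1

/-- Brodkey's Theorem: if a finite group has abelian Sylow p-subgroups, then there are two Sylow p-subgroups whose intersection equals the intersection of all Sylow p-subgroups. -/
theorem result {G : Type*} [Group G] [Finite G] (p : ℕ) [Fact p.Prime] (hab : ∀ P : Sylow p G, IsMulCommutative ↥(P : Subgroup G)) : ∃ P Q : Sylow p G, (P : Subgroup G) ⊓ (Q : Subgroup G) = ⨅ R : Sylow p G, (R : Subgroup G) := by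
  obtain ⟨⟨P, Q⟩, hmin⟩ := Finite.exists_min
    (fun z : Sylow p G × Sylow p G => Nat.card ((z.1 : Subgroup G) ⊓ (z.2 : Subgroup G) : Subgroup G))
  refine ⟨P, Q, le_antisymm (le_iInf ?_) (le_inf (iInf_le _ P) (iInf_le _ Q))⟩
  intro R
  obtain ⟨D, hD⟩ : ∃ D, D = (P : Subgroup G) ⊓ (Q : Subgroup G) := ⟨_, rfl⟩
  rw [← hD]
  obtain ⟨N, hN⟩ : ∃ N, N = Subgroup.normalizer (D : Set G) := ⟨_, rfl⟩
  have hle : ∀ S : Sylow p G, D ≤ S → (S : Subgroup G) ≤ N := by
    intro S hDS y hy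
    rw [hN, Subgroup.mem_normalizer_iff]
    intro d
    have hc : ∀ z ∈ (S : Subgroup G), y * z * y⁻¹ = z := by
      intro z hz
      have := congrArg Subtype.val ((hab S).is_comm.comm ⟨y, hy⟩ ⟨z, hz⟩)
      rw [mul_inv_eq_iff_eq_mul]
      exact this
    constructor
    · intro hd
      rw [hc d (hDS hd)]; exact hd
    · intro hd
      have h1 : d ∈ (S : Subgroup G) := by
        have := Subgroup.mul_mem _ (Subgroup.mul_mem _ (Subgroup.inv_mem _ hy) (hDS hd)) hy
        have e : y⁻¹ * (y * d * y⁻¹) * y = d := by group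
        rwa [e] at this
      rw [hc d h1] at hd; exact hd
  have hPN : (P : Subgroup G) ≤ N := hle P (hD ▸ inf_le_left)
  have hQN : (Q : Subgroup G) ≤ N := hle Q (hD ▸ inf_le_right)
  have hA : IsPGroup p (((R : Subgroup G) ⊓ N).subgroupOf N) :=
    (R.2.to_le inf_le_left).comap_of_injective N.subtype N.subtype_injective
  obtain ⟨T, hT⟩ := hA.exists_le_sylow
  obtain ⟨n, hn⟩ := MulAction.exists_smul_eq N (P.subtype hPN) T
  have hAP : ∀ a ∈ (R : Subgroup G) ⊓ N, (n : G)⁻¹ * a * n ∈ (P : Subgroup G) := by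
    intro a ha
    have h1 : (⟨a, (Subgroup.mem_inf.mp ha).2⟩ : N) ∈ (T : Subgroup N) := hT (Subgroup.mem_subgroupOf.mpr ha)
    rw [← hn, Sylow.coe_subgroup_smul, mem_conj_smul, Sylow.coe_subtype, Subgroup.mem_subgroupOf] at h1
    exact h1
  have hsub : (((n : G)⁻¹ • R : Sylow p G) : Subgroup G) ⊓ (Q : Subgroup G) ≤ D := by
    intro z hz
    obtain ⟨h1, h2⟩ := Subgroup.mem_inf.mp hz
    rw [Sylow.coe_subgroup_smul, mem_conj_smul, inv_inv] at h1
    have h3 : (n : G) * z * (n : G)⁻¹ ∈ (R : Subgroup G) ⊓ N :=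
      Subgroup.mem_inf.mpr ⟨h1, N.mul_mem (N.mul_mem n.2 (hQN h2)) (N.inv_mem n.2)⟩
    have h4 := hAP _ h3
    have e : (n : G)⁻¹ * ((n : G) * z * (n : G)⁻¹) * n = z := by group
    rw [e] at h4
    rw [hD]
    exact Subgroup.mem_inf.mpr ⟨h4, h2⟩
  have hcard : Nat.card D ≤ Nat.card ((((n : G)⁻¹ • R : Sylow p G) : Subgroup G) ⊓ (Q : Subgroup G) : Subgroup G) := by
    rw [hD]
    exact hmin ((n : G)⁻¹ • R, Q)
  have heq := Subgroup.eq_of_le_of_card_ge hsub hcard
  intro d hd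
  have h5 : (n : G)⁻¹ * d * n ∈ D := by
    have hn' : (n : G)⁻¹ ∈ Subgroup.normalizer (D : Set G) := hN ▸ N.inv_mem n.2
    have := (Subgroup.mem_normalizer_iff.mp hn' d).mp hd
    rwa [inv_inv] at this
  rw [← heq] at h5
  have h6 := (Subgroup.mem_inf.mp h5).1
  rw [Sylow.coe_subgroup_smul, mem_conj_smul, inv_inv] at h6
  have e : (n : G) * ((n : G)⁻¹ * d * n) * (n : G)⁻¹ = d := by group
  rwa [e] at h6

end Cfsg.Agent.S1009
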