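import Cfsg.Statements.S1013
import Mathlib

set_option autoImplicit false
open Cfsg

namespace Cfsg.Agent.S1013

open Subgroup MulAction

theorem trans_of_normal {Γ α : Type*} [Group Γ] [MulAction Γ α] [FaithfulSMul Γ α]
    [IsPretransitive Γ α] {p : ℕ} (hp : p.Prime) (hα : Nat.card α = p)
    (H : Subgroup Γ) [H.Normal] (hH : H ≠ ⊥) : IsPretransitive H α := by
  haveI : IsPreprimitive Γ α := IsPreprimitive.of_prime_card (hα ▸ hp)
  apply IsQuasiPreprimitive.isPretransitive_of_normal
  intro h
  apply hH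
  rw [eq_bot_iff]
  intro x hx
  rw [mem_bot]
  apply FaithfulSMul.eq_of_smul_eq_smul (α := α)
  intro a
  have : a ∈ fixedPoints H α := h ▸ Set.mem_univ a
  rw [one_smul]
  exact this ⟨x, hx⟩

theorem card_dvd {Γ α : Type*} [Group Γ] [MulAction Γ α] [IsPretransitive Γ α]
    [Nonempty α] : Nat.card α ∣ Nat.card Γ := by
  obtain ⟨a⟩ := ‹Nonempty α›
  rw [← index_stabilizer_of_transitive Γ a]
  exact Subgroup.index_dvd_card _

theorem main {Γ α : Type*} [Group Γ] [Finite Γ] [MulAction Γ α] [FaithfulSMul Γ α]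
    [IsPretransitive Γ α] {p : ℕ} [hpf : Fact p.Prime] (hα : Nat.card α = p)
    (hp2 : ¬ p ^ 2 ∣ Nat.card Γ) (P : Sylow p Γ) (hn : 1 < Nat.card (Sylow p Γ))
    (ht : (((P : Subgroup Γ).subgroupOf (normalizer ((P : Subgroup Γ) : Set Γ))).index).Prime) :
    IsSimpleGroup Γ := by
  have hp := hpf.out
  haveI : Nonempty α := by
    have : Nat.card α ≠ 0 := hα ▸ hp.ne_zero
    exact (Nat.card_ne_zero.mp this).1
  have hpG : p ∣ Nat.card Γ := hα ▸ card_dvd (Γ := Γ) (α := α)
  -- card P = p
  have hcP : Nat.card (P : Subgroup Γ) = p := by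
    obtain ⟨n, hn'⟩ := IsPGroup.iff_card.mp P.2
    have h1 : p ∣ Nat.card (P : Subgroup Γ) := P.dvd_card_of_dvd_card hpG
    have h2 : Nat.card (P : Subgroup Γ) ∣ Nat.card Γ := Subgroup.card_subgroup_dvd_card _
    rcases n with _ | _ | n
    · rw [hn', pow_zero] at h1
      exact absurd (Nat.dvd_one.mp h1) hp.one_lt.ne'
    · rw [hn']; simp
    · exfalso
      apply hp2
      refine dvd_trans ?_ h2
      rw [hn']
      exact pow_dvd_pow p (by omega)
  haveI : Nontrivial Γ := by
    rw [← Finite.one_lt_card_iff_nontrivial]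
    exact lt_of_lt_of_le hp.one_lt (Nat.le_of_dvd Nat.card_pos hpG)
  refine ⟨fun H hH => ?_⟩
  by_contra hcon
  push Not at hcon
  obtain ⟨hb, htop⟩ := hcon
  haveI := hH
  haveI hHt : IsPretransitive H α := trans_of_normal hp hα H hb
  have hpH : p ∣ Nat.card H := hα ▸ card_dvd (Γ := H) (α := α)
  have hidx : ¬ p ∣ H.index := by
    intro h
    apply hp2
    rw [← H.card_mul_index, pow_two]
    exact mul_dvd_mul hpH h
  have hPH : (P : Subgroup Γ) ≤ H := by
    rw [← relIndex_eq_one]
    have h1 : H.relIndex P ∣ H.index := relIndex_dvd_index_of_normal H P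
    have h2 : H.relIndex P ∣ p := by
      have := relIndex_dvd_card H (P : Subgroup Γ)
      rwa [hcP] at this
    rcases (Nat.dvd_prime hp).mp h2 with h | h
    · exact h
    · exact absurd (h ▸ h1) hidx
  have hfr : normalizer ((P : Subgroup Γ) : Set Γ) ⊔ H = ⊤ := P.normalizer_sup_eq_top' hPH
  set N := normalizer ((P : Subgroup Γ) : Set Γ) with hN
  have hPN : (P : Subgroup Γ) ≤ N := le_normalizer
  have hmul : (P : Subgroup Γ).relIndex (H ⊓ N) * (H ⊓ N).relIndex N = (P : Subgroup Γ).relIndex N :=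
    relIndex_mul_relIndex _ _ _ (le_inf hPH hPN) inf_le_right
  have ht' : ((P : Subgroup Γ).relIndex N).Prime := ht
  have hcase : (H ⊓ N).relIndex N = 1 ∨ (P : Subgroup Γ).relIndex (H ⊓ N) = 1 := by
    rw [← hmul] at ht'
    rcases Nat.prime_mul_iff.mp ht' with ⟨_, h⟩ | ⟨_, h⟩
    · exact Or.inl h
    · exact Or.inr h
  rcases hcase with h | h
  · rw [relIndex_eq_one] at h
    apply htop
    rw [← hfr]
    exact (sup_eq_right.mpr (h.trans inf_le_left)).symm
  · rw [relIndex_eq_one] at h
    -- Burnside in H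
    let P' : Sylow p H := P.subtype hPH
    have hP'mem : ∀ x : H, x ∈ (P' : Subgroup H) ↔ (x : Γ) ∈ (P : Subgroup Γ) := by
      intro x
      rw [Sylow.coe_subtype, mem_subgroupOf]
    have hcomm : ∀ a ∈ (P : Subgroup Γ), ∀ b ∈ (P : Subgroup Γ), a * b = b * a := by
      intro a ha b hb'
      haveI : IsCyclic (P : Subgroup Γ) := isCyclic_of_prime_card (p := p) hcP
      have := IsCyclic.commGroup.mul_comm (⟨a, ha⟩ : (P : Subgroup Γ)) ⟨b, hb'⟩
      exact congrArg Subtype.val this
    have hNC : normalizer ((P' : Subgroup H) : Set H) ≤ centralizer ((P' : Subgroup H) : Set H) := by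
      intro x hx
      have hxN : (x : Γ) ∈ N := by
        rw [hN, mem_normalizer_iff]
        intro y
        have hx' := mem_normalizer_iff.mp hx
        constructor
        · intro hy
          have := (hx' ⟨y, hPH hy⟩).mp ((hP'mem _).mpr hy)
          exact (hP'mem _).mp this
        · intro hy
          have hyH : y ∈ H := by
            have h1 := hPH hy
            have : y = (x:Γ)⁻¹ * ((x:Γ) * y * (x:Γ)⁻¹) * (x:Γ) := by group
            rw [this]
            exact H.mul_mem (H.mul_mem (H.inv_mem x.2) h1) x.2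
          have := (hx' ⟨y, hyH⟩).mpr ((hP'mem _).mpr hy)
          exact (hP'mem _).mp this
      have hxP : (x : Γ) ∈ (P : Subgroup Γ) := h ⟨x.2, hxN⟩
      rw [mem_centralizer_iff]
      intro y hy
      apply Subtype.ext
      exact hcomm _ ((hP'mem y).mp hy) _ hxP
    have hcompl := MonoidHom.ker_transferSylow_isComplement' P' hNC
    have hnd := MonoidHom.not_dvd_card_ker_transferSylow P' hNC
    have hK : (MonoidHom.transferSylow P' hNC).ker = ⊥ := by
      by_contra hKb
      haveI := trans_of_normal (Γ := H) hp hα _ hKb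
      exact hnd (hα ▸ card_dvd (Γ := (MonoidHom.transferSylow P' hNC).ker) (α := α))
    rw [hK, isComplement'_bot_left] at hcompl
    have hHP : H ≤ (P : Subgroup Γ) := by
      intro x hx
      have : (⟨x, hx⟩ : H) ∈ (P' : Subgroup H) := hcompl ▸ mem_top _
      exact (hP'mem _).mp this
    have hPeq : (P : Subgroup Γ) = H := le_antisymm hPH hHP
    have hPn : (P : Subgroup Γ).Normal := hPeq ▸ hH
    have : Nat.card (Sylow p Γ) = 1 := by
      rw [P.card_eq_index_normalizer]
      have h0 : normalizer ((P : Subgroup Γ) : Set Γ) = ⊤ := normalizer_eq_top_iff.mpr hPn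
      have h1 : (normalizer ((P : Subgroup Γ) : Set Γ)).index = 1 := by rw [h0, index_top]
      exact h1
    omega

/-- Let G be a transitive permutation group of prime degree p having more than one Sylow p-subgroup, and suppose a Sylow p-subgroup P has prime index in its normalizer. Then G is simple. -/
theorem result {α : Type*} [Fintype α] [DecidableEq α] {p : ℕ} [Fact p.Prime] (hα : Fintype.card α = p) (G : Subgroup (Equiv.Perm α)) [MulAction.IsPretransitive ↥G α] (P : Sylow p ↥G) (hn : 1 < Nat.card (Sylow p ↥G)) (ht : (((P : Subgroup ↥G).subgroupOf (Subgroup.normalizer ((P : Subgroup ↥G) : Set ↥G))).index).Prime) : IsSimpleGroup ↥G := by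
  have hα' : Nat.card α = p := by rw [Nat.card_eq_fintype_card, hα]
  have hp := (Fact.out : p.Prime)
  have hp2 : ¬ p ^ 2 ∣ Nat.card ↥G := by
    intro h
    have h1 : Nat.card ↥G ∣ Nat.card (Equiv.Perm α) := Subgroup.card_subgroup_dvd_card G
    rw [Nat.card_eq_fintype_card (α := Equiv.Perm α), Fintype.card_perm, hα] at h1
    have h2 := h.trans h1
    rw [← Nat.mul_factorial_pred hp.ne_zero, pow_two] at h2
    have h3 := Nat.dvd_of_mul_dvd_mul_left hp.pos h2
    have := (hp.dvd_factorial).mp h3
    have := hp.pos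
    omega
  exact main hα' hp2 P hn ht

end Cfsg.Agent.S1013
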