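import Cfsg.Statements.S1018
import Cfsg.Agent.Lib.Helper3.Klein
import Cfsg.Agent.Lib.Helper3.Invol2

set_option autoImplicit false
open Cfsg

namespace Cfsg.Agent.S1018

open Subgroup MulAction

variable {G : Type*} [Group G] [Finite G] {p : ℕ} [Fact p.Prime] (P : Sylow p G)

theorem fix_iff (y g : G) :
    y • (g : G ⧸ normalizer ((P : Subgroup G) : Set G)) = g ↔
      g⁻¹ * y * g ∈ normalizer ((P : Subgroup G) : Set G) := by
  rw [MulAction.Quotient.smul_coe, smul_eq_mul, QuotientGroup.eq, ← Subgroup.inv_mem_iff]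
  have : ((y * g)⁻¹ * g)⁻¹ = g⁻¹ * y * g := by group
  rw [this]

theorem gen (hP : Nat.card (P : Subgroup G) = p) {u : G} (hu : u ∈ P) (hu1 : u ≠ 1) :
    (P : Subgroup G) = zpowers u := by
  symm
  apply Subgroup.eq_of_le_of_card_ge (zpowers_le.mpr hu)
  rw [hP, Nat.card_zpowers]
  have hd : orderOf u ∣ p := by rw [← hP]; exact Subgroup.orderOf_dvd_natCard _ hu
  rcases (Nat.dvd_prime Fact.out).mp hd with h | h
  · exact absurd (orderOf_eq_one_iff.mp h) hu1
  · exact h.ge

theorem mem_P_of_fix {y g : G} (hy : orderOf y = p)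
    (h : y • (g : G ⧸ normalizer ((P : Subgroup G) : Set G)) = g) : g⁻¹ * y * g ∈ P := by
  have h1 := (fix_iff P y g).mp h
  apply Cfsg.Agent.Lib.Helper3.Invol.mem_sylow_of_normalizer P h1 (k := 1)
  rw [pow_one]
  have := conj_pow (a := g⁻¹) (b := y) (i := p)
  rw [inv_inv] at this
  rw [this, ← hy, pow_orderOf_eq_one]; group

theorem fix_subsingleton (hP : Nat.card (P : Subgroup G) = p) {y : G} (hy : orderOf y = p)
    {a b : G ⧸ normalizer ((P : Subgroup G) : Set G)} (ha : y • a = a) (hb : y • b = b) : a = b := by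
  obtain ⟨g, rfl⟩ := QuotientGroup.mk_surjective a
  obtain ⟨g', rfl⟩ := QuotientGroup.mk_surjective b
  have hu := mem_P_of_fix P hy ha
  have hu' := mem_P_of_fix P hy hb
  have hy1 : y ≠ 1 := by
    rintro rfl; rw [orderOf_one] at hy; exact (Fact.out : p.Prime).one_lt.ne hy
  have hu'1 : g'⁻¹ * y * g' ≠ 1 := by
    intro h; apply hy1
    have : y = g' * (g'⁻¹ * y * g') * g'⁻¹ := by group
    rw [this, h]; group
  rw [QuotientGroup.eq, Subgroup.mem_normalizer_iff_map_conj_eq]
  apply Subgroup.eq_of_le_of_card_ge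
  · rintro _ ⟨x, hx, rfl⟩
    rw [SetLike.mem_coe, gen P hP hu' hu'1] at hx
    obtain ⟨i, rfl⟩ := mem_zpowers_iff.mp hx
    have : (g⁻¹ * g') * ((g'⁻¹ * y * g') ^ i) * (g⁻¹ * g')⁻¹ = (g⁻¹ * y * g) ^ i := by
      rw [← conj_zpow]
      congr 1; group
    change (g⁻¹ * g') * ((g'⁻¹ * y * g') ^ i) * (g⁻¹ * g')⁻¹ ∈ (P : Subgroup G)
    rw [this]; exact Subgroup.zpow_mem _ hu i
  · rw [Subgroup.card_map_of_injective (MulAut.conj _).injective]

/-- Let P be a Sylow p-subgroup of order p of a finite group G, and consider the action of G on the left cosets of the normalizer N of P. Then every element of order p fixes exactly one coset, and an element of N that does not centralize P fixes at most as many cosets as there are orbits of P. -/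
theorem result {G : Type*} [Group G] [Finite G] (p : ℕ) [Fact p.Prime] (P : Sylow p G) (hP : Nat.card ↥(P : Subgroup G) = p) : (∀ y : G, orderOf y = p → Nat.card (MulAction.fixedBy (G ⧸ Subgroup.normalizer ((P : Subgroup G) : Set G)) y) = 1) ∧ ∀ x : G, x ∈ Subgroup.normalizer ((P : Subgroup G) : Set G) → x ∉ Subgroup.centralizer ((P : Subgroup G) : Set G) → Nat.card (MulAction.fixedBy (G ⧸ Subgroup.normalizer ((P : Subgroup G) : Set G)) x) ≤ Nat.card (MulAction.orbitRel.Quotient ↥(P : Subgroup G) (G ⧸ Subgroup.normalizer ((P : Subgroup G) : Set G))) := by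
  classical
  have hp := (Fact.out : p.Prime)
  refine ⟨?_, ?_⟩
  · intro y hy
    rw [Nat.card_eq_one_iff_unique]
    constructor
    · refine ⟨fun a b => Subtype.ext (fix_subsingleton P hP hy a.2 b.2)⟩
    · have hK : IsPGroup p (Subgroup.zpowers y) :=
        IsPGroup.of_card (n := 1) (by rw [Nat.card_zpowers, hy, pow_one])
      obtain ⟨h, hh⟩ := Cfsg.Agent.Lib.Helper3.Invol.exists_conj_mem_sylow P hK
      refine ⟨⟨((h⁻¹ : G) : G ⧸ Subgroup.normalizer ((P : Subgroup G) : Set G)), ?_⟩⟩
      rw [MulAction.mem_fixedBy, fix_iff, inv_inv]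
      exact Subgroup.le_normalizer (hh y (Subgroup.mem_zpowers y))
  · intro x hxN hxC
    apply Nat.card_le_card_of_injective
      (fun a : MulAction.fixedBy (G ⧸ Subgroup.normalizer ((P : Subgroup G) : Set G)) x =>
        (Quotient.mk'' a.1 : MulAction.orbitRel.Quotient ↥(P : Subgroup G) (G ⧸ Subgroup.normalizer ((P : Subgroup G) : Set G))))
    rintro ⟨a, ha⟩ ⟨b, hb⟩ hab
    apply Subtype.ext
    simp only at hab ⊢
    rw [Quotient.eq''] at hab
    obtain ⟨⟨u, hu⟩, hub⟩ := hab
    -- hub : u • b = a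
    have hub' : u • b = a := hub
    rw [MulAction.mem_fixedBy] at ha hb
    by_cases hu1 : u = 1
    · rw [← hub', hu1, one_smul]
    have hxu : x * u * x⁻¹ ∈ (P : Subgroup G) := (Subgroup.mem_normalizer_iff.mp hxN u).mp hu
    set v := u⁻¹ * (x * u * x⁻¹) with hv
    have hvP : v ∈ (P : Subgroup G) := Subgroup.mul_mem _ (Subgroup.inv_mem _ hu) hxu
    have hvb : v • b = b := by
      have h1 : (x * u * x⁻¹) • b = u • b := by
        have e1 : x⁻¹ • b = b := by rw [inv_smul_eq_iff, hb]
        rw [mul_smul, mul_smul, e1, hub', ha]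
      rw [hv, mul_smul, h1, inv_smul_smul]
    by_cases hv1 : v = 1
    · exfalso
      apply hxC
      have hcomm : x * u * x⁻¹ = u := by
        have : u * v = u := by rw [hv1, mul_one]
        rw [hv, mul_inv_cancel_left] at this
        exact this
      rw [Subgroup.mem_centralizer_iff]
      intro w hw
      rw [SetLike.mem_coe, gen P hP hu hu1] at hw
      obtain ⟨i, rfl⟩ := Subgroup.mem_zpowers_iff.mp hw
      have hc : Commute x u := by
        have : x * u = u * x := by
          calc x * u = (x * u * x⁻¹) * x := by group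
            _ = u * x := by rw [hcomm]
        exact this
      exact ((hc.zpow_right i).eq).symm
    · have hvo : orderOf v = p := by
        have hd : orderOf v ∣ p := by rw [← hP]; exact Subgroup.orderOf_dvd_natCard _ hvP
        rcases (Nat.dvd_prime hp).mp hd with h | h
        · exact absurd (orderOf_eq_one_iff.mp h) hv1
        · exact h
      have hone : ∀ w ∈ (P : Subgroup G), w • ((1 : G) : G ⧸ Subgroup.normalizer ((P : Subgroup G) : Set G)) = ((1 : G) : G ⧸ Subgroup.normalizer ((P : Subgroup G) : Set G)) := by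
        intro w hw
        rw [fix_iff]
        simpa using Subgroup.le_normalizer hw
      have hb1 : b = ((1 : G) : G ⧸ Subgroup.normalizer ((P : Subgroup G) : Set G)) :=
        fix_subsingleton P hP hvo hvb (hone v hvP)
      rw [← hub', hb1, hone u hu]

end Cfsg.Agent.S1018
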