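import Cfsg.Statements.S1019
import Cfsg.Agent.Lib.Helper1.FrobCount

set_option autoImplicit false
open Cfsg

namespace Cfsg.Agent.S1019

theorem card_of_fibers {α β : Type*} [Finite α] [Finite β] (f : α → β) (c : ℕ)
    (h : ∀ b, Nat.card {a // f a = b} = c) : Nat.card α = Nat.card β * c := by
  haveI := Fintype.ofFinite β
  rw [Nat.card_congr (Equiv.sigmaFiberEquiv f).symm, Nat.card_sigma]
  simp [h]

/-- Let H be a subgroup of a finite group G and x an element of H. In the action of G on the left cosets of H, the number of cosets fixed by x, multiplied by the size of the conjugacy class of x, equals the index of H multiplied by the number of conjugates of x that lie in H. -/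
theorem result {G : Type*} [Group G] [Finite G] (H : Subgroup G) (x : G) (hx : x ∈ H) : Nat.card (MulAction.fixedBy (G ⧸ H) x) * Nat.card {g : G // IsConj x g} = H.index * Nat.card {g : G // IsConj x g ∧ g ∈ H} := by
  have h1 : Nat.card {g : G // g⁻¹ * x * g ∈ H} = Nat.card H * Nat.card (MulAction.fixedBy (G ⧸ H) x) := by
    have e := QuotientGroup.preimageMkEquivSubgroupProdSet H (MulAction.fixedBy (G ⧸ H) x)
    rw [← Nat.card_prod, ← Nat.card_congr e]
    apply Nat.card_congr
    apply Equiv.subtypeEquivRight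
    intro g
    rw [Set.mem_preimage, MulAction.mem_fixedBy, MulAction.Quotient.smul_mk, QuotientGroup.eq]
    have e1 : (x • g)⁻¹ * g = (g⁻¹ * x * g)⁻¹ := by
      rw [smul_eq_mul]; group
    rw [e1, inv_mem_iff]
  have h2 : Nat.card {g : G // g⁻¹ * x * g ∈ H} =
      Nat.card {g : G // IsConj x g ∧ g ∈ H} * Nat.card (Subgroup.centralizer ({x} : Set G)) := by
    apply card_of_fibers (fun g : {g : G // g⁻¹ * x * g ∈ H} =>
      (⟨g.1⁻¹ * x * g.1, isConj_iff.mpr ⟨g.1⁻¹, by rw [inv_inv]⟩, g.2⟩ : {g : G // IsConj x g ∧ g ∈ H}))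
    rintro ⟨y, hy, hyH⟩
    obtain ⟨c, hc⟩ := isConj_iff.mp hy
    apply Nat.card_congr
    refine
      { toFun := fun w => ⟨w.1.1 * c, ?_⟩
        invFun := fun z => ⟨⟨z.1 * c⁻¹, ?_⟩, ?_⟩
        left_inv := ?_
        right_inv := ?_ }
    · rw [Subgroup.mem_centralizer_singleton_iff]
      have h3 : w.1.1⁻¹ * x * w.1.1 = c * x * c⁻¹ := (congrArg Subtype.val w.2).trans hc.symm
      calc w.1.1 * c * x = w.1.1 * (c * x * c⁻¹) * c := by group
        _ = w.1.1 * (w.1.1⁻¹ * x * w.1.1) * c := by rw [← h3]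
        _ = x * (w.1.1 * c) := by group
    · have h3 := Subgroup.mem_centralizer_singleton_iff.mp z.2
      have h4 : (z.1 * c⁻¹)⁻¹ * x * (z.1 * c⁻¹) = y := by
        rw [← hc]
        calc (z.1 * c⁻¹)⁻¹ * x * (z.1 * c⁻¹) = c * z.1⁻¹ * (x * z.1) * c⁻¹ := by group
          _ = c * z.1⁻¹ * (z.1 * x) * c⁻¹ := by rw [h3]
          _ = c * x * c⁻¹ := by group
      rw [h4]; exact hyH
    · apply Subtype.ext
      have h3 := Subgroup.mem_centralizer_singleton_iff.mp z.2
      show (z.1 * c⁻¹)⁻¹ * x * (z.1 * c⁻¹) = y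
      rw [← hc]
      calc (z.1 * c⁻¹)⁻¹ * x * (z.1 * c⁻¹) = c * z.1⁻¹ * (x * z.1) * c⁻¹ := by group
        _ = c * z.1⁻¹ * (z.1 * x) * c⁻¹ := by rw [h3]
        _ = c * x * c⁻¹ := by group
    · intro w
      apply Subtype.ext
      apply Subtype.ext
      show w.1.1 * c * c⁻¹ = w.1.1
      group
    · intro z
      apply Subtype.ext
      show z.1 * c⁻¹ * c = z.1
      group
  rw [← Cfsg.Agent.Lib.Helper1.FrobCount.index_centralizer_eq]
  have h5 := H.card_mul_index
  have h6 := (Subgroup.centralizer ({x} : Set G)).card_mul_index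
  have h7 : 0 < Nat.card H := Nat.card_pos
  have h8 : 0 < Nat.card (Subgroup.centralizer ({x} : Set G)) := Nat.card_pos
  rw [h1] at h2
  apply Nat.eq_of_mul_eq_mul_left (Nat.mul_pos h7 h8)
  calc Nat.card H * Nat.card (Subgroup.centralizer ({x} : Set G)) *
        (Nat.card (MulAction.fixedBy (G ⧸ H) x) * (Subgroup.centralizer ({x} : Set G)).index)
      = (Nat.card H * Nat.card (MulAction.fixedBy (G ⧸ H) x)) *
        (Nat.card (Subgroup.centralizer ({x} : Set G)) * (Subgroup.centralizer ({x} : Set G)).index) := by ring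
    _ = (Nat.card {g : G // IsConj x g ∧ g ∈ H} * Nat.card (Subgroup.centralizer ({x} : Set G))) *
        (Nat.card H * H.index) := by rw [h2, h6, h5]
    _ = _ := by ring

end Cfsg.Agent.S1019
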