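import Cfsg.Statements.S1118


set_option autoImplicit false
open scoped Pointwise
open Cfsg

namespace Cfsg.Agent.S1118

/-- In the rank-one set-up (`G` finite and doubly transitive on `Ω`, `t` an involution moving `a`, `Q` normal in `G_a` with `G_a = Q D`, `Q ⊓ D = 1` for the two-point stabiliser `D = G_a ⊓ G_{t • a}`, `|Q|` even, `|D|` odd), the normaliser of a subset of `Q` containing a non-identity element lies in `G_a`; consequently `N_G(Q) = N_G(G_a) = G_a`. -/
theorem result {G Ω : Type*} [Group G] [Finite G] [MulAction G Ω] {a : Ω} {t : G} {Q : Subgroup G}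
    (hS : Cfsg.IsRankOneSetup G Ω a t Q) :
    (∀ X : Set G, X ⊆ (Q : Set G) → (∃ x ∈ X, x ≠ 1) → Subgroup.normalizer X ≤ MulAction.stabilizer G a) ∧
      Subgroup.normalizer (Q : Set G) = MulAction.stabilizer G a ∧
      Subgroup.normalizer (MulAction.stabilizer G a : Set G) = MulAction.stabilizer G a := by
  have h2t : ∀ {a b c d : Ω} (_ : a ≠ b) (_ : c ≠ d), ∃ g : G, g • a = c ∧ g • b = d :=
    MulAction.is_two_pretransitive_iff.mp hS.two_transitive
  have hta : t • a ≠ a := fun h => hS.not_mem (MulAction.mem_stabilizer_iff.mpr h)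
  have fix_unique : ∀ x ∈ Q, x ≠ 1 → ∀ b : Ω, x • b = b → b = a := by
    intro x hx hx1 b hb
    by_contra hba
    obtain ⟨h, h1, h2⟩ := h2t (a := a) (b := t • a) (c := a) (d := b) hta.symm (Ne.symm hba)
    have hh : h⁻¹ ∈ MulAction.stabilizer G a := by
      apply Subgroup.inv_mem
      exact MulAction.mem_stabilizer_iff.mpr h1
    have hq := hS.conj_mem h⁻¹ hh x hx
    rw [inv_inv] at hq
    have hfix : h⁻¹ * x * h ∈ MulAction.stabilizer G (t • a) := by
      rw [MulAction.mem_stabilizer_iff, mul_smul, mul_smul, h2, hb, ← h2, inv_smul_smul]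
    have hbot : h⁻¹ * x * h ∈ Q ⊓ MulAction.stabilizer G (t • a) := ⟨hq, hfix⟩
    rw [hS.inf_eq_bot, Subgroup.mem_bot] at hbot
    apply hx1
    have : x = h * (h⁻¹ * x * h) * h⁻¹ := by group
    rw [this, hbot]; group
  have key : ∀ n x : G, x ∈ Q → x ≠ 1 → n⁻¹ * x * n ∈ MulAction.stabilizer G a →
      n ∈ MulAction.stabilizer G a := by
    intro n x hx hx1 hn
    rw [MulAction.mem_stabilizer_iff] at hn ⊢
    apply fix_unique x hx hx1
    rw [mul_smul, mul_smul, inv_smul_eq_iff] at hn
    exact hn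
  have hQ1 : ∃ x ∈ Q, x ≠ 1 := by
    by_contra hno
    push Not at hno
    have : Q = ⊥ := by
      rw [eq_bot_iff]
      intro x hx
      exact Subgroup.mem_bot.mpr (hno x hx)
    have h1 := hS.even_card
    rw [this, Subgroup.card_bot] at h1
    exact absurd h1 (by decide)
  have first : ∀ X : Set G, X ⊆ (Q : Set G) → (∃ x ∈ X, x ≠ 1) →
      Subgroup.normalizer X ≤ MulAction.stabilizer G a := by
    rintro X hX ⟨x, hx, hx1⟩ n hn
    apply key n x (hX hx) hx1
    apply hS.le
    apply hX
    rw [Subgroup.mem_set_normalizer_iff.mp hn]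
    have : n * (n⁻¹ * x * n) * n⁻¹ = x := by group
    rw [this]; exact hx
  refine ⟨first, ?_, ?_⟩
  · apply le_antisymm
    · obtain ⟨x, hx, hx1⟩ := hQ1
      exact first _ (subset_refl _) ⟨x, hx, hx1⟩
    · intro h hh
      rw [Subgroup.mem_normalizer_iff]
      intro x
      constructor
      · intro hx; exact hS.conj_mem h hh x hx
      · intro hx
        have := hS.conj_mem h⁻¹ (Subgroup.inv_mem _ hh) _ hx
        have e : h⁻¹ * (h * x * h⁻¹) * h⁻¹⁻¹ = x := by group
        rw [e] at this
        exact this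
  · apply le_antisymm _ Subgroup.le_normalizer
    intro n hn
    obtain ⟨x, hx, hx1⟩ := hQ1
    apply key n x hx hx1
    have h1 : (n⁻¹ * x * n) ∈ (MulAction.stabilizer G a : Set G) := by
      rw [Subgroup.mem_set_normalizer_iff.mp hn]
      have : n * (n⁻¹ * x * n) * n⁻¹ = x := by group
      rw [this]; exact hS.le hx
    exact h1

end Cfsg.Agent.S1118
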