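import Cfsg.Statements.S1119


set_option autoImplicit false
open scoped Pointwise
open Cfsg

namespace Cfsg.Agent.S1119

/-- In the rank-one set-up (`G` finite and doubly transitive on `Ω`, `t` an involution moving `a`, `Q` normal in `G_a` with `G_a = Q D`, `Q ⊓ D = 1` for the two-point stabiliser `D = G_a ⊓ G_{t • a}`, `|Q|` even, `|D|` odd): `Q` acts regularly on `Ω` minus `a`; hence `|Ω| = |Q| + 1`, `|G| = |Q| |D| (|Q| + 1)`, some Sylow 2-subgroup of `G` lies in `Q`, and each `g ∉ G_a` is uniquely `x t y` with `x ∈ G_a`, `y ∈ Q` (canonical form). -/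
theorem result {G Ω : Type*} [Group G] [Finite G] [MulAction G Ω] {a : Ω} {t : G} {Q : Subgroup G}
    (hS : Cfsg.IsRankOneSetup G Ω a t Q) :
    (∀ b c : Ω, b ≠ a → c ≠ a → ∃! x : Q, (x : G) • b = c) ∧
      Nat.card Ω = Nat.card Q + 1 ∧
      Nat.card G = Nat.card Q * Nat.card ↥(MulAction.stabilizer G a ⊓ MulAction.stabilizer G (t • a)) * (Nat.card Q + 1) ∧
      (∃ P : Sylow 2 G, (P : Subgroup G) ≤ Q) ∧
      ∀ g : G, g ∉ MulAction.stabilizer G a → ∃! p : G × G, p.1 ∈ MulAction.stabilizer G a ∧ p.2 ∈ Q ∧ g = p.1 * t * p.2 := by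
  have h2t : ∀ {a b c d : Ω} (_ : a ≠ b) (_ : c ≠ d), ∃ g : G, g • a = c ∧ g • b = d :=
    MulAction.is_two_pretransitive_iff.mp hS.two_transitive
  have hta : t • a ≠ a := fun h => hS.not_mem (MulAction.mem_stabilizer_iff.mpr h)
  have htinv : t⁻¹ = t := inv_eq_of_mul_eq_one_left hS.mul_self
  have fix_unique : ∀ x ∈ Q, x ≠ 1 → ∀ b : Ω, x • b = b → b = a := by
    intro x hx hx1 b hb
    by_contra hba
    obtain ⟨h, h1, h2⟩ := h2t (a := a) (b := t • a) (c := a) (d := b) hta.symm (Ne.symm hba)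
    have hh : h⁻¹ ∈ MulAction.stabilizer G a := by
      apply Subgroup.inv_mem
      exact MulAction.mem_stabilizer_iff.mpr h1
    have hq := hS.conj_mem h⁻¹ hh x hx
    rw [inv_inv] at hq
    have hfix : h⁻¹ * x * h ∈ MulAction.stabilizer G (t • a) := by
      rw [MulAction.mem_stabilizer_iff, mul_smul, mul_smul, h2, hb, ← h2, inv_smul_smul]
    have hbot : h⁻¹ * x * h ∈ Q ⊓ MulAction.stabilizer G (t • a) := ⟨hq, hfix⟩
    rw [hS.inf_eq_bot, Subgroup.mem_bot] at hbot
    apply hx1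
    have : x = h * (h⁻¹ * x * h) * h⁻¹ := by group
    rw [this, hbot]; group
  set D : Subgroup G := MulAction.stabilizer G a ⊓ MulAction.stabilizer G (t • a) with hD
  have hDA : D ≤ MulAction.stabilizer G a := inf_le_left
  -- factorisation
  let K : Subgroup G :=
    { carrier := {h | ∃ q ∈ Q, ∃ d ∈ D, h = q * d}
      one_mem' := ⟨1, Q.one_mem, 1, D.one_mem, by simp⟩
      mul_mem' := by
        rintro _ _ ⟨q1, hq1, d1, hd1, rfl⟩ ⟨q2, hq2, d2, hd2, rfl⟩
        refine ⟨q1 * (d1 * q2 * d1⁻¹), Q.mul_mem hq1 (hS.conj_mem d1 (hDA hd1) q2 hq2),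
          d1 * d2, D.mul_mem hd1 hd2, by group⟩
      inv_mem' := by
        rintro _ ⟨q, hq, d, hd, rfl⟩
        refine ⟨d⁻¹ * q⁻¹ * d⁻¹⁻¹, hS.conj_mem d⁻¹ (hDA (D.inv_mem hd)) q⁻¹ (Q.inv_mem hq),
          d⁻¹, D.inv_mem hd, by group⟩ }
  have hfac : ∀ h ∈ MulAction.stabilizer G a, ∃ q ∈ Q, ∃ d ∈ D, h = q * d := by
    intro h hh
    have hle : Q ⊔ D ≤ K := by
      apply sup_le
      · intro q hq; exact ⟨q, hq, 1, D.one_mem, by simp⟩
      · intro d hd; exact ⟨1, Q.one_mem, d, hd, by simp⟩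
    rw [← hS.sup_eq] at hh
    exact hle hh
  have htrans : ∀ b : Ω, b ≠ a → ∃ q ∈ Q, q • (t • a) = b := by
    intro b hb
    obtain ⟨h, h1, h2⟩ := h2t (a := a) (b := t • a) (c := a) (d := b) hta.symm (Ne.symm hb)
    obtain ⟨q, hq, d, hd, rfl⟩ := hfac h (MulAction.mem_stabilizer_iff.mpr h1)
    refine ⟨q, hq, ?_⟩
    have hd2 : d • (t • a) = t • a := MulAction.mem_stabilizer_iff.mp hd.2
    rw [mul_smul, hd2] at h2
    exact h2
  have huniq : ∀ x ∈ Q, ∀ y ∈ Q, ∀ b : Ω, b ≠ a → x • b = y • b → x = y := by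
    intro x hx y hy b hb hxy
    by_contra hne
    apply hb
    apply fix_unique (y⁻¹ * x) (Q.mul_mem (Q.inv_mem hy) hx)
    · intro h1
      apply hne
      have := eq_inv_of_mul_eq_one_right h1
      rw [inv_inv] at this
      exact this
    · rw [mul_smul, hxy, inv_smul_smul]
  have hreg : ∀ b c : Ω, b ≠ a → c ≠ a → ∃! x : Q, (x : G) • b = c := by
    intro b c hb hc
    obtain ⟨q1, hq1, h1⟩ := htrans b hb
    obtain ⟨q2, hq2, h2⟩ := htrans c hc
    refine ⟨⟨q2 * q1⁻¹, Q.mul_mem hq2 (Q.inv_mem hq1)⟩, ?_, ?_⟩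
    · show (q2 * q1⁻¹) • b = c
      rw [mul_smul, ← h1, inv_smul_smul, h2]
    · rintro ⟨y, hy⟩ hyb
      apply Subtype.ext
      show y = q2 * q1⁻¹
      apply huniq y hy _ (Q.mul_mem hq2 (Q.inv_mem hq1)) b hb
      have hyb' : y • b = c := hyb
      rw [hyb', mul_smul, ← h1, inv_smul_smul, h2]
  have hcardΩ : Nat.card Ω = Nat.card Q + 1 := by
    let f : Option Q → Ω := fun o => match o with
      | none => a
      | some q => (q : G) • (t • a)
    have hQa : ∀ q : Q, (q : G) • (t • a) ≠ a := by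
      intro q hq
      have h1 : (q : G) • a = a := MulAction.mem_stabilizer_iff.mp (hS.le q.2)
      exact hta (smul_left_cancel (q : G) (hq.trans h1.symm))
    have hf : Function.Bijective f := by
      constructor
      · rintro (_ | q1) (_ | q2) h
        · rfl
        · exact absurd h.symm (hQa q2)
        · exact absurd h (hQa q1)
        · congr 1
          apply Subtype.ext
          exact huniq _ q1.2 _ q2.2 _ hta h
      · intro b
        by_cases hb : b = a
        · exact ⟨none, hb.symm⟩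
        · obtain ⟨q, hq, h⟩ := htrans b hb
          exact ⟨some ⟨q, hq⟩, h⟩
    rw [← Nat.card_congr (Equiv.ofBijective f hf), Finite.card_option]
  have hcardA : Nat.card (MulAction.stabilizer G a) = Nat.card Q * Nat.card D := by
    let f : Q × D → MulAction.stabilizer G a := fun p =>
      ⟨(p.1 : G) * (p.2 : G), Subgroup.mul_mem _ (hS.le p.1.2) (hDA p.2.2)⟩
    have hf : Function.Bijective f := by
      constructor
      · rintro ⟨⟨q1, hq1⟩, ⟨d1, hd1⟩⟩ ⟨⟨q2, hq2⟩, ⟨d2, hd2⟩⟩ h
        have h' : q1 * d1 = q2 * d2 := congrArg Subtype.val h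
        have e : q2⁻¹ * q1 = d2 * d1⁻¹ := by
          rw [inv_mul_eq_iff_eq_mul, ← mul_assoc, ← h']; group
        have hm : q2⁻¹ * q1 ∈ Q ⊓ MulAction.stabilizer G (t • a) := by
          refine ⟨Q.mul_mem (Q.inv_mem hq2) hq1, ?_⟩
          rw [e]
          exact (D.mul_mem hd2 (D.inv_mem hd1)).2
        rw [hS.inf_eq_bot, Subgroup.mem_bot] at hm
        have hq : q1 = q2 := by
          have := eq_inv_of_mul_eq_one_right hm
          rw [inv_inv] at this
          exact this
        subst hq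
        have hd : d1 = d2 := mul_left_cancel h'
        subst hd
        rfl
      · rintro ⟨h, hh⟩
        obtain ⟨q, hq, d, hd, rfl⟩ := hfac h hh
        exact ⟨(⟨q, hq⟩, ⟨d, hd⟩), rfl⟩
    rw [← Nat.card_congr (Equiv.ofBijective f hf), Nat.card_prod]
  have hcardG : Nat.card G = Nat.card Q * Nat.card D * (Nat.card Q + 1) := by
    haveI : MulAction.IsPretransitive G Ω := by
      constructor
      intro x y
      by_cases hxy : x = y
      · exact ⟨1, by rw [one_smul, hxy]⟩
      · obtain ⟨g, h1, _⟩ := h2t (a := x) (b := y) (c := y) (d := x) hxy (Ne.symm hxy)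
        exact ⟨g, h1⟩
    rw [← Subgroup.index_mul_card (MulAction.stabilizer G a),
      MulAction.index_stabilizer_of_transitive, hcardΩ, hcardA, mul_comm]
  refine ⟨hreg, hcardΩ, hcardG, ?_, ?_⟩
  · obtain ⟨P0⟩ : Nonempty (Sylow 2 Q) := inferInstance
    haveI : Fact (Nat.Prime 2) := ⟨Nat.prime_two⟩
    have hc0 : Nat.card P0 = 2 ^ (Nat.card Q).factorization 2 := P0.card_eq_multiplicity
    have hcm : Nat.card ((P0 : Subgroup Q).map Q.subtype) = Nat.card P0 :=
      Subgroup.card_map_of_injective Q.subtype_injective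
    have hfacz : (Nat.card G).factorization 2 = (Nat.card Q).factorization 2 := by
      have hQ0 : Nat.card Q ≠ 0 := Nat.card_pos.ne'
      have hD0 : Nat.card D ≠ 0 := Nat.card_pos.ne'
      rw [hcardG, Nat.factorization_mul (mul_ne_zero hQ0 hD0) (Nat.succ_ne_zero _),
        Nat.factorization_mul hQ0 hD0]
      have h1 : (Nat.card D).factorization 2 = 0 := by
        apply Nat.factorization_eq_zero_of_not_dvd
        intro h
        exact (Nat.not_even_iff_odd.mpr hS.odd_card) (even_iff_two_dvd.mpr h)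
      have h2 : (Nat.card Q + 1).factorization 2 = 0 := by
        apply Nat.factorization_eq_zero_of_not_dvd
        intro h
        exact (Nat.not_even_iff_odd.mpr hS.even_card.add_one) (even_iff_two_dvd.mpr h)
      simp [h1, h2]
    refine ⟨Sylow.ofCard ((P0 : Subgroup Q).map Q.subtype) (by rw [hcm, hc0, hfacz]), ?_⟩
    rw [Sylow.coe_ofCard]
    rintro _ ⟨x, _, rfl⟩
    exact x.2
  · intro g hg
    have hga : g⁻¹ • a ≠ a := by
      intro h
      apply hg
      rw [MulAction.mem_stabilizer_iff]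
      rw [inv_smul_eq_iff] at h
      exact h.symm
    obtain ⟨q, hq, hqa⟩ := htrans _ hga
    refine ⟨(g * q * t, q⁻¹), ⟨?_, Q.inv_mem hq, ?_⟩, ?_⟩
    · rw [MulAction.mem_stabilizer_iff]
      show (g * q * t) • a = a
      rw [mul_smul, mul_smul, hqa, smul_inv_smul]
    · show g = g * q * t * t * q⁻¹
      rw [mul_assoc (g * q) t t, hS.mul_self]; group
    · rintro ⟨x, y⟩ ⟨hx, hy, hgxy⟩
      have hx' : x ∈ MulAction.stabilizer G a := hx
      have hy' : y ∈ Q := hy
      have hg' : g = x * t * y := hgxy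
      have hxa : x⁻¹ • a = a := MulAction.mem_stabilizer_iff.mp (Subgroup.inv_mem _ hx')
      have h1 : y⁻¹ • (t • a) = g⁻¹ • a := by
        rw [hg', mul_inv_rev, mul_inv_rev, mul_smul, mul_smul, hxa, htinv]
      have h2 : y⁻¹ = q := huniq _ (Q.inv_mem hy') _ hq _ hta (h1.trans hqa.symm)
      have h3 : y = q⁻¹ := by rw [← h2, inv_inv]
      have h4 : x = g * q * t := by
        rw [hg', h3, mul_assoc (x * t), inv_mul_cancel, mul_one, mul_assoc, hS.mul_self, mul_one]
      rw [h3, h4]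

end Cfsg.Agent.S1119
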