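import Cfsg.Statements.S1120
import Cfsg.Agent.S1119
import Cfsg.Agent.S0058

set_option autoImplicit false
open scoped Pointwise
open Cfsg

namespace Cfsg.Agent.S1120

/-- In the rank-one set-up (`G` finite and doubly transitive on `Ω`, `t` an involution moving `a`, `Q` normal in `G_a` with `G_a = Q D`, `Q ⊓ D = 1` for the two-point stabiliser `D = G_a ⊓ G_{t • a}`, `|Q|` even, `|D|` odd), if `G` has 2-rank at least 2 then `O_{2'}(G)` equals the normal core of `G_a`. -/
theorem result {G Ω : Type*} [Group G] [Finite G] [MulAction G Ω] {a : Ω} {t : G} {Q : Subgroup G}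
    (hS : Cfsg.IsRankOneSetup G Ω a t Q)
    (h2 : ∃ x y : G, x ≠ 1 ∧ y ≠ 1 ∧ x ≠ y ∧ x * x = 1 ∧ y * y = 1 ∧ x * y = y * x) :
    Cfsg.pPrimeCore 2 G = (MulAction.stabilizer G a).normalCore := by
  have h2t : ∀ {a b c d : Ω} (_ : a ≠ b) (_ : c ≠ d), ∃ g : G, g • a = c ∧ g • b = d :=
    MulAction.is_two_pretransitive_iff.mp hS.two_transitive
  have hta : t • a ≠ a := fun h => hS.not_mem (MulAction.mem_stabilizer_iff.mpr h)
  have fix_unique : ∀ x ∈ Q, x ≠ 1 → ∀ b : Ω, x • b = b → b = a := by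
    intro x hx hx1 b hb
    by_contra hba
    obtain ⟨h, h1, h2⟩ := h2t (a := a) (b := t • a) (c := a) (d := b) hta.symm (Ne.symm hba)
    have hh : h⁻¹ ∈ MulAction.stabilizer G a := by
      apply Subgroup.inv_mem
      exact MulAction.mem_stabilizer_iff.mpr h1
    have hq := hS.conj_mem h⁻¹ hh x hx
    rw [inv_inv] at hq
    have hfix : h⁻¹ * x * h ∈ MulAction.stabilizer G (t • a) := by
      rw [MulAction.mem_stabilizer_iff, mul_smul, mul_smul, h2, hb, ← h2, inv_smul_smul]
    have hbot : h⁻¹ * x * h ∈ Q ⊓ MulAction.stabilizer G (t • a) := ⟨hq, hfix⟩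
    rw [hS.inf_eq_bot, Subgroup.mem_bot] at hbot
    apply hx1
    have : x = h * (h⁻¹ * x * h) * h⁻¹ := by group
    rw [this, hbot]; group
  obtain ⟨_, _, _, ⟨P, hPQ⟩, _⟩ := Cfsg.Agent.S1119.result hS
  have : Fact (Nat.Prime 2) := ⟨Nat.prime_two⟩
  have L1 : ∀ u : G, u * u = 1 → ∃ g : G, g * u * g⁻¹ ∈ Q := by
    intro u hu
    have hp : IsPGroup 2 (Subgroup.zpowers u) := by
      rintro ⟨x, hx⟩
      obtain ⟨i, rfl⟩ := Subgroup.mem_zpowers_iff.mp hx
      refine ⟨1, ?_⟩
      apply Subtype.ext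
      show (u ^ i) ^ (2 ^ 1) = 1
      have h2 : u ^ ((2 : ℕ) : ℤ) = 1 := by rw [zpow_natCast, pow_two, hu]
      rw [pow_one, ← zpow_natCast, ← zpow_mul, mul_comm, zpow_mul, h2, one_zpow]
    obtain ⟨P', hP'⟩ := hp.exists_le_sylow
    obtain ⟨g, hg⟩ := MulAction.exists_smul_eq G P' P
    refine ⟨g, hPQ ?_⟩
    rw [← hg]
    have hu' : u ∈ (P' : Subgroup G) := hP' (Subgroup.mem_zpowers u)
    exact Subgroup.smul_mem_pointwise_smul u (MulAut.conj g) (P' : Subgroup G) hu'
  have L2 : ∀ u : G, u ≠ 1 → u * u = 1 → ∃ b : Ω, u • b = b ∧ ∀ c : Ω, u • c = c → c = b := by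
    intro u hu1 hu
    obtain ⟨g, hg⟩ := L1 u hu
    have hne : g * u * g⁻¹ ≠ 1 := by
      intro h
      apply hu1
      have : u = g⁻¹ * (g * u * g⁻¹) * g := by group
      rw [this, h]; group
    have hfa : (g * u * g⁻¹) • a = a := MulAction.mem_stabilizer_iff.mp (hS.le hg)
    refine ⟨g⁻¹ • a, ?_, ?_⟩
    · rw [mul_smul, mul_smul, smul_eq_iff_eq_inv_smul] at hfa
      exact hfa
    · intro c hc
      have := fix_unique _ hg hne (g • c) (by rw [mul_smul, mul_smul, inv_smul_smul, hc])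
      rw [← this, inv_smul_smul]
  obtain ⟨x, y, hx1, hy1, hxy, hxx, hyy, hcomm⟩ := h2
  have hxinv : x⁻¹ = x := inv_eq_of_mul_eq_one_left hxx
  have hyinv : y⁻¹ = y := inv_eq_of_mul_eq_one_left hyy
  have e6 : y * x = x * y := hcomm.symm
  have e1 : x * (x * y) = y := by rw [← mul_assoc, hxx, one_mul]
  have e2 : y * (x * y) = x := by rw [← e6, ← mul_assoc, hyy, one_mul]
  have e3 : x * y * x = y := by rw [mul_assoc, e6, e1]
  have e4 : x * y * y = x := by rw [mul_assoc, hyy, mul_one]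
  have e5 : x * y * (x * y) = 1 := by rw [mul_assoc, e2, hxx]
  let A : Subgroup G :=
    { carrier := {g | g = 1 ∨ g = x ∨ g = y ∨ g = x * y}
      one_mem' := Or.inl rfl
      mul_mem' := by
        rintro u v (hu | hu | hu | hu) (hv | hv | hv | hv) <;> rw [hu, hv] <;>
          simp only [Set.mem_setOf_eq, one_mul, mul_one, hxx, hyy, e1, e2, e3, e4, e5, e6,
            true_or, or_true]
      inv_mem' := by
        rintro u (hu | hu | hu | hu) <;> rw [hu] <;>
          simp only [Set.mem_setOf_eq, inv_one, hxinv, hyinv, mul_inv_rev, e6, true_or, or_true] }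
  have hxA : x ∈ A := Or.inr (Or.inl rfl)
  have hyA : y ∈ A := Or.inr (Or.inr (Or.inl rfl))
  have hAsq : ∀ g ∈ A, g * g = 1 := by
    rintro g (hg | hg | hg | hg) <;> rw [hg]
    · exact one_mul 1
    · exact hxx
    · exact hyy
    · exact e5
  have hAcomm : ∀ u ∈ A, ∀ v ∈ A, u * v = v * u := by
    intro u hu v hv
    have h1 : u⁻¹ = u := inv_eq_of_mul_eq_one_left (hAsq u hu)
    have h2 : v⁻¹ = v := inv_eq_of_mul_eq_one_left (hAsq v hv)
    have h3 : (u * v)⁻¹ = u * v := inv_eq_of_mul_eq_one_left (hAsq _ (A.mul_mem hu hv))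
    rw [← h3, mul_inv_rev, h1, h2]
  have : IsMulCommutative A := ⟨⟨fun u v => Subtype.ext (hAcomm u u.2 v v.2)⟩⟩
  have hncyc : ¬ IsCyclic A := by
    rintro ⟨⟨g, hg⟩⟩
    have hgg : g * g = 1 := Subtype.ext (hAsq g g.2)
    have hz : ∀ u : A, u = 1 ∨ u = g := by
      intro u
      obtain ⟨i, rfl⟩ := Subgroup.mem_zpowers_iff.mp (hg u)
      obtain ⟨k, hk | hk⟩ := Int.even_or_odd' i
      · left; rw [hk, zpow_mul, zpow_two, hgg, one_zpow]
      · right; rw [hk, zpow_add, zpow_mul, zpow_two, hgg, one_zpow, one_mul, zpow_one]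
    rcases hz ⟨x, hxA⟩ with h | h
    · exact hx1 (congrArg Subtype.val h)
    rcases hz ⟨y, hyA⟩ with h' | h'
    · exact hy1 (congrArg Subtype.val h')
    exact hxy (congrArg Subtype.val (h.trans h'.symm))
  have hpA : IsPGroup 2 A := fun u => ⟨1, by
    rw [pow_one, pow_two]; exact Subtype.ext (hAsq u u.2)⟩
  obtain ⟨nA, hnA⟩ := IsPGroup.iff_card.mp hpA
  obtain ⟨p, hp, hpu⟩ := L2 x hx1 hxx
  obtain ⟨g0, hg0⟩ : ∃ g : G, g • p = a := by
    by_cases hpa : p = a
    · exact ⟨1, by rw [one_smul, hpa]⟩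
    · obtain ⟨g, h1, _⟩ := h2t (a := p) (b := a) (c := a) (d := p) hpa (Ne.symm hpa)
      exact ⟨g, h1⟩
  apply le_antisymm
  · apply sSup_le
    rintro N' ⟨hN, hcopN⟩
    apply (Subgroup.normal_le_normalCore).mpr
    have hAN : A ≤ Subgroup.normalizer (N' : Set G) := by
      intro g _
      rw [Subgroup.mem_normalizer_iff]
      intro h
      refine ⟨fun hh => hN.conj_mem h hh g, fun hh => ?_⟩
      have h1 := hN.conj_mem _ hh g⁻¹
      have e : g⁻¹ * (g * h * g⁻¹) * g⁻¹⁻¹ = h := by group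
      rwa [e] at h1
    have hcop : (Nat.card A).Coprime (Nat.card N') := by
      rw [hnA]
      exact Nat.Coprime.pow_left nA hcopN.symm
    have hgen := Cfsg.Agent.S0058.result A N' hncyc hAN hcop
    have hle : N' ≤ MulAction.stabilizer G p := by
      refine le_trans (le_of_eq hgen.symm) ?_
      apply iSup₂_le
      rintro v ⟨hvA, hv1⟩
      intro n hn
      have hnv : v * n = n * v := Subgroup.mem_centralizer_iff.mp hn.2 v (Set.mem_singleton v)
      have hvv := hAsq v hvA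
      obtain ⟨pv, hpv, hpvu⟩ := L2 v hv1 hvv
      have hvx : v * x = x * v := hAcomm v hvA x hxA
      have hvp : v • p = p := hpu _ (by rw [← mul_smul, ← hvx, mul_smul, hp])
      have hpp : p = pv := hpvu p hvp
      rw [MulAction.mem_stabilizer_iff]
      have h5 : v • (n • p) = n • p := by rw [← mul_smul, hnv, mul_smul, hvp]
      exact (hpvu _ h5).trans hpp.symm
    intro n hn
    have h1 := hle (hN.conj_mem n hn g0⁻¹)
    rw [MulAction.mem_stabilizer_iff, inv_inv, mul_smul, mul_smul, hg0, inv_smul_eq_iff, hg0] at h1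
    exact MulAction.mem_stabilizer_iff.mpr h1
  · apply le_sSup
    have hnorm : ((MulAction.stabilizer G a).normalCore).Normal := Subgroup.normalCore_normal _
    refine ⟨hnorm, ?_⟩
    have hle : (MulAction.stabilizer G a).normalCore ≤
        MulAction.stabilizer G a ⊓ MulAction.stabilizer G (t • a) := by
      apply le_inf (Subgroup.normalCore_le _)
      intro n hn
      have h1 := Subgroup.normalCore_le _ (hnorm.conj_mem n hn t⁻¹)
      rw [MulAction.mem_stabilizer_iff, inv_inv, mul_smul, mul_smul, inv_smul_eq_iff] at h1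
      exact MulAction.mem_stabilizer_iff.mpr h1
    have hodd : Odd (Nat.card (MulAction.stabilizer G a).normalCore) :=
      Odd.of_dvd_nat hS.odd_card (Subgroup.card_dvd_of_le hle)
    apply Nat.Coprime.symm
    apply (Nat.Prime.coprime_iff_not_dvd Nat.prime_two).mpr
    intro h
    exact (Nat.not_even_iff_odd.mpr hodd) (even_iff_two_dvd.mpr h)

end Cfsg.Agent.S1120
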