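import Cfsg.Statements.S1121
import Cfsg.Agent.S1119

set_option autoImplicit false
open scoped Pointwise
open Cfsg

namespace Cfsg.Agent.S1121

/-- In the rank-one set-up (`G` finite and doubly transitive on `Ω`, `t` an involution moving `a`, `Q` normal in `G_a` with `G_a = Q D`, `Q ⊓ D = 1` for the two-point stabiliser `D = G_a ⊓ G_{t • a}`, `|Q|` even, `|D|` odd): if `s` is an involution of `G_a` and `u` an involution outside `G_a`, then `s u` has odd order; and any two involutions of `G` are conjugate. -/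
theorem result {G Ω : Type*} [Group G] [Finite G] [MulAction G Ω] {a : Ω} {t : G} {Q : Subgroup G}
    (hS : Cfsg.IsRankOneSetup G Ω a t Q) :
    (∀ s u : G, s ∈ MulAction.stabilizer G a → s ≠ 1 → s * s = 1 → u ∉ MulAction.stabilizer G a → u ≠ 1 → u * u = 1 → Odd (orderOf (s * u))) ∧
      ∀ u v : G, u ≠ 1 → u * u = 1 → v ≠ 1 → v * v = 1 → ∃ g : G, g * u * g⁻¹ = v := by
  have h2t : ∀ {a b c d : Ω} (_ : a ≠ b) (_ : c ≠ d), ∃ g : G, g • a = c ∧ g • b = d :=
    MulAction.is_two_pretransitive_iff.mp hS.two_transitive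
  have hta : t • a ≠ a := fun h => hS.not_mem (MulAction.mem_stabilizer_iff.mpr h)
  have fix_unique : ∀ x ∈ Q, x ≠ 1 → ∀ b : Ω, x • b = b → b = a := by
    intro x hx hx1 b hb
    by_contra hba
    obtain ⟨h, h1, h2⟩ := h2t (a := a) (b := t • a) (c := a) (d := b) hta.symm (Ne.symm hba)
    have hh : h⁻¹ ∈ MulAction.stabilizer G a := by
      apply Subgroup.inv_mem
      exact MulAction.mem_stabilizer_iff.mpr h1
    have hq := hS.conj_mem h⁻¹ hh x hx
    rw [inv_inv] at hq
    have hfix : h⁻¹ * x * h ∈ MulAction.stabilizer G (t • a) := by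
      rw [MulAction.mem_stabilizer_iff, mul_smul, mul_smul, h2, hb, ← h2, inv_smul_smul]
    have hbot : h⁻¹ * x * h ∈ Q ⊓ MulAction.stabilizer G (t • a) := ⟨hq, hfix⟩
    rw [hS.inf_eq_bot, Subgroup.mem_bot] at hbot
    apply hx1
    have : x = h * (h⁻¹ * x * h) * h⁻¹ := by group
    rw [this, hbot]; group
  obtain ⟨_, _, _, ⟨P, hPQ⟩, _⟩ := Cfsg.Agent.S1119.result hS
  have : Fact (Nat.Prime 2) := ⟨Nat.prime_two⟩
  have L1 : ∀ u : G, u * u = 1 → ∃ g : G, g * u * g⁻¹ ∈ Q := by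
    intro u hu
    have hp : IsPGroup 2 (Subgroup.zpowers u) := by
      rintro ⟨x, hx⟩
      obtain ⟨i, rfl⟩ := Subgroup.mem_zpowers_iff.mp hx
      refine ⟨1, ?_⟩
      apply Subtype.ext
      show (u ^ i) ^ (2 ^ 1) = 1
      have h2 : u ^ ((2 : ℕ) : ℤ) = 1 := by rw [zpow_natCast, pow_two, hu]
      rw [pow_one, ← zpow_natCast, ← zpow_mul, mul_comm, zpow_mul, h2, one_zpow]
    obtain ⟨P', hP'⟩ := hp.exists_le_sylow
    obtain ⟨g, hg⟩ := MulAction.exists_smul_eq G P' P
    refine ⟨g, hPQ ?_⟩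
    rw [← hg]
    have hu' : u ∈ (P' : Subgroup G) := hP' (Subgroup.mem_zpowers u)
    exact Subgroup.smul_mem_pointwise_smul u (MulAut.conj g) (P' : Subgroup G) hu'
  have L2 : ∀ u : G, u ≠ 1 → u * u = 1 → ∃ b : Ω, u • b = b ∧ ∀ c : Ω, u • c = c → c = b := by
    intro u hu1 hu
    obtain ⟨g, hg⟩ := L1 u hu
    have hne : g * u * g⁻¹ ≠ 1 := by
      intro h
      apply hu1
      have : u = g⁻¹ * (g * u * g⁻¹) * g := by group
      rw [this, h]; group
    have hfa : (g * u * g⁻¹) • a = a := MulAction.mem_stabilizer_iff.mp (hS.le hg)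
    refine ⟨g⁻¹ • a, ?_, ?_⟩
    · rw [mul_smul, mul_smul, smul_eq_iff_eq_inv_smul] at hfa
      exact hfa
    · intro c hc
      have := fix_unique _ hg hne (g • c) (by rw [mul_smul, mul_smul, inv_smul_smul, hc])
      rw [← this, inv_smul_smul]
  have L3 : ∀ (s u : G) (b : Ω), s ≠ 1 → s * s = 1 → u * u = 1 → s • b = b → u • b ≠ b →
      Odd (orderOf (s * u)) := by
    intro s u b hs1 hs hu hsb hub
    rw [← Nat.not_even_iff_odd]
    rintro ⟨m, hm⟩
    have hsinv : s⁻¹ = s := inv_eq_of_mul_eq_one_left hs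
    have huinv : u⁻¹ = u := inv_eq_of_mul_eq_one_left hu
    have hpos : 0 < orderOf (s * u) := orderOf_pos _
    have hz1 : (s * u) ^ m ≠ 1 := pow_ne_one_of_lt_orderOf (by omega) (by omega)
    have hzz : (s * u) ^ m * (s * u) ^ m = 1 := by
      rw [← pow_add, ← hm, pow_orderOf_eq_one]
    have hzinv : ((s * u) ^ m)⁻¹ = (s * u) ^ m := inv_eq_of_mul_eq_one_left hzz
    have hcs : s * (s * u) ^ m * s⁻¹ = (s * u) ^ m := by
      rw [← conj_pow]
      have : s * (s * u) * s⁻¹ = (s * u)⁻¹ := by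
        rw [mul_inv_rev, hsinv, huinv, ← mul_assoc, hs, one_mul]
      rw [this, inv_pow, hzinv]
    have hcu : u * (s * u) ^ m * u⁻¹ = (s * u) ^ m := by
      rw [← conj_pow]
      have : u * (s * u) * u⁻¹ = (s * u)⁻¹ := by
        rw [mul_inv_rev, hsinv, huinv, mul_assoc, mul_assoc, hu, mul_one]
      rw [this, inv_pow, hzinv]
    obtain ⟨c, hc, hcu'⟩ := L2 _ hz1 hzz
    obtain ⟨b', hb', hbu'⟩ := L2 s hs1 hs
    have hsc : s • c = c := by
      apply hcu'
      have : (s * u) ^ m * s = s * (s * u) ^ m := by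
        rw [mul_inv_eq_iff_eq_mul] at hcs
        exact hcs.symm
      rw [← mul_smul, this, mul_smul, hc]
    have huc : u • c = c := by
      apply hcu'
      have : (s * u) ^ m * u = u * (s * u) ^ m := by
        rw [mul_inv_eq_iff_eq_mul] at hcu
        exact hcu.symm
      rw [← mul_smul, this, mul_smul, hc]
    have hcb : c = b := (hbu' c hsc).trans (hbu' b hsb).symm
    rw [hcb] at huc
    exact hub huc
  have L4 : ∀ s u : G, s * s = 1 → u * u = 1 → Odd (orderOf (s * u)) → ∃ g : G, g * s * g⁻¹ = u := by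
    rintro s u hs hu ⟨k, hk⟩
    have hsinv : s⁻¹ = s := inv_eq_of_mul_eq_one_left hs
    have huinv : u⁻¹ = u := inv_eq_of_mul_eq_one_left hu
    refine ⟨(s * u) ^ k, ?_⟩
    have hcs : s * (s * u) ^ k * s⁻¹ = ((s * u) ^ k)⁻¹ := by
      rw [← conj_pow]
      have : s * (s * u) * s⁻¹ = (s * u)⁻¹ := by
        rw [mul_inv_rev, hsinv, huinv, ← mul_assoc, hs, one_mul]
      rw [this, inv_pow]
    have hyy : (s * u) ^ k * (s * u) ^ k * (s * u) = 1 := by
      rw [← pow_add, ← pow_succ, ← two_mul, ← hk, pow_orderOf_eq_one]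
    have hyy' : (s * u) ^ k * (s * u) ^ k = u * s := by
      have := eq_inv_of_mul_eq_one_left hyy
      rw [this, mul_inv_rev, hsinv, huinv]
    rw [← hcs, hsinv]
    calc (s * u) ^ k * s * (s * (s * u) ^ k * s)
        = (s * u) ^ k * (s * s) * (s * u) ^ k * s := by group
      _ = (s * u) ^ k * (s * u) ^ k * s := by rw [hs, mul_one]
      _ = u := by rw [hyy', mul_assoc, hs, mul_one]
  refine ⟨?_, ?_⟩
  · intro s u hsa hs1 hs hua _ hu
    exact L3 s u a hs1 hs hu (MulAction.mem_stabilizer_iff.mp hsa)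
      (fun h => hua (MulAction.mem_stabilizer_iff.mpr h))
  · intro u v hu1 hu hv1 hv
    obtain ⟨b, hb, hbu⟩ := L2 u hu1 hu
    by_cases hvb : v • b = b
    · -- pick h moving b
      have hex : ∃ h : G, h • b ≠ b := by
        by_cases hba : b = a
        · exact ⟨t, by rw [hba]; exact hta⟩
        · obtain ⟨h, h1, _⟩ := h2t (a := b) (b := a) (c := a) (d := b) hba (Ne.symm hba)
          exact ⟨h, by rw [h1]; exact Ne.symm hba⟩
      obtain ⟨h, hh⟩ := hex
      have hw : (h * u * h⁻¹) * (h * u * h⁻¹) = 1 := by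
        have : (h * u * h⁻¹) * (h * u * h⁻¹) = h * (u * u) * h⁻¹ := by group
        rw [this, hu]; group
      have hwb : (h * u * h⁻¹) • b ≠ b := by
        intro h1
        rw [mul_smul, mul_smul, smul_eq_iff_eq_inv_smul] at h1
        have h2 := hbu _ h1
        apply hh
        rw [inv_smul_eq_iff] at h2
        exact h2.symm
      obtain ⟨g, hg⟩ := L4 v _ hv hw (L3 v _ b hv1 hv hw hvb hwb)
      refine ⟨g⁻¹ * h, ?_⟩
      have : v = g⁻¹ * (g * v * g⁻¹) * g := by group
      rw [this, hg]; group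
    · exact L4 u v hu hv (L3 u v b hu1 hu hv hb hvb)

end Cfsg.Agent.S1121
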