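import Cfsg.Statements.S1122
import Cfsg.Agent.S1119

set_option autoImplicit false
open scoped Pointwise
open Cfsg

namespace Cfsg.Agent.S1122

/-- In the rank-one set-up (`G` finite and doubly transitive on `Ω`, `t` an involution moving `a`, `Q` normal in `G_a` with `G_a = Q D`, `Q ⊓ D = 1` for the two-point stabiliser `D = G_a ⊓ G_{t • a}`, `|Q|` even, `|D|` odd), with `K` the set of elements of `D` inverted by `t`: `|K|` is the number of involutions of `G_a`, and for each involution `s` of `G_a` the `K`-conjugates of `s` are all the involutions of `G_a`. -/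
theorem result {G Ω : Type*} [Group G] [Finite G] [MulAction G Ω] {a : Ω} {t : G} {Q : Subgroup G}
    (hS : Cfsg.IsRankOneSetup G Ω a t Q) :
    Nat.card (Cfsg.invertedBy (MulAction.stabilizer G a ⊓ MulAction.stabilizer G (t • a)) t) = Nat.card (Cfsg.involutionsIn (MulAction.stabilizer G a : Set G)) ∧
      ∀ s ∈ Cfsg.involutionsIn (MulAction.stabilizer G a : Set G), ∀ s' ∈ Cfsg.involutionsIn (MulAction.stabilizer G a : Set G),
        ∃ k ∈ Cfsg.invertedBy (MulAction.stabilizer G a ⊓ MulAction.stabilizer G (t • a)) t, k⁻¹ * s * k = s' := by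
  have h2t : ∀ {a b c d : Ω} (_ : a ≠ b) (_ : c ≠ d), ∃ g : G, g • a = c ∧ g • b = d :=
    MulAction.is_two_pretransitive_iff.mp hS.two_transitive
  have hta : t • a ≠ a := fun h => hS.not_mem (MulAction.mem_stabilizer_iff.mpr h)
  have fix_unique : ∀ x ∈ Q, x ≠ 1 → ∀ b : Ω, x • b = b → b = a := by
    intro x hx hx1 b hb
    by_contra hba
    obtain ⟨h, h1, h2⟩ := h2t (a := a) (b := t • a) (c := a) (d := b) hta.symm (Ne.symm hba)
    have hh : h⁻¹ ∈ MulAction.stabilizer G a := by
      apply Subgroup.inv_mem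
      exact MulAction.mem_stabilizer_iff.mpr h1
    have hq := hS.conj_mem h⁻¹ hh x hx
    rw [inv_inv] at hq
    have hfix : h⁻¹ * x * h ∈ MulAction.stabilizer G (t • a) := by
      rw [MulAction.mem_stabilizer_iff, mul_smul, mul_smul, h2, hb, ← h2, inv_smul_smul]
    have hbot : h⁻¹ * x * h ∈ Q ⊓ MulAction.stabilizer G (t • a) := ⟨hq, hfix⟩
    rw [hS.inf_eq_bot, Subgroup.mem_bot] at hbot
    apply hx1
    have : x = h * (h⁻¹ * x * h) * h⁻¹ := by group
    rw [this, hbot]; group
  obtain ⟨_, _, _, ⟨P, hPQ⟩, _⟩ := Cfsg.Agent.S1119.result hS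
  have : Fact (Nat.Prime 2) := ⟨Nat.prime_two⟩
  have L1 : ∀ u : G, u * u = 1 → ∃ g : G, g * u * g⁻¹ ∈ Q := by
    intro u hu
    have hp : IsPGroup 2 (Subgroup.zpowers u) := by
      rintro ⟨x, hx⟩
      obtain ⟨i, rfl⟩ := Subgroup.mem_zpowers_iff.mp hx
      refine ⟨1, ?_⟩
      apply Subtype.ext
      show (u ^ i) ^ (2 ^ 1) = 1
      have h2 : u ^ ((2 : ℕ) : ℤ) = 1 := by rw [zpow_natCast, pow_two, hu]
      rw [pow_one, ← zpow_natCast, ← zpow_mul, mul_comm, zpow_mul, h2, one_zpow]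
    obtain ⟨P', hP'⟩ := hp.exists_le_sylow
    obtain ⟨g, hg⟩ := MulAction.exists_smul_eq G P' P
    refine ⟨g, hPQ ?_⟩
    rw [← hg]
    have hu' : u ∈ (P' : Subgroup G) := hP' (Subgroup.mem_zpowers u)
    exact Subgroup.smul_mem_pointwise_smul u (MulAut.conj g) (P' : Subgroup G) hu'
  have L2 : ∀ u : G, u ≠ 1 → u * u = 1 → ∃ b : Ω, u • b = b ∧ ∀ c : Ω, u • c = c → c = b := by
    intro u hu1 hu
    obtain ⟨g, hg⟩ := L1 u hu
    have hne : g * u * g⁻¹ ≠ 1 := by
      intro h
      apply hu1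
      have : u = g⁻¹ * (g * u * g⁻¹) * g := by group
      rw [this, h]; group
    have hfa : (g * u * g⁻¹) • a = a := MulAction.mem_stabilizer_iff.mp (hS.le hg)
    refine ⟨g⁻¹ • a, ?_, ?_⟩
    · rw [mul_smul, mul_smul, smul_eq_iff_eq_inv_smul] at hfa
      exact hfa
    · intro c hc
      have := fix_unique _ hg hne (g • c) (by rw [mul_smul, mul_smul, inv_smul_smul, hc])
      rw [← this, inv_smul_smul]
  have L3 : ∀ (s u : G) (b : Ω), s ≠ 1 → s * s = 1 → u * u = 1 → s • b = b → u • b ≠ b →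
      Odd (orderOf (s * u)) := by
    intro s u b hs1 hs hu hsb hub
    rw [← Nat.not_even_iff_odd]
    rintro ⟨m, hm⟩
    have hsinv : s⁻¹ = s := inv_eq_of_mul_eq_one_left hs
    have huinv : u⁻¹ = u := inv_eq_of_mul_eq_one_left hu
    have hpos : 0 < orderOf (s * u) := orderOf_pos _
    have hz1 : (s * u) ^ m ≠ 1 := pow_ne_one_of_lt_orderOf (by omega) (by omega)
    have hzz : (s * u) ^ m * (s * u) ^ m = 1 := by
      rw [← pow_add, ← hm, pow_orderOf_eq_one]
    have hzinv : ((s * u) ^ m)⁻¹ = (s * u) ^ m := inv_eq_of_mul_eq_one_left hzz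
    have hcs : s * (s * u) ^ m * s⁻¹ = (s * u) ^ m := by
      rw [← conj_pow]
      have : s * (s * u) * s⁻¹ = (s * u)⁻¹ := by
        rw [mul_inv_rev, hsinv, huinv, ← mul_assoc, hs, one_mul]
      rw [this, inv_pow, hzinv]
    have hcu : u * (s * u) ^ m * u⁻¹ = (s * u) ^ m := by
      rw [← conj_pow]
      have : u * (s * u) * u⁻¹ = (s * u)⁻¹ := by
        rw [mul_inv_rev, hsinv, huinv, mul_assoc, mul_assoc, hu, mul_one]
      rw [this, inv_pow, hzinv]
    obtain ⟨c, hc, hcu'⟩ := L2 _ hz1 hzz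
    obtain ⟨b', hb', hbu'⟩ := L2 s hs1 hs
    have hsc : s • c = c := by
      apply hcu'
      have : (s * u) ^ m * s = s * (s * u) ^ m := by
        rw [mul_inv_eq_iff_eq_mul] at hcs
        exact hcs.symm
      rw [← mul_smul, this, mul_smul, hc]
    have huc : u • c = c := by
      apply hcu'
      have : (s * u) ^ m * u = u * (s * u) ^ m := by
        rw [mul_inv_eq_iff_eq_mul] at hcu
        exact hcu.symm
      rw [← mul_smul, this, mul_smul, hc]
    have hcb : c = b := (hbu' c hsc).trans (hbu' b hsb).symm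
    rw [hcb] at huc
    exact hub huc
  have htinv : t⁻¹ = t := inv_eq_of_mul_eq_one_left hS.mul_self
  set D : Subgroup G := MulAction.stabilizer G a ⊓ MulAction.stabilizer G (t • a) with hD
  have hfixI : ∀ s : G, s ≠ 1 → s * s = 1 → s • a = a → ∀ c : Ω, s • c = c → c = a := by
    intro s hs1 hs hsa c hc
    obtain ⟨b0, _, hb0⟩ := L2 s hs1 hs
    exact (hb0 c hc).trans (hb0 a hsa).symm
  have hDodd : ∀ x ∈ D, x * x = 1 → x = 1 := by
    intro x hx hxx
    have h1 : orderOf x ∣ 2 := orderOf_dvd_of_pow_eq_one (by rw [pow_two, hxx])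
    have h2 : orderOf x ∣ Nat.card D := Subgroup.orderOf_dvd_natCard D hx
    rcases (Nat.dvd_prime Nat.prime_two).mp h1 with h | h
    · exact orderOf_eq_one_iff.mp h
    · rw [h] at h2
      exact absurd (even_iff_two_dvd.mpr h2) (Nat.not_even_iff_odd.mpr hS.odd_card)
  have L4' : ∀ s u : G, s * s = 1 → u * u = 1 → Odd (orderOf (s * u)) →
      ∃ v : G, v * v = 1 ∧ v * s * v = u ∧ ∀ x : G, Commute x s → Commute x u → Commute x v := by
    rintro s u hs hu ⟨k, hk⟩
    have hsinv : s⁻¹ = s := inv_eq_of_mul_eq_one_left hs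
    have huinv : u⁻¹ = u := inv_eq_of_mul_eq_one_left hu
    have hcs : s * (s * u) ^ k * s⁻¹ = ((s * u) ^ k)⁻¹ := by
      rw [← conj_pow]
      have : s * (s * u) * s⁻¹ = (s * u)⁻¹ := by
        rw [mul_inv_rev, hsinv, huinv, ← mul_assoc, hs, one_mul]
      rw [this, inv_pow]
    have hyy : (s * u) ^ k * (s * u) ^ k * (s * u) = 1 := by
      rw [← pow_add, ← pow_succ, ← two_mul, ← hk, pow_orderOf_eq_one]
    have hyy' : (s * u) ^ k * (s * u) ^ k = u * s := by
      have := eq_inv_of_mul_eq_one_left hyy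
      rw [this, mul_inv_rev, hsinv, huinv]
    refine ⟨(s * u) ^ k * s, ?_, ?_, ?_⟩
    · rw [hsinv] at hcs
      calc (s * u) ^ k * s * ((s * u) ^ k * s) = (s * u) ^ k * (s * (s * u) ^ k * s) := by group
        _ = 1 := by rw [hcs, mul_inv_cancel]
    · calc (s * u) ^ k * s * s * ((s * u) ^ k * s)
          = (s * u) ^ k * (s * s) * (s * u) ^ k * s := by group
        _ = (s * u) ^ k * (s * u) ^ k * s := by rw [hs, mul_one]
        _ = u := by rw [hyy', mul_assoc, hs, mul_one]
    · intro x hxs hxu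
      exact ((hxs.mul_right hxu).pow_right k).mul_right hxs
  have L5 : ∀ s u v v' : G, v * v = 1 → v' * v' = 1 → v * s * v = u → v' * s * v' = u →
      (∀ x : G, Commute x s → Commute x u → Commute x v) → (v' * v) * (v' * v) = 1 := by
    intro s u v v' hvv hv'v' hvs hv's hvc
    have hvinv : v⁻¹ = v := inv_eq_of_mul_eq_one_left hvv
    have hv'inv : v'⁻¹ = v' := inv_eq_of_mul_eq_one_left hv'v'
    have e1 : v * s = u * v := by
      have := eq_mul_inv_of_mul_eq hvs
      rw [hvinv] at this; exact this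
    have e2 : s * v' = v' * u := by
      have := eq_inv_mul_of_mul_eq ((mul_assoc v' s v').symm.trans hv's)
      rw [hv'inv] at this; exact this
    have e3 : v * u = s * v := by
      rw [← hvs, ← mul_assoc, ← mul_assoc, hvv, one_mul]
    have e4 : u * v' = v' * s := by
      rw [← hv's, mul_assoc (v' * s), hv'v', mul_one]
    have c1 : Commute (v' * v) s := by
      show v' * v * s = s * (v' * v)
      calc v' * v * s = v' * (v * s) := mul_assoc _ _ _
        _ = v' * (u * v) := by rw [e1]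
        _ = (v' * u) * v := (mul_assoc _ _ _).symm
        _ = (s * v') * v := by rw [e2]
        _ = s * (v' * v) := mul_assoc _ _ _
    have c2 : Commute (v' * v) u := by
      show v' * v * u = u * (v' * v)
      calc v' * v * u = v' * (v * u) := mul_assoc _ _ _
        _ = v' * (s * v) := by rw [e3]
        _ = (v' * s) * v := (mul_assoc _ _ _).symm
        _ = (u * v') * v := by rw [e4]
        _ = u * (v' * v) := mul_assoc _ _ _
    have c3 : v' * v * v = v * (v' * v) := hvc _ c1 c2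
    rw [mul_assoc, hvv, mul_one] at c3
    calc (v' * v) * (v' * v) = v' * (v * (v' * v)) := mul_assoc _ _ _
      _ = v' * v' := by rw [← c3]
      _ = 1 := hv'v'
  have M : ∀ s s' : G, s • a = a → s ≠ 1 → s * s = 1 → s' • a = a → s' ≠ 1 → s' * s' = 1 →
      ∃! k : G, k ∈ Cfsg.invertedBy D t ∧ k⁻¹ * s * k = s' := by
    intro s s' hsa hs1 hs hsa' hs1' hs'
    have hu : (t * s' * t) * (t * s' * t) = 1 := by
      have e : (t * s' * t) * (t * s' * t) = t * s' * (t * t) * s' * t := by group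
      rw [e, hS.mul_self, mul_one, mul_assoc t s' s', hs', mul_one, hS.mul_self]
    have hufix : ∀ c : Ω, (t * s' * t) • c = c → c = t • a := by
      intro c hc
      rw [mul_smul, mul_smul, smul_eq_iff_eq_inv_smul, htinv] at hc
      have := hfixI s' hs1' hs' hsa' _ hc
      rw [← this, ← mul_smul, hS.mul_self, one_smul]
    have hua : (t * s' * t) • a ≠ a := by
      intro h
      exact hta (hufix a h).symm
    obtain ⟨v, hvv, hvs, hvc⟩ := L4' s _ hs hu (L3 s _ a hs1 hs hu hsa hua)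
    have hva : v • a = t • a := by
      apply hufix
      rw [← hvs, ← mul_smul, mul_assoc (v * s) v v, hvv, mul_one, mul_smul, hsa]
    have hvb : v • (t • a) = a := by
      rw [← hva, ← mul_smul, hvv, one_smul]
    have hvinv : v⁻¹ = v := inv_eq_of_mul_eq_one_left hvv
    have hkD : v * t ∈ D := by
      show v * t ∈ MulAction.stabilizer G a ⊓ MulAction.stabilizer G (t • a)
      refine Subgroup.mem_inf.mpr ⟨?_, ?_⟩
      · rw [MulAction.mem_stabilizer_iff, mul_smul, hvb]
      · rw [MulAction.mem_stabilizer_iff, mul_smul, ← mul_smul t t, hS.mul_self, one_smul, hva]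
    have hkt : t * (v * t) * t⁻¹ = (v * t)⁻¹ := by
      rw [mul_inv_rev, htinv, hvinv, mul_assoc, mul_assoc, hS.mul_self, mul_one]
    have hks : (v * t)⁻¹ * s * (v * t) = s' := by
      rw [mul_inv_rev, htinv, hvinv]
      calc t * v * s * (v * t) = t * (v * s * v) * t := by group
        _ = t * (t * s' * t) * t := by rw [hvs]
        _ = (t * t) * s' * (t * t) := by group
        _ = s' := by rw [hS.mul_self, one_mul, mul_one]
    refine ⟨v * t, ⟨⟨hkD, hkt⟩, hks⟩, ?_⟩
    rintro k' ⟨⟨hk'D, hk't⟩, hk's⟩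
    have hk'a : k' • a = a := MulAction.mem_stabilizer_iff.mp hk'D.1
    have hk'b : k' • (t • a) = t • a := MulAction.mem_stabilizer_iff.mp hk'D.2
    have hk't' : t * k' * t = k'⁻¹ := by rw [htinv] at hk't; exact hk't
    have hv'v' : (k' * t) * (k' * t) = 1 := by
      calc (k' * t) * (k' * t) = k' * (t * k' * t) := by group
        _ = 1 := by rw [hk't', mul_inv_cancel]
    have hv'eq : k' * t = t * k'⁻¹ := by
      rw [← hk't']
      calc k' * t = (t * t) * k' * t := by rw [hS.mul_self, one_mul]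
        _ = t * (t * k' * t) := by group
    have hv's : (k' * t) * s * (k' * t) = t * s' * t := by
      calc (k' * t) * s * (k' * t) = (t * k'⁻¹) * s * (k' * t) := by rw [← hv'eq]
        _ = t * (k'⁻¹ * s * k') * t := by group
        _ = t * s' * t := by rw [hk's]
    have hx : (k' * t) * v ∈ D := by
      show (k' * t) * v ∈ MulAction.stabilizer G a ⊓ MulAction.stabilizer G (t • a)
      refine Subgroup.mem_inf.mpr ⟨?_, ?_⟩
      · rw [MulAction.mem_stabilizer_iff, mul_smul, mul_smul, hva, ← mul_smul t t, hS.mul_self,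
          one_smul, hk'a]
      · rw [MulAction.mem_stabilizer_iff, mul_smul, mul_smul, hvb, hk'b]
    have hx1 := hDodd _ hx (L5 s _ v (k' * t) hvv hv'v' hvs hv's hvc)
    have h6 : k' * t = v := by
      have := eq_inv_of_mul_eq_one_left hx1
      rw [hvinv] at this; exact this
    rw [← h6, mul_assoc, hS.mul_self, mul_one]
  obtain ⟨s0, hs0a, hs01, hs0s⟩ : ∃ s0 : G, s0 • a = a ∧ s0 ≠ 1 ∧ s0 * s0 = 1 := by
    obtain ⟨g0, hg0⟩ := L1 t hS.mul_self
    refine ⟨g0 * t * g0⁻¹, MulAction.mem_stabilizer_iff.mp (hS.le hg0), ?_, ?_⟩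
    · intro h
      apply hS.ne_one
      have : t = g0⁻¹ * (g0 * t * g0⁻¹) * g0 := by group
      rw [this, h]; group
    · have : (g0 * t * g0⁻¹) * (g0 * t * g0⁻¹) = g0 * (t * t) * g0⁻¹ := by group
      rw [this, hS.mul_self]; group
  have hconj : ∀ k ∈ D, (k⁻¹ * s0 * k) • a = a ∧ k⁻¹ * s0 * k ≠ 1 ∧
      (k⁻¹ * s0 * k) * (k⁻¹ * s0 * k) = 1 := by
    intro k hk
    have hka : k • a = a := MulAction.mem_stabilizer_iff.mp hk.1
    refine ⟨?_, ?_, ?_⟩
    · rw [mul_smul, mul_smul, hka, hs0a, inv_smul_eq_iff, hka]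
    · intro h
      apply hs01
      have : s0 = k * (k⁻¹ * s0 * k) * k⁻¹ := by group
      rw [this, h]; group
    · have : (k⁻¹ * s0 * k) * (k⁻¹ * s0 * k) = k⁻¹ * (s0 * s0) * k := by group
      rw [this, hs0s]; group
  refine ⟨?_, ?_⟩
  · let f : Cfsg.invertedBy D t → Cfsg.involutionsIn (MulAction.stabilizer G a : Set G) := fun k =>
      ⟨(k : G)⁻¹ * s0 * (k : G), MulAction.mem_stabilizer_iff.mpr (hconj k k.2.1).1,
        (hconj k k.2.1).2.1, (hconj k k.2.1).2.2⟩
    have hf : Function.Bijective f := by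
      constructor
      · intro k1 k2 h
        have h' : (k1 : G)⁻¹ * s0 * (k1 : G) = (k2 : G)⁻¹ * s0 * (k2 : G) := congrArg Subtype.val h
        apply Subtype.ext
        exact (M s0 _ hs0a hs01 hs0s (hconj k2 k2.2.1).1 (hconj k2 k2.2.1).2.1
          (hconj k2 k2.2.1).2.2).unique ⟨k1.2, h'⟩ ⟨k2.2, rfl⟩
      · rintro ⟨s', hs'A, hs'1, hs's⟩
        obtain ⟨k, ⟨hkK, hks⟩, _⟩ := M s0 s' hs0a hs01 hs0s
          (MulAction.mem_stabilizer_iff.mp hs'A) hs'1 hs's
        exact ⟨⟨k, hkK⟩, Subtype.ext hks⟩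
    exact Nat.card_congr (Equiv.ofBijective f hf)
  · rintro s ⟨hsA, hs1, hss⟩ s' ⟨hs'A, hs'1, hs's⟩
    obtain ⟨k, ⟨hkK, hks⟩, _⟩ := M s s' (MulAction.mem_stabilizer_iff.mp hsA) hs1 hss
      (MulAction.mem_stabilizer_iff.mp hs'A) hs'1 hs's
    exact ⟨k, hkK, hks⟩

end Cfsg.Agent.S1122
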