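import Cfsg.Statements.S1123
import Cfsg.Agent.S1119

set_option autoImplicit false
open scoped Pointwise
open Cfsg

namespace Cfsg.Agent.S1123

/-- In the rank-one set-up (`G` finite and doubly transitive on `Ω`, `t` an involution moving `a`, `Q` normal in `G_a` with `G_a = Q D`, `Q ⊓ D = 1` for the two-point stabiliser `D = G_a ⊓ G_{t • a}`, `|Q|` even, `|D|` odd), there is a unique pair `(s, r)` with `s` an involution of `G_a`, `r ∈ Q` and `t s t = r⁻¹ t r`. -/
theorem result {G Ω : Type*} [Group G] [Finite G] [MulAction G Ω] {a : Ω} {t : G} {Q : Subgroup G}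
    (hS : Cfsg.IsRankOneSetup G Ω a t Q) :
    ∃! p : G × G, p.1 ∈ Cfsg.involutionsIn (MulAction.stabilizer G a : Set G) ∧ p.2 ∈ Q ∧
      t * p.1 * t = p.2⁻¹ * t * p.2 := by
  have h2t : ∀ {a b c d : Ω} (_ : a ≠ b) (_ : c ≠ d), ∃ g : G, g • a = c ∧ g • b = d :=
    MulAction.is_two_pretransitive_iff.mp hS.two_transitive
  have hta : t • a ≠ a := fun h => hS.not_mem (MulAction.mem_stabilizer_iff.mpr h)
  have fix_unique : ∀ x ∈ Q, x ≠ 1 → ∀ b : Ω, x • b = b → b = a := by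
    intro x hx hx1 b hb
    by_contra hba
    obtain ⟨h, h1, h2⟩ := h2t (a := a) (b := t • a) (c := a) (d := b) hta.symm (Ne.symm hba)
    have hh : h⁻¹ ∈ MulAction.stabilizer G a := by
      apply Subgroup.inv_mem
      exact MulAction.mem_stabilizer_iff.mpr h1
    have hq := hS.conj_mem h⁻¹ hh x hx
    rw [inv_inv] at hq
    have hfix : h⁻¹ * x * h ∈ MulAction.stabilizer G (t • a) := by
      rw [MulAction.mem_stabilizer_iff, mul_smul, mul_smul, h2, hb, ← h2, inv_smul_smul]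
    have hbot : h⁻¹ * x * h ∈ Q ⊓ MulAction.stabilizer G (t • a) := ⟨hq, hfix⟩
    rw [hS.inf_eq_bot, Subgroup.mem_bot] at hbot
    apply hx1
    have : x = h * (h⁻¹ * x * h) * h⁻¹ := by group
    rw [this, hbot]; group
  obtain ⟨hreg, _, _, ⟨P, hPQ⟩, _⟩ := Cfsg.Agent.S1119.result hS
  have : Fact (Nat.Prime 2) := ⟨Nat.prime_two⟩
  have L1 : ∀ u : G, u * u = 1 → ∃ g : G, g * u * g⁻¹ ∈ Q := by
    intro u hu
    have hp : IsPGroup 2 (Subgroup.zpowers u) := by
      rintro ⟨x, hx⟩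
      obtain ⟨i, rfl⟩ := Subgroup.mem_zpowers_iff.mp hx
      refine ⟨1, ?_⟩
      apply Subtype.ext
      show (u ^ i) ^ (2 ^ 1) = 1
      have h2 : u ^ ((2 : ℕ) : ℤ) = 1 := by rw [zpow_natCast, pow_two, hu]
      rw [pow_one, ← zpow_natCast, ← zpow_mul, mul_comm, zpow_mul, h2, one_zpow]
    obtain ⟨P', hP'⟩ := hp.exists_le_sylow
    obtain ⟨g, hg⟩ := MulAction.exists_smul_eq G P' P
    refine ⟨g, hPQ ?_⟩
    rw [← hg]
    have hu' : u ∈ (P' : Subgroup G) := hP' (Subgroup.mem_zpowers u)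
    exact Subgroup.smul_mem_pointwise_smul u (MulAut.conj g) (P' : Subgroup G) hu'
  have L2 : ∀ u : G, u ≠ 1 → u * u = 1 → ∃ b : Ω, u • b = b ∧ ∀ c : Ω, u • c = c → c = b := by
    intro u hu1 hu
    obtain ⟨g, hg⟩ := L1 u hu
    have hne : g * u * g⁻¹ ≠ 1 := by
      intro h
      apply hu1
      have : u = g⁻¹ * (g * u * g⁻¹) * g := by group
      rw [this, h]; group
    have hfa : (g * u * g⁻¹) • a = a := MulAction.mem_stabilizer_iff.mp (hS.le hg)
    refine ⟨g⁻¹ • a, ?_, ?_⟩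
    · rw [mul_smul, mul_smul, smul_eq_iff_eq_inv_smul] at hfa
      exact hfa
    · intro c hc
      have := fix_unique _ hg hne (g • c) (by rw [mul_smul, mul_smul, inv_smul_smul, hc])
      rw [← this, inv_smul_smul]
  have htinv : t⁻¹ = t := inv_eq_of_mul_eq_one_left hS.mul_self
  obtain ⟨c, hc, hcu⟩ := L2 t hS.ne_one hS.mul_self
  have hca : c ≠ a := by rintro rfl; exact hta hc
  obtain ⟨⟨r, hr⟩, hrc, hru⟩ := hreg (t • a) c hta hca
  have hrc' : r • (t • a) = c := hrc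
  refine ⟨(t * r⁻¹ * t * r * t, r), ⟨⟨?_, ?_, ?_⟩, hr, ?_⟩, ?_⟩
  · show t * r⁻¹ * t * r * t ∈ MulAction.stabilizer G a
    rw [MulAction.mem_stabilizer_iff, mul_smul, mul_smul, mul_smul, mul_smul, hrc', hc, ← hrc',
      inv_smul_smul, ← mul_smul, hS.mul_self, one_smul]
  · show t * r⁻¹ * t * r * t ≠ 1
    intro h
    apply hS.ne_one
    calc t = (t * r⁻¹)⁻¹ * (t * r⁻¹ * t * r * t) * (t⁻¹ * r⁻¹) := by group
      _ = (t * r⁻¹)⁻¹ * 1 * (t⁻¹ * r⁻¹) := by rw [h]
      _ = r * (t * t)⁻¹ * r⁻¹ := by group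
      _ = 1 := by rw [hS.mul_self]; group
  · show (t * r⁻¹ * t * r * t) * (t * r⁻¹ * t * r * t) = 1
    have e1 : (t * r⁻¹ * t * r * t) * (t * r⁻¹ * t * r * t)
        = t * r⁻¹ * t * r * (t * t) * r⁻¹ * t * r * t := by group
    rw [e1, hS.mul_self]
    have e2 : t * r⁻¹ * t * r * 1 * r⁻¹ * t * r * t = t * r⁻¹ * (t * t) * r * t := by group
    rw [e2, hS.mul_self]
    have e3 : t * r⁻¹ * 1 * r * t = t * t := by group
    rw [e3, hS.mul_self]
  · show t * (t * r⁻¹ * t * r * t) * t = r⁻¹ * t * r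
    have e : t * (t * r⁻¹ * t * r * t) * t = (t * t) * r⁻¹ * t * r * (t * t) := by group
    rw [e, hS.mul_self]; group
  · rintro ⟨s, r'⟩ ⟨⟨hsa, hs1, hs2⟩, hr', heq⟩
    have hsa' : s • a = a := MulAction.mem_stabilizer_iff.mp hsa
    have hr'' : r' ∈ Q := hr'
    have heq' : t * s * t = r'⁻¹ * t * r' := heq
    have h1 : (r'⁻¹ * t * r') • (t • a) = t • a := by
      rw [← heq', mul_smul, mul_smul, ← mul_smul t t, hS.mul_self, one_smul, hsa']
    have h2 : t • (r' • (t • a)) = r' • (t • a) := by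
      rw [mul_smul, mul_smul, inv_smul_eq_iff] at h1
      exact h1
    have h3 : r' • (t • a) = c := hcu _ h2
    have h4 : r' = r := congrArg Subtype.val (hru ⟨r', hr''⟩ h3)
    have h5 : s = t * r⁻¹ * t * r * t := by
      calc s = (t * t) * s * (t * t) := by rw [hS.mul_self, one_mul, mul_one]
        _ = t * (t * s * t) * t := by group
        _ = t * (r'⁻¹ * t * r') * t := by rw [heq']
        _ = t * r⁻¹ * t * r * t := by rw [h4]; group
    rw [h4, h5]

end Cfsg.Agent.S1123
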