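import Cfsg.Statements.S1124
import Mathlib
import Cfsg.Agent.Lib.Helper1.Basic

set_option autoImplicit false
open scoped Pointwise
open Cfsg

namespace Cfsg.Agent.S1124

open Cfsg
open Cfsg.Agent.Lib.Helper1
open scoped Pointwise

/-- Let `t` be an element of order 2 of a finite group normalising a subgroup `X` of odd order, `Y = C_X(t)` and `Z` the set of elements of `X` inverted by `t`. Then `(y, z) ↦ y z` is a bijection `Y × Z → X`, so `|X| = |Y| |Z|`, and the subgroup generated by `Z` is normal in `X`. -/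
theorem result {M : Type*} [Group M] [Finite M]
    (t : M) (ht : orderOf t = 2) (X : Subgroup M) (hodd : Odd (Nat.card X))
    (hnorm : ∀ x ∈ X, t * x * t⁻¹ ∈ X) :
    (∀ x ∈ X, ∃! p : M × M, p.1 ∈ X ⊓ Subgroup.centralizer {t} ∧ p.2 ∈ Cfsg.invertedBy X t ∧ x = p.1 * p.2) ∧
      Nat.card X = Nat.card ↥(X ⊓ Subgroup.centralizer {t}) * Nat.card (Cfsg.invertedBy X t) ∧
      ∀ x ∈ X, MulAut.conj x • Subgroup.closure (Cfsg.invertedBy X t) = Subgroup.closure (Cfsg.invertedBy X t) := by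
  have ht2 : t * t = 1 := by
    have := pow_orderOf_eq_one t
    rwa [ht, sq] at this
  have htinv : t⁻¹ = t := inv_eq_of_mul_eq_one_left ht2
  obtain ⟨k, hk⟩ := hodd
  have hpowN : ∀ a ∈ X, a ^ (2 * k + 1) = 1 := by
    intro a ha
    have h1 : (⟨a, ha⟩ : X) ^ Nat.card X = 1 := pow_card_eq_one'
    rw [hk] at h1
    exact congrArg Subtype.val h1
  have hr1 : ∀ a ∈ X, (a ^ (k + 1)) * (a ^ (k + 1)) = a := by
    intro a ha
    rw [← pow_add]
    have : k + 1 + (k + 1) = (2 * k + 1) + 1 := by ring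
    rw [this, pow_succ, hpowN a ha, one_mul]
  have hr2 : ∀ a ∈ X, (a * a) ^ (k + 1) = a := by
    intro a ha
    rw [← sq, ← pow_mul]
    have : 2 * (k + 1) = (2 * k + 1) + 1 := by ring
    rw [this, pow_succ, hpowN a ha, one_mul]
  have hmemC : ∀ y : M, y ∈ Subgroup.centralizer ({t} : Set M) ↔ t * y * t⁻¹ = y := by
    intro y
    rw [Subgroup.mem_centralizer_singleton_iff]
    constructor
    · intro h; rw [← h]; group
    · intro h
      calc y * t = (t * y * t⁻¹) * t := by rw [h]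
        _ = t * y := by group
  have huniq : ∀ x ∈ X, ∀ y z : M, y ∈ X ⊓ Subgroup.centralizer {t} → z ∈ Cfsg.invertedBy X t → x = y * z →
      z = ((t * x * t⁻¹)⁻¹ * x) ^ (k + 1) := by
    intro x hx y z hy hz hxyz
    have hy2 := (hmemC y).mp hy.2
    have hz2 : t * z * t⁻¹ = z⁻¹ := hz.2
    have e : (t * x * t⁻¹)⁻¹ * x = z * z := by
      have e1 : t * x * t⁻¹ = (t * y * t⁻¹) * (t * z * t⁻¹) := by rw [hxyz]; group
      rw [e1, hy2, hz2, hxyz]; group
    rw [e, hr2 z hz.1]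
  have hex : ∀ x ∈ X, ∃! p : M × M, p.1 ∈ X ⊓ Subgroup.centralizer {t} ∧ p.2 ∈ Cfsg.invertedBy X t ∧ x = p.1 * p.2 := by
    intro x hx
    obtain ⟨u, hu⟩ : ∃ u, u = (t * x * t⁻¹)⁻¹ * x := ⟨_, rfl⟩
    have huX : u ∈ X := by rw [hu]; exact X.mul_mem (X.inv_mem (hnorm x hx)) hx
    have huinv : t * u * t⁻¹ = u⁻¹ := by
      rw [hu, htinv]
      calc t * ((t * x * t)⁻¹ * x) * t = t * (t⁻¹ * x⁻¹ * t⁻¹ * x) * t := by group
        _ = (t * t⁻¹) * x⁻¹ * (t * x * t) := by rw [htinv]; group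
        _ = ((t * x * t)⁻¹ * x)⁻¹ := by group
    obtain ⟨z, hz⟩ : ∃ z, z = u ^ (k + 1) := ⟨_, rfl⟩
    have hzX : z ∈ X := by rw [hz]; exact X.pow_mem huX _
    have hzinv : t * z * t⁻¹ = z⁻¹ := by
      rw [hz, ← conj_pow, huinv, inv_pow]
    have hzz : z * z = u := by rw [hz]; exact hr1 u huX
    refine ⟨(x * z⁻¹, z), ⟨⟨X.mul_mem hx (X.inv_mem hzX), ?_⟩, ⟨hzX, hzinv⟩, by group⟩, ?_⟩
    · show x * z⁻¹ ∈ Subgroup.centralizer {t}
      rw [hmemC]
      have e1 : t * (x * z⁻¹) * t⁻¹ = (t * x * t⁻¹) * (t * z * t⁻¹)⁻¹ := by group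
      rw [e1, hzinv, inv_inv]
      have e2 : x = (t * x * t⁻¹) * u := by rw [hu]; group
      calc t * x * t⁻¹ * z = (t * x * t⁻¹) * (z * z) * z⁻¹ := by group
        _ = (t * x * t⁻¹) * u * z⁻¹ := by rw [hzz]
        _ = x * z⁻¹ := by rw [← e2]
    · rintro ⟨y', z'⟩ ⟨hy', hz', hxe⟩
      have h1 := huniq x hx y' z' hy' hz' hxe
      rw [← hu, ← hz] at h1
      have h2 : y' = x * z⁻¹ := by
        show y' = x * z⁻¹
        have hxe' : x = y' * z' := hxe
        rw [hxe', h1]; group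
      rw [h1, h2]
  refine ⟨hex, ?_, ?_⟩
  · rw [← Nat.card_prod]
    symm
    apply Nat.card_eq_of_bijective
      (fun q : ↥(X ⊓ Subgroup.centralizer {t}) × ↥(Cfsg.invertedBy X t) =>
        (⟨q.1.1 * q.2.1, X.mul_mem q.1.2.1 q.2.2.1⟩ : X))
    constructor
    · intro q1 q2 h
      have h' : q1.1.1 * q1.2.1 = q2.1.1 * q2.2.1 := congrArg Subtype.val h
      obtain ⟨w, _, hw⟩ := hex (q1.1.1 * q1.2.1) (X.mul_mem q1.1.2.1 q1.2.2.1)
      have a1 := hw (q1.1.1, q1.2.1) ⟨q1.1.2, q1.2.2, rfl⟩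
      have a2 := hw (q2.1.1, q2.2.1) ⟨q2.1.2, q2.2.2, h'⟩
      have a3 := a1.trans a2.symm
      apply Prod.ext
      · exact Subtype.ext (congrArg Prod.fst a3)
      · exact Subtype.ext (congrArg Prod.snd a3)
    · intro x
      obtain ⟨w, ⟨h1, h2, h3⟩, _⟩ := hex x.1 x.2
      exact ⟨(⟨w.1, h1⟩, ⟨w.2, h2⟩), Subtype.ext h3.symm⟩
  · intro x hx
    have hxN : x ∈ Subgroup.normalizer ((Subgroup.closure (Cfsg.invertedBy X t) : Subgroup M) : Set M) := by
      obtain ⟨w, ⟨h1, h2, h3⟩, _⟩ := hex x hx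
      rw [h3]
      apply Subgroup.mul_mem
      · apply Subgroup.normalizer_le_normalizer_closure
        have hy2 := (hmemC w.1).mp h1.2
        have key : ∀ y ∈ X, t * y * t⁻¹ = y → ∀ v ∈ Cfsg.invertedBy X t, y * v * y⁻¹ ∈ Cfsg.invertedBy X t := by
          intro y hyX hy v hv
          refine ⟨X.mul_mem (X.mul_mem hyX hv.1) (X.inv_mem hyX), ?_⟩
          have e : t * (y * v * y⁻¹) * t⁻¹ = (t * y * t⁻¹) * (t * v * t⁻¹) * (t * y * t⁻¹)⁻¹ := by group
          rw [e, hy, hv.2]; group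
        rw [Subgroup.mem_set_normalizer_iff]
        intro v
        constructor
        · exact key w.1 h1.1 hy2 v
        · intro hv
          have := key w.1⁻¹ (X.inv_mem h1.1) (by
            have e : t * w.1⁻¹ * t⁻¹ = (t * w.1 * t⁻¹)⁻¹ := by group
            rw [e, hy2]) _ hv
          have e : w.1⁻¹ * (w.1 * v * w.1⁻¹) * w.1⁻¹⁻¹ = v := by group
          rwa [e] at this
      · exact Subgroup.le_normalizer (Subgroup.subset_closure h2)
    rw [Subgroup.mem_normalizer_iff_map_conj_eq] at hxN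
    exact hxN

end Cfsg.Agent.S1124
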