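import Cfsg.Statements.S1125
import Cfsg.Agent.S1119

set_option autoImplicit false
open scoped Pointwise
open Cfsg

namespace Cfsg.Agent.S1125

/-- In the rank-one set-up (`G` finite and doubly transitive on `Ω`, `t` an involution moving `a`, `Q` normal in `G_a` with `G_a = Q D`, `Q ⊓ D = 1` for the two-point stabiliser `D = G_a ⊓ G_{t • a}`, `|Q|` even, `|D|` odd), let `X ⊆ D` fix at least three points of `Ω`. Then `C_G(X)` is doubly transitive on the fixed-point set of `X`, `|C_Q(X)|` is even, and `C_{G_a}(X) = C_Q(X) C_D(X)`. -/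
theorem result {G Ω : Type*} [Group G] [Finite G] [MulAction G Ω] {a : Ω} {t : G} {Q : Subgroup G}
    (hS : Cfsg.IsRankOneSetup G Ω a t Q)
    (X : Set G) (hX : X ⊆ ((MulAction.stabilizer G a ⊓ MulAction.stabilizer G (t • a)) : Set G))
    (h3 : ∃ b c d : Ω, b ≠ c ∧ b ≠ d ∧ c ≠ d ∧ ∀ x ∈ X, x • b = b ∧ x • c = c ∧ x • d = d) :
    (∀ b₁ b₂ c₁ c₂ : Ω, (∀ x ∈ X, x • b₁ = b₁ ∧ x • b₂ = b₂ ∧ x • c₁ = c₁ ∧ x • c₂ = c₂) →
        b₁ ≠ b₂ → c₁ ≠ c₂ → ∃ g ∈ Subgroup.centralizer X, g • b₁ = c₁ ∧ g • b₂ = c₂) ∧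
      Even (Nat.card ↥(Subgroup.centralizer X ⊓ Q)) ∧
      (Subgroup.centralizer X ⊓ Q) ⊔ (Subgroup.centralizer X ⊓ (MulAction.stabilizer G a ⊓ MulAction.stabilizer G (t • a))) = Subgroup.centralizer X ⊓ MulAction.stabilizer G a := by
  have h2t : ∀ {a b c d : Ω} (_ : a ≠ b) (_ : c ≠ d), ∃ g : G, g • a = c ∧ g • b = d :=
    MulAction.is_two_pretransitive_iff.mp hS.two_transitive
  have hta : t • a ≠ a := fun h => hS.not_mem (MulAction.mem_stabilizer_iff.mpr h)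
  have fix_unique : ∀ x ∈ Q, x ≠ 1 → ∀ b : Ω, x • b = b → b = a := by
    intro x hx hx1 b hb
    by_contra hba
    obtain ⟨h, h1, h2⟩ := h2t (a := a) (b := t • a) (c := a) (d := b) hta.symm (Ne.symm hba)
    have hh : h⁻¹ ∈ MulAction.stabilizer G a := by
      apply Subgroup.inv_mem
      exact MulAction.mem_stabilizer_iff.mpr h1
    have hq := hS.conj_mem h⁻¹ hh x hx
    rw [inv_inv] at hq
    have hfix : h⁻¹ * x * h ∈ MulAction.stabilizer G (t • a) := by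
      rw [MulAction.mem_stabilizer_iff, mul_smul, mul_smul, h2, hb, ← h2, inv_smul_smul]
    have hbot : h⁻¹ * x * h ∈ Q ⊓ MulAction.stabilizer G (t • a) := ⟨hq, hfix⟩
    rw [hS.inf_eq_bot, Subgroup.mem_bot] at hbot
    apply hx1
    have : x = h * (h⁻¹ * x * h) * h⁻¹ := by group
    rw [this, hbot]; group
  obtain ⟨hreg, _, _, ⟨P, hPQ⟩, _⟩ := Cfsg.Agent.S1119.result hS
  have : Fact (Nat.Prime 2) := ⟨Nat.prime_two⟩
  have L1 : ∀ u : G, u * u = 1 → ∃ g : G, g * u * g⁻¹ ∈ Q := by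
    intro u hu
    have hp : IsPGroup 2 (Subgroup.zpowers u) := by
      rintro ⟨x, hx⟩
      obtain ⟨i, rfl⟩ := Subgroup.mem_zpowers_iff.mp hx
      refine ⟨1, ?_⟩
      apply Subtype.ext
      show (u ^ i) ^ (2 ^ 1) = 1
      have h2 : u ^ ((2 : ℕ) : ℤ) = 1 := by rw [zpow_natCast, pow_two, hu]
      rw [pow_one, ← zpow_natCast, ← zpow_mul, mul_comm, zpow_mul, h2, one_zpow]
    obtain ⟨P', hP'⟩ := hp.exists_le_sylow
    obtain ⟨g, hg⟩ := MulAction.exists_smul_eq G P' P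
    refine ⟨g, hPQ ?_⟩
    rw [← hg]
    have hu' : u ∈ (P' : Subgroup G) := hP' (Subgroup.mem_zpowers u)
    exact Subgroup.smul_mem_pointwise_smul u (MulAut.conj g) (P' : Subgroup G) hu'
  have L2 : ∀ u : G, u ≠ 1 → u * u = 1 → ∃ b : Ω, u • b = b ∧ ∀ c : Ω, u • c = c → c = b := by
    intro u hu1 hu
    obtain ⟨g, hg⟩ := L1 u hu
    have hne : g * u * g⁻¹ ≠ 1 := by
      intro h
      apply hu1
      have : u = g⁻¹ * (g * u * g⁻¹) * g := by group
      rw [this, h]; group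
    have hfa : (g * u * g⁻¹) • a = a := MulAction.mem_stabilizer_iff.mp (hS.le hg)
    refine ⟨g⁻¹ • a, ?_, ?_⟩
    · rw [mul_smul, mul_smul, smul_eq_iff_eq_inv_smul] at hfa
      exact hfa
    · intro c hc
      have := fix_unique _ hg hne (g • c) (by rw [mul_smul, mul_smul, inv_smul_smul, hc])
      rw [← this, inv_smul_smul]
  have htinv : t⁻¹ = t := inv_eq_of_mul_eq_one_left hS.mul_self
  have htr : ∀ p : Ω, ∃ g : G, g • a = p := by
    intro p
    by_cases hp : p = a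
    · exact ⟨1, by rw [one_smul, hp]⟩
    · obtain ⟨g, h1, _⟩ := h2t (a := a) (b := p) (c := p) (d := a) (Ne.symm hp) hp
      exact ⟨g, h1⟩
  have R : ∀ p e f : Ω, e ≠ p → f ≠ p → (∀ x ∈ X, x • p = p ∧ x • e = e ∧ x • f = f) →
      ∃ y : G, y • p = p ∧ y • e = f ∧ ∀ x ∈ X, Commute y x := by
    intro p e f he hf hx
    obtain ⟨g, rfl⟩ := htr p
    have he' : g⁻¹ • e ≠ a := by
      intro h; apply he; rw [← h, smul_inv_smul]
    have hf' : g⁻¹ • f ≠ a := by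
      intro h; apply hf; rw [← h, smul_inv_smul]
    obtain ⟨⟨q, hq⟩, hqe, hqu⟩ := hreg _ _ he' hf'
    have hqe' : q • (g⁻¹ • e) = g⁻¹ • f := hqe
    have hqa : q • a = a := MulAction.mem_stabilizer_iff.mp (hS.le hq)
    refine ⟨g * q * g⁻¹, ?_, ?_, ?_⟩
    · rw [mul_smul, mul_smul, inv_smul_smul, hqa]
    · rw [mul_smul, mul_smul, hqe', smul_inv_smul]
    · intro x hxX
      obtain ⟨hxp, hxe, hxf⟩ := hx x hxX
      have hx'A : g⁻¹ * x * g ∈ MulAction.stabilizer G a := by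
        rw [MulAction.mem_stabilizer_iff, mul_smul, mul_smul, hxp, inv_smul_smul]
      have hcq := hS.conj_mem _ hx'A q hq
      have hxe' : x⁻¹ • e = e := by rw [inv_smul_eq_iff, hxe]
      have h1 : ((g⁻¹ * x * g) * q * (g⁻¹ * x * g)⁻¹) • (g⁻¹ • e) = g⁻¹ • f := by
        have e1 : (g⁻¹ * x * g) * q * (g⁻¹ * x * g)⁻¹ * g⁻¹ = g⁻¹ * x * g * q * g⁻¹ * x⁻¹ := by
          group
        rw [← mul_smul, e1, mul_smul, hxe', mul_smul, mul_smul, hqe', mul_smul, smul_inv_smul,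
          mul_smul, hxf]
      have h2 := congrArg Subtype.val (hqu ⟨_, hcq⟩ h1)
      have h2' : (g⁻¹ * x * g) * q * (g⁻¹ * x * g)⁻¹ = q := h2
      show g * q * g⁻¹ * x = x * (g * q * g⁻¹)
      calc g * q * g⁻¹ * x = g * ((g⁻¹ * x * g) * q * (g⁻¹ * x * g)⁻¹) * g⁻¹ * x := by rw [h2']
        _ = x * (g * q * g⁻¹) := by group
  obtain ⟨b, c, d, hbc, hbd, hcd, hfix⟩ := h3
  have hXa : ∀ x ∈ X, x • a = a := fun x hx =>
    MulAction.mem_stabilizer_iff.mp (Subgroup.mem_inf.mp (hX hx)).1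
  have hXb : ∀ x ∈ X, x • (t • a) = t • a := fun x hx =>
    MulAction.mem_stabilizer_iff.mp (Subgroup.mem_inf.mp (hX hx)).2
  have hC : ∀ g : G, (∀ x ∈ X, Commute g x) → g ∈ Subgroup.centralizer X := fun g h =>
    Subgroup.mem_centralizer_iff.mpr (fun x hx => (h x hx).eq.symm)
  have hC' : ∀ g : G, g ∈ Subgroup.centralizer X → ∀ x ∈ X, Commute g x := fun g h x hx =>
    (Subgroup.mem_centralizer_iff.mp h x hx).symm
  have hthird : ∀ p q : Ω, ∃ z : Ω, z ≠ p ∧ z ≠ q ∧ ∀ x ∈ X, x • z = z := by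
    intro p q
    by_cases h1 : b ≠ p ∧ b ≠ q
    · exact ⟨b, h1.1, h1.2, fun x hx => (hfix x hx).1⟩
    by_cases h2 : c ≠ p ∧ c ≠ q
    · exact ⟨c, h2.1, h2.2, fun x hx => (hfix x hx).2.1⟩
    · refine ⟨d, ?_, ?_, fun x hx => (hfix x hx).2.2⟩
      · intro hd
        have hb : b = q := by
          by_contra hb; exact h1 ⟨fun h => hbd (h.trans hd.symm), hb⟩
        have hc : c = q := by
          by_contra hc; exact h2 ⟨fun h => hcd (h.trans hd.symm), hc⟩
        exact hbc (hb.trans hc.symm)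
      · intro hd
        have hb : b = p := by
          by_contra hb; exact h1 ⟨hb, fun h => hbd (h.trans hd.symm)⟩
        have hc : c = p := by
          by_contra hc; exact h2 ⟨hc, fun h => hcd (h.trans hd.symm)⟩
        exact hbc (hb.trans hc.symm)
  have T : ∀ p q : Ω, (∀ x ∈ X, x • p = p) → (∀ x ∈ X, x • q = q) →
      ∃ g : G, g • p = q ∧ ∀ x ∈ X, Commute g x := by
    intro p q hp hq
    obtain ⟨z, hzp, hzq, hz⟩ := hthird p q
    obtain ⟨y, _, hy, hyc⟩ := R z p q (Ne.symm hzp) (Ne.symm hzq)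
      (fun x hx => ⟨hz x hx, hp x hx, hq x hx⟩)
    exact ⟨y, hy, hyc⟩
  have T2 : ∀ b₁ b₂ c₁ c₂ : Ω, (∀ x ∈ X, x • b₁ = b₁ ∧ x • b₂ = b₂ ∧ x • c₁ = c₁ ∧ x • c₂ = c₂) →
        b₁ ≠ b₂ → c₁ ≠ c₂ → ∃ g : G, (∀ x ∈ X, Commute g x) ∧ g • b₁ = c₁ ∧ g • b₂ = c₂ := by
    intro b₁ b₂ c₁ c₂ hF hb hc
    obtain ⟨h, hh, hhc⟩ := T b₁ c₁ (fun x hx => (hF x hx).1) (fun x hx => (hF x hx).2.2.1)
    have hne : h • b₂ ≠ c₁ := by
      intro h1
      exact hb (smul_left_cancel h (hh.trans h1.symm))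
    have hfx : ∀ x ∈ X, x • (h • b₂) = h • b₂ := by
      intro x hx
      have hc' : h * x = x * h := hhc x hx
      rw [← mul_smul, ← hc', mul_smul, (hF x hx).2.1]
    obtain ⟨y, hy1, hy2, hyc⟩ := R c₁ (h • b₂) c₂ hne (Ne.symm hc)
      (fun x hx => ⟨(hF x hx).2.2.1, hfx x hx, (hF x hx).2.2.2⟩)
    exact ⟨y * h, fun x hx => (hyc x hx).mul_left (hhc x hx), by rw [mul_smul, hh, hy1],
      by rw [mul_smul, hy2]⟩
  obtain ⟨g, hgc, hga, hgb⟩ := T2 a (t • a) (t • a) a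
    (fun x hx => ⟨hXa x hx, hXb x hx, hXb x hx, hXa x hx⟩) (Ne.symm hta) hta
  set D : Subgroup G := MulAction.stabilizer G a ⊓ MulAction.stabilizer G (t • a) with hD
  have hggD : g * g ∈ D := by
    show g * g ∈ MulAction.stabilizer G a ⊓ MulAction.stabilizer G (t • a)
    refine Subgroup.mem_inf.mpr ⟨?_, ?_⟩
    · rw [MulAction.mem_stabilizer_iff, mul_smul, hga, hgb]
    · rw [MulAction.mem_stabilizer_iff, mul_smul, hgb, hga]
  obtain ⟨m, hm⟩ : Odd (orderOf (g * g)) :=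
    Odd.of_dvd_nat hS.odd_card (Subgroup.orderOf_dvd_natCard D hggD)
  have hpD : (g * g) ^ m ∈ D := D.pow_mem hggD m
  have hpa : (g * g) ^ m • a = a := MulAction.mem_stabilizer_iff.mp hpD.1
  have hpb : (g * g) ^ m • (t • a) = t • a := MulAction.mem_stabilizer_iff.mp hpD.2
  obtain ⟨u, hua, hub, huu, huc⟩ : ∃ u : G, u • a = t • a ∧ u • (t • a) = a ∧ u * u = 1 ∧
      ∀ x ∈ X, Commute u x := by
    refine ⟨(g * g) ^ m * g, by rw [mul_smul, hga, hpb], by rw [mul_smul, hgb, hpa], ?_, ?_⟩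
    · have hcomm : Commute ((g * g) ^ m) g :=
        ((Commute.refl g).mul_left (Commute.refl g)).pow_left m
      calc (g * g) ^ m * g * ((g * g) ^ m * g)
          = (g * g) ^ m * (g * (g * g) ^ m) * g := by simp only [mul_assoc]
        _ = (g * g) ^ m * ((g * g) ^ m * g) * g := by rw [hcomm.eq]
        _ = (g * g) ^ (2 * m + 1) := by rw [pow_succ, two_mul, pow_add]; simp only [mul_assoc]
        _ = 1 := by rw [← hm, pow_orderOf_eq_one]
    · intro x hx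
      exact (((hgc x hx).mul_left (hgc x hx)).pow_left m).mul_left (hgc x hx)
  have hinvQ : ∀ s : G, s • a = a → s ≠ 1 → s * s = 1 → s ∈ Q := by
    intro s hsa hs1 hss
    obtain ⟨h, hh⟩ := L1 s hss
    have hne : h * s * h⁻¹ ≠ 1 := by
      intro h'; apply hs1
      have : s = h⁻¹ * (h * s * h⁻¹) * h := by group
      rw [this, h']; group
    have hha : h • a = a :=
      fix_unique _ hh hne (h • a) (by rw [mul_smul, mul_smul, inv_smul_smul, hsa])
    have hhA : h⁻¹ ∈ MulAction.stabilizer G a :=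
      Subgroup.inv_mem _ (MulAction.mem_stabilizer_iff.mpr hha)
    have := hS.conj_mem h⁻¹ hhA _ hh
    have e : h⁻¹ * (h * s * h⁻¹) * h⁻¹⁻¹ = s := by group
    rwa [e] at this
  have hu1 : u ≠ 1 := by
    rintro rfl
    rw [one_smul] at hua
    exact hta hua.symm
  obtain ⟨cu, hcu, hcuu⟩ := L2 u hu1 huu
  have hcuX : ∀ x ∈ X, x • cu = cu := by
    intro x hx
    apply hcuu
    have hc' : u * x = x * u := huc x hx
    rw [← mul_smul, hc', mul_smul, hcu]
  obtain ⟨g3, hg3, hg3c⟩ := T cu a hcuX hXa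
  have hsa : (g3 * u * g3⁻¹) • a = a := by
    rw [mul_smul, mul_smul, ← hg3, inv_smul_smul, hcu]
  have hs1 : g3 * u * g3⁻¹ ≠ 1 := by
    intro h; apply hu1
    have : u = g3⁻¹ * (g3 * u * g3⁻¹) * g3 := by group
    rw [this, h]; group
  have hss : (g3 * u * g3⁻¹) * (g3 * u * g3⁻¹) = 1 := by
    have : (g3 * u * g3⁻¹) * (g3 * u * g3⁻¹) = g3 * (u * u) * g3⁻¹ := by group
    rw [this, huu]; group
  have hsc : ∀ x ∈ X, Commute (g3 * u * g3⁻¹) x := fun x hx =>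
    ((hg3c x hx).mul_left (huc x hx)).mul_left (hg3c x hx).inv_left
  have hsQ : g3 * u * g3⁻¹ ∈ Q := hinvQ _ hsa hs1 hss
  have hEven : Even (Nat.card ↥(Subgroup.centralizer X ⊓ Q)) := by
    have hmem : g3 * u * g3⁻¹ ∈ Subgroup.centralizer X ⊓ Q := ⟨hC _ hsc, hsQ⟩
    have ho : orderOf (g3 * u * g3⁻¹) = 2 := orderOf_eq_prime (by rw [pow_two]; exact hss) hs1
    have := Subgroup.orderOf_dvd_natCard _ hmem
    rw [ho] at this
    exact even_iff_two_dvd.mpr this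
  have RQ : ∀ e f : Ω, e ≠ a → f ≠ a → (∀ x ∈ X, x • e = e ∧ x • f = f) →
      ∃ q ∈ Q, q • e = f ∧ ∀ x ∈ X, Commute q x := by
    intro e f he hf hx
    obtain ⟨⟨q, hq⟩, hqe, hqu⟩ := hreg e f he hf
    have hqe' : q • e = f := hqe
    refine ⟨q, hq, hqe', ?_⟩
    intro x hxX
    obtain ⟨hxe, hxf⟩ := hx x hxX
    have hxA : x ∈ MulAction.stabilizer G a := MulAction.mem_stabilizer_iff.mpr (hXa x hxX)
    have hcq := hS.conj_mem x hxA q hq
    have hxe' : x⁻¹ • e = e := by rw [inv_smul_eq_iff, hxe]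
    have h1 : (x * q * x⁻¹) • e = f := by rw [mul_smul, mul_smul, hxe', hqe', hxf]
    have h2 : x * q * x⁻¹ = q := congrArg Subtype.val (hqu ⟨_, hcq⟩ h1)
    show q * x = x * q
    rw [mul_inv_eq_iff_eq_mul] at h2
    exact h2.symm
  have h3' : (Subgroup.centralizer X ⊓ Q) ⊔ (Subgroup.centralizer X ⊓ D) =
      Subgroup.centralizer X ⊓ MulAction.stabilizer G a := by
    apply le_antisymm
    · apply sup_le
      · exact inf_le_inf_left _ hS.le
      · exact inf_le_inf_left _ inf_le_left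
    · rintro h ⟨hhC, hhA⟩
      have hha : h • a = a := MulAction.mem_stabilizer_iff.mp hhA
      have hhc := hC' h hhC
      have hne : h • (t • a) ≠ a := by
        intro h1
        exact hta (smul_left_cancel h (h1.trans hha.symm))
      have hfx : ∀ x ∈ X, x • (h • (t • a)) = h • (t • a) := by
        intro x hx
        have hc' : h * x = x * h := hhc x hx
        rw [← mul_smul, ← hc', mul_smul, hXb x hx]
      obtain ⟨q, hq, hqb, hqc⟩ := RQ (t • a) (h • (t • a)) hta hne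
        (fun x hx => ⟨hXb x hx, hfx x hx⟩)
      have hqa : q • a = a := MulAction.mem_stabilizer_iff.mp (hS.le hq)
      have e : h = q * (q⁻¹ * h) := by group
      rw [e]
      apply Subgroup.mul_mem_sup
      · exact ⟨hC q hqc, hq⟩
      · refine ⟨hC _ (fun x hx => (hqc x hx).inv_left.mul_left (hhc x hx)), ?_⟩
        show q⁻¹ * h ∈ MulAction.stabilizer G a ⊓ MulAction.stabilizer G (t • a)
        refine Subgroup.mem_inf.mpr ⟨?_, ?_⟩
        · rw [MulAction.mem_stabilizer_iff, mul_smul, hha, inv_smul_eq_iff, hqa]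
        · rw [MulAction.mem_stabilizer_iff, mul_smul, inv_smul_eq_iff, hqb]
  refine ⟨?_, hEven, h3'⟩
  intro b₁ b₂ c₁ c₂ hF hb hc
  obtain ⟨g', hg', h1, h2⟩ := T2 b₁ b₂ c₁ c₂ hF hb hc
  exact ⟨g', hC g' hg', h1, h2⟩

end Cfsg.Agent.S1125
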