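import Cfsg.Statements.S1126
import Cfsg.Agent.S1119

set_option autoImplicit false
open scoped Pointwise
open Cfsg

namespace Cfsg.Agent.S1126

/-- In the rank-one set-up (`G` finite and doubly transitive on `Ω`, `t` an involution moving `a`, `Q` normal in `G_a` with `G_a = Q D`, `Q ⊓ D = 1` for the two-point stabiliser `D = G_a ⊓ G_{t • a}`, `|Q|` even, `|D|` odd), a subset `X ⊆ D` fixing at least three points of `Ω` is conjugate by an element of `D` into `V = C_D(t)`. -/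
theorem result {G Ω : Type*} [Group G] [Finite G] [MulAction G Ω] {a : Ω} {t : G} {Q : Subgroup G}
    (hS : Cfsg.IsRankOneSetup G Ω a t Q)
    (X : Set G) (hX : X ⊆ ((MulAction.stabilizer G a ⊓ MulAction.stabilizer G (t • a)) : Set G))
    (h3 : ∃ b c d : Ω, b ≠ c ∧ b ≠ d ∧ c ≠ d ∧ ∀ x ∈ X, x • b = b ∧ x • c = c ∧ x • d = d) :
    ∃ k ∈ (MulAction.stabilizer G a ⊓ MulAction.stabilizer G (t • a)), ∀ x ∈ X, (k * x * k⁻¹) * t = t * (k * x * k⁻¹) := by
  have h2t : ∀ {a b c d : Ω} (_ : a ≠ b) (_ : c ≠ d), ∃ g : G, g • a = c ∧ g • b = d :=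
    MulAction.is_two_pretransitive_iff.mp hS.two_transitive
  have hta : t • a ≠ a := fun h => hS.not_mem (MulAction.mem_stabilizer_iff.mpr h)
  have htinv : t⁻¹ = t := inv_eq_of_mul_eq_one_left hS.mul_self
  obtain ⟨hreg, _, _, _, _⟩ := Cfsg.Agent.S1119.result hS
  have htr : ∀ p : Ω, ∃ g : G, g • a = p := by
    intro p
    by_cases hp : p = a
    · exact ⟨1, by rw [one_smul, hp]⟩
    · obtain ⟨g, h1, _⟩ := h2t (a := a) (b := p) (c := p) (d := a) (Ne.symm hp) hp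
      exact ⟨g, h1⟩
  have R : ∀ p e f : Ω, e ≠ p → f ≠ p → (∀ x ∈ X, x • p = p ∧ x • e = e ∧ x • f = f) →
      ∃ y : G, y • p = p ∧ y • e = f ∧ ∀ x ∈ X, Commute y x := by
    intro p e f he hf hx
    obtain ⟨g, rfl⟩ := htr p
    have he' : g⁻¹ • e ≠ a := by
      intro h; apply he; rw [← h, smul_inv_smul]
    have hf' : g⁻¹ • f ≠ a := by
      intro h; apply hf; rw [← h, smul_inv_smul]
    obtain ⟨⟨q, hq⟩, hqe, hqu⟩ := hreg _ _ he' hf'
    have hqe' : q • (g⁻¹ • e) = g⁻¹ • f := hqe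
    have hqa : q • a = a := MulAction.mem_stabilizer_iff.mp (hS.le hq)
    refine ⟨g * q * g⁻¹, ?_, ?_, ?_⟩
    · rw [mul_smul, mul_smul, inv_smul_smul, hqa]
    · rw [mul_smul, mul_smul, hqe', smul_inv_smul]
    · intro x hxX
      obtain ⟨hxp, hxe, hxf⟩ := hx x hxX
      have hx'A : g⁻¹ * x * g ∈ MulAction.stabilizer G a := by
        rw [MulAction.mem_stabilizer_iff, mul_smul, mul_smul, hxp, inv_smul_smul]
      have hcq := hS.conj_mem _ hx'A q hq
      have hxe' : x⁻¹ • e = e := by rw [inv_smul_eq_iff, hxe]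
      have h1 : ((g⁻¹ * x * g) * q * (g⁻¹ * x * g)⁻¹) • (g⁻¹ • e) = g⁻¹ • f := by
        have e1 : (g⁻¹ * x * g) * q * (g⁻¹ * x * g)⁻¹ * g⁻¹ = g⁻¹ * x * g * q * g⁻¹ * x⁻¹ := by
          group
        rw [← mul_smul, e1, mul_smul, hxe', mul_smul, mul_smul, hqe', mul_smul, smul_inv_smul,
          mul_smul, hxf]
      have h2 := congrArg Subtype.val (hqu ⟨_, hcq⟩ h1)
      have h2' : (g⁻¹ * x * g) * q * (g⁻¹ * x * g)⁻¹ = q := h2
      show g * q * g⁻¹ * x = x * (g * q * g⁻¹)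
      calc g * q * g⁻¹ * x = g * ((g⁻¹ * x * g) * q * (g⁻¹ * x * g)⁻¹) * g⁻¹ * x := by rw [h2']
        _ = x * (g * q * g⁻¹) := by group
  obtain ⟨b, c, d, hbc, hbd, hcd, hfix⟩ := h3
  have hXa : ∀ x ∈ X, x • a = a := fun x hx =>
    MulAction.mem_stabilizer_iff.mp (Subgroup.mem_inf.mp (hX hx)).1
  have hXb : ∀ x ∈ X, x • (t • a) = t • a := fun x hx =>
    MulAction.mem_stabilizer_iff.mp (Subgroup.mem_inf.mp (hX hx)).2
  obtain ⟨c0, hc0a, hc0b, hc0⟩ : ∃ c0 : Ω, c0 ≠ a ∧ c0 ≠ t • a ∧ ∀ x ∈ X, x • c0 = c0 := by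
    by_cases h1 : b ≠ a ∧ b ≠ t • a
    · exact ⟨b, h1.1, h1.2, fun x hx => (hfix x hx).1⟩
    by_cases h2 : c ≠ a ∧ c ≠ t • a
    · exact ⟨c, h2.1, h2.2, fun x hx => (hfix x hx).2.1⟩
    · refine ⟨d, ?_, ?_, fun x hx => (hfix x hx).2.2⟩
      · intro hd
        have hb : b = t • a := by
          by_contra hb; exact h1 ⟨fun h => hbd (h.trans hd.symm), hb⟩
        have hc : c = t • a := by
          by_contra hc; exact h2 ⟨fun h => hcd (h.trans hd.symm), hc⟩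
        exact hbc (hb.trans hc.symm)
      · intro hd
        have hb : b = a := by
          by_contra hb; exact h1 ⟨hb, fun h => hbd (h.trans hd.symm)⟩
        have hc : c = a := by
          by_contra hc; exact h2 ⟨hc, fun h => hcd (h.trans hd.symm)⟩
        exact hbc (hb.trans hc.symm)
  obtain ⟨g1, _, hg1a, hg1c⟩ := R c0 a (t • a) (Ne.symm hc0a) (Ne.symm hc0b)
    (fun x hx => ⟨hc0 x hx, hXa x hx, hXb x hx⟩)
  have hee : g1 • (t • a) ≠ t • a := fun h => hta (smul_left_cancel g1 (h.trans hg1a.symm))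
  have heX : ∀ x ∈ X, x • (g1 • (t • a)) = g1 • (t • a) := by
    intro x hx
    have hc : g1 * x = x * g1 := hg1c x hx
    rw [← mul_smul, ← hc, mul_smul, hXb x hx]
  obtain ⟨g2, hg2b, hg2e, hg2c⟩ := R (t • a) (g1 • (t • a)) a hee (Ne.symm hta)
    (fun x hx => ⟨hXb x hx, heX x hx, hXa x hx⟩)
  obtain ⟨g, hga, hgb, hgc⟩ : ∃ g : G, g • a = t • a ∧ g • (t • a) = a ∧ ∀ x ∈ X, Commute g x :=
    ⟨g2 * g1, by rw [mul_smul, hg1a, hg2b], by rw [mul_smul, hg2e],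
      fun x hx => (hg2c x hx).mul_left (hg1c x hx)⟩
  set D : Subgroup G := MulAction.stabilizer G a ⊓ MulAction.stabilizer G (t • a) with hD
  have hggD : g * g ∈ D := by
    show g * g ∈ MulAction.stabilizer G a ⊓ MulAction.stabilizer G (t • a)
    refine Subgroup.mem_inf.mpr ⟨?_, ?_⟩
    · rw [MulAction.mem_stabilizer_iff, mul_smul, hga, hgb]
    · rw [MulAction.mem_stabilizer_iff, mul_smul, hgb, hga]
  obtain ⟨m, hm⟩ : Odd (orderOf (g * g)) :=
    Odd.of_dvd_nat hS.odd_card (Subgroup.orderOf_dvd_natCard D hggD)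
  have hpD : (g * g) ^ m ∈ D := D.pow_mem hggD m
  have hpa : (g * g) ^ m • a = a := MulAction.mem_stabilizer_iff.mp hpD.1
  have hpb : (g * g) ^ m • (t • a) = t • a := MulAction.mem_stabilizer_iff.mp hpD.2
  obtain ⟨u, hua, hub, huu, huc⟩ : ∃ u : G, u • a = t • a ∧ u • (t • a) = a ∧ u * u = 1 ∧
      ∀ x ∈ X, Commute u x := by
    refine ⟨(g * g) ^ m * g, by rw [mul_smul, hga, hpb], by rw [mul_smul, hgb, hpa], ?_, ?_⟩
    · have hcomm : Commute ((g * g) ^ m) g :=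
        ((Commute.refl g).mul_left (Commute.refl g)).pow_left m
      calc (g * g) ^ m * g * ((g * g) ^ m * g)
          = (g * g) ^ m * (g * (g * g) ^ m) * g := by simp only [mul_assoc]
        _ = (g * g) ^ m * ((g * g) ^ m * g) * g := by rw [hcomm.eq]
        _ = (g * g) ^ (2 * m + 1) := by rw [pow_succ, two_mul, pow_add]; simp only [mul_assoc]
        _ = 1 := by rw [← hm, pow_orderOf_eq_one]
    · intro x hx
      exact (((hgc x hx).mul_left (hgc x hx)).pow_left m).mul_left (hgc x hx)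
  have huinv : u⁻¹ = u := inv_eq_of_mul_eq_one_left huu
  have hkD : t * u ∈ D := by
    show t * u ∈ MulAction.stabilizer G a ⊓ MulAction.stabilizer G (t • a)
    refine Subgroup.mem_inf.mpr ⟨?_, ?_⟩
    · rw [MulAction.mem_stabilizer_iff, mul_smul, hua, ← mul_smul, hS.mul_self, one_smul]
    · rw [MulAction.mem_stabilizer_iff, mul_smul, hub]
  have hkt : t * (t * u) * t⁻¹ = (t * u)⁻¹ := by
    rw [mul_inv_rev, huinv, ← mul_assoc, hS.mul_self, one_mul]
  obtain ⟨j, hj⟩ : Odd (orderOf (t * u)) :=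
    Odd.of_dvd_nat hS.odd_card (Subgroup.orderOf_dvd_natCard D hkD)
  obtain ⟨k, hkdef⟩ : ∃ k : G, k = t * u := ⟨_, rfl⟩
  rw [← hkdef] at hkD hkt hj
  have hk0D : k ^ (j + 1) ∈ D := D.pow_mem hkD _
  have hk0t : t * k ^ (j + 1) * t⁻¹ = (k ^ (j + 1))⁻¹ := by
    rw [← conj_pow, hkt, inv_pow]
  have hk0sq : k ^ (j + 1) * k ^ (j + 1) = k := by
    have : j + 1 + (j + 1) = orderOf k + 1 := by omega
    rw [← pow_add, this, pow_succ, pow_orderOf_eq_one, one_mul]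
  obtain ⟨k0, hk0def⟩ : ∃ k0 : G, k0 = k ^ (j + 1) := ⟨_, rfl⟩
  rw [← hk0def] at hk0D hk0t hk0sq
  have e5 : t * k0 = k0⁻¹ * t := by
    rw [mul_inv_eq_iff_eq_mul] at hk0t
    exact hk0t
  have htu : k0 * u * k0⁻¹ = t := by
    have hu' : u = t * k := by rw [hkdef, ← mul_assoc, hS.mul_self, one_mul]
    calc k0 * u * k0⁻¹ = k0 * (t * (k0 * k0)) * k0⁻¹ := by rw [hk0sq, ← hu']
      _ = k0 * (t * k0) := by group
      _ = k0 * (k0⁻¹ * t) := by rw [e5]
      _ = t := by group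
  refine ⟨k0, hk0D, ?_⟩
  intro x hx
  have hc : u * x = x * u := huc x hx
  calc k0 * x * k0⁻¹ * t = k0 * x * k0⁻¹ * (k0 * u * k0⁻¹) := by rw [htu]
    _ = k0 * (x * u) * k0⁻¹ := by group
    _ = k0 * (u * x) * k0⁻¹ := by rw [hc]
    _ = (k0 * u * k0⁻¹) * (k0 * x * k0⁻¹) := by group
    _ = t * (k0 * x * k0⁻¹) := by rw [htu]

end Cfsg.Agent.S1126
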