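import Cfsg.Statements.S1127
import Cfsg.Agent.S1119
import Cfsg.Agent.S1123

set_option autoImplicit false
open scoped Pointwise
open Cfsg

namespace Cfsg.Agent.S1127

/-- In the rank-one set-up (`G` finite and doubly transitive on `Ω`, `t` an involution moving `a`, `Q` normal in `G_a` with `G_a = Q D`, `Q ⊓ D = 1` for the two-point stabiliser `D = G_a ⊓ G_{t • a}`, `|Q|` even, `|D|` odd): if `s` is an involution of `G_a` and `r ∈ Q` satisfy `t s t = r⁻¹ t r`, then `C_D(t) = C_D(s)`; moreover `C_D(t) ⊓ C_D(K) = C_D(I ∩ G_a)`, where `K` is the set of elements of `D` inverted by `t` and `I ∩ G_a` the set of involutions of `G_a`. -/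
theorem result {G Ω : Type*} [Group G] [Finite G] [MulAction G Ω] {a : Ω} {t : G} {Q : Subgroup G}
    (hS : Cfsg.IsRankOneSetup G Ω a t Q) :
    (∀ s r : G, s ∈ Cfsg.involutionsIn (MulAction.stabilizer G a : Set G) → r ∈ Q → t * s * t = r⁻¹ * t * r →
        (MulAction.stabilizer G a ⊓ MulAction.stabilizer G (t • a)) ⊓ Subgroup.centralizer {t} = (MulAction.stabilizer G a ⊓ MulAction.stabilizer G (t • a)) ⊓ Subgroup.centralizer {s}) ∧
      (MulAction.stabilizer G a ⊓ MulAction.stabilizer G (t • a)) ⊓ Subgroup.centralizer {t} ⊓ Subgroup.centralizer (Cfsg.invertedBy (MulAction.stabilizer G a ⊓ MulAction.stabilizer G (t • a)) t) =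
        (MulAction.stabilizer G a ⊓ MulAction.stabilizer G (t • a)) ⊓ Subgroup.centralizer (Cfsg.involutionsIn (MulAction.stabilizer G a : Set G)) := by
  have h2t : ∀ {a b c d : Ω} (_ : a ≠ b) (_ : c ≠ d), ∃ g : G, g • a = c ∧ g • b = d :=
    MulAction.is_two_pretransitive_iff.mp hS.two_transitive
  have hta : t • a ≠ a := fun h => hS.not_mem (MulAction.mem_stabilizer_iff.mpr h)
  have fix_unique : ∀ x ∈ Q, x ≠ 1 → ∀ b : Ω, x • b = b → b = a := by
    intro x hx hx1 b hb
    by_contra hba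
    obtain ⟨h, h1, h2⟩ := h2t (a := a) (b := t • a) (c := a) (d := b) hta.symm (Ne.symm hba)
    have hh : h⁻¹ ∈ MulAction.stabilizer G a := by
      apply Subgroup.inv_mem
      exact MulAction.mem_stabilizer_iff.mpr h1
    have hq := hS.conj_mem h⁻¹ hh x hx
    rw [inv_inv] at hq
    have hfix : h⁻¹ * x * h ∈ MulAction.stabilizer G (t • a) := by
      rw [MulAction.mem_stabilizer_iff, mul_smul, mul_smul, h2, hb, ← h2, inv_smul_smul]
    have hbot : h⁻¹ * x * h ∈ Q ⊓ MulAction.stabilizer G (t • a) := ⟨hq, hfix⟩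
    rw [hS.inf_eq_bot, Subgroup.mem_bot] at hbot
    apply hx1
    have : x = h * (h⁻¹ * x * h) * h⁻¹ := by group
    rw [this, hbot]; group
  obtain ⟨_, _, _, ⟨P, hPQ⟩, _⟩ := Cfsg.Agent.S1119.result hS
  have : Fact (Nat.Prime 2) := ⟨Nat.prime_two⟩
  have L1 : ∀ u : G, u * u = 1 → ∃ g : G, g * u * g⁻¹ ∈ Q := by
    intro u hu
    have hp : IsPGroup 2 (Subgroup.zpowers u) := by
      rintro ⟨x, hx⟩
      obtain ⟨i, rfl⟩ := Subgroup.mem_zpowers_iff.mp hx
      refine ⟨1, ?_⟩
      apply Subtype.ext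
      show (u ^ i) ^ (2 ^ 1) = 1
      have h2 : u ^ ((2 : ℕ) : ℤ) = 1 := by rw [zpow_natCast, pow_two, hu]
      rw [pow_one, ← zpow_natCast, ← zpow_mul, mul_comm, zpow_mul, h2, one_zpow]
    obtain ⟨P', hP'⟩ := hp.exists_le_sylow
    obtain ⟨g, hg⟩ := MulAction.exists_smul_eq G P' P
    refine ⟨g, hPQ ?_⟩
    rw [← hg]
    have hu' : u ∈ (P' : Subgroup G) := hP' (Subgroup.mem_zpowers u)
    exact Subgroup.smul_mem_pointwise_smul u (MulAut.conj g) (P' : Subgroup G) hu'
  have L2 : ∀ u : G, u ≠ 1 → u * u = 1 → ∃ b : Ω, u • b = b ∧ ∀ c : Ω, u • c = c → c = b := by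
    intro u hu1 hu
    obtain ⟨g, hg⟩ := L1 u hu
    have hne : g * u * g⁻¹ ≠ 1 := by
      intro h
      apply hu1
      have : u = g⁻¹ * (g * u * g⁻¹) * g := by group
      rw [this, h]; group
    have hfa : (g * u * g⁻¹) • a = a := MulAction.mem_stabilizer_iff.mp (hS.le hg)
    refine ⟨g⁻¹ • a, ?_, ?_⟩
    · rw [mul_smul, mul_smul, smul_eq_iff_eq_inv_smul] at hfa
      exact hfa
    · intro c hc
      have := fix_unique _ hg hne (g • c) (by rw [mul_smul, mul_smul, inv_smul_smul, hc])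
      rw [← this, inv_smul_smul]
  have L3 : ∀ (s u : G) (b : Ω), s ≠ 1 → s * s = 1 → u * u = 1 → s • b = b → u • b ≠ b →
      Odd (orderOf (s * u)) := by
    intro s u b hs1 hs hu hsb hub
    rw [← Nat.not_even_iff_odd]
    rintro ⟨m, hm⟩
    have hsinv : s⁻¹ = s := inv_eq_of_mul_eq_one_left hs
    have huinv : u⁻¹ = u := inv_eq_of_mul_eq_one_left hu
    have hpos : 0 < orderOf (s * u) := orderOf_pos _
    have hz1 : (s * u) ^ m ≠ 1 := pow_ne_one_of_lt_orderOf (by omega) (by omega)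
    have hzz : (s * u) ^ m * (s * u) ^ m = 1 := by
      rw [← pow_add, ← hm, pow_orderOf_eq_one]
    have hzinv : ((s * u) ^ m)⁻¹ = (s * u) ^ m := inv_eq_of_mul_eq_one_left hzz
    have hcs : s * (s * u) ^ m * s⁻¹ = (s * u) ^ m := by
      rw [← conj_pow]
      have : s * (s * u) * s⁻¹ = (s * u)⁻¹ := by
        rw [mul_inv_rev, hsinv, huinv, ← mul_assoc, hs, one_mul]
      rw [this, inv_pow, hzinv]
    have hcu : u * (s * u) ^ m * u⁻¹ = (s * u) ^ m := by
      rw [← conj_pow]
      have : u * (s * u) * u⁻¹ = (s * u)⁻¹ := by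
        rw [mul_inv_rev, hsinv, huinv, mul_assoc, mul_assoc, hu, mul_one]
      rw [this, inv_pow, hzinv]
    obtain ⟨c, hc, hcu'⟩ := L2 _ hz1 hzz
    obtain ⟨b', hb', hbu'⟩ := L2 s hs1 hs
    have hsc : s • c = c := by
      apply hcu'
      have : (s * u) ^ m * s = s * (s * u) ^ m := by
        rw [mul_inv_eq_iff_eq_mul] at hcs
        exact hcs.symm
      rw [← mul_smul, this, mul_smul, hc]
    have huc : u • c = c := by
      apply hcu'
      have : (s * u) ^ m * u = u * (s * u) ^ m := by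
        rw [mul_inv_eq_iff_eq_mul] at hcu
        exact hcu.symm
      rw [← mul_smul, this, mul_smul, hc]
    have hcb : c = b := (hbu' c hsc).trans (hbu' b hsb).symm
    rw [hcb] at huc
    exact hub huc
  have htinv : t⁻¹ = t := inv_eq_of_mul_eq_one_left hS.mul_self
  set D : Subgroup G := MulAction.stabilizer G a ⊓ MulAction.stabilizer G (t • a) with hD
  have hfixI : ∀ s : G, s ≠ 1 → s * s = 1 → s • a = a → ∀ c : Ω, s • c = c → c = a := by
    intro s hs1 hs hsa c hc
    obtain ⟨b0, _, hb0⟩ := L2 s hs1 hs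
    exact (hb0 c hc).trans (hb0 a hsa).symm
  have hDodd : ∀ x ∈ D, x * x = 1 → x = 1 := by
    intro x hx hxx
    have h1 : orderOf x ∣ 2 := orderOf_dvd_of_pow_eq_one (by rw [pow_two, hxx])
    have h2 : orderOf x ∣ Nat.card D := Subgroup.orderOf_dvd_natCard D hx
    rcases (Nat.dvd_prime Nat.prime_two).mp h1 with h | h
    · exact orderOf_eq_one_iff.mp h
    · rw [h] at h2
      exact absurd (even_iff_two_dvd.mpr h2) (Nat.not_even_iff_odd.mpr hS.odd_card)
  have L4' : ∀ s u : G, s * s = 1 → u * u = 1 → Odd (orderOf (s * u)) →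
      ∃ v : G, v * v = 1 ∧ v * s * v = u ∧ ∀ x : G, Commute x s → Commute x u → Commute x v := by
    rintro s u hs hu ⟨k, hk⟩
    have hsinv : s⁻¹ = s := inv_eq_of_mul_eq_one_left hs
    have huinv : u⁻¹ = u := inv_eq_of_mul_eq_one_left hu
    have hcs : s * (s * u) ^ k * s⁻¹ = ((s * u) ^ k)⁻¹ := by
      rw [← conj_pow]
      have : s * (s * u) * s⁻¹ = (s * u)⁻¹ := by
        rw [mul_inv_rev, hsinv, huinv, ← mul_assoc, hs, one_mul]
      rw [this, inv_pow]
    have hyy : (s * u) ^ k * (s * u) ^ k * (s * u) = 1 := by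
      rw [← pow_add, ← pow_succ, ← two_mul, ← hk, pow_orderOf_eq_one]
    have hyy' : (s * u) ^ k * (s * u) ^ k = u * s := by
      have := eq_inv_of_mul_eq_one_left hyy
      rw [this, mul_inv_rev, hsinv, huinv]
    refine ⟨(s * u) ^ k * s, ?_, ?_, ?_⟩
    · rw [hsinv] at hcs
      calc (s * u) ^ k * s * ((s * u) ^ k * s) = (s * u) ^ k * (s * (s * u) ^ k * s) := by group
        _ = 1 := by rw [hcs, mul_inv_cancel]
    · calc (s * u) ^ k * s * s * ((s * u) ^ k * s)
          = (s * u) ^ k * (s * s) * (s * u) ^ k * s := by group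
        _ = (s * u) ^ k * (s * u) ^ k * s := by rw [hs, mul_one]
        _ = u := by rw [hyy', mul_assoc, hs, mul_one]
    · intro x hxs hxu
      exact ((hxs.mul_right hxu).pow_right k).mul_right hxs
  have L5 : ∀ s u v v' : G, v * v = 1 → v' * v' = 1 → v * s * v = u → v' * s * v' = u →
      (∀ x : G, Commute x s → Commute x u → Commute x v) → (v' * v) * (v' * v) = 1 := by
    intro s u v v' hvv hv'v' hvs hv's hvc
    have hvinv : v⁻¹ = v := inv_eq_of_mul_eq_one_left hvv
    have hv'inv : v'⁻¹ = v' := inv_eq_of_mul_eq_one_left hv'v'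
    have e1 : v * s = u * v := by
      have := eq_mul_inv_of_mul_eq hvs
      rw [hvinv] at this; exact this
    have e2 : s * v' = v' * u := by
      have := eq_inv_mul_of_mul_eq ((mul_assoc v' s v').symm.trans hv's)
      rw [hv'inv] at this; exact this
    have e3 : v * u = s * v := by
      rw [← hvs, ← mul_assoc, ← mul_assoc, hvv, one_mul]
    have e4 : u * v' = v' * s := by
      rw [← hv's, mul_assoc (v' * s), hv'v', mul_one]
    have c1 : Commute (v' * v) s := by
      show v' * v * s = s * (v' * v)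
      calc v' * v * s = v' * (v * s) := mul_assoc _ _ _
        _ = v' * (u * v) := by rw [e1]
        _ = (v' * u) * v := (mul_assoc _ _ _).symm
        _ = (s * v') * v := by rw [e2]
        _ = s * (v' * v) := mul_assoc _ _ _
    have c2 : Commute (v' * v) u := by
      show v' * v * u = u * (v' * v)
      calc v' * v * u = v' * (v * u) := mul_assoc _ _ _
        _ = v' * (s * v) := by rw [e3]
        _ = (v' * s) * v := (mul_assoc _ _ _).symm
        _ = (u * v') * v := by rw [e4]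
        _ = u * (v' * v) := mul_assoc _ _ _
    have c3 : v' * v * v = v * (v' * v) := hvc _ c1 c2
    rw [mul_assoc, hvv, mul_one] at c3
    calc (v' * v) * (v' * v) = v' * (v * (v' * v)) := mul_assoc _ _ _
      _ = v' * v' := by rw [← c3]
      _ = 1 := hv'v'
  have M : ∀ s s' : G, s • a = a → s ≠ 1 → s * s = 1 → s' • a = a → s' ≠ 1 → s' * s' = 1 →
      ∃! k : G, k ∈ Cfsg.invertedBy D t ∧ k⁻¹ * s * k = s' := by
    intro s s' hsa hs1 hs hsa' hs1' hs'
    have hu : (t * s' * t) * (t * s' * t) = 1 := by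
      have e : (t * s' * t) * (t * s' * t) = t * s' * (t * t) * s' * t := by group
      rw [e, hS.mul_self, mul_one, mul_assoc t s' s', hs', mul_one, hS.mul_self]
    have hufix : ∀ c : Ω, (t * s' * t) • c = c → c = t • a := by
      intro c hc
      rw [mul_smul, mul_smul, smul_eq_iff_eq_inv_smul, htinv] at hc
      have := hfixI s' hs1' hs' hsa' _ hc
      rw [← this, ← mul_smul, hS.mul_self, one_smul]
    have hua : (t * s' * t) • a ≠ a := by
      intro h
      exact hta (hufix a h).symm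
    obtain ⟨v, hvv, hvs, hvc⟩ := L4' s _ hs hu (L3 s _ a hs1 hs hu hsa hua)
    have hva : v • a = t • a := by
      apply hufix
      rw [← hvs, ← mul_smul, mul_assoc (v * s) v v, hvv, mul_one, mul_smul, hsa]
    have hvb : v • (t • a) = a := by
      rw [← hva, ← mul_smul, hvv, one_smul]
    have hvinv : v⁻¹ = v := inv_eq_of_mul_eq_one_left hvv
    have hkD : v * t ∈ D := by
      show v * t ∈ MulAction.stabilizer G a ⊓ MulAction.stabilizer G (t • a)
      refine Subgroup.mem_inf.mpr ⟨?_, ?_⟩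
      · rw [MulAction.mem_stabilizer_iff, mul_smul, hvb]
      · rw [MulAction.mem_stabilizer_iff, mul_smul, ← mul_smul t t, hS.mul_self, one_smul, hva]
    have hkt : t * (v * t) * t⁻¹ = (v * t)⁻¹ := by
      rw [mul_inv_rev, htinv, hvinv, mul_assoc, mul_assoc, hS.mul_self, mul_one]
    have hks : (v * t)⁻¹ * s * (v * t) = s' := by
      rw [mul_inv_rev, htinv, hvinv]
      calc t * v * s * (v * t) = t * (v * s * v) * t := by group
        _ = t * (t * s' * t) * t := by rw [hvs]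
        _ = (t * t) * s' * (t * t) := by group
        _ = s' := by rw [hS.mul_self, one_mul, mul_one]
    refine ⟨v * t, ⟨⟨hkD, hkt⟩, hks⟩, ?_⟩
    rintro k' ⟨⟨hk'D, hk't⟩, hk's⟩
    have hk'a : k' • a = a := MulAction.mem_stabilizer_iff.mp hk'D.1
    have hk'b : k' • (t • a) = t • a := MulAction.mem_stabilizer_iff.mp hk'D.2
    have hk't' : t * k' * t = k'⁻¹ := by rw [htinv] at hk't; exact hk't
    have hv'v' : (k' * t) * (k' * t) = 1 := by
      calc (k' * t) * (k' * t) = k' * (t * k' * t) := by group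
        _ = 1 := by rw [hk't', mul_inv_cancel]
    have hv'eq : k' * t = t * k'⁻¹ := by
      rw [← hk't']
      calc k' * t = (t * t) * k' * t := by rw [hS.mul_self, one_mul]
        _ = t * (t * k' * t) := by group
    have hv's : (k' * t) * s * (k' * t) = t * s' * t := by
      calc (k' * t) * s * (k' * t) = (t * k'⁻¹) * s * (k' * t) := by rw [← hv'eq]
        _ = t * (k'⁻¹ * s * k') * t := by group
        _ = t * s' * t := by rw [hk's]
    have hx : (k' * t) * v ∈ D := by
      show (k' * t) * v ∈ MulAction.stabilizer G a ⊓ MulAction.stabilizer G (t • a)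
      refine Subgroup.mem_inf.mpr ⟨?_, ?_⟩
      · rw [MulAction.mem_stabilizer_iff, mul_smul, mul_smul, hva, ← mul_smul t t, hS.mul_self,
          one_smul, hk'a]
      · rw [MulAction.mem_stabilizer_iff, mul_smul, mul_smul, hvb, hk'b]
    have hx1 := hDodd _ hx (L5 s _ v (k' * t) hvv hv'v' hvs hv's hvc)
    have h6 : k' * t = v := by
      have := eq_inv_of_mul_eq_one_left hx1
      rw [hvinv] at this; exact this
    rw [← h6, mul_assoc, hS.mul_self, mul_one]
  have hU := Cfsg.Agent.S1123.result hS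
  have hDA : D ≤ MulAction.stabilizer G a := inf_le_left
  have MI : ∀ s ∈ Cfsg.involutionsIn (MulAction.stabilizer G a : Set G),
      ∀ s' ∈ Cfsg.involutionsIn (MulAction.stabilizer G a : Set G),
      ∃! k : G, k ∈ Cfsg.invertedBy D t ∧ k⁻¹ * s * k = s' := fun s hs s' hs' =>
    M s s' (MulAction.mem_stabilizer_iff.mp hs.1) hs.2.1 hs.2.2
      (MulAction.mem_stabilizer_iff.mp hs'.1) hs'.2.1 hs'.2.2
  have hIconj : ∀ d ∈ MulAction.stabilizer G a,
      ∀ s ∈ Cfsg.involutionsIn (MulAction.stabilizer G a : Set G),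
      d * s * d⁻¹ ∈ Cfsg.involutionsIn (MulAction.stabilizer G a : Set G) := by
    rintro d hd s ⟨hsA, hs1, hss⟩
    refine ⟨Subgroup.mul_mem _ (Subgroup.mul_mem _ hd hsA) (Subgroup.inv_mem _ hd), ?_, ?_⟩
    · intro h
      apply hs1
      have : s = d⁻¹ * (d * s * d⁻¹) * d := by group
      rw [this, h]; group
    · have : (d * s * d⁻¹) * (d * s * d⁻¹) = d * (s * s) * d⁻¹ := by group
      rw [this, hss]; group
  have key1 : ∀ s r d : G, s ∈ Cfsg.involutionsIn (MulAction.stabilizer G a : Set G) → r ∈ Q →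
      t * s * t = r⁻¹ * t * r → d ∈ MulAction.stabilizer G a → t * d = d * t →
      d * s * d⁻¹ = s := by
    intro s r d hs hr heq hd hdt
    have ht : d⁻¹ * t * d = t := by rw [mul_assoc, hdt, ← mul_assoc, inv_mul_cancel, one_mul]
    have ht2 : d * t * d⁻¹ = t := by rw [← hdt, mul_assoc, mul_inv_cancel, mul_one]
    have h1 : t * (d * s * d⁻¹) * t = (d * r * d⁻¹)⁻¹ * t * (d * r * d⁻¹) := by
      calc t * (d * s * d⁻¹) * t = (d * t * d⁻¹) * (d * s * d⁻¹) * (d * t * d⁻¹) := by rw [ht2]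
        _ = d * (t * s * t) * d⁻¹ := by group
        _ = d * (r⁻¹ * t * r) * d⁻¹ := by rw [heq]
        _ = d * (r⁻¹ * (d⁻¹ * t * d) * r) * d⁻¹ := by rw [ht]
        _ = (d * r * d⁻¹)⁻¹ * t * (d * r * d⁻¹) := by group
    have := hU.unique (y₁ := (d * s * d⁻¹, d * r * d⁻¹)) (y₂ := (s, r))
      ⟨hIconj d hd s hs, hS.conj_mem d hd r hr, h1⟩ ⟨hs, hr, heq⟩
    exact congrArg Prod.fst this
  have h1K : (1 : G) ∈ Cfsg.invertedBy D t := ⟨D.one_mem, by simp⟩
  have hKone : ∀ k ∈ Cfsg.invertedBy D t,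
      ∀ s ∈ Cfsg.involutionsIn (MulAction.stabilizer G a : Set G), k⁻¹ * s * k = s → k = 1 := by
    intro k hk s hs h
    exact (MI s hs s hs).unique ⟨hk, h⟩ ⟨h1K, by group⟩
  have part1 : ∀ s r : G, s ∈ Cfsg.involutionsIn (MulAction.stabilizer G a : Set G) → r ∈ Q →
      t * s * t = r⁻¹ * t * r →
      D ⊓ Subgroup.centralizer {t} = D ⊓ Subgroup.centralizer {s} := by
    intro s r hs hr heq
    apply le_antisymm
    · rintro d ⟨hdD, hdt⟩
      refine ⟨hdD, ?_⟩
      have hdt' : t * d = d * t := Subgroup.mem_centralizer_iff.mp hdt t (Set.mem_singleton t)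
      have h := key1 s r d hs hr heq (hDA hdD) hdt'
      apply Subgroup.mem_centralizer_iff.mpr
      intro x hx
      rw [Set.mem_singleton_iff.mp hx]
      rw [mul_inv_eq_iff_eq_mul] at h
      exact h.symm
    · rintro d ⟨hdD, hds⟩
      refine ⟨hdD, ?_⟩
      have hds' : s * d = d * s := Subgroup.mem_centralizer_iff.mp hds s (Set.mem_singleton s)
      have hda : d • a = a := MulAction.mem_stabilizer_iff.mp hdD.1
      have hdb : d • (t • a) = t • a := MulAction.mem_stabilizer_iff.mp hdD.2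
      have hda' : d⁻¹ • a = a := by rw [inv_smul_eq_iff, hda]
      have hdb' : d⁻¹ • (t • a) = t • a := by rw [inv_smul_eq_iff, hdb]
      have hkD : t * (d * t * d⁻¹) ∈ D := by
        show t * (d * t * d⁻¹) ∈ MulAction.stabilizer G a ⊓ MulAction.stabilizer G (t • a)
        refine Subgroup.mem_inf.mpr ⟨?_, ?_⟩
        · rw [MulAction.mem_stabilizer_iff, mul_smul, mul_smul, mul_smul, hda', hdb, ← mul_smul,
            hS.mul_self, one_smul]
        · rw [MulAction.mem_stabilizer_iff, mul_smul, mul_smul, mul_smul, hdb', ← mul_smul t t,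
            hS.mul_self, one_smul, hda]
      have hkt : t * (t * (d * t * d⁻¹)) * t⁻¹ = (t * (d * t * d⁻¹))⁻¹ := by
        calc t * (t * (d * t * d⁻¹)) * t⁻¹ = (t * t) * d * t * d⁻¹ * t⁻¹ := by group
          _ = d * t⁻¹ * d⁻¹ * t⁻¹ := by rw [hS.mul_self, one_mul, htinv]
          _ = (t * (d * t * d⁻¹))⁻¹ := by group
      obtain ⟨j, hj⟩ : Odd (orderOf (t * (d * t * d⁻¹))) :=
        Odd.of_dvd_nat hS.odd_card (Subgroup.orderOf_dvd_natCard D hkD)
      obtain ⟨k, hkdef⟩ : ∃ k : G, k = t * (d * t * d⁻¹) := ⟨_, rfl⟩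
      rw [← hkdef] at hkD hkt hj
      have hk0D : k ^ (j + 1) ∈ D := D.pow_mem hkD _
      have hk0t : t * k ^ (j + 1) * t⁻¹ = (k ^ (j + 1))⁻¹ := by
        rw [← conj_pow, hkt, inv_pow]
      have hk0sq : k ^ (j + 1) * k ^ (j + 1) = k := by
        have : j + 1 + (j + 1) = orderOf k + 1 := by omega
        rw [← pow_add, this, pow_succ, pow_orderOf_eq_one, one_mul]
      obtain ⟨k0, hk0def⟩ : ∃ k0 : G, k0 = k ^ (j + 1) := ⟨_, rfl⟩
      rw [← hk0def] at hk0D hk0t hk0sq
      have e5 : t * k0 = k0⁻¹ * t := by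
        rw [mul_inv_eq_iff_eq_mul] at hk0t
        exact hk0t
      have he : (k0 * d) * t = t * (k0 * d) := by
        calc (k0 * d) * t = k0⁻¹ * (k0 * k0) * d * t := by group
          _ = k0⁻¹ * (t * (d * t * d⁻¹)) * d * t := by rw [hk0sq, hkdef]
          _ = k0⁻¹ * t * d * (t * t) := by group
          _ = k0⁻¹ * t * d := by rw [hS.mul_self, mul_one]
          _ = (t * k0) * d := by rw [e5]
          _ = t * (k0 * d) := mul_assoc _ _ _
      have hkey := key1 s r (k0 * d) hs hr heq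
        (Subgroup.mul_mem _ (hDA hk0D) (hDA hdD)) he.symm
      have hk0s : k0⁻¹ * s * k0 = s := by
        calc k0⁻¹ * s * k0 = k0⁻¹ * ((k0 * d) * s * (k0 * d)⁻¹) * k0 := by rw [hkey]
          _ = d * s * d⁻¹ := by group
          _ = s := by rw [← hds', mul_assoc, mul_inv_cancel, mul_one]
      have hk01 : k0 = 1 := hKone k0 ⟨hk0D, hk0t⟩ s hs hk0s
      have h7 : t * (d * t * d⁻¹) = 1 := by rw [← hkdef, ← hk0sq, hk01, mul_one]
      have h8 : d * t * d⁻¹ = t := by
        have := eq_inv_of_mul_eq_one_right h7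
        rw [htinv] at this; exact this
      apply Subgroup.mem_centralizer_iff.mpr
      intro x hx
      rw [Set.mem_singleton_iff.mp hx]
      rw [mul_inv_eq_iff_eq_mul] at h8
      exact h8.symm
  refine ⟨part1, ?_⟩
  obtain ⟨⟨s1, r1⟩, ⟨hs1I, hr1Q, heq1⟩, _⟩ := hU
  have hs1I' : s1 ∈ Cfsg.involutionsIn (MulAction.stabilizer G a : Set G) := hs1I
  have P1 := part1 s1 r1 hs1I' hr1Q heq1
  apply le_antisymm
  · rintro d ⟨⟨hdD, hdt⟩, hdK⟩
    refine ⟨hdD, ?_⟩
    have hds1 : d ∈ D ⊓ Subgroup.centralizer {s1} := by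
      rw [← P1]; exact ⟨hdD, hdt⟩
    have c1 : s1 * d = d * s1 := Subgroup.mem_centralizer_iff.mp hds1.2 s1 (Set.mem_singleton _)
    apply Subgroup.mem_centralizer_iff.mpr
    intro s' hs'
    obtain ⟨k, ⟨hkK, hks⟩, _⟩ := MI s1 hs1I' s' hs'
    have c2 : k * d = d * k := Subgroup.mem_centralizer_iff.mp hdK k hkK
    have cs : Commute d s1 := c1.symm
    have ck : Commute d k := c2.symm
    rw [← hks]
    exact (((ck.inv_right).mul_right cs).mul_right ck).symm
  · rintro d ⟨hdD, hdI⟩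
    have c1 : s1 * d = d * s1 := Subgroup.mem_centralizer_iff.mp hdI s1 hs1I'
    have hdt : d ∈ D ⊓ Subgroup.centralizer {t} := by
      rw [P1]
      refine ⟨hdD, ?_⟩
      apply Subgroup.mem_centralizer_iff.mpr
      intro x hx
      rw [Set.mem_singleton_iff.mp hx]
      exact c1
    refine ⟨hdt, ?_⟩
    apply Subgroup.mem_centralizer_iff.mpr
    intro k hkK
    have ct : t * d = d * t := Subgroup.mem_centralizer_iff.mp hdt.2 t (Set.mem_singleton _)
    have ht2 : d * t * d⁻¹ = t := by rw [← ct, mul_assoc, mul_inv_cancel, mul_one]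
    have hk'K : d * k * d⁻¹ ∈ Cfsg.invertedBy D t := by
      refine ⟨D.mul_mem (D.mul_mem hdD hkK.1) (D.inv_mem hdD), ?_⟩
      calc t * (d * k * d⁻¹) * t⁻¹ = (d * t * d⁻¹) * (d * k * d⁻¹) * (d * t * d⁻¹)⁻¹ := by rw [ht2]
        _ = d * (t * k * t⁻¹) * d⁻¹ := by group
        _ = d * k⁻¹ * d⁻¹ := by rw [hkK.2]
        _ = (d * k * d⁻¹)⁻¹ := by group
    have hs2I : k⁻¹ * s1 * k ∈ Cfsg.involutionsIn (MulAction.stabilizer G a : Set G) := by
      have := hIconj k⁻¹ (hDA (D.inv_mem hkK.1)) s1 hs1I'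
      rwa [inv_inv] at this
    have c2 : (k⁻¹ * s1 * k) * d = d * (k⁻¹ * s1 * k) := Subgroup.mem_centralizer_iff.mp hdI _ hs2I
    have hd1 : d⁻¹ * s1 * d = s1 := by rw [mul_assoc, c1, ← mul_assoc, inv_mul_cancel, one_mul]
    have h9 : (d * k * d⁻¹)⁻¹ * s1 * (d * k * d⁻¹) = k⁻¹ * s1 * k := by
      calc (d * k * d⁻¹)⁻¹ * s1 * (d * k * d⁻¹) = d * k⁻¹ * (d⁻¹ * s1 * d) * k * d⁻¹ := by group
        _ = d * k⁻¹ * s1 * k * d⁻¹ := by rw [hd1]
        _ = d * (k⁻¹ * s1 * k) * d⁻¹ := by group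
        _ = k⁻¹ * s1 * k := by rw [← c2, mul_assoc, mul_inv_cancel, mul_one]
    have h10 := (MI s1 hs1I' _ hs2I).unique ⟨hk'K, h9⟩ ⟨hkK, rfl⟩
    rw [mul_inv_eq_iff_eq_mul] at h10
    exact h10.symm

end Cfsg.Agent.S1127
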