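import Cfsg.Statements.S1128
import Cfsg.Agent.S1125

set_option autoImplicit false
open scoped Pointwise
open Cfsg

namespace Cfsg.Agent.S1128

/-- In the rank-one set-up (`G` finite and doubly transitive on `Ω`, `t` an involution moving `a`, `Q` normal in `G_a` with `G_a = Q D`, `Q ⊓ D = 1` for the two-point stabiliser `D = G_a ⊓ G_{t • a}`, `|Q|` even, `|D|` odd), with the action faithful and `G` containing two distinct commuting involutions: every non-identity element of `D` inverted by `t` acts fixed-point-freely on `Q`. -/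
theorem result {G Ω : Type*} [Group G] [Finite G] [MulAction G Ω] [FaithfulSMul G Ω] {a : Ω} {t : G} {Q : Subgroup G}
    (hS : Cfsg.IsRankOneSetup G Ω a t Q)
    (h2 : ∃ x y : G, x ≠ 1 ∧ y ≠ 1 ∧ x ≠ y ∧ x * x = 1 ∧ y * y = 1 ∧ x * y = y * x)
    (x : G) (hx : x ∈ Cfsg.invertedBy (MulAction.stabilizer G a ⊓ MulAction.stabilizer G (t • a)) t) (hx1 : x ≠ 1) :
    Q ⊓ Subgroup.centralizer {x} = ⊥ := by
  have hta : t • a ≠ a := fun h => hS.not_mem (MulAction.mem_stabilizer_iff.mpr h)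
  have hxD := hx.1
  have hxt : t * x * t⁻¹ = x⁻¹ := hx.2
  have hxa : x • a = a := MulAction.mem_stabilizer_iff.mp (Subgroup.mem_inf.mp hxD).1
  have hxb : x • (t • a) = t • a := MulAction.mem_stabilizer_iff.mp (Subgroup.mem_inf.mp hxD).2
  have hDodd : ∀ y ∈ MulAction.stabilizer G a ⊓ MulAction.stabilizer G (t • a), y * y = 1 →
      y = 1 := by
    intro y hy hyy
    have h1 : orderOf y ∣ 2 := orderOf_dvd_of_pow_eq_one (by rw [pow_two, hyy])
    have h2 := Subgroup.orderOf_dvd_natCard _ hy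
    rcases (Nat.dvd_prime Nat.prime_two).mp h1 with h | h
    · exact orderOf_eq_one_iff.mp h
    · rw [h] at h2
      exact absurd (even_iff_two_dvd.mpr h2) (Nat.not_even_iff_odd.mpr hS.odd_card)
  rw [eq_bot_iff]
  rintro q ⟨hq, hqc⟩
  rw [Subgroup.mem_bot]
  by_contra hq1
  have hqx : x * q = q * x := Subgroup.mem_centralizer_iff.mp hqc x (Set.mem_singleton x)
  have hqa : q • a = a := MulAction.mem_stabilizer_iff.mp (hS.le hq)
  have hne2 : a ≠ q • (t • a) := by
    intro h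
    exact hta (smul_left_cancel q (h.symm.trans hqa.symm))
  have hne3 : t • a ≠ q • (t • a) := by
    intro h
    apply hq1
    have hm : q ∈ Q ⊓ MulAction.stabilizer G (t • a) :=
      ⟨hq, MulAction.mem_stabilizer_iff.mpr h.symm⟩
    rw [hS.inf_eq_bot, Subgroup.mem_bot] at hm
    exact hm
  have hxq : x • (q • (t • a)) = q • (t • a) := by
    rw [← mul_smul, hqx, mul_smul, hxb]
  have hX : ({x} : Set G) ⊆
      ((MulAction.stabilizer G a ⊓ MulAction.stabilizer G (t • a) : Subgroup G) : Set G) := by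
    intro y hy
    rw [Set.mem_singleton_iff.mp hy]
    exact hxD
  have h3 : ∃ b c d : Ω, b ≠ c ∧ b ≠ d ∧ c ≠ d ∧
      ∀ y ∈ ({x} : Set G), y • b = b ∧ y • c = c ∧ y • d = d :=
    ⟨a, t • a, q • (t • a), Ne.symm hta, hne2, hne3, fun y hy => by
      rw [Set.mem_singleton_iff.mp hy]; exact ⟨hxa, hxb, hxq⟩⟩
  obtain ⟨g, hgc, hga, hgb⟩ := (Cfsg.Agent.S1125.result hS {x} hX h3).1 a (t • a) (t • a) a
    (fun y hy => by rw [Set.mem_singleton_iff.mp hy]; exact ⟨hxa, hxb, hxb, hxa⟩)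
    (Ne.symm hta) hta
  have hgx : x * g = g * x := Subgroup.mem_centralizer_iff.mp hgc x (Set.mem_singleton x)
  have hkD : t * g ∈ MulAction.stabilizer G a ⊓ MulAction.stabilizer G (t • a) := by
    refine Subgroup.mem_inf.mpr ⟨?_, ?_⟩
    · rw [MulAction.mem_stabilizer_iff, mul_smul, hga, ← mul_smul, hS.mul_self, one_smul]
    · rw [MulAction.mem_stabilizer_iff, mul_smul, hgb]
  have hk : (t * g) * x * (t * g)⁻¹ = x⁻¹ := by
    calc (t * g) * x * (t * g)⁻¹ = t * (g * x) * g⁻¹ * t⁻¹ := by group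
      _ = t * (x * g) * g⁻¹ * t⁻¹ := by rw [hgx]
      _ = t * x * t⁻¹ := by group
      _ = x⁻¹ := hxt
  obtain ⟨k, hkdef⟩ : ∃ k : G, k = t * g := ⟨_, rfl⟩
  rw [← hkdef] at hkD hk
  have e1 : k * x = x⁻¹ * k := mul_inv_eq_iff_eq_mul.mp hk
  have e2 : k * x⁻¹ = x * k := by
    have h : x * (k * x) = k := by rw [e1, ← mul_assoc, mul_inv_cancel, one_mul]
    rw [← mul_assoc] at h
    exact (eq_mul_inv_of_mul_eq h).symm
  have hc2 : Commute (k * k) x := by
    show k * k * x = x * (k * k)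
    calc k * k * x = k * (k * x) := mul_assoc _ _ _
      _ = k * (x⁻¹ * k) := by rw [e1]
      _ = (k * x⁻¹) * k := (mul_assoc _ _ _).symm
      _ = (x * k) * k := by rw [e2]
      _ = x * (k * k) := mul_assoc _ _ _
  obtain ⟨j, hj⟩ : Odd (orderOf k) :=
    Odd.of_dvd_nat hS.odd_card (Subgroup.orderOf_dvd_natCard _ hkD)
  have hp : (k * k) ^ j * k = 1 := by
    rw [← pow_two, ← pow_mul, ← pow_succ, ← hj, pow_orderOf_eq_one]
  have hkeq : k = ((k * k) ^ j)⁻¹ := eq_inv_of_mul_eq_one_right hp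
  have hck : Commute k x := by
    have h := (hc2.pow_left j).inv_left
    rw [← hkeq] at h
    exact h
  have h5 : k * x * k⁻¹ = x := by rw [hck.eq, mul_assoc, mul_inv_cancel, mul_one]
  have h6 : x = x⁻¹ := h5.symm.trans hk
  exact hx1 (hDodd x hxD (mul_eq_one_iff_eq_inv.mpr h6))

end Cfsg.Agent.S1128
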