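import Cfsg.Statements.S1134
import Cfsg.Agent.S1119
import Cfsg.Agent.S1125

set_option autoImplicit false
open scoped Pointwise
open Cfsg

namespace Cfsg.Agent.S1134

/-- In the rank-one set-up (`G` finite and doubly transitive on `Ω`, `t` an involution moving `a`, `Q` normal in `G_a` with `G_a = Q D`, `Q ⊓ D = 1` for the two-point stabiliser `D = G_a ⊓ G_{t • a}`, `|Q|` even, `|D|` odd), with the action faithful and `G` containing two distinct commuting involutions, with `V = C_D(t)`: subsets of `V` conjugate in `G` are conjugate in `V`. -/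
theorem result {G Ω : Type*} [Group G] [Finite G] [MulAction G Ω] [FaithfulSMul G Ω] {a : Ω} {t : G} {Q : Subgroup G}
    (hS : Cfsg.IsRankOneSetup G Ω a t Q)
    (h2 : ∃ x y : G, x ≠ 1 ∧ y ≠ 1 ∧ x ≠ y ∧ x * x = 1 ∧ y * y = 1 ∧ x * y = y * x)
    (X : Set G) (hX : X ⊆ (((MulAction.stabilizer G a ⊓ MulAction.stabilizer G (t • a)) ⊓ Subgroup.centralizer {t} : Subgroup G) : Set G)) (g : G)
    (hY : (fun x => g * x * g⁻¹) '' X ⊆ (((MulAction.stabilizer G a ⊓ MulAction.stabilizer G (t • a)) ⊓ Subgroup.centralizer {t} : Subgroup G) : Set G)) :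
    ∃ v ∈ (MulAction.stabilizer G a ⊓ MulAction.stabilizer G (t • a)) ⊓ Subgroup.centralizer {t}, (fun x => v * x * v⁻¹) '' X = (fun x => g * x * g⁻¹) '' X := by
  have h2t : ∀ {a b c d : Ω} (_ : a ≠ b) (_ : c ≠ d), ∃ g : G, g • a = c ∧ g • b = d :=
    MulAction.is_two_pretransitive_iff.mp hS.two_transitive
  have hta : t • a ≠ a := fun h => hS.not_mem (MulAction.mem_stabilizer_iff.mpr h)
  have fix_unique : ∀ x ∈ Q, x ≠ 1 → ∀ b : Ω, x • b = b → b = a := by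
    intro x hx hx1 b hb
    by_contra hba
    obtain ⟨h, h1, h2⟩ := h2t (a := a) (b := t • a) (c := a) (d := b) hta.symm (Ne.symm hba)
    have hh : h⁻¹ ∈ MulAction.stabilizer G a := by
      apply Subgroup.inv_mem
      exact MulAction.mem_stabilizer_iff.mpr h1
    have hq := hS.conj_mem h⁻¹ hh x hx
    rw [inv_inv] at hq
    have hfix : h⁻¹ * x * h ∈ MulAction.stabilizer G (t • a) := by
      rw [MulAction.mem_stabilizer_iff, mul_smul, mul_smul, h2, hb, ← h2, inv_smul_smul]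
    have hbot : h⁻¹ * x * h ∈ Q ⊓ MulAction.stabilizer G (t • a) := ⟨hq, hfix⟩
    rw [hS.inf_eq_bot, Subgroup.mem_bot] at hbot
    apply hx1
    have : x = h * (h⁻¹ * x * h) * h⁻¹ := by group
    rw [this, hbot]; group
  obtain ⟨_, _, _, ⟨P, hPQ⟩, _⟩ := Cfsg.Agent.S1119.result hS
  have : Fact (Nat.Prime 2) := ⟨Nat.prime_two⟩
  have L1 : ∀ u : G, u * u = 1 → ∃ g : G, g * u * g⁻¹ ∈ Q := by
    intro u hu
    have hp : IsPGroup 2 (Subgroup.zpowers u) := by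
      rintro ⟨x, hx⟩
      obtain ⟨i, rfl⟩ := Subgroup.mem_zpowers_iff.mp hx
      refine ⟨1, ?_⟩
      apply Subtype.ext
      show (u ^ i) ^ (2 ^ 1) = 1
      have h2 : u ^ ((2 : ℕ) : ℤ) = 1 := by rw [zpow_natCast, pow_two, hu]
      rw [pow_one, ← zpow_natCast, ← zpow_mul, mul_comm, zpow_mul, h2, one_zpow]
    obtain ⟨P', hP'⟩ := hp.exists_le_sylow
    obtain ⟨g, hg⟩ := MulAction.exists_smul_eq G P' P
    refine ⟨g, hPQ ?_⟩
    rw [← hg]
    have hu' : u ∈ (P' : Subgroup G) := hP' (Subgroup.mem_zpowers u)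
    exact Subgroup.smul_mem_pointwise_smul u (MulAut.conj g) (P' : Subgroup G) hu'
  have L2 : ∀ u : G, u ≠ 1 → u * u = 1 → ∃ b : Ω, u • b = b ∧ ∀ c : Ω, u • c = c → c = b := by
    intro u hu1 hu
    obtain ⟨g, hg⟩ := L1 u hu
    have hne : g * u * g⁻¹ ≠ 1 := by
      intro h
      apply hu1
      have : u = g⁻¹ * (g * u * g⁻¹) * g := by group
      rw [this, h]; group
    have hfa : (g * u * g⁻¹) • a = a := MulAction.mem_stabilizer_iff.mp (hS.le hg)
    refine ⟨g⁻¹ • a, ?_, ?_⟩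
    · rw [mul_smul, mul_smul, smul_eq_iff_eq_inv_smul] at hfa
      exact hfa
    · intro c hc
      have := fix_unique _ hg hne (g • c) (by rw [mul_smul, mul_smul, inv_smul_smul, hc])
      rw [← this, inv_smul_smul]
  have htinv : t⁻¹ = t := inv_eq_of_mul_eq_one_left hS.mul_self
  obtain ⟨c, hc, hcu⟩ := L2 t hS.ne_one hS.mul_self
  have hca : c ≠ a := by rintro rfl; exact hta hc
  have hcb : c ≠ t • a := by
    intro h
    rw [h] at hc
    exact hta (smul_left_cancel t hc)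
  have hXD : ∀ x ∈ X, x ∈ MulAction.stabilizer G a ⊓ MulAction.stabilizer G (t • a) :=
    fun x hx => (Subgroup.mem_inf.mp (hX hx)).1
  have hXt : ∀ x ∈ X, t * x = x * t := fun x hx =>
    Subgroup.mem_centralizer_iff.mp (Subgroup.mem_inf.mp (hX hx)).2 t (Set.mem_singleton t)
  have hXa : ∀ x ∈ X, x • a = a := fun x hx =>
    MulAction.mem_stabilizer_iff.mp (Subgroup.mem_inf.mp (hXD x hx)).1
  have hXb : ∀ x ∈ X, x • (t • a) = t • a := fun x hx =>
    MulAction.mem_stabilizer_iff.mp (Subgroup.mem_inf.mp (hXD x hx)).2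
  have hXc : ∀ x ∈ X, x • c = c := by
    intro x hx
    apply hcu
    rw [← mul_smul, hXt x hx, mul_smul, hc]
  have hYm : ∀ x ∈ X, g * x * g⁻¹ ∈ (MulAction.stabilizer G a ⊓ MulAction.stabilizer G (t • a)) ⊓
      Subgroup.centralizer {t} := fun x hx => hY ⟨x, hx, rfl⟩
  have hYa : ∀ x ∈ X, x • (g⁻¹ • a) = g⁻¹ • a := by
    intro x hx
    have h1 := MulAction.mem_stabilizer_iff.mp
      (Subgroup.mem_inf.mp (Subgroup.mem_inf.mp (hYm x hx)).1).1
    rw [mul_smul, mul_smul, smul_eq_iff_eq_inv_smul] at h1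
    exact h1
  have hYb : ∀ x ∈ X, x • (g⁻¹ • (t • a)) = g⁻¹ • (t • a) := by
    intro x hx
    have h1 := MulAction.mem_stabilizer_iff.mp
      (Subgroup.mem_inf.mp (Subgroup.mem_inf.mp (hYm x hx)).1).2
    rw [mul_smul, mul_smul, smul_eq_iff_eq_inv_smul] at h1
    exact h1
  have hYt : ∀ x ∈ X, t * (g * x * g⁻¹) = (g * x * g⁻¹) * t := fun x hx =>
    Subgroup.mem_centralizer_iff.mp (Subgroup.mem_inf.mp (hYm x hx)).2 t (Set.mem_singleton t)
  have hX' : X ⊆ ((MulAction.stabilizer G a ⊓ MulAction.stabilizer G (t • a) : Subgroup G) : Set G) :=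
    fun x hx => hXD x hx
  have h3 : ∃ b c d : Ω, b ≠ c ∧ b ≠ d ∧ c ≠ d ∧ ∀ x ∈ X, x • b = b ∧ x • c = c ∧ x • d = d :=
    ⟨a, t • a, c, Ne.symm hta, Ne.symm hca, Ne.symm hcb,
      fun x hx => ⟨hXa x hx, hXb x hx, hXc x hx⟩⟩
  obtain ⟨h, hhC, hha, hhb⟩ := (Cfsg.Agent.S1125.result hS X hX' h3).1 a (t • a) (g⁻¹ • a)
    (g⁻¹ • (t • a)) (fun x hx => ⟨hXa x hx, hXb x hx, hYa x hx, hYb x hx⟩) (Ne.symm hta)
    (fun h => hta (smul_left_cancel g⁻¹ h).symm)
  have hhc : ∀ x ∈ X, x * h = h * x := fun x hx => Subgroup.mem_centralizer_iff.mp hhC x hx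
  obtain ⟨d, hddef⟩ : ∃ d : G, d = g * h := ⟨_, rfl⟩
  have hda : d • a = a := by rw [hddef, mul_smul, hha, smul_inv_smul]
  have hdb : d • (t • a) = t • a := by rw [hddef, mul_smul, hhb, smul_inv_smul]
  have hdx : ∀ x ∈ X, d * x * d⁻¹ = g * x * g⁻¹ := by
    intro x hx
    rw [hddef]
    calc g * h * x * (g * h)⁻¹ = g * (h * x) * h⁻¹ * g⁻¹ := by group
      _ = g * (x * h) * h⁻¹ * g⁻¹ := by rw [hhc x hx]
      _ = g * x * g⁻¹ := by group
  set D : Subgroup G := MulAction.stabilizer G a ⊓ MulAction.stabilizer G (t • a) with hD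
  have hdD : d ∈ D := by
    show d ∈ MulAction.stabilizer G a ⊓ MulAction.stabilizer G (t • a)
    exact Subgroup.mem_inf.mpr ⟨MulAction.mem_stabilizer_iff.mpr hda,
      MulAction.mem_stabilizer_iff.mpr hdb⟩
  have hda' : d⁻¹ • a = a := by rw [inv_smul_eq_iff, hda]
  have hdb' : d⁻¹ • (t • a) = t • a := by rw [inv_smul_eq_iff, hdb]
  have hkD : t * (d * t * d⁻¹) ∈ D := by
    show t * (d * t * d⁻¹) ∈ MulAction.stabilizer G a ⊓ MulAction.stabilizer G (t • a)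
    refine Subgroup.mem_inf.mpr ⟨?_, ?_⟩
    · rw [MulAction.mem_stabilizer_iff, mul_smul, mul_smul, mul_smul, hda', hdb, ← mul_smul,
        hS.mul_self, one_smul]
    · rw [MulAction.mem_stabilizer_iff, mul_smul, mul_smul, mul_smul, hdb', ← mul_smul t t,
        hS.mul_self, one_smul, hda]
  have hkt : t * (t * (d * t * d⁻¹)) * t⁻¹ = (t * (d * t * d⁻¹))⁻¹ := by
    calc t * (t * (d * t * d⁻¹)) * t⁻¹ = (t * t) * d * t * d⁻¹ * t⁻¹ := by group
      _ = d * t⁻¹ * d⁻¹ * t⁻¹ := by rw [hS.mul_self, one_mul, htinv]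
      _ = (t * (d * t * d⁻¹))⁻¹ := by group
  obtain ⟨j, hj⟩ : Odd (orderOf (t * (d * t * d⁻¹))) :=
    Odd.of_dvd_nat hS.odd_card (Subgroup.orderOf_dvd_natCard D hkD)
  obtain ⟨k, hkdef⟩ : ∃ k : G, k = t * (d * t * d⁻¹) := ⟨_, rfl⟩
  rw [← hkdef] at hkD hkt hj
  have hk0D : k ^ (j + 1) ∈ D := D.pow_mem hkD _
  have hk0t : t * k ^ (j + 1) * t⁻¹ = (k ^ (j + 1))⁻¹ := by
    rw [← conj_pow, hkt, inv_pow]
  have hk0sq : k ^ (j + 1) * k ^ (j + 1) = k := by
    have : j + 1 + (j + 1) = orderOf k + 1 := by omega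
    rw [← pow_add, this, pow_succ, pow_orderOf_eq_one, one_mul]
  obtain ⟨k0, hk0def⟩ : ∃ k0 : G, k0 = k ^ (j + 1) := ⟨_, rfl⟩
  rw [← hk0def] at hk0D hk0t hk0sq
  have e5 : t * k0 = k0⁻¹ * t := by
    rw [mul_inv_eq_iff_eq_mul] at hk0t
    exact hk0t
  have he : (k0 * d) * t = t * (k0 * d) := by
    calc (k0 * d) * t = k0⁻¹ * (k0 * k0) * d * t := by group
      _ = k0⁻¹ * (t * (d * t * d⁻¹)) * d * t := by rw [hk0sq, hkdef]
      _ = k0⁻¹ * t * d * (t * t) := by group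
      _ = k0⁻¹ * t * d := by rw [hS.mul_self, mul_one]
      _ = (t * k0) * d := by rw [e5]
      _ = t * (k0 * d) := mul_assoc _ _ _
  have hky : ∀ x ∈ X, Commute k (d * x * d⁻¹) := by
    intro x hx
    rw [hkdef]
    apply Commute.mul_left
    · rw [hdx x hx]; exact hYt x hx
    · show d * t * d⁻¹ * (d * x * d⁻¹) = d * x * d⁻¹ * (d * t * d⁻¹)
      calc d * t * d⁻¹ * (d * x * d⁻¹) = d * (t * x) * d⁻¹ := by group
        _ = d * (x * t) * d⁻¹ := by rw [hXt x hx]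
        _ = d * x * d⁻¹ * (d * t * d⁻¹) := by group
  have hk0y : ∀ x ∈ X, Commute k0 (d * x * d⁻¹) := fun x hx => by
    rw [hk0def]; exact (hky x hx).pow_left _
  refine ⟨k0 * d, Subgroup.mem_inf.mpr ⟨D.mul_mem hk0D hdD, ?_⟩, ?_⟩
  · apply Subgroup.mem_centralizer_iff.mpr
    intro z hz
    rw [Set.mem_singleton_iff.mp hz]
    exact he.symm
  · apply Set.image_congr
    intro x hx
    show (k0 * d) * x * (k0 * d)⁻¹ = g * x * g⁻¹
    calc (k0 * d) * x * (k0 * d)⁻¹ = k0 * (d * x * d⁻¹) * k0⁻¹ := by group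
      _ = (d * x * d⁻¹) * k0 * k0⁻¹ := by rw [(hk0y x hx).eq]
      _ = d * x * d⁻¹ := mul_inv_cancel_right _ _
      _ = g * x * g⁻¹ := hdx x hx

end Cfsg.Agent.S1134
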