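import Mathlib
import Cfsg.Statements.S1165

set_option autoImplicit false
open Cfsg

namespace Cfsg.Agent.S1165


/-- In the rank-one set-up (`G` finite and doubly transitive on `Ω`, `t` an involution moving `a`, `Q` normal in `G_a` with `G_a = Q D`, `Q ⊓ D = 1` for the two-point stabiliser `D = G_a ⊓ G_{t • a}`, `|Q|` even, `|D|` odd): every `x ∈ Q`, `x ≠ 1`, determines unique `g, f ∈ Q`, `h ∈ D` with `t x t = g h t f` (a consequence of the canonical form). For these: (H1) the `f`-part of `x⁻¹` is `g⁻¹`; (H2) the `f`-part of `f` is `x`; (H3) for `a ∈ D` the `f`-part of `a⁻¹ x a` is `(t a t)⁻¹ f (t a t)`; (H4) the `h`-part of `a⁻¹ x a` is `(t a t)⁻¹ h a`, that of `x⁻¹` is `t h⁻¹ t`, and that of `f` is `h⁻¹`. -/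
theorem result {G Ω : Type*} [Group G] [Finite G] [MulAction G Ω] {a : Ω} {t : G} {Q : Subgroup G}
    (hS : Cfsg.IsRankOneSetup G Ω a t Q)
    (x g h f : G) (hx : x ∈ Q) (hx1 : x ≠ 1) (hg : g ∈ Q) (hh : h ∈ (MulAction.stabilizer G a ⊓ MulAction.stabilizer G (t • a))) (hf : f ∈ Q)
    (heq : t * x * t = g * h * t * f) :
    (∀ g₁ h₁ f₁ : G, g₁ ∈ Q → h₁ ∈ (MulAction.stabilizer G a ⊓ MulAction.stabilizer G (t • a)) → f₁ ∈ Q → t * x⁻¹ * t = g₁ * h₁ * t * f₁ →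
        f₁ = g⁻¹ ∧ h₁ = t * h⁻¹ * t) ∧
      (∀ g₂ h₂ f₂ : G, g₂ ∈ Q → h₂ ∈ (MulAction.stabilizer G a ⊓ MulAction.stabilizer G (t • a)) → f₂ ∈ Q → t * f * t = g₂ * h₂ * t * f₂ →
        f₂ = x ∧ h₂ = h⁻¹) ∧
      ∀ c ∈ (MulAction.stabilizer G a ⊓ MulAction.stabilizer G (t • a)), ∀ g₃ h₃ f₃ : G, g₃ ∈ Q → h₃ ∈ (MulAction.stabilizer G a ⊓ MulAction.stabilizer G (t • a)) → f₃ ∈ Q →
        t * (c⁻¹ * x * c) * t = g₃ * h₃ * t * f₃ →
          f₃ = (t * c * t)⁻¹ * f * (t * c * t) ∧ h₃ = (t * c * t)⁻¹ * h * c := by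
  have ht := hS.mul_self
  have hti : t⁻¹ = t := inv_eq_of_mul_eq_one_left ht
  set D := MulAction.stabilizer G a ⊓ MulAction.stabilizer G (t • a) with hD
  have hbot : ∀ w ∈ Q, w • (t • a) = t • a → w = 1 := by
    intro w hw hw2
    have h1 : w ∈ Q ⊓ MulAction.stabilizer G (t • a) := ⟨hw, hw2⟩
    rw [hS.inf_eq_bot] at h1
    exact h1
  have U : ∀ g h f g' h' f' : G, g ∈ Q → h ∈ D → f ∈ Q → g' ∈ Q → h' ∈ D → f' ∈ Q →
      g * h * t * f = g' * h' * t * f' → f = f' ∧ h = h' := by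
    intro g h f g' h' f' hg hh hf hg' hh' hf' e
    have hw : f' * f⁻¹ = 1 := by
      apply hbot _ (Q.mul_mem hf' (Q.inv_mem hf))
      have e3 : t * f' = (g' * h')⁻¹ * (g * h) * t * f := by
        symm
        calc (g' * h')⁻¹ * (g * h) * t * f = (g' * h')⁻¹ * (g * h * t * f) := by group
          _ = (g' * h')⁻¹ * (g' * h' * t * f') := by rw [e]
          _ = t * f' := by group
      have e2 : f' * f⁻¹ * t = t * ((g' * h')⁻¹ * (g * h)) := by
        calc f' * f⁻¹ * t = (t * t) * f' * f⁻¹ * t := by rw [ht, one_mul]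
          _ = t * (t * f') * f⁻¹ * t := by group
          _ = t * ((g' * h')⁻¹ * (g * h) * t * f) * f⁻¹ * t := by rw [e3]
          _ = t * ((g' * h')⁻¹ * (g * h)) * (t * t) := by group
          _ = t * ((g' * h')⁻¹ * (g * h)) := by rw [ht, mul_one]
      rw [← mul_smul, e2, mul_smul]
      congr 1
      have h2 : (g' * h')⁻¹ * (g * h) ∈ MulAction.stabilizer G a :=
        (MulAction.stabilizer G a).mul_mem
          ((MulAction.stabilizer G a).inv_mem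
            ((MulAction.stabilizer G a).mul_mem (hS.le hg') hh'.1))
          ((MulAction.stabilizer G a).mul_mem (hS.le hg) hh.1)
      exact h2
    have hff : f = f' := (mul_inv_eq_one.mp hw).symm
    subst hff
    refine ⟨rfl, ?_⟩
    have e4 : g * h = g' * h' := mul_right_cancel (mul_right_cancel e)
    have e5 : g'⁻¹ * g = h' * h⁻¹ := by
      calc g'⁻¹ * g = g'⁻¹ * (g * h) * h⁻¹ := by group
        _ = g'⁻¹ * (g' * h') * h⁻¹ := by rw [e4]
        _ = h' * h⁻¹ := by group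
    have e6 : g'⁻¹ * g = 1 := by
      apply hbot _ (Q.mul_mem (Q.inv_mem hg') hg)
      rw [e5]
      exact (D.mul_mem hh' (D.inv_mem hh)).2
    rw [e6] at e5
    exact (mul_inv_eq_one.mp e5.symm).symm
  have hDt : ∀ c ∈ D, t * c * t ∈ D := by
    intro c hc
    have c1 : c • a = a := hc.1
    have c2 : c • (t • a) = t • a := hc.2
    have tt : t • (t • a) = a := by rw [← mul_smul, ht, one_smul]
    constructor
    · show (t * c * t) • a = a
      rw [mul_smul, mul_smul, c2, tt]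
    · show (t * c * t) • (t • a) = t • a
      rw [mul_smul, mul_smul, tt, c1]
  refine ⟨?_, ?_, ?_⟩
  · intro g₁ h₁ f₁ hg₁ hh₁ hf₁ e
    have e1 : t * x⁻¹ * t = f⁻¹ * (t * h⁻¹ * t) * t * g⁻¹ := by
      calc t * x⁻¹ * t = (t * x * t)⁻¹ := by simp [mul_inv_rev, hti, mul_assoc]
        _ = (g * h * t * f)⁻¹ := by rw [heq]
        _ = f⁻¹ * t * h⁻¹ * g⁻¹ := by simp [mul_inv_rev, hti, mul_assoc]
        _ = f⁻¹ * t * h⁻¹ * (t * t) * g⁻¹ := by rw [ht, mul_one]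
        _ = f⁻¹ * (t * h⁻¹ * t) * t * g⁻¹ := by group
    exact U g₁ h₁ f₁ f⁻¹ (t * h⁻¹ * t) g⁻¹ hg₁ hh₁ hf₁ (Q.inv_mem hf) (hDt _ (D.inv_mem hh))
      (Q.inv_mem hg) (e.symm.trans e1)
  · intro g₂ h₂ f₂ hg₂ hh₂ hf₂ e
    have e1 : t * f * t = (h⁻¹ * g⁻¹ * h⁻¹⁻¹) * h⁻¹ * t * x := by
      calc t * f * t = (g * h)⁻¹ * (g * h * t * f) * t := by group
        _ = (g * h)⁻¹ * (t * x * t) * t := by rw [heq]
        _ = (g * h)⁻¹ * t * x * (t * t) := by group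
        _ = (g * h)⁻¹ * t * x := by rw [ht, mul_one]
        _ = (h⁻¹ * g⁻¹ * h⁻¹⁻¹) * h⁻¹ * t * x := by group
    exact U g₂ h₂ f₂ _ h⁻¹ x hg₂ hh₂ hf₂
      (hS.conj_mem h⁻¹ (D.inv_mem hh).1 g⁻¹ (Q.inv_mem hg)) (D.inv_mem hh) hx (e.symm.trans e1)
  · intro c hc g₃ h₃ f₃ hg₃ hh₃ hf₃ e
    have hkD := hDt c hc
    have hci : (t * c * t)⁻¹ = t * c⁻¹ * t := by simp [mul_inv_rev, hti, mul_assoc]
    have hk : c * t = t * (t * c * t) := by
      calc c * t = (t * t) * c * t := by rw [ht, one_mul]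
        _ = t * (t * c * t) := by group
    have e0 : t * (c⁻¹ * x * c) * t = (t * c * t)⁻¹ * (g * h * t * f) * (t * c * t) := by
      rw [hci, ← heq]
      calc t * (c⁻¹ * x * c) * t = t * c⁻¹ * 1 * x * 1 * c * t := by group
        _ = t * c⁻¹ * (t * t) * x * (t * t) * c * t := by rw [ht]
        _ = t * c⁻¹ * t * (t * x * t) * (t * c * t) := by group
    generalize t * c * t = k at hkD hk e0 ⊢
    have e1 : k⁻¹ * (g * h * t * f) * k =
        (k⁻¹ * g * k⁻¹⁻¹) * (k⁻¹ * h * c) * t * (k⁻¹ * f * k) := by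
      calc k⁻¹ * (g * h * t * f) * k = k⁻¹ * g * h * (t * k) * k⁻¹ * f * k := by group
        _ = k⁻¹ * g * h * (c * t) * k⁻¹ * f * k := by rw [hk]
        _ = (k⁻¹ * g * k⁻¹⁻¹) * (k⁻¹ * h * c) * t * (k⁻¹ * f * k) := by group
    have hfk : k⁻¹ * f * k ∈ Q := by
      have := hS.conj_mem k⁻¹ (D.inv_mem hkD).1 f hf
      rwa [inv_inv] at this
    exact U g₃ h₃ f₃ _ (k⁻¹ * h * c) (k⁻¹ * f * k) hg₃ hh₃ hf₃
      (hS.conj_mem k⁻¹ (D.inv_mem hkD).1 g hg) (D.mul_mem (D.mul_mem (D.inv_mem hkD) hh) hc) hfk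
      (e.symm.trans (e0.trans e1))

end Cfsg.Agent.S1165
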