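import Mathlib
import Cfsg.Statements.S1166

set_option autoImplicit false
open Cfsg

namespace Cfsg.Agent.S1166


/-- In the rank-one set-up (`G` finite and doubly transitive on `Ω`, `t` an involution moving `a`, `Q` normal in `G_a` with `G_a = Q D`, `Q ⊓ D = 1` for the two-point stabiliser `D = G_a ⊓ G_{t • a}`, `|Q|` even, `|D|` odd), with `t x t = g_x h_x t f_x` and `t y t = g_y h_y t f_y` (`g, f ∈ Q`, `h ∈ D`) for `x, y ∈ Q ∖ 1` with `x y ≠ 1`: then `z = f_x g_y ≠ 1`, and if `t z t = g_z h_z t f_z` and `t (x y) t = g' h' t f'` then `f' = (t h_y t)⁻¹ f_z (t h_y t) f_y` and `h' = h_x h_z h_y` (H6). -/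
theorem result {G Ω : Type*} [Group G] [Finite G] [MulAction G Ω] {a : Ω} {t : G} {Q : Subgroup G}
    (hS : Cfsg.IsRankOneSetup G Ω a t Q)
    (x y gx hx fx gy hy fy : G) (hxQ : x ∈ Q) (hx1 : x ≠ 1) (hyQ : y ∈ Q) (hy1 : y ≠ 1) (hxy : x * y ≠ 1)
    (hgx : gx ∈ Q) (hhx : hx ∈ (MulAction.stabilizer G a ⊓ MulAction.stabilizer G (t • a))) (hfx : fx ∈ Q) (ex : t * x * t = gx * hx * t * fx)
    (hgy : gy ∈ Q) (hhy : hy ∈ (MulAction.stabilizer G a ⊓ MulAction.stabilizer G (t • a))) (hfy : fy ∈ Q) (ey : t * y * t = gy * hy * t * fy) :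
    fx * gy ≠ 1 ∧
      ∀ gz hz fz g' h' f' : G, gz ∈ Q → hz ∈ (MulAction.stabilizer G a ⊓ MulAction.stabilizer G (t • a)) → fz ∈ Q → t * (fx * gy) * t = gz * hz * t * fz →
        g' ∈ Q → h' ∈ (MulAction.stabilizer G a ⊓ MulAction.stabilizer G (t • a)) → f' ∈ Q → t * (x * y) * t = g' * h' * t * f' →
          f' = (t * hy * t)⁻¹ * fz * (t * hy * t) * fy ∧ h' = hx * hz * hy := by
  have ht := hS.mul_self
  have hti : t⁻¹ = t := inv_eq_of_mul_eq_one_left ht
  set D := MulAction.stabilizer G a ⊓ MulAction.stabilizer G (t • a) with hD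
  have hbot : ∀ w ∈ Q, w • (t • a) = t • a → w = 1 := by
    intro w hw hw2
    have h1 : w ∈ Q ⊓ MulAction.stabilizer G (t • a) := ⟨hw, hw2⟩
    rw [hS.inf_eq_bot] at h1
    exact h1
  have U : ∀ g h f g' h' f' : G, g ∈ Q → h ∈ D → f ∈ Q → g' ∈ Q → h' ∈ D → f' ∈ Q →
      g * h * t * f = g' * h' * t * f' → f = f' ∧ h = h' := by
    intro g h f g' h' f' hg hh hf hg' hh' hf' e
    have hw : f' * f⁻¹ = 1 := by
      apply hbot _ (Q.mul_mem hf' (Q.inv_mem hf))
      have e3 : t * f' = (g' * h')⁻¹ * (g * h) * t * f := by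
        symm
        calc (g' * h')⁻¹ * (g * h) * t * f = (g' * h')⁻¹ * (g * h * t * f) := by group
          _ = (g' * h')⁻¹ * (g' * h' * t * f') := by rw [e]
          _ = t * f' := by group
      have e2 : f' * f⁻¹ * t = t * ((g' * h')⁻¹ * (g * h)) := by
        calc f' * f⁻¹ * t = (t * t) * f' * f⁻¹ * t := by rw [ht, one_mul]
          _ = t * (t * f') * f⁻¹ * t := by group
          _ = t * ((g' * h')⁻¹ * (g * h) * t * f) * f⁻¹ * t := by rw [e3]
          _ = t * ((g' * h')⁻¹ * (g * h)) * (t * t) := by group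
          _ = t * ((g' * h')⁻¹ * (g * h)) := by rw [ht, mul_one]
      rw [← mul_smul, e2, mul_smul]
      congr 1
      have h2 : (g' * h')⁻¹ * (g * h) ∈ MulAction.stabilizer G a :=
        (MulAction.stabilizer G a).mul_mem
          ((MulAction.stabilizer G a).inv_mem
            ((MulAction.stabilizer G a).mul_mem (hS.le hg') hh'.1))
          ((MulAction.stabilizer G a).mul_mem (hS.le hg) hh.1)
      exact h2
    have hff : f = f' := (mul_inv_eq_one.mp hw).symm
    subst hff
    refine ⟨rfl, ?_⟩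
    have e4 : g * h = g' * h' := mul_right_cancel (mul_right_cancel e)
    have e5 : g'⁻¹ * g = h' * h⁻¹ := by
      calc g'⁻¹ * g = g'⁻¹ * (g * h) * h⁻¹ := by group
        _ = g'⁻¹ * (g' * h') * h⁻¹ := by rw [e4]
        _ = h' * h⁻¹ := by group
    have e6 : g'⁻¹ * g = 1 := by
      apply hbot _ (Q.mul_mem (Q.inv_mem hg') hg)
      rw [e5]
      exact (D.mul_mem hh' (D.inv_mem hh)).2
    rw [e6] at e5
    exact (mul_inv_eq_one.mp e5.symm).symm
  have hDt : ∀ c ∈ D, t * c * t ∈ D := by
    intro c hc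
    have c1 : c • a = a := hc.1
    have c2 : c • (t • a) = t • a := hc.2
    have tt : t • (t • a) = a := by rw [← mul_smul, ht, one_smul]
    constructor
    · show (t * c * t) • a = a
      rw [mul_smul, mul_smul, c2, tt]
    · show (t * c * t) • (t • a) = t • a
      rw [mul_smul, mul_smul, tt, c1]
  have exy : t * (x * y) * t = gx * hx * t * (fx * gy) * hy * t * fy := by
    calc t * (x * y) * t = t * x * 1 * y * t := by group
      _ = t * x * (t * t) * y * t := by rw [ht]
      _ = (t * x * t) * (t * y * t) := by group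
      _ = (gx * hx * t * fx) * (gy * hy * t * fy) := by rw [ex, ey]
      _ = gx * hx * t * (fx * gy) * hy * t * fy := by group
  constructor
  · intro hz0
    apply hxy
    apply hbot _ (Q.mul_mem hxQ hyQ)
    rw [hz0, mul_one] at exy
    have hmem : t * (x * y) * t ∈ MulAction.stabilizer G a := by
      rw [exy]
      have h5 : gx * hx * t * hy * t * fy = gx * hx * (t * hy * t) * fy := by group
      rw [h5]
      exact mul_mem (mul_mem (mul_mem (hS.le hgx) hhx.1) (hDt _ hhy).1) (hS.le hfy)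
    have h3 : (t * (x * y) * t) • a = a := hmem
    have h4 : (x * y) • (t • a) = t • ((t * (x * y) * t) • a) := by
      rw [← mul_smul, ← mul_smul]
      congr 1
      calc x * y * t = (t * t) * (x * y) * t := by rw [ht, one_mul]
        _ = t * (t * (x * y) * t) := by group
    rw [h4, h3]
  · intro gz hz fz g' h' f' hgz hhz hfz ez hg' hh' hf' e'
    have hkD := hDt hy hhy
    have hk : t * (t * hy * t) = hy * t := by
      calc t * (t * hy * t) = (t * t) * hy * t := by group
        _ = hy * t := by rw [ht, one_mul]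
    have e1 : t * (fx * gy) = gz * hz * t * fz * t := by
      calc t * (fx * gy) = t * (fx * gy) * (t * t) := by rw [ht, mul_one]
        _ = (t * (fx * gy) * t) * t := by group
        _ = gz * hz * t * fz * t := by rw [ez]
    have e2 : t * (x * y) * t = gx * hx * gz * hz * t * fz * (t * hy * t) * fy := by
      rw [exy]
      calc gx * hx * t * (fx * gy) * hy * t * fy
          = gx * hx * (t * (fx * gy)) * hy * t * fy := by group
        _ = gx * hx * (gz * hz * t * fz * t) * hy * t * fy := by rw [e1]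
        _ = gx * hx * gz * hz * t * fz * (t * hy * t) * fy := by group
    generalize t * hy * t = k at hkD hk e2 ⊢
    have e3 : gx * hx * gz * hz * t * fz * k * fy =
        (gx * (hx * gz * hx⁻¹)) * (hx * hz * hy) * t * (k⁻¹ * fz * k * fy) := by
      calc gx * hx * gz * hz * t * fz * k * fy
          = gx * hx * gz * hz * (t * k) * (k⁻¹ * fz * k * fy) := by group
        _ = gx * hx * gz * hz * (hy * t) * (k⁻¹ * fz * k * fy) := by rw [hk]
        _ = (gx * (hx * gz * hx⁻¹)) * (hx * hz * hy) * t * (k⁻¹ * fz * k * fy) := by group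
    have hfk : k⁻¹ * fz * k ∈ Q := by
      have h6 := hS.conj_mem k⁻¹ (D.inv_mem hkD).1 fz hfz
      rwa [inv_inv] at h6
    exact U g' h' f' _ (hx * hz * hy) (k⁻¹ * fz * k * fy) hg' hh' hf'
      (Q.mul_mem hgx (hS.conj_mem hx hhx.1 gz hgz)) (D.mul_mem (D.mul_mem hhx hhz) hhy)
      (Q.mul_mem hfk hfy) (e'.symm.trans (e2.trans e3))

end Cfsg.Agent.S1166
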