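import Cfsg.Statements.S1177
import Mathlib
import Cfsg.Agent.Lib.Helper6.Invol

set_option autoImplicit false
open Cfsg

namespace Cfsg.Agent.S1177

open Cfsg.Agent.Lib.Helper6.Basic Cfsg.Agent.Lib.Helper6.Invol

/-- Let A be a nontrivial elementary abelian 2-subgroup of a finite group G which is a T.I. set (each conjugate of A meets A trivially or equals A) and which does not commute elementwise with any conjugate of A other than A itself. Then for every a ∈ A, a ≠ 1, every conjugate of A contained in C_G(a) is equal to A (A is weakly closed in C_G(a)). -/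
theorem result {G : Type*} [Group G] [Finite G] (A : Subgroup G) (hA : Cfsg.IsElementaryAbelian 2 A) (hA1 : A ≠ ⊥) (hTI : ∀ g : G, A.map (MulAut.conj g).toMonoidHom ⊓ A = ⊥ ∨ A.map (MulAut.conj g).toMonoidHom = A) (hb : ∀ g : G, (∀ a ∈ A, ∀ b ∈ A.map (MulAut.conj g).toMonoidHom, a * b = b * a) → A.map (MulAut.conj g).toMonoidHom = A) (a : G) (ha : a ∈ A) (ha1 : a ≠ 1) (g : G) (hg : A.map (MulAut.conj g).toMonoidHom ≤ Subgroup.centralizer ({a} : Set G)) : A.map (MulAut.conj g).toMonoidHom = A := by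
  obtain ⟨hcommA, hexp⟩ := hA
  have hAab : ∀ x ∈ A, ∀ y ∈ A, x * y = y * x := fun x hx y hy => by
    have := mul_comm' (⟨x, hx⟩ : A) ⟨y, hy⟩
    exact congrArg Subtype.val this
  have hAinv : ∀ x ∈ A, x * x = 1 := fun x hx => by rw [← pow_two]; exact hexp x hx
  set B := cj g A with hB
  by_contra hne
  have hdisj : B ⊓ A = ⊥ := (hTI g).resolve_right hne
  have hBinv : ∀ b ∈ B, b * b = 1 := by
    rintro _ ⟨y, hy, rfl⟩
    exact conj_mul_self (hAinv y hy) g
  have hBab : ∀ x ∈ B, ∀ y ∈ B, x * y = y * x := by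
    rintro _ ⟨x, hx, rfl⟩ _ ⟨y, hy, rfl⟩
    show g * x * g⁻¹ * (g * y * g⁻¹) = g * y * g⁻¹ * (g * x * g⁻¹)
    calc g * x * g⁻¹ * (g * y * g⁻¹) = g * (x * y) * g⁻¹ := by group
      _ = g * (y * x) * g⁻¹ := by rw [hAab x hx y hy]
      _ = _ := by group
  have eg : ∀ c : G, g * (g⁻¹ * c * g) = c * g := fun c => by group
  have hTI' : ∀ c : G, cj c B ⊓ B = ⊥ ∨ cj c B = B := by
    intro c
    rcases hTI (g⁻¹ * c * g) with h | h
    · left
      have := congrArg (cj g) h
      rw [cj_inf, cj_cj, cj_bot, eg] at this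
      rw [hB, cj_cj]; exact this
    · right
      have := congrArg (cj g) h
      rw [cj_cj, eg] at this
      rw [hB, cj_cj]; exact this
  have hb' : ∀ c : G, (∀ u ∈ B, ∀ v ∈ cj c B, u * v = v * u) → cj c B = B := by
    intro c hc
    have h0 : cj (g⁻¹ * c * g) A = A := by
      apply hb
      intro u hu v hv
      have hu' : g * u * g⁻¹ ∈ B := conj_mem_cj hu
      have hv' : g * v * g⁻¹ ∈ cj c B := by
        have := conj_mem_cj (g := g) hv
        rwa [cj_cj, eg, ← cj_cj] at this
      have := hc _ hu' _ hv'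
      have h2 : g⁻¹ * (g * u * g⁻¹ * (g * v * g⁻¹)) * g = g⁻¹ * (g * v * g⁻¹ * (g * u * g⁻¹)) * g := by
        rw [this]
      simpa [mul_assoc] using h2
    have := congrArg (cj g) h0
    rw [cj_cj, eg] at this
    rw [hB, cj_cj]; exact this
  have hBA : ∀ b ∈ B, cj b A = A := by
    intro b hb
    rcases hTI b with h | h
    · exfalso
      have hab : b * a * b⁻¹ = a := by
        have := Subgroup.mem_centralizer_singleton_iff.mp (hg hb)
        rw [this, mul_assoc, mul_inv_cancel, mul_one]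
      have : a ∈ cj b A ⊓ A := ⟨by rw [← hab]; exact conj_mem_cj ha, ha⟩
      rw [h] at this
      exact ha1 (Subgroup.mem_bot.mp this)
    · exact h
  have hcomm_of : ∀ x ∈ A, ∀ b ∈ B, cj x B = B → x * b = b * x := by
    intro x hx b hb hxB
    have h1 : x * b * x⁻¹ * b⁻¹ ∈ B := by
      have : x * b * x⁻¹ ∈ B := by rw [← hxB]; exact conj_mem_cj hb
      exact B.mul_mem this (B.inv_mem hb)
    have h2 : x * b * x⁻¹ * b⁻¹ ∈ A := by
      have : b * x⁻¹ * b⁻¹ ∈ A := by
        rw [← hBA b hb]; exact conj_mem_cj (A.inv_mem hx)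
      have h3 := A.mul_mem hx this
      simpa [mul_assoc] using h3
    have h3 : x * b * x⁻¹ * b⁻¹ ∈ B ⊓ A := ⟨h1, h2⟩
    rw [hdisj, Subgroup.mem_bot] at h3
    calc x * b = (x * b * x⁻¹ * b⁻¹) * (b * x) := by group
      _ = b * x := by rw [h3, one_mul]
  have hiv : ∀ b ∈ B, b ≠ 1 → ∀ c ∈ A, c * b = b * c → ∀ b' ∈ B, c * b' = b' * c := by
    intro b hb hb1 c hc hcb b' hb'
    apply hcomm_of c hc b' hb'
    rcases hTI' c with h | h
    · exfalso
      have hcb' : c * b * c⁻¹ = b := by rw [hcb, mul_assoc, mul_inv_cancel, mul_one]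
      have : b ∈ cj c B ⊓ B := ⟨by rw [← hcb']; exact conj_mem_cj hb, hb⟩
      rw [h] at this
      exact hb1 (Subgroup.mem_bot.mp this)
    · exact h
  have hv : ∀ x ∈ A, cj x B = B := by
    intro x hx
    apply hb'
    intro u hu v hv
    rw [mem_cj] at hv
    set b := x⁻¹ * v * x with hbdef
    have hvb : v = x * b * x⁻¹ := by rw [hbdef]; group
    by_cases hb1 : b = 1
    · rw [hvb, hb1]; simp
    · have hbx : b * x * b⁻¹ ∈ A := by rw [← hBA b hv]; exact conj_mem_cj hx
      set c := x * (b * x * b⁻¹) with hc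
      have hcA : c ∈ A := A.mul_mem hx hbx
      have hbi : b⁻¹ = b := inv_eq_self (hBinv b hv)
      have hxi : x⁻¹ = x := inv_eq_self (hAinv x hx)
      have hcb : c * b = b * c := by
        have h1 : b * c * b⁻¹ = c := by
          calc b * c * b⁻¹ = (b * x * b⁻¹) * ((b * b) * x * (b⁻¹ * b⁻¹)) := by rw [hc]; group
            _ = (b * x * b⁻¹) * x := by rw [hbi, hBinv b hv]; simp
            _ = c := by rw [hc, hAab _ hbx _ hx]
        calc c * b = (b * c * b⁻¹) * b := by rw [h1]
          _ = b * c := by group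
      have hcu := hiv b hv hb1 c hcA hcb u hu
      have hvc : v = c * b := by
        rw [hvb, hc]
        calc x * b * x⁻¹ = x * (b * x⁻¹ * b⁻¹) * b := by group
          _ = x * (b * x * b⁻¹) * b := by rw [hxi]
      rw [hvc]
      calc u * (c * b) = (u * c) * b := by group
        _ = (c * u) * b := by rw [hcu]
        _ = c * (u * b) := by group
        _ = c * (b * u) := by rw [hBab u hu b hv]
        _ = c * b * u := by group
  apply hne
  apply hb
  intro x hx b hb
  exact hcomm_of x hx b hb (hv x hx)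

end Cfsg.Agent.S1177
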