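import Cfsg.Statements.S1178
import Mathlib
import Cfsg.Agent.Lib.Helper6.Basic

set_option autoImplicit false
open Cfsg

namespace Cfsg.Agent.S1178

open Cfsg.Agent.Lib.Helper6.Basic

/-- Let A be a subgroup of a Sylow 2-subgroup S of the finite group G which is weakly closed in S. If a conjugate g A g⁻¹ commutes elementwise with A, then g A g⁻¹ = A. -/
theorem result {G : Type*} [Group G] [Finite G] (S : Sylow 2 G) (A : Subgroup G) (hW : Cfsg.IsWeaklyClosed A (S : Subgroup G)) (g : G) (hc : ∀ a ∈ A, ∀ b ∈ A.map (MulAut.conj g).toMonoidHom, a * b = b * a) : A.map (MulAut.conj g).toMonoidHom = A := by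
  obtain ⟨hAS, hwc⟩ := hW
  have hA2 : IsPGroup 2 A := S.2.to_le hAS
  have hB2 : IsPGroup 2 (cj g A) := isPGroup_cj hA2 g
  have hnorm : A ≤ Subgroup.normalizer ((cj g A : Subgroup G) : Set G) := by
    rw [Subgroup.le_normalizer_iff]
    intro a ha b hb
    have := hc a ha b hb
    rw [this, mul_assoc, mul_inv_cancel, mul_one]
    exact hb
  have hsup : IsPGroup 2 (A ⊔ cj g A : Subgroup G) := hA2.to_sup_of_normal_right' hB2 hnorm
  obtain ⟨h, hh⟩ := exists_le_cj_sylow hsup S
  have h1 : cj h⁻¹ A ≤ S := by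
    rw [cj_le_iff, inv_inv]; exact le_sup_left.trans hh
  have h2 : cj (h⁻¹ * g) A ≤ S := by
    rw [← cj_cj, cj_le_iff, inv_inv]; exact le_sup_right.trans hh
  have e1 : cj h⁻¹ A = A := hwc _ h1
  have e2 : cj (h⁻¹ * g) A = A := hwc _ h2
  rw [← cj_cj] at e2
  have : cj h⁻¹ (cj g A) = cj h⁻¹ A := by rw [e2, e1]
  exact cj_inj.mp this

end Cfsg.Agent.S1178
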