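import Cfsg.Statements.S1181
import Mathlib
import Cfsg.Agent.Lib.Helper6.Invol

set_option autoImplicit false
open Cfsg

namespace Cfsg.Agent.S1181

open Cfsg.Agent.Lib.Helper6.Invol

/-- Let z be an isolated involution of the finite group G and N a normal subgroup with z ∉ N. Then the centralizer of zN in G/N is the image of C_G(z), and zN is an isolated involution of G/N. -/
theorem result {G : Type*} [Group G] [Finite G] (z : G) (hz : Cfsg.IsIsolatedInvolution z) (N : Subgroup G) [N.Normal] (hzN : z ∉ N) : Subgroup.centralizer ({(QuotientGroup.mk z : G ⧸ N)} : Set (G ⧸ N)) = (Subgroup.centralizer ({z} : Set G)).map (QuotientGroup.mk' N) ∧ Cfsg.IsIsolatedInvolution (QuotientGroup.mk z : G ⧸ N) := by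
  have hzz : z * z = 1 := mul_self_of_orderOf hz.1
  have hzi : z⁻¹ = z := inv_eq_self hzz
  constructor
  · apply le_antisymm
    · intro q hq
      obtain ⟨g, rfl⟩ := QuotientGroup.mk_surjective q
      rw [Subgroup.mem_centralizer_singleton_iff] at hq
      obtain ⟨m, hm⟩ := IsIsolated.exists_pow_conj hz g
      set t := g * z * g⁻¹ with ht
      have hztN : z * t ∈ N := by
        rw [← QuotientGroup.eq_one_iff]
        have h1 : ((z * t : G) : G ⧸ N) = (z : G ⧸ N) * ((g : G ⧸ N) * (z : G ⧸ N)) * (g : G ⧸ N)⁻¹ := by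
          rw [ht]; simp [mul_assoc]
        rw [h1, hq, ← mul_assoc, ← QuotientGroup.mk_mul, hzz]
        simp
      set k := (z * t) ^ m with hk
      have hkN : k ∈ N := N.pow_mem hztN m
      refine ⟨k⁻¹ * g, ?_, ?_⟩
      · rw [SetLike.mem_coe, Subgroup.mem_centralizer_singleton_iff]
        have h2 : g * z = k * z * k⁻¹ * g := by rw [hm, ht]; group
        calc k⁻¹ * g * z = k⁻¹ * (g * z) := by group
          _ = k⁻¹ * (k * z * k⁻¹ * g) := by rw [h2]
          _ = _ := by group
      · show ((k⁻¹ * g : G) : G ⧸ N) = g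
        rw [QuotientGroup.mk_mul, QuotientGroup.mk_inv, (QuotientGroup.eq_one_iff k).mpr hkN]
        simp
    · rintro _ ⟨c, hc, rfl⟩
      rw [SetLike.mem_coe, Subgroup.mem_centralizer_singleton_iff] at hc
      rw [Subgroup.mem_centralizer_singleton_iff]
      show ((c : G) : G ⧸ N) * z = z * c
      rw [← QuotientGroup.mk_mul, hc, QuotientGroup.mk_mul]
  · refine ⟨?_, ?_⟩
    · apply orderOf_eq_two
      · rw [← QuotientGroup.mk_mul, hzz]; rfl
      · intro h
        exact hzN ((QuotientGroup.eq_one_iff z).mp h)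
    · intro q hq
      obtain ⟨g, rfl⟩ := QuotientGroup.mk_surjective q
      set t := g * z * g⁻¹ with ht
      have htt : t * t = 1 := conj_mul_self hzz g
      have hodd := IsIsolated.odd_orderOf hz g
      rw [← ht] at hodd
      have e : (g : G ⧸ N) * (z : G ⧸ N) * (g : G ⧸ N)⁻¹ = (t : G ⧸ N) := by
        rw [ht]; simp
      rw [e] at hq ⊢
      have hsq : ((z * t : G) : G ⧸ N) ^ 2 = 1 := by
        rw [QuotientGroup.mk_mul, hq.mul_pow, pow_two, pow_two, ← QuotientGroup.mk_mul,
          ← QuotientGroup.mk_mul, hzz, htt]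
        simp
      have hpow : ((z * t : G) : G ⧸ N) ^ (orderOf (z * t)) = 1 := by
        rw [← QuotientGroup.mk_pow, pow_orderOf_eq_one]; rfl
      have h1 : ((z * t : G) : G ⧸ N) = 1 := by
        obtain ⟨a, ha⟩ := hodd
        rw [ha, pow_succ, pow_mul, hsq, one_pow, one_mul] at hpow
        exact hpow
      rw [QuotientGroup.mk_mul] at h1
      have h2 : (t : G ⧸ N) = (z : G ⧸ N)⁻¹ := eq_inv_of_mul_eq_one_right h1
      rw [h2, ← QuotientGroup.mk_inv, hzi]

end Cfsg.Agent.S1181
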