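import Cfsg.Statements.S1184
import Mathlib
import Cfsg.Agent.Lib.Helper6.Invol

set_option autoImplicit false
open Cfsg

namespace Cfsg.Agent.S1184

open Cfsg.Agent.Lib.Helper6.Invol

/-- Let z be an isolated involution of the finite group G. If s and t are distinct conjugates of z, then st does not commute with z. -/
theorem result {G : Type*} [Group G] [Finite G] (z : G) (hz : Cfsg.IsIsolatedInvolution z) (g h : G) (hne : g * z * g⁻¹ ≠ h * z * h⁻¹) : ¬ Commute (g * z * g⁻¹ * (h * z * h⁻¹)) z := by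
  intro hcomm
  set s := g * z * g⁻¹ with hs
  set t := h * z * h⁻¹ with ht
  have hzz : z * z = 1 := mul_self_of_orderOf hz.1
  have hss : s * s = 1 := conj_mul_self hzz g
  have htt : t * t = 1 := conj_mul_self hzz h
  have hsiso : Cfsg.IsIsolatedInvolution s := IsIsolated.conj hz g
  set x := s * t with hx
  -- x has odd order
  have hxodd : Odd (orderOf x) := by
    have := IsIsolated.odd_orderOf hsiso (h * g⁻¹)
    have e : h * g⁻¹ * s * (h * g⁻¹)⁻¹ = t := by rw [hs, ht]; group
    rwa [e] at this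
  -- s inverts x
  have hsx : s * x * s⁻¹ = x⁻¹ := by
    rw [hx, mul_inv_eq hss htt, inv_eq_self hss]
    calc s * (s * t) * s = (s * s) * t * s := by group
      _ = t * s := by rw [hss, one_mul]
  have hzx : z * x * z⁻¹ = x := by
    rw [← hcomm.eq, mul_assoc, mul_inv_cancel, mul_one]
  -- s = w z w⁻¹ with w a power of z s
  obtain ⟨m, hm⟩ := IsIsolated.exists_pow_conj hz g
  rw [← hs] at hm
  have hzs : (z * s) * x * (z * s)⁻¹ = x⁻¹ := by
    calc (z * s) * x * (z * s)⁻¹ = z * (s * x * s⁻¹) * z⁻¹ := by group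
      _ = z * x⁻¹ * z⁻¹ := by rw [hsx]
      _ = (z * x * z⁻¹)⁻¹ := by group
      _ = x⁻¹ := by rw [hzx]
  have hw : ∀ m : ℕ, ((z * s) ^ m * x * ((z * s) ^ m)⁻¹ = x) ∨ ((z * s) ^ m * x * ((z * s) ^ m)⁻¹ = x⁻¹) := by
    intro m
    induction m with
    | zero => left; simp
    | succ m ih =>
      have e : (z * s) ^ (m + 1) * x * ((z * s) ^ (m + 1))⁻¹
          = (z * s) * ((z * s) ^ m * x * ((z * s) ^ m)⁻¹) * (z * s)⁻¹ := by
        rw [pow_succ', mul_inv_rev]; simp only [mul_assoc]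
      rcases ih with ih | ih
      · right; rw [e, ih, hzs]
      · left
        rw [e, ih]
        calc (z * s) * x⁻¹ * (z * s)⁻¹ = ((z * s) * x * (z * s)⁻¹)⁻¹ := by group
          _ = x := by rw [hzs, inv_inv]
  set w := (z * s) ^ m with hwdef
  have hsx2 : s * x * s⁻¹ = x := by
    rcases hw m with h1 | h1
    · have h2 : w⁻¹ * x * w = x := by
        calc w⁻¹ * x * w = w⁻¹ * (w * x * w⁻¹) * w := by rw [h1]
          _ = x := by group
      calc s * x * s⁻¹ = w * (z * (w⁻¹ * x * w) * z⁻¹) * w⁻¹ := by rw [← hm]; group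
        _ = x := by rw [h2, hzx, h1]
    · have h2 : w⁻¹ * x * w = x⁻¹ := by
        have : w⁻¹ * x⁻¹ * w = x := by
          calc w⁻¹ * x⁻¹ * w = w⁻¹ * (w * x * w⁻¹) * w := by rw [h1]
            _ = x := by group
        calc w⁻¹ * x * w = (w⁻¹ * x⁻¹ * w)⁻¹ := by group
          _ = x⁻¹ := by rw [this]
      calc s * x * s⁻¹ = w * (z * (w⁻¹ * x * w) * z⁻¹) * w⁻¹ := by rw [← hm]; group
        _ = w * (z * x * z⁻¹)⁻¹ * w⁻¹ := by rw [h2]; group
        _ = (w * x * w⁻¹)⁻¹ := by rw [hzx]; group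
        _ = x := by rw [h1, inv_inv]
  have hx2 : x ^ 2 = 1 := by
    have : x = x⁻¹ := hsx2.symm.trans hsx
    rw [pow_two]
    nth_rewrite 1 [this]
    exact inv_mul_cancel x
  have hx1 : x = 1 := by
    have hd : orderOf x ∣ 2 := orderOf_dvd_of_pow_eq_one hx2
    have : orderOf x = 1 := by
      rcases (Nat.dvd_prime Nat.prime_two).mp hd with h | h
      · exact h
      · rw [h] at hxodd; exact absurd hxodd (by decide)
    exact orderOf_eq_one_iff.mp this
  apply hne
  have : s = t⁻¹ := eq_inv_of_mul_eq_one_left hx1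
  rw [this, inv_eq_self htt]

end Cfsg.Agent.S1184
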