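import Cfsg.Statements.S1224
import Cfsg.Agent.Lib.Helper9.SE

set_option autoImplicit false

open Cfsg

namespace Cfsg.Agent.S1224

open Cfsg.Agent.Lib.Helper9.SE Cfsg.Agent.Lib.Helper3.Invol

/-- Let H be a strongly embedded subgroup of the finite group G and x ≠ y two cosets in G/H. Then the number of involutions i of G with i • x = y equals the number of involutions lying in H. -/
theorem result {G : Type*} [Group G] [Finite G] (H : Subgroup G) (hH : Cfsg.IsStronglyEmbedded H) (x y : G ⧸ H) (hxy : x ≠ y) : Nat.card {i : G // orderOf i = 2 ∧ i • x = y} = Nat.card {t : G // orderOf t = 2 ∧ t ∈ H} := by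
  have h := (sEmb_iff H).1 hH
  induction x using QuotientGroup.induction_on with
  | H g₁ =>
  induction y using QuotientGroup.induction_on with
  | H g₂ =>
  have hg : g₁⁻¹ * g₂ ∉ H := by
    intro hh
    exact hxy (QuotientGroup.eq.2 hh)
  rw [← h.card_coset_invol hg]
  refine Nat.card_congr (Equiv.subtypeEquiv (MulAut.conj g₁⁻¹).toEquiv ?_)
  intro i
  have h1 : (MulAut.conj g₁⁻¹).toEquiv i = g₁⁻¹ * i * g₁ := by simp
  rw [h1]
  have h2 : orderOf (g₁⁻¹ * i * g₁) = orderOf i := by
    have := order_conj (x := i) g₁⁻¹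
    rwa [inv_inv] at this
  rw [h2]
  refine and_congr_right fun hi => ?_
  have h3 : i • (g₁ : G ⧸ H) = ((i * g₁ : G) : G ⧸ H) := rfl
  rw [h3, QuotientGroup.eq]
  have h4 : (g₁⁻¹ * g₂)⁻¹ * (g₁⁻¹ * i * g₁) = ((i * g₁)⁻¹ * g₂)⁻¹ := by
    rw [← inv_of_order hi]; group
  rw [h4, inv_mem_iff]

end Cfsg.Agent.S1224
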