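import Cfsg.Statements.S1225
import Cfsg.Agent.Lib.Helper9.SE

set_option autoImplicit false

open Cfsg

namespace Cfsg.Agent.S1225

open Cfsg.Agent.Lib.Helper9.SE Cfsg.Agent.Lib.Helper3.Invol

/-- Let H be a strongly embedded subgroup of the finite group G, u an involution outside H and D = H ∩ uHu⁻¹. Then any two involutions of H are conjugate by an element of D, and any two involutions of G are conjugate in G. -/
theorem result {G : Type*} [Group G] [Finite G] (H : Subgroup G) (hH : Cfsg.IsStronglyEmbedded H) (u : G) (hu : orderOf u = 2) (huH : u ∉ H) (s t : G) (hs : orderOf s = 2) (hsH : s ∈ H) (ht : orderOf t = 2) (htH : t ∈ H) : (∃ d ∈ (H ⊓ H.map (MulAut.conj u).toMonoidHom), d * s * d⁻¹ = t) ∧ ∀ a b : G, orderOf a = 2 → orderOf b = 2 → IsConj a b := by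
  have h := (sEmb_iff H).1 hH
  have huu := inv_of_order hu
  have hu2 := sq_of_order hu
  have part1 : ∀ s t : G, orderOf s = 2 → s ∈ H → orderOf t = 2 → t ∈ H →
      ∃ d ∈ (H ⊓ H.map (MulAut.conj u).toMonoidHom), d * s * d⁻¹ = t := by
    intro s t hs hsH ht htH
    obtain ⟨i, hi, hgi, hit⟩ := h.psi_surj huH hsH hs htH ht
    have hd : (i * u) * s * (i * u)⁻¹ = t := by
      rw [← hit]; group
    refine ⟨i * u, ⟨?_, ?_⟩, hd⟩
    · exact h.mem (i * u) s hsH hs (hd ▸ htH)
    · refine ⟨u⁻¹ * i, hgi, ?_⟩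
      show u * (u⁻¹ * i) * u⁻¹ = i * u
      rw [huu, ← mul_assoc, hu2, one_mul]
  refine ⟨part1 s t hs hsH ht htH, ?_⟩
  -- every involution is conjugate to `s`
  have key : ∀ a : G, orderOf a = 2 → IsConj s a := by
    intro a ha
    by_cases haH : a ∈ H
    · obtain ⟨d, -, hd⟩ := part1 s a hs hsH ha haH
      exact isConj_iff.2 ⟨d, hd⟩
    · have hne : s ≠ a := fun hh => haH (hh ▸ hsH)
      rcases invol_dichotomy hs ha hne with ⟨z, hz, hzs, hza⟩ | ⟨i, -, hi, -⟩
      · exfalso
        have hzH : z ∈ H := h.mem_of_commute hsH hs hzs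
        exact haH (h.mem_of_commute hzH hz hza.symm)
      · exact isConj_iff.2 ⟨i, hi⟩
  intro a b ha hb
  exact (key a ha).symm.trans (key b hb)

end Cfsg.Agent.S1225
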