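import Cfsg.Statements.S1226
import Cfsg.Agent.Lib.Helper9.SE
import Cfsg.Agent.Lib.Helper9.SylowIn

set_option autoImplicit false

open Cfsg

namespace Cfsg.Agent.S1226

open Cfsg.Agent.Lib.Helper9.SE Cfsg.Agent.Lib.Helper3.Invol Cfsg.Agent.Lib.Helper9.SylowIn

/-- Let G be a finite group with a Sylow 2-subgroup T that is neither cyclic nor normal, such that the centralizer of every involution is an elementary abelian 2-group. Then N_G(T) is a strongly embedded subgroup of G. -/
theorem result {G : Type*} [Group G] [Finite G] (T : Sylow 2 G) (hnc : ¬ IsCyclic (T : Subgroup G)) (hnn : ¬ (T : Subgroup G).Normal) (hC : ∀ t : G, orderOf t = 2 → IsMulCommutative (Subgroup.centralizer ({t} : Set G)) ∧ ∀ c ∈ Subgroup.centralizer ({t} : Set G), c ^ 2 = 1) : Cfsg.IsStronglyEmbedded (Subgroup.normalizer ((T : Subgroup G) : Set G)) := by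
  have hTne : (T : Subgroup G) ≠ ⊥ := by
    intro h
    apply hnc
    rw [h]
    exact isCyclic_of_subsingleton
  have hCp : ∀ t : G, orderOf t = 2 → IsPGroup 2 (Subgroup.centralizer ({t} : Set G)) := by
    intro t ht c
    refine ⟨1, Subtype.ext ?_⟩
    simpa using (hC t ht).2 c.1 c.2
  obtain ⟨z, hzT, hz2, hzc⟩ := exists_central_order_p T.2 hTne
  have hCz : Subgroup.centralizer ({z} : Set G) = T := by
    refine T.3 (hCp z hz2) ?_
    intro x hx
    rw [Subgroup.mem_centralizer_singleton_iff]
    exact hzc x hx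
  have hcomm : ∀ x ∈ T, ∀ y ∈ T, x * y = y * x := by
    intro x hx y hy
    have hx' : x ∈ Subgroup.centralizer ({z} : Set G) := by rw [hCz]; exact hx
    have hy' : y ∈ Subgroup.centralizer ({z} : Set G) := by rw [hCz]; exact hy
    have := (hC z hz2).1.is_comm.comm ⟨x, hx'⟩ ⟨y, hy'⟩
    exact congrArg Subtype.val this
  have hCs : ∀ s ∈ T, orderOf s = 2 → Subgroup.centralizer ({s} : Set G) = T := by
    intro s hs hs2
    refine T.3 (hCp s hs2) ?_
    intro x hx
    rw [Subgroup.mem_centralizer_singleton_iff]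
    exact hcomm x hx s hs
  have hmemT : ∀ t ∈ Subgroup.normalizer ((T : Subgroup G) : Set G), orderOf t = 2 → t ∈ T := by
    intro t ht ht2
    have hS : IsSylowIn 2 (T : Subgroup G) ⊤ := IsSylowIn.top_iff.2 ⟨T, rfl⟩
    have hz : IsPGroup 2 (Subgroup.zpowers t) :=
      IsPGroup.of_card (n := 1) (by rw [Nat.card_zpowers, ht2, pow_one])
    exact hS.mem_of_normalizes hz (Subgroup.mem_zpowers t) (Subgroup.mem_top t) ht
  rw [sEmb_iff]
  refine ⟨?_, ?_, ?_⟩
  · intro h
    exact hnn (Subgroup.normalizer_eq_top_iff.1 h)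
  · have h1 : orderOf (⟨z, Subgroup.le_normalizer hzT⟩ :
        Subgroup.normalizer ((T : Subgroup G) : Set G)) = 2 := by
      rw [Subgroup.orderOf_mk, hz2]
    have := orderOf_dvd_natCard (⟨z, Subgroup.le_normalizer hzT⟩ :
        Subgroup.normalizer ((T : Subgroup G) : Set G))
    rw [h1] at this
    exact even_iff_two_dvd.2 this
  · intro g t ht ht2 hgt
    have htT := hmemT t ht ht2
    have hgt2 : orderOf (g * t * g⁻¹) = 2 := by rw [order_conj, ht2]
    have hgtT := hmemT _ hgt hgt2
    have h1 := hCs t htT ht2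
    have h2 := hCs _ hgtT hgt2
    rw [Subgroup.mem_normalizer_iff]
    intro x
    have h3 : x ∈ Subgroup.centralizer ({t} : Set G) ↔
        g * x * g⁻¹ ∈ Subgroup.centralizer ({g * t * g⁻¹} : Set G) := by
      rw [Subgroup.mem_centralizer_singleton_iff, Subgroup.mem_centralizer_singleton_iff]
      constructor
      · intro h
        calc g * x * g⁻¹ * (g * t * g⁻¹) = g * (x * t) * g⁻¹ := by group
          _ = g * (t * x) * g⁻¹ := by rw [h]
          _ = g * t * g⁻¹ * (g * x * g⁻¹) := by group
      · intro h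
        calc x * t = g⁻¹ * (g * x * g⁻¹ * (g * t * g⁻¹)) * g := by group
          _ = g⁻¹ * (g * t * g⁻¹ * (g * x * g⁻¹)) * g := by rw [h]
          _ = t * x := by group
    rw [h1, h2] at h3
    exact h3

end Cfsg.Agent.S1226
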