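import Cfsg.Statements.S1231
import Cfsg.Agent.Lib.Helper9.StrongEmb

set_option autoImplicit false
open Cfsg
open Cfsg.Agent.Lib.Helper9.RankOne Cfsg.Agent.Lib.Helper9.SylowIn Cfsg.Agent.Lib.Helper9.StrongEmb

namespace Cfsg.Agent.S1231

/-- Let H be a subgroup of the finite group G, p a prime, k ≥ 1, and P a Sylow p-subgroup of H whose p-rank is at least k. Then N_G(X) ≤ H for every subgroup X of P of p-rank at least k if and only if H ∩ gHg⁻¹ has p-rank less than k for every g ∉ H. -/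
theorem result {G : Type*} [Group G] [Finite G] {p : ℕ} [Fact p.Prime] (k : ℕ) (hk : 1 ≤ k) (H : Subgroup G) (P : Sylow p ↥H) (hP : ¬ Cfsg.PRankLE p (k - 1) ↥(P : Subgroup ↥H)) : (∀ X : Subgroup G, X ≤ (P : Subgroup ↥H).map H.subtype → ¬ Cfsg.PRankLE p (k - 1) ↥X → Subgroup.normalizer (X : Set G) ≤ H) ↔ (∀ g : G, g ∉ H → Cfsg.PRankLE p (k - 1) ↥(H ⊓ H.map (MulAut.conj g).toMonoidHom)) := by
  have hS := IsSylowIn.of_sylow P
  constructor
  · intro hΓ g hg
    by_contra hr
    apply hg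
    exact mem_of_big_inf (fun A hA => hA.isPGroup) EA.conj hS
      (fun X hX hb => hΓ X hX (big_iff.mpr hb)) (big_iff.mp hr)
  · intro h X hX hr n hn
    by_contra hnH
    have h1 := h n hnH
    have hXH : X ≤ H := hX.trans hS.le
    have h2 : X ≤ H ⊓ conjBy H n := by
      apply le_inf hXH
      rw [← conjBy_eq_self_iff.mpr hn]
      exact conjBy_mono hXH n
    exact big_iff.mpr ((big_iff.mp hr).mono h2) h1

end Cfsg.Agent.S1231
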