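import Cfsg.Statements.S1241
import Cfsg.Agent.Lib.Helper9.Trf

set_option autoImplicit false
open Cfsg

namespace Cfsg.Agent.S1241

open scoped IsMulCommutative

/-- Let G be a finite group, p a prime, H a subgroup of index prime to p, K a subgroup of H normal in H with H/K commutative, and g ∈ H ∖ K an element of p-power order such that for all integers m and all a ∈ G with a g^m a⁻¹ ∈ H one has a g^m a⁻¹ ∈ g^m K. Then g ∉ G'. -/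
theorem result {G : Type*} [Group G] [Finite G] {p : ℕ} [Fact p.Prime] (H K : Subgroup G) (hHK : K ≤ H) (hKn : (K.subgroupOf H).Normal) (hab : ∀ x ∈ H, ∀ y ∈ H, x * y * x⁻¹ * y⁻¹ ∈ K) (hidx : Nat.Coprime p H.index) (g : G) (hgH : g ∈ H) (hgK : g ∉ K) (hgp : ∃ k : ℕ, orderOf g = p ^ k) (hctrl : ∀ (m : ℤ) (a : G), a * g ^ m * a⁻¹ ∈ H → (a * g ^ m * a⁻¹) * (g ^ m)⁻¹ ∈ K) : g ∉ commutator G := by
  intro hgc
  have hcomm : IsMulCommutative (↥H ⧸ K.subgroupOf H) := by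
    refine ⟨⟨fun x y => ?_⟩⟩
    obtain ⟨x, rfl⟩ := QuotientGroup.mk_surjective x
    obtain ⟨y, rfl⟩ := QuotientGroup.mk_surjective y
    rw [← QuotientGroup.mk_mul, ← QuotientGroup.mk_mul, QuotientGroup.eq]
    show ((x * y)⁻¹ * (y * x) : ↥H).1 ∈ K
    have h1 := hab y⁻¹ (H.inv_mem y.2) x⁻¹ (H.inv_mem x.2)
    simp only [inv_inv] at h1
    simpa [mul_assoc] using h1
  let ϕ : ↥H →* (↥H ⧸ K.subgroupOf H) := QuotientGroup.mk' (K.subgroupOf H)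
  have key : ∀ (k : ℕ) (g₀ : G) (hk : g₀⁻¹ * g ^ k * g₀ ∈ H),
      ϕ ⟨g₀⁻¹ * g ^ k * g₀, hk⟩ = (ϕ ⟨g, hgH⟩) ^ k := by
    intro k g₀ hk
    have h1 := hctrl k g₀⁻¹ (by simpa using hk)
    rw [← map_pow, eq_comm]
    show QuotientGroup.mk _ = QuotientGroup.mk _
    rw [QuotientGroup.eq]
    show ((⟨g, hgH⟩ ^ k : ↥H)⁻¹ * ⟨g₀⁻¹ * g ^ k * g₀, hk⟩ : ↥H).1 ∈ K
    simp only [zpow_natCast, inv_inv] at h1
    -- conjugate `h1` by `g ^ k`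
    have h2 : ((g ^ k)⁻¹ * (g₀⁻¹ * g ^ k * g₀ * (g ^ k)⁻¹) * (g ^ k)) ∈ K := by
      have h3 := hKn.conj_mem ⟨g₀⁻¹ * g ^ k * g₀ * (g ^ k)⁻¹, hHK h1⟩ h1
        ⟨(g ^ k)⁻¹, H.inv_mem (H.pow_mem hgH k)⟩
      have h4 : ((⟨(g ^ k)⁻¹, H.inv_mem (H.pow_mem hgH k)⟩ : ↥H) *
        ⟨g₀⁻¹ * g ^ k * g₀ * (g ^ k)⁻¹, hHK h1⟩ *
        (⟨(g ^ k)⁻¹, H.inv_mem (H.pow_mem hgH k)⟩ : ↥H)⁻¹ : ↥H).1 ∈ K := h3
      simpa using h4
    simpa [mul_assoc] using h2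
  have h1 := Cfsg.Agent.Lib.Helper9.Trf.transfer_eq_pow_mod ϕ g (ϕ ⟨g, hgH⟩) key
  have h2 : MonoidHom.transfer ϕ g = 1 :=
    Abelianization.commutator_subset_ker (MonoidHom.transfer ϕ) hgc
  obtain ⟨k, hk⟩ := hgp
  have h3 : (ϕ ⟨g, hgH⟩) ^ p ^ k = 1 := by
    rw [← map_pow]
    have : (⟨g, hgH⟩ : ↥H) ^ p ^ k = 1 := Subtype.ext (by
      show g ^ p ^ k = 1
      rw [← hk]; exact pow_orderOf_eq_one g)
    rw [this, map_one]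
  have h4 := Cfsg.Agent.Lib.Helper9.Trf.eq_one_of_pow_coprime h3 hidx (h1 ▸ h2)
  apply hgK
  have h5 : (⟨g, hgH⟩ : ↥H) ∈ K.subgroupOf H := by
    rw [← QuotientGroup.ker_mk' (K.subgroupOf H)]
    exact h4
  exact h5

end Cfsg.Agent.S1241
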