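import Cfsg.Statements.S1242
import Cfsg.Agent.Lib.Helper9.Trf
import Cfsg.Agent.Lib.Helper1.Transfer1

set_option autoImplicit false
open Cfsg

namespace Cfsg.Agent.S1242

open scoped IsMulCommutative

/-- Let G be a finite group, p a prime and H a subgroup of index prime to p such that any two elements of H of p-power order that are conjugate in G are conjugate in H. Then (O^p(G)·G') ∩ H = O^p(H)·H', where O^p denotes the subgroup generated by the elements of order prime to p. -/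
theorem result {G : Type*} [Group G] [Finite G] {p : ℕ} [Fact p.Prime] (H : Subgroup G) (hidx : Nat.Coprime p H.index) (hfus : ∀ g ∈ H, (∃ k : ℕ, orderOf g = p ^ k) → ∀ a : G, a * g * a⁻¹ ∈ H → ∃ h ∈ H, h * g * h⁻¹ = a * g * a⁻¹) : (Cfsg.pResidual p G ⊔ commutator G) ⊓ H = (Cfsg.pResidual p ↥H ⊔ commutator ↥H).map H.subtype := by
  have hn1 : (Cfsg.pResidual p ↥H).Normal := Cfsg.Agent.Lib.Helper1.pResidual_normal p
  have hn2 : (commutator ↥H).Normal := inferInstance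
  have hKn : (Cfsg.pResidual p ↥H ⊔ commutator ↥H).Normal := inferInstance
  apply le_antisymm
  · rintro x ⟨hx1, hxH⟩
    have hcomm : IsMulCommutative (↥H ⧸ (Cfsg.pResidual p ↥H ⊔ commutator ↥H)) :=
      Subgroup.Normal.quotient_commutative_iff_commutator_le.mpr le_sup_right
    have hAp : IsPGroup p (↥H ⧸ (Cfsg.pResidual p ↥H ⊔ commutator ↥H)) :=
      Cfsg.Agent.Lib.Helper1.isPGroup_quotient_pResidual _ le_sup_left
    let ϕ : ↥H →* (↥H ⧸ (Cfsg.pResidual p ↥H ⊔ commutator ↥H)) := QuotientGroup.mk' _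
    have hV : ∀ y ∈ Cfsg.pResidual p G ⊔ commutator G, MonoidHom.transfer ϕ y = 1 := by
      have : Cfsg.pResidual p G ⊔ commutator G ≤ (MonoidHom.transfer ϕ).ker :=
        sup_le (Cfsg.Agent.Lib.Helper1.pResidual_le_ker _ hAp)
          (Abelianization.commutator_subset_ker _)
      exact fun y hy => this hy
    obtain ⟨e, m, hm, hom⟩ := Nat.exists_eq_pow_mul_and_not_dvd (orderOf_pos x).ne' p
      (Fact.out : p.Prime).ne_one
    have hmcop : Nat.Coprime p m := (Nat.Prime.coprime_iff_not_dvd Fact.out).mpr hm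
    have hm0 : m ≠ 0 := fun h => hm (h ▸ dvd_zero p)
    have hyo : orderOf (x ^ m) = p ^ e := by
      rw [orderOf_pow_of_dvd hm0 (hom ▸ Dvd.intro_left _ rfl), hom]
      exact Nat.mul_div_cancel _ (Nat.pos_of_ne_zero hm0)
    have hyH : x ^ m ∈ H := H.pow_mem hxH m
    have key : ∀ (k : ℕ) (g₀ : G) (hk : g₀⁻¹ * (x ^ m) ^ k * g₀ ∈ H),
        ϕ ⟨g₀⁻¹ * (x ^ m) ^ k * g₀, hk⟩ = (ϕ ⟨x ^ m, hyH⟩) ^ k := by
      intro k g₀ hk
      have ho : ∃ j : ℕ, orderOf ((x ^ m) ^ k) = p ^ j := by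
        have : orderOf ((x ^ m) ^ k) ∣ p ^ e := hyo ▸ orderOf_pow_dvd k
        obtain ⟨j, _, hj⟩ := (Nat.dvd_prime_pow Fact.out).mp this
        exact ⟨j, hj⟩
      obtain ⟨h, hh, he⟩ := hfus ((x ^ m) ^ k) (H.pow_mem hyH k) ho g₀⁻¹ (by simpa using hk)
      rw [inv_inv] at he
      have e1 : (⟨g₀⁻¹ * (x ^ m) ^ k * g₀, hk⟩ : ↥H) =
          ⟨h, hh⟩ * (⟨x ^ m, hyH⟩ ^ k) * (⟨h, hh⟩ : ↥H)⁻¹ := Subtype.ext he.symm
      rw [e1, map_mul, map_mul, map_inv, map_pow, mul_comm, inv_mul_cancel_left]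
    have h1 := Cfsg.Agent.Lib.Helper9.Trf.transfer_eq_pow_mod ϕ (x ^ m) (ϕ ⟨x ^ m, hyH⟩) key
    have h2 : MonoidHom.transfer ϕ (x ^ m) = 1 := hV _ (Subgroup.pow_mem _ hx1 m)
    obtain ⟨k1, hk1⟩ := hAp (ϕ ⟨x ^ m, hyH⟩)
    have h3 := Cfsg.Agent.Lib.Helper9.Trf.eq_one_of_pow_coprime hk1 hidx (h1 ▸ h2)
    have h4 : (ϕ ⟨x, hxH⟩) ^ m = 1 := by
      rw [← map_pow]; exact h3
    obtain ⟨k2, hk2⟩ := hAp (ϕ ⟨x, hxH⟩)
    have h5 := Cfsg.Agent.Lib.Helper9.Trf.eq_one_of_pow_coprime hk2 hmcop h4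
    refine ⟨⟨x, hxH⟩, ?_, rfl⟩
    rw [SetLike.mem_coe, ← QuotientGroup.ker_mk' (Cfsg.pResidual p ↥H ⊔ commutator ↥H)]
    exact h5
  · apply le_inf _ (Subgroup.map_subtype_le _)
    rw [Subgroup.map_sup]
    apply sup_le_sup
    · rw [Cfsg.pResidual, MonoidHom.map_closure, Subgroup.closure_le]
      rintro _ ⟨y, hy, rfl⟩
      apply Cfsg.Agent.Lib.Helper1.mem_pResidual_of_coprime
      have : Nat.Coprime (orderOf y) p := hy
      rwa [Subgroup.coe_subtype, Subgroup.orderOf_coe]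
    · rw [commutator_def, commutator_def, Subgroup.map_commutator]
      exact Subgroup.commutator_mono le_top le_top

end Cfsg.Agent.S1242
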