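import Cfsg.Statements.S1243
import Mathlib
import Cfsg.Agent.Lib.Helper6.Basic

set_option autoImplicit false
open Cfsg

namespace Cfsg.Agent.S1243

open Cfsg.Agent.Lib.Helper6.Basic

/-- Let T be a Sylow p-subgroup of the finite group G and W ≤ T a subgroup weakly closed in T. If d and g d g⁻¹ both centralize W, then g d g⁻¹ = h d h⁻¹ for some h ∈ N_G(W). -/
theorem result {G : Type*} [Group G] [Finite G] {p : ℕ} [Fact p.Prime] (T : Sylow p G) (W : Subgroup G) (hW : Cfsg.IsWeaklyClosed W (T : Subgroup G)) (d g : G) (hd : d ∈ Subgroup.centralizer (W : Set G)) (hgd : g * d * g⁻¹ ∈ Subgroup.centralizer (W : Set G)) : ∃ h ∈ Subgroup.normalizer (W : Set G), h * d * h⁻¹ = g * d * g⁻¹ := by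
  obtain ⟨hWT, hwc⟩ := hW
  have hWp : IsPGroup p W := T.2.to_le hWT
  set e := g * d * g⁻¹ with he
  set K := Subgroup.centralizer ({e} : Set G) with hK
  have hWK : W ≤ K := by
    intro w hw
    rw [hK, Subgroup.mem_centralizer_singleton_iff]
    exact Subgroup.mem_centralizer_iff.mp hgd w hw
  have hWgK : cj g W ≤ K := by
    intro w hw
    rw [hK, he, ← cj_centralizer_singleton]
    rw [mem_cj] at hw ⊢
    rw [Subgroup.mem_centralizer_singleton_iff]
    exact Subgroup.mem_centralizer_iff.mp hd _ hw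
  obtain ⟨P, hP⟩ := (hWp.comap_subtype (K := K)).exists_le_sylow
  have hWP : W ≤ (P : Subgroup K).map K.subtype := by
    intro w hw
    exact ⟨⟨w, hWK hw⟩, hP (by simpa [Subgroup.mem_subgroupOf] using hw), rfl⟩
  obtain ⟨c, hcK, hc⟩ := exists_mem_le_cj_of_sylow P (isPGroup_cj hWp g) hWgK
  have hP1 : IsPGroup p ((P : Subgroup K).map K.subtype) := P.2.map _
  obtain ⟨k, hk⟩ := exists_le_cj_sylow hP1 T
  have h1 : cj k⁻¹ W ≤ T := by
    rw [cj_le_iff, inv_inv]; exact hWP.trans hk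
  have h2 : cj (k⁻¹ * (c⁻¹ * g)) W ≤ T := by
    rw [← cj_cj, cj_le_iff, inv_inv, ← cj_cj, cj_le_iff, inv_inv]
    exact hc.trans (cj_mono hk)
  have e1 : cj k⁻¹ W = W := hwc _ h1
  have e2 : cj (k⁻¹ * (c⁻¹ * g)) W = W := hwc _ h2
  rw [← cj_cj] at e2
  have e3 : cj (c⁻¹ * g) W = W := cj_inj.mp (e2.trans e1.symm)
  refine ⟨c⁻¹ * g, cj_eq_self_iff.mp e3, ?_⟩
  have hce : c * e = e * c := by
    rw [hK, Subgroup.mem_centralizer_singleton_iff] at hcK
    exact hcK
  have : c⁻¹ * g * d * (c⁻¹ * g)⁻¹ = c⁻¹ * e * c := by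
    rw [he]; group
  rw [this, mul_assoc, ← hce, inv_mul_cancel_left]

end Cfsg.Agent.S1243
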