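import Cfsg.Statements.S1244
import Cfsg.Agent.Lib.Helper9.Trf
import Cfsg.Agent.Lib.Helper9.StrongEmb
import Cfsg.Agent.Lib.Helper6.Ores

set_option autoImplicit false
open Cfsg

namespace Cfsg.Agent.S1244

open scoped IsMulCommutative
open Cfsg.Agent.Lib.Helper9.StrongEmb Cfsg.Agent.Lib.Helper6.Ores

theorem hom_trivial {G A : Type*} [Group G] [Group A] [Finite A] (hG : ∀ H : Subgroup G, H.index ≠ 2)
    (hA : IsPGroup 2 A) (f : G →* A) (g : G) : f g = 1 := by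
  have : Fact (Nat.Prime 2) := ⟨Nat.prime_two⟩
  by_contra hne
  have hR : IsPGroup 2 f.range := hA.to_subgroup _
  obtain ⟨k, hk⟩ := IsPGroup.iff_card.mp hR
  have hk0 : k ≠ 0 := by
    rintro rfl
    rw [pow_zero, Subgroup.card_eq_one] at hk
    apply hne
    have : f g ∈ f.range := ⟨g, rfl⟩
    rw [hk] at this
    exact this
  obtain ⟨k', rfl⟩ : ∃ k', k = k' + 1 := ⟨k - 1, by omega⟩
  obtain ⟨K, hK⟩ := Sylow.exists_subgroup_card_pow_prime (G := f.range) 2 (n := k')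
    (by rw [hk]; exact pow_dvd_pow 2 (Nat.le_succ k'))
  apply hG (K.comap f.rangeRestrict)
  rw [Subgroup.index_comap_of_surjective _ f.rangeRestrict_surjective]
  have h1 := K.card_mul_index
  rw [hK, hk, pow_succ] at h1
  exact Nat.eq_of_mul_eq_mul_left (by positivity) h1

theorem pow_eq_of_between {r j : ℕ} (hr : 1 ≤ r) (h1 : 2 ^ (r - 1) < 2 ^ j) (h2 : 2 ^ j ≤ 2 ^ r) :
    j = r := by
  have a := (Nat.pow_lt_pow_iff_right (by norm_num : 1 < 2)).mp h1
  have b := (Nat.pow_le_pow_iff_right (by norm_num : 1 < 2)).mp h2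
  omega


/-- Let G be a finite group with no subgroup of index 2 whose Sylow 2-subgroup S is commutative, and let R ≤ S be a subgroup whose 2-rank is exactly one less than the 2-rank r of S. Then every involution of S is conjugate, by an element of N_G(S), to an element of R. -/
theorem result {G : Type*} [Group G] [Finite G] (hG : ∀ H : Subgroup G, H.index ≠ 2) (S : Sylow 2 G) (hS : IsMulCommutative (S : Subgroup G)) (r : ℕ) (hr1 : 1 ≤ r) (hSr : Cfsg.PRankLE 2 r (S : Subgroup G) ∧ ¬ Cfsg.PRankLE 2 (r - 1) (S : Subgroup G)) (R : Subgroup G) (hRS : R ≤ S) (hRr : Cfsg.PRankLE 2 (r - 1) R ∧ (r = 1 ∨ ¬ Cfsg.PRankLE 2 (r - 2) R)) (t : G) (ht : orderOf t = 2) (htS : t ∈ S) : ∃ n ∈ Subgroup.normalizer ((S : Subgroup G) : Set G), n * t * n⁻¹ ∈ R := by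
  by_contra hcon
  push Not at hcon
  have : Fact (Nat.Prime 2) := ⟨Nat.prime_two⟩
  have hcm : ∀ a ∈ (S : Subgroup G), ∀ b ∈ (S : Subgroup G), a * b = b * a := fun a ha b hb =>
    congrArg Subtype.val (hS.is_comm.comm ⟨a, ha⟩ ⟨b, hb⟩)
  let V : Subgroup G :=
    { carrier := {x | x ∈ (S : Subgroup G) ∧ x ^ 2 = 1}
      mul_mem' := by
        rintro a b ⟨ha, ha2⟩ ⟨hb, hb2⟩
        refine ⟨mul_mem ha hb, ?_⟩
        rw [(show Commute a b from hcm a ha b hb).mul_pow, ha2, hb2, one_mul]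
      one_mem' := ⟨one_mem _, one_pow 2⟩
      inv_mem' := by
        rintro a ⟨ha, ha2⟩
        exact ⟨inv_mem ha, by rw [inv_pow, ha2, inv_one]⟩ }
  have hVmem : ∀ x, x ∈ V ↔ x ∈ (S : Subgroup G) ∧ x ^ 2 = 1 := fun x => Iff.rfl
  have hVS : V ≤ (S : Subgroup G) := fun x hx => hx.1
  have hVc : ∀ W : Subgroup G, W ≤ V → ∀ X : Subgroup G, IsMulCommutative (W.subgroupOf X) := by
    intro W hW X
    refine ⟨⟨fun a b => Subtype.ext (Subtype.ext ?_)⟩⟩
    exact hcm _ (hVS (hW a.2)) _ (hVS (hW b.2))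
  have hVe : ∀ W : Subgroup G, W ≤ V → ∀ X : Subgroup G, ∀ a ∈ W.subgroupOf X, a ^ 2 = 1 := by
    intro W hW X a ha
    exact Subtype.ext (hW ha).2
  have hV1 : Nat.card V ≤ 2 ^ r := by
    have := hSr.1 (V.subgroupOf S) (hVc V le_rfl _) (hVe V le_rfl _)
    rwa [Nat.card_congr (Subgroup.subgroupOfEquivOfLe hVS).toEquiv] at this
  have hV2 : 2 ^ (r - 1) < Nat.card V := by
    obtain ⟨A, hAS, _, he, hk⟩ := big_iff.mp hSr.2
    exact lt_of_lt_of_le hk (Subgroup.card_le_of_le (fun x hx => ⟨hAS hx, he x hx⟩))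
  have hVp : IsPGroup 2 V := S.2.to_le hVS
  obtain ⟨j, hj⟩ := IsPGroup.iff_card.mp hVp
  have hjr : j = r := pow_eq_of_between hr1 (hj ▸ hV2) (hj ▸ hV1)
  have hU1 : Nat.card ↥(V ⊓ R : Subgroup G) ≤ 2 ^ (r - 1) := by
    have := hRr.1 ((V ⊓ R).subgroupOf R) (hVc _ inf_le_left _) (hVe _ inf_le_left _)
    rwa [Nat.card_congr (Subgroup.subgroupOfEquivOfLe inf_le_right).toEquiv] at this
  obtain ⟨i, hi⟩ := IsPGroup.iff_card.mp (hVp.to_le (inf_le_left : V ⊓ R ≤ V))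
  have hir : i = r - 1 := by
    rw [hi] at hU1
    have b := (Nat.pow_le_pow_iff_right (by norm_num : 1 < 2)).mp hU1
    rcases hRr.2 with h1 | h1
    · omega
    · obtain ⟨A, hAR, _, he, hk⟩ := big_iff.mp h1
      have h2 : 2 ^ (r - 2) < Nat.card ↥(V ⊓ R : Subgroup G) :=
        lt_of_lt_of_le hk (Subgroup.card_le_of_le (fun x hx => ⟨⟨hRS (hAR hx), he x hx⟩, hAR hx⟩))
      rw [hi] at h2
      have a := (Nat.pow_lt_pow_iff_right (by norm_num : 1 < 2)).mp h2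
      omega
  have hidx : ((V ⊓ R).subgroupOf V).index = 2 := by
    have h1 := relIndex_mul_card' (inf_le_left : V ⊓ R ≤ V)
    rw [hi, hj, hir, hjr] at h1
    have h2 : 2 ^ r = 2 * 2 ^ (r - 1) := by
      obtain ⟨r', rfl⟩ : ∃ r', r = r' + 1 := ⟨r - 1, by omega⟩
      simp [pow_succ, mul_comm]
    rw [h2] at h1
    exact Nat.eq_of_mul_eq_mul_right (by positivity) h1
  have hmul : ∀ a ∈ V, ∀ b ∈ V, (a * b ∈ R ↔ (a ∈ R ↔ b ∈ R)) := by
    intro a ha b hb
    have h1 := Subgroup.mul_mem_iff_of_index_two hidx (a := ⟨a, ha⟩) (b := ⟨b, hb⟩)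
    have e : ∀ c (hc : c ∈ V), ((⟨c, hc⟩ : ↥V) ∈ (V ⊓ R).subgroupOf V ↔ c ∈ R) := by
      intro c hc
      rw [Subgroup.mem_subgroupOf]
      exact ⟨fun h => h.2, fun h => ⟨hc, h⟩⟩
    have e2 : (⟨a, ha⟩ * ⟨b, hb⟩ : ↥V) = ⟨a * b, V.mul_mem ha hb⟩ := rfl
    rw [e2, e, e, e] at h1
    exact h1
  -- the product of the conjugates
  set N := Subgroup.normalizer ((S : Subgroup G) : Set G) with hN
  have hconjS : ∀ n ∈ N, ∀ s ∈ (S : Subgroup G), n * s * n⁻¹ ∈ (S : Subgroup G) := fun n hn s hs =>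
    (Subgroup.mem_normalizer_iff.mp hn s).mp hs
  have := Fintype.ofFinite (↥N ⧸ (S : Subgroup G).subgroupOf N)
  let F : ↥N → ↥(S : Subgroup G) := fun n => ⟨n * t * (n : G)⁻¹, hconjS n n.2 t htS⟩
  have hconst : ∀ n n' : ↥N, (QuotientGroup.leftRel ((S : Subgroup G).subgroupOf N)) n n' → F n = F n' := by
    intro n n' h
    rw [QuotientGroup.leftRel_apply] at h
    have hs : ((n : G)⁻¹ * n') ∈ (S : Subgroup G) := h
    apply Subtype.ext
    show (n : G) * t * (n : G)⁻¹ = n' * t * (n' : G)⁻¹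
    have hc := hcm _ hs t htS
    calc (n : G) * t * (n : G)⁻¹ = n * (t * ((n : G)⁻¹ * n')) * (n' : G)⁻¹ := by group
      _ = n' * t * (n' : G)⁻¹ := by rw [← hc]; group
  let f : ↥N ⧸ (S : Subgroup G).subgroupOf N → ↥(S : Subgroup G) := Quotient.lift F hconst
  have hf : ∀ n : ↥N, f (n : ↥N ⧸ (S : Subgroup G).subgroupOf N) = F n := fun n => rfl
  have ht2 : t ^ 2 = 1 := by rw [← ht]; exact pow_orderOf_eq_one t
  have hfV : ∀ x, ((f x : ↥(S : Subgroup G)) : G) ∈ V ∧ ((f x : ↥(S : Subgroup G)) : G) ∉ R := by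
    intro x
    induction x using QuotientGroup.induction_on with
    | H n =>
      rw [hf]
      refine ⟨⟨(F n).2, ?_⟩, hcon n n.2⟩
      show ((n : G) * t * (n : G)⁻¹) ^ 2 = 1
      rw [conj_pow, ht2]; group
  have hpar : ∀ s : Finset (↥N ⧸ (S : Subgroup G).subgroupOf N),
      (((∏ x ∈ s, f x : ↥(S : Subgroup G)) : G) ∈ V) ∧
        ((((∏ x ∈ s, f x : ↥(S : Subgroup G)) : G) ∈ R) ↔ Even s.card) := by
    classical
    intro s
    induction s using Finset.induction_on with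
    | empty => simp [V.one_mem, R.one_mem]
    | insert a s ha ih =>
      rw [Finset.prod_insert ha, Finset.card_insert_of_notMem ha]
      refine ⟨V.mul_mem (hfV a).1 ih.1, ?_⟩
      rw [Subgroup.coe_mul, hmul _ (hfV a).1 _ ih.1, ih.2, Nat.even_add_one]
      simp [(hfV a).2]
  have hodd : Odd (Finset.univ : Finset (↥N ⧸ (S : Subgroup G).subgroupOf N)).card := by
    rw [Finset.card_univ, ← Nat.card_eq_fintype_card, ← Subgroup.index_eq_card,
      ← Nat.not_even_iff_odd, even_iff_two_dvd]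
    intro hd
    apply S.not_dvd_index
    rw [← Subgroup.relIndex_mul_index (Subgroup.le_normalizer : (S : Subgroup G) ≤ N)]
    exact Dvd.dvd.mul_right hd _
  set z : ↥(S : Subgroup G) := ∏ x, f x with hz
  have hzR : (z : G) ∉ R := fun h => (Nat.not_even_iff_odd.mpr hodd) ((hpar Finset.univ).2.mp h)
  have hzinv : ∀ m ∈ N, m * (z : G) * m⁻¹ = z := by
    intro m hm
    let cH : ↥(S : Subgroup G) →* ↥(S : Subgroup G) :=
      MonoidHom.mk' (fun s => ⟨m * s * m⁻¹, hconjS m hm s s.2⟩) (by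
        intro a b
        apply Subtype.ext
        simp [mul_assoc])
    have h1 : cH z = ∏ x, cH (f x) := map_prod _ _ _
    have h2 : ∀ x, cH (f x) = f ((⟨m, hm⟩ : ↥N) • x) := by
      intro x
      induction x using QuotientGroup.induction_on with
      | H n =>
        have e : (⟨m, hm⟩ : ↥N) • (n : ↥N ⧸ (S : Subgroup G).subgroupOf N) =
          ((⟨m, hm⟩ * n : ↥N) : ↥N ⧸ (S : Subgroup G).subgroupOf N) := rfl
        rw [e, hf, hf]
        apply Subtype.ext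
        show m * ((n : G) * t * (n : G)⁻¹) * m⁻¹ = (m * n) * t * (m * (n : G))⁻¹
        group
    have h3 : ∏ x, f ((⟨m, hm⟩ : ↥N) • x) = z :=
      Fintype.prod_equiv (MulAction.toPerm (⟨m, hm⟩ : ↥N)) _ _ (fun x => rfl)
    have h4 : cH z = z := by
      rw [h1, ← h3]
      exact Finset.prod_congr rfl (fun x _ => h2 x)
    exact congrArg Subtype.val h4
  -- transfer
  have key : ∀ (k : ℕ) (g₀ : G) (hk : g₀⁻¹ * (z : G) ^ k * g₀ ∈ (S : Subgroup G)),
      (MonoidHom.id ↥(S : Subgroup G)) ⟨g₀⁻¹ * (z : G) ^ k * g₀, hk⟩ = z ^ k := by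
    intro k g₀ hk
    obtain ⟨n, hn, he⟩ := S.conj_eq_normalizer_conj_of_mem ((z : G) ^ k) g₀
      ((S : Subgroup G).pow_mem z.2 k) hk
    apply Subtype.ext
    show g₀⁻¹ * (z : G) ^ k * g₀ = ((z ^ k : ↥(S : Subgroup G)) : G)
    rw [he, Subgroup.coe_pow]
    have h1 := hzinv n⁻¹ (N.inv_mem hn)
    rw [inv_inv] at h1
    have e : n⁻¹ * (z : G) ^ k * n = (n⁻¹ * (z : G) * n⁻¹⁻¹) ^ k := by rw [conj_pow, inv_inv]
    rw [e, inv_inv, h1]
  have h1 := Cfsg.Agent.Lib.Helper9.Trf.transfer_eq_pow_mod (MonoidHom.id ↥(S : Subgroup G)) (z : G) z key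
  have h2 := hom_trivial hG S.2 (MonoidHom.transfer (MonoidHom.id ↥(S : Subgroup G))) (z : G)
  obtain ⟨k, hk⟩ := S.2 z
  have hcop : Nat.Coprime 2 (S : Subgroup G).index :=
    (Nat.Prime.coprime_iff_not_dvd Nat.prime_two).mpr S.not_dvd_index
  have h3 := Cfsg.Agent.Lib.Helper9.Trf.eq_one_of_pow_coprime hk hcop (h1 ▸ h2)
  apply hzR
  rw [h3]
  exact R.one_mem

end Cfsg.Agent.S1244
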