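import Cfsg.Statements.S1258
import Mathlib
import Cfsg.Agent.Lib.Helper6.Comp

set_option autoImplicit false
open Cfsg

namespace Cfsg.Agent.S1258

open Cfsg.Agent.Lib.Helper6.Subn Cfsg.Agent.Lib.Helper6.Quasi Cfsg.Agent.Lib.Helper6.Comp

/-- If the central quotient of a finite group X is non-abelian simple, then X = X' Z(X) and the commutator subgroup X' is quasisimple. -/
theorem result {X : Type*} [Group X] [Finite X] (hs : IsSimpleGroup (X ⧸ Subgroup.center X)) (hna : ¬ IsMulCommutative (X ⧸ Subgroup.center X)) : commutator X ⊔ Subgroup.center X = ⊤ ∧ Cfsg.IsQuasisimple ↥(commutator X) := by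
  have hZ : Subgroup.center X ≤ Cz (⊤ : Subgroup X) := by
    intro z hz
    rw [Subgroup.mem_centralizer_iff]
    intro n _
    exact Subgroup.mem_center_iff.mp hz n
  have hsimple : ∀ N : Subgroup X, Subgroup.center X ≤ N → N ≤ ⊤ → (⊤ : Subgroup X) ≤ Nz N →
      N = Subgroup.center X ∨ N = ⊤ := by
    intro N hZN _ hn
    have hN : N.Normal := Subgroup.normalizer_eq_top_iff.mp (top_le_iff.mp hn)
    have hn' : (N.map (QuotientGroup.mk' (Subgroup.center X))).Normal :=
      hN.map _ (QuotientGroup.mk'_surjective _)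
    rcases hn'.eq_bot_or_eq_top with h | h
    · left
      rw [Subgroup.map_eq_bot_iff, QuotientGroup.ker_mk'] at h
      exact le_antisymm h hZN
    · right
      have := congrArg (Subgroup.comap (QuotientGroup.mk' (Subgroup.center X))) h
      rwa [Subgroup.comap_map_eq, QuotientGroup.ker_mk', Subgroup.comap_top,
        sup_eq_left.mpr hZN] at this
  have hna' : ¬ ⁅(⊤ : Subgroup X), ⊤⁆ ≤ Subgroup.center X := by
    intro h
    apply hna
    refine ⟨⟨fun a b => ?_⟩⟩
    induction a using QuotientGroup.induction_on with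
    | H a =>
    induction b using QuotientGroup.induction_on with
    | H b =>
    rw [← QuotientGroup.mk_mul, ← QuotientGroup.mk_mul, QuotientGroup.eq]
    have h1 := h (Subgroup.commutator_mem_commutator (Subgroup.mem_top b⁻¹) (Subgroup.mem_top a⁻¹))
    rw [commutatorElement_def] at h1
    simpa [mul_assoc] using h1
  obtain ⟨h1, h2⟩ := QS.of_simple_quot le_top hZ hsimple hna'
  exact ⟨h1, quasisimple_iff.mpr h2⟩

end Cfsg.Agent.S1258
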