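import Cfsg.Statements.S1259
import Mathlib

set_option autoImplicit false
open Cfsg
open scoped commutatorElement

namespace Cfsg.Agent.S1259

theorem comm_le_of_sup_center {X : Type*} [Group X] (Y : Subgroup X)
    (hY : Y ⊔ Subgroup.center X = ⊤) : ⁅(⊤ : Subgroup X), ⊤⁆ ≤ Y := by
  rw [Subgroup.commutator_le]
  intro g₁ _ g₂ _
  have hg₁ : g₁ ∈ Y ⊔ Subgroup.center X := hY ▸ Subgroup.mem_top g₁
  have hg₂ : g₂ ∈ Y ⊔ Subgroup.center X := hY ▸ Subgroup.mem_top g₂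
  rw [Subgroup.mem_sup_of_normal_right] at hg₁ hg₂
  obtain ⟨y₁, hy₁, z₁, hz₁, rfl⟩ := hg₁
  obtain ⟨y₂, hy₂, z₂, hz₂, rfl⟩ := hg₂
  have : ⁅y₁ * z₁, y₂ * z₂⁆ = ⁅y₁, y₂⁆ := by
    rw [Subgroup.mem_center_iff] at hz₁ hz₂
    simp only [commutatorElement_def, mul_inv_rev]
    have e1 : ∀ g, z₁ * g = g * z₁ := fun g => (hz₁ g).symm
    have e2 : ∀ g, z₂ * g = g * z₂ := fun g => (hz₂ g).symm
    calc y₁ * z₁ * (y₂ * z₂) * (z₁⁻¹ * y₁⁻¹) * (z₂⁻¹ * y₂⁻¹)
        = y₁ * (z₁ * (y₂ * z₂)) * z₁⁻¹ * y₁⁻¹ * z₂⁻¹ * y₂⁻¹ := by group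
      _ = y₁ * ((y₂ * z₂) * z₁) * z₁⁻¹ * y₁⁻¹ * z₂⁻¹ * y₂⁻¹ := by rw [e1]
      _ = y₁ * y₂ * (z₂ * y₁⁻¹) * z₂⁻¹ * y₂⁻¹ := by group
      _ = y₁ * y₂ * (y₁⁻¹ * z₂) * z₂⁻¹ * y₂⁻¹ := by rw [e2]
      _ = y₁ * y₂ * y₁⁻¹ * y₂⁻¹ := by group
  rw [this]
  exact Y.mul_mem (Y.mul_mem (Y.mul_mem hy₁ hy₂) (Y.inv_mem hy₁)) (Y.inv_mem hy₂)

theorem normal_case {X : Type*} [Group X] (hX : Cfsg.IsQuasisimple X) (H : Subgroup X)
    (hH : H.Normal) : H = ⊤ ∨ H ≤ Subgroup.center X := by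
  obtain ⟨hP, hS⟩ := hX
  have hsurj := QuotientGroup.mk'_surjective (Subgroup.center X)
  have hM : (H.map (QuotientGroup.mk' (Subgroup.center X))).Normal := hH.map _ hsurj
  rcases hM.eq_bot_or_eq_top with h | h
  · right
    intro x hx
    have : QuotientGroup.mk' (Subgroup.center X) x ∈ H.map (QuotientGroup.mk' (Subgroup.center X)) :=
      ⟨x, hx, rfl⟩
    rw [h, Subgroup.mem_bot] at this
    exact (QuotientGroup.eq_one_iff x).mp this
  · left
    have h1 : H ⊔ Subgroup.center X = ⊤ := by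
      rw [eq_top_iff]
      intro x _
      have : QuotientGroup.mk' (Subgroup.center X) x ∈ H.map (QuotientGroup.mk' (Subgroup.center X)) :=
        h ▸ Subgroup.mem_top _
      obtain ⟨y, hy, hyx⟩ := this
      have h2 : y⁻¹ * x ∈ Subgroup.center X := QuotientGroup.eq.mp hyx
      have : x = y * (y⁻¹ * x) := by group
      rw [this]
      exact Subgroup.mul_mem _ (Subgroup.mem_sup_left hy) (Subgroup.mem_sup_right h2)
    rw [eq_top_iff]
    have h3 : commutator X = ⊤ := hP.commutator_eq_top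
    rw [← h3]
    exact comm_le_of_sup_center H h1

/-- In a quasisimple group, every subnormal subgroup is either the whole group or central. -/
theorem result {X : Type*} [Group X] [Finite X] (hX : Cfsg.IsQuasisimple X) (H : Subgroup X) (hH : H.IsSubnormal) : H = ⊤ ∨ H ≤ Subgroup.center X := by
  induction hH with
  | top => exact Or.inl rfl
  | step H K hle _ hN ih =>
    rcases ih with rfl | ih
    · apply normal_case hX
      have := hN.map (Subgroup.topEquiv (G := X)).toMonoidHom (Subgroup.topEquiv (G := X)).surjective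
      convert this using 1
      ext x
      simp [Subgroup.mem_map, Subgroup.mem_subgroupOf]
    · exact Or.inr (hle.trans ih)

end Cfsg.Agent.S1259
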