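import Cfsg.Statements.S1263
import Mathlib
import Cfsg.Agent.Lib.Helper6.FStar2

set_option autoImplicit false
open Cfsg

namespace Cfsg.Agent.S1263

open Cfsg.Agent.Lib.Helper6.Basic Cfsg.Agent.Lib.Helper6.Subn Cfsg.Agent.Lib.Helper6.Quasi Cfsg.Agent.Lib.Helper6.Comp Cfsg.Agent.Lib.Helper6.Rad Cfsg.Agent.Lib.Helper6.Nil Cfsg.Agent.Lib.Helper6.FStar Cfsg.Agent.Lib.Helper6.FStar2

/-- For a finite group G, Z(E(G)) is the subgroup generated by the centres Z(L) of the components L of G (all viewed as subgroups of G). -/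
theorem result {G : Type*} [Group G] [Finite G] : (Subgroup.center ↥(Cfsg.layer G)).map (Cfsg.layer G).subtype = ⨆ L : {K : Subgroup G // Cfsg.IsComponent K}, (Subgroup.center ↥(L : Subgroup G)).map (L : Subgroup G).subtype := by
  rw [map_center_subtype, layer_eq, center_E]
  apply le_antisymm
  · apply sSup_le
    rintro _ ⟨L, hL, rfl⟩
    have := le_iSup (fun L : {K : Subgroup G // Cfsg.IsComponent K} =>
      (Subgroup.center ↥(L : Subgroup G)).map (L : Subgroup G).subtype) ⟨L, isComponent_iff.mpr hL⟩
    simp only [map_center_subtype] at this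
    simp only [map_center_subtype]
    exact this
  · apply iSup_le
    rintro ⟨L, hL⟩
    rw [map_center_subtype]
    exact le_sSup ⟨L, isComponent_iff.mp hL, rfl⟩

end Cfsg.Agent.S1263
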