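import Cfsg.Statements.S1265
import Mathlib
import Cfsg.Agent.Lib.Helper6.FStar

set_option autoImplicit false
open Cfsg

namespace Cfsg.Agent.S1265

open Cfsg.Agent.Lib.Helper6.Basic Cfsg.Agent.Lib.Helper6.Subn Cfsg.Agent.Lib.Helper6.Quasi Cfsg.Agent.Lib.Helper6.Comp Cfsg.Agent.Lib.Helper6.Rad Cfsg.Agent.Lib.Helper6.Nil Cfsg.Agent.Lib.Helper6.FStar

/-- For a finite group G, the centralizer of the generalized Fitting subgroup F*(G) is contained in F*(G). -/
theorem result {G : Type*} [Group G] [Finite G] : Subgroup.centralizer (Cfsg.generalizedFittingSubgroup G : Set G) ≤ Cfsg.generalizedFittingSubgroup G := by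
  rw [gfit_eq]
  have := bender (⊤ : Subgroup G)
  rwa [top_inf_eq] at this

end Cfsg.Agent.S1265
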