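import Cfsg.Statements.S1267
import Mathlib
import Cfsg.Agent.Lib.Helper6.PAct

set_option autoImplicit false
open Cfsg

namespace Cfsg.Agent.S1267

open Cfsg.Agent.Lib.Helper6.Basic Cfsg.Agent.Lib.Helper6.Subn Cfsg.Agent.Lib.Helper6.Quasi Cfsg.Agent.Lib.Helper6.Comp Cfsg.Agent.Lib.Helper6.Rad Cfsg.Agent.Lib.Helper6.Nil Cfsg.Agent.Lib.Helper6.FStar Cfsg.Agent.Lib.Helper6.FStar2 Cfsg.Agent.Lib.Helper6.PAct

/-- Let G be finite and P ≤ O_p(G). Then E(N_G(P)) = E(G). -/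
theorem result {G : Type*} [Group G] [Finite G] (p : ℕ) [Fact p.Prime] (P : Subgroup G) (hP : P ≤ Cfsg.pCore p G) : (Cfsg.layer ↥(Subgroup.normalizer ((P : Subgroup G) : Set G))).map (Subgroup.normalizer ((P : Subgroup G) : Set G)).subtype = Cfsg.layer G := by
  rw [map_layer, layer_eq]
  rw [pCore_eq] at hP
  have := E_normalizer hP
  rwa [top_inf_eq] at this

end Cfsg.Agent.S1267
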