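import Cfsg.Statements.S1268
import Mathlib
import Cfsg.Agent.Lib.Helper6.PAct

set_option autoImplicit false
open Cfsg

namespace Cfsg.Agent.S1268

open Cfsg.Agent.Lib.Helper6.Basic Cfsg.Agent.Lib.Helper6.Subn Cfsg.Agent.Lib.Helper6.Quasi Cfsg.Agent.Lib.Helper6.Comp Cfsg.Agent.Lib.Helper6.Rad Cfsg.Agent.Lib.Helper6.Nil Cfsg.Agent.Lib.Helper6.FStar Cfsg.Agent.Lib.Helper6.FStar2 Cfsg.Agent.Lib.Helper6.PAct

/-- Let G be finite with F*(G) = O_p(G). Then F*(N) = O_p(N) for N the normalizer of any p-subgroup P of G. -/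
theorem result {G : Type*} [Group G] [Finite G] (p : ℕ) [Fact p.Prime] (h : Cfsg.generalizedFittingSubgroup G = Cfsg.pCore p G) (P : Subgroup G) (hP : IsPGroup p ↥P) : Cfsg.generalizedFittingSubgroup ↥(Subgroup.normalizer ((P : Subgroup G) : Set G)) = Cfsg.pCore p ↥(Subgroup.normalizer ((P : Subgroup G) : Set G)) := by
  apply Subgroup.map_injective (Subgroup.normalizer ((P : Subgroup G) : Set G)).subtype_injective
  rw [map_gfit, map_pCore]
  rw [gfit_eq, pCore_eq] at h
  have := charp_normalizer h hP le_top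
  rwa [top_inf_eq] at this

end Cfsg.Agent.S1268
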