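import Cfsg.Statements.S1278
import Cfsg.Agent.Lib.Helper9.PComp

set_option autoImplicit false
open Cfsg

namespace Cfsg.Agent.S1278

open Cfsg.Agent.Lib.Helper6.Basic Cfsg.Agent.Lib.Helper6.Subn Cfsg.Agent.Lib.Helper6.Quasi Cfsg.Agent.Lib.Helper6.Comp Cfsg.Agent.Lib.Helper6.FStar Cfsg.Agent.Lib.Helper6.Ores Cfsg.Agent.Lib.Helper9.PComp

/-- Let K ≠ L be 2-components of the finite group X. Then ⁅K, L⁆ ≤ O(K) ⊓ O(L), and if K is quasisimple then ⁅K, L⁆ = 1. -/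
theorem result {X : Type*} [Group X] [Finite X] (K L : Subgroup X) (hK : Cfsg.IsPComponent 2 K) (hL : Cfsg.IsPComponent 2 L) (hne : K ≠ L) : ⁅K, L⁆ ≤ ((Cfsg.oddCore ↥K).map K.subtype) ⊓ ((Cfsg.oddCore ↥L).map L.subtype) ∧ (Cfsg.IsQuasisimple ↥K → ⁅K, L⁆ = ⊥) := by
  haveI : Fact (Nat.Prime 2) := ⟨Nat.prime_two⟩
  have h1 : ⁅K, L⁆ ≤ Cfsg.pPrimeCore 2 X := comm_le_core hK hL hne
  have h2 : ⁅K, L⁆ ≤ K := comm_le_of_Nz' le_rfl (pc_le_Nz hK hL)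
  have h3 : ⁅K, L⁆ ≤ L := comm_le_of_Nz (pc_le_Nz hL hK) le_rfl
  refine ⟨?_, ?_⟩
  · rw [inf_core_eq (pc_iff.mp hK).1, inf_core_eq (pc_iff.mp hL).1]
    exact le_inf (le_inf h1 h2) (le_inf h1 h3)
  · intro hq
    have hc : CompIn K ⊤ := ⟨(pc_iff.mp hK).1, quasisimple_iff.mp hq⟩
    rcases hc.sn (pc_iff.mp hL).1 with h | h
    · exfalso
      exact (pc_iff.mp hK).2.1.2.not_le_Cz ((Subgroup.map_mono h).trans (pc_comm_or_eq hK hL hne))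
    · exact h

end Cfsg.Agent.S1278
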