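import Cfsg.Statements.S1300
import Mathlib

set_option autoImplicit false
open Cfsg

namespace Cfsg.Agent.S1300

theorem core_le_centralizer {G : Type*} [Group G] (p : ℕ) (x : G) :
    centralizerPPrimeCore p x ≤ Subgroup.centralizer {x} := by
  rintro _ ⟨y, _, rfl⟩
  exact y.2

/-- For a finite group G, balance in the sense of commuting involutions is the same as 1-balance for the prime 2. -/
theorem result {G : Type*} [Group G] [Finite G] : Cfsg.IsBalanced G ↔ Cfsg.IsKBalanced 2 1 G := by
  constructor
  · intro hb A hA hcard b hbo hAb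
    -- pick the involution of A
    have hne : A ≠ ⊥ := by
      rintro rfl
      simp at hcard
    obtain ⟨a, ha⟩ := Subgroup.ne_bot_iff_exists_ne_one.mp hne
    have ha1 : (a : G) ≠ 1 := fun h => ha (Subtype.ext h)
    have hao : orderOf (a : G) = 2 := orderOf_eq_prime (hA.2 a a.2) ha1
    have h1 : signalizerDelta 2 A ≤ centralizerPPrimeCore 2 (a : G) :=
      iInf_le (fun a : {a : G // a ∈ A ∧ a ≠ 1} => centralizerPPrimeCore 2 (a : G)) ⟨a, a.2, ha1⟩
    calc signalizerDelta 2 A ⊓ Subgroup.centralizer {b}
        ≤ centralizerPPrimeCore 2 (a : G) ⊓ Subgroup.centralizer {b} := inf_le_inf_right _ h1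
      _ = centralizerPPrimeCore 2 b ⊓ Subgroup.centralizer {(a : G)} := hb a b hao hbo (hAb a a.2)
      _ ≤ _ := inf_le_left
  · intro hk
    have key : ∀ x y : G, orderOf x = 2 → orderOf y = 2 → x * y = y * x →
        centralizerPPrimeCore 2 x ⊓ Subgroup.centralizer {y} ≤
        centralizerPPrimeCore 2 y ⊓ Subgroup.centralizer {x} := by
      intro x y hx hy hxy
      have hmem : ∀ a ∈ Subgroup.zpowers x, a = 1 ∨ a = x := by
        intro a ha
        obtain ⟨n, rfl⟩ := Subgroup.mem_zpowers_iff.mp ha
        have hx2 : x ^ (2 : ℤ) = 1 := by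
          have := pow_orderOf_eq_one x
          rw [hx] at this
          exact_mod_cast this
        rcases Int.even_or_odd' n with ⟨m, rfl | rfl⟩
        · left; rw [zpow_mul, hx2, one_zpow]
        · right; rw [zpow_add, zpow_mul, hx2, one_zpow, one_mul, zpow_one]
      have hEA : IsElementaryAbelian 2 (Subgroup.zpowers x) := by
        refine ⟨inferInstance, ?_⟩
        intro a ha
        rcases hmem a ha with rfl | rfl
        · simp
        · rw [← hx]; exact pow_orderOf_eq_one _
      have hcard : Nat.card (Subgroup.zpowers x) = 2 ^ 1 := by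
        rw [Nat.card_zpowers, hx]; rfl
      have h1 := hk (Subgroup.zpowers x) hEA hcard y hy (by
        intro a ha
        rcases hmem a ha with rfl | rfl
        · simp
        · exact hxy)
      have h2 : centralizerPPrimeCore 2 x ≤ signalizerDelta 2 (Subgroup.zpowers x) := by
        apply le_iInf
        rintro ⟨a, ha, ha1⟩
        rcases hmem a ha with rfl | rfl
        · exact absurd rfl ha1
        · exact le_rfl
      apply le_inf
      · exact (inf_le_inf_right _ h2).trans h1
      · exact inf_le_left.trans (core_le_centralizer 2 x)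
    intro x y hx hy hxy
    exact le_antisymm (key x y hx hy hxy) (key y x hy hx hxy.symm)

end Cfsg.Agent.S1300
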