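import Cfsg.Statements.S1306
import Cfsg.Agent.Lib.Helper6.FStar

set_option autoImplicit false
open Cfsg

namespace Cfsg.Agent.S1306

open Cfsg.Agent.Lib.Helper6.Basic Cfsg.Agent.Lib.Helper6.Subn Cfsg.Agent.Lib.Helper6.Quasi Cfsg.Agent.Lib.Helper6.Comp Cfsg.Agent.Lib.Helper6.FStar

/-- Let G be finite, x an involution and L ≤ C_G(x) a component of C_G(x). Suppose L is a component of C_G(y) for every involution y ∈ C_G(L), and ⁅L, g L g⁻¹⁆ ≠ 1 whenever g L g⁻¹ ≠ L. Then L is a standard subgroup of G. -/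
theorem result {G : Type*} [Group G] [Finite G] (x : G) (hx : orderOf x = 2) (L : Subgroup G) (hLx : L ≤ Subgroup.centralizer ({x} : Set G)) (hL : Cfsg.IsComponent (L.subgroupOf (Subgroup.centralizer ({x} : Set G)))) (hne : ∀ y : G, orderOf y = 2 → y ∈ Subgroup.centralizer (L : Set G) → L ≤ Subgroup.centralizer ({y} : Set G) ∧ Cfsg.IsComponent (L.subgroupOf (Subgroup.centralizer ({y} : Set G)))) (hnc : ∀ g : G, L.map (MulAut.conj g).toMonoidHom ≠ L → ⁅L, L.map (MulAut.conj g).toMonoidHom⁆ ≠ ⊥) : Cfsg.IsStandardSubgroup L := by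
  have hxK : x ∈ Cz L := by
    rw [Subgroup.mem_centralizer_iff]
    intro l hl
    exact (Subgroup.mem_centralizer_iff.mp (hLx hl) x rfl).symm
  have key : ∀ (g y : G), orderOf y = 2 → y ∈ Cz L → y ∈ cj g (Cz L) → cj g L = L := by
    intro g y hy h1 h2
    have c1 : CompIn L (Subgroup.centralizer ({y} : Set G)) :=
      (isComponent_subgroupOf_iff (hne y hy h1).1).mp (hne y hy h1).2
    have h3 : g⁻¹ * y * g ∈ Cz L := mem_cj.mp h2
    have h4 : orderOf (g⁻¹ * y * g) = 2 := by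
      have := orderOf_injective (MulAut.conj g⁻¹).toMonoidHom (MulAut.conj g⁻¹).injective y
      rw [← hy, ← this]
      simp
    have c2 : CompIn L (Subgroup.centralizer ({g⁻¹ * y * g} : Set G)) :=
      (isComponent_subgroupOf_iff (hne _ h4 h3).1).mp (hne _ h4 h3).2
    have c3 := c2.cj g
    rw [cj_centralizer_singleton] at c3
    have e : g * (g⁻¹ * y * g) * g⁻¹ = y := by group
    rw [e] at c3
    by_contra hcon
    exact hnc g hcon (comm_eq_bot_iff'.mpr (c1.comm c3 (Ne.symm hcon)))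
  refine ⟨?_, ⟨?_, ?_⟩, hnc, ?_⟩
  · exact quasisimple_iff.mpr ((isComponent_subgroupOf_iff hLx).mp hL).2
  · rw [even_iff_two_dvd, ← hx]
    have := orderOf_dvd_natCard (⟨x, hxK⟩ : Cz L)
    rwa [Subgroup.orderOf_mk] at this
  · intro g hg
    by_contra hodd
    rw [Nat.not_odd_iff_even, even_iff_two_dvd] at hodd
    obtain ⟨y, hy⟩ := exists_prime_orderOf_dvd_card' (G := ↥(Cz L ⊓ cj g (Cz L))) 2 hodd
    have hy' : orderOf (y : G) = 2 := by rw [Subgroup.orderOf_coe]; exact hy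
    have h1 := key g y hy' y.2.1 y.2.2
    exact hg (Nz_le_Nz_Cz L (cj_eq_self_iff.mp h1))
  · apply le_antisymm (Nz_le_Nz_Cz L)
    intro g hg
    have h1 : cj g (Cz L) = Cz L := cj_eq_self_iff.mpr hg
    exact cj_eq_self_iff.mp (key g x hx hxK (h1.symm ▸ hxK))

end Cfsg.Agent.S1306
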