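import Cfsg.Statements.S1318
import Mathlib
import Cfsg.Agent.Lib.Helper6.FStar2

set_option autoImplicit false
open Cfsg

namespace Cfsg.Agent.S1318

open Cfsg.Agent.Lib.Helper6.Basic Cfsg.Agent.Lib.Helper6.Subn Cfsg.Agent.Lib.Helper6.Quasi Cfsg.Agent.Lib.Helper6.Comp Cfsg.Agent.Lib.Helper6.Rad Cfsg.Agent.Lib.Helper6.Nil Cfsg.Agent.Lib.Helper6.FStar Cfsg.Agent.Lib.Helper6.FStar2

/-- Let X be finite and S ≤ F*(X) a subgroup subnormal in F*(X). Then F(S) = F(X) ∩ S (inside X) and S = F(S)E(S). -/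
theorem result {X : Type*} [Group X] [Finite X] (S : Subgroup X) (hS : S ≤ Cfsg.generalizedFittingSubgroup X) (hsn : (S.subgroupOf (Cfsg.generalizedFittingSubgroup X)).IsSubnormal) : (Cfsg.fittingSubgroup ↥S).map S.subtype = Cfsg.fittingSubgroup X ⊓ S ∧ Cfsg.fittingSubgroup ↥S ⊔ Cfsg.layer ↥S = ⊤ := by
  rw [gfit_eq] at hS hsn
  have h1 : SN S (Fs ⊤) := (subgroupOf_isSubnormal_iff hS).mp hsn
  have h2 : SN S ⊤ := h1.trans (SN_Fs ⊤)
  constructor
  · rw [map_fitting, fitting_eq]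
    exact F_eq_inf_of_sn h2
  · apply Subgroup.map_injective S.subtype_injective
    rw [Subgroup.map_sup, map_fitting, map_layer, ← MonoidHom.range_eq_map, Subgroup.range_subtype,
      sup_comm]
    exact Fs_eq_self_of_sn_Fs h1

end Cfsg.Agent.S1318
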