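import Cfsg.Statements.S1319
import Mathlib
import Cfsg.Agent.Lib.Helper6.FStar2

set_option autoImplicit false
open Cfsg

namespace Cfsg.Agent.S1319

open Cfsg.Agent.Lib.Helper6.Basic Cfsg.Agent.Lib.Helper6.Subn Cfsg.Agent.Lib.Helper6.Quasi Cfsg.Agent.Lib.Helper6.Comp Cfsg.Agent.Lib.Helper6.Rad Cfsg.Agent.Lib.Helper6.Nil Cfsg.Agent.Lib.Helper6.FStar Cfsg.Agent.Lib.Helper6.FStar2

/-- Let A be a subnormal subgroup of the finite group X with E(A) = A. Then A ≤ E(X) and A is normal in E(X). -/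
theorem result {X : Type*} [Group X] [Finite X] (A : Subgroup X) (hsn : A.IsSubnormal) (hA : Cfsg.layer ↥A = ⊤) : A ≤ Cfsg.layer X ∧ (A.subgroupOf (Cfsg.layer X)).Normal := by
  have h1 : SN A ⊤ := isSubnormal_iff.mp hsn
  have h2 : E A = A := by
    rw [← map_layer, hA, ← MonoidHom.range_eq_map, Subgroup.range_subtype]
  rw [layer_eq]
  have h3 : A ≤ E ⊤ := h2 ▸ E_sn h1
  refine ⟨h3, (Subgroup.normal_subgroupOf_iff_le_normalizer h3).mpr ?_⟩
  rw [← h2]
  apply le_Nz_sSup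
  intro L hL
  exact E_le_Nz_comp (hL.trans h1)

end Cfsg.Agent.S1319
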