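import Cfsg.Statements.S1325
import Mathlib
import Cfsg.Agent.Lib.Helper6.FStar

set_option autoImplicit false
open Cfsg

namespace Cfsg.Agent.S1325

open Cfsg.Agent.Lib.Helper6.Basic Cfsg.Agent.Lib.Helper6.Subn Cfsg.Agent.Lib.Helper6.Quasi Cfsg.Agent.Lib.Helper6.Comp Cfsg.Agent.Lib.Helper6.Rad Cfsg.Agent.Lib.Helper6.Nil Cfsg.Agent.Lib.Helper6.FStar

/-- Let X be finite and Y a normal subgroup containing F(X) with C_X(Y) ≤ Y. Then F*(X) ≤ Y. -/
theorem result {X : Type*} [Group X] [Finite X] (Y : Subgroup X) [Y.Normal] (hF : Cfsg.fittingSubgroup X ≤ Y) (hC : Subgroup.centralizer (Y : Set X) ≤ Y) : Cfsg.generalizedFittingSubgroup X ≤ Y := by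
  rw [gfit_eq]
  rw [fitting_eq] at hF
  apply sup_le _ hF
  apply sSup_le
  intro L hL
  have hY : SN Y ⊤ := isSubnormal_iff.mp (Subgroup.Normal.isSubnormal inferInstance)
  rcases hL.sn' hY with h | h
  · exact h
  · exact (le_Cz_comm.mp h).trans hC

end Cfsg.Agent.S1325
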