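import Cfsg.Statements.S1326
import Mathlib
import Cfsg.Agent.Lib.Helper6.FStar

set_option autoImplicit false
open Cfsg

namespace Cfsg.Agent.S1326

open Cfsg.Agent.Lib.Helper6.Basic Cfsg.Agent.Lib.Helper6.Subn Cfsg.Agent.Lib.Helper6.Quasi Cfsg.Agent.Lib.Helper6.Comp Cfsg.Agent.Lib.Helper6.Rad Cfsg.Agent.Lib.Helper6.Nil Cfsg.Agent.Lib.Helper6.FStar

/-- For a finite group X: the Fitting subgroup contains its centralizer if and only if the layer of X is trivial. -/
theorem result {X : Type*} [Group X] [Finite X] : Subgroup.centralizer (Cfsg.fittingSubgroup X : Set X) ≤ Cfsg.fittingSubgroup X ↔ Cfsg.layer X = ⊥ := by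
  rw [fitting_eq, layer_eq]
  constructor
  · intro h
    rw [eq_bot_iff]
    apply sSup_le
    intro L hL
    exfalso
    have h1 : L ≤ F ⊤ := ((comp_le_E hL).trans (E_le_Cz_F ⊤)).trans h
    exact hL.2.not_le_solvable (F_solvable ⊤) h1
  · intro h
    have := bender (⊤ : Subgroup X)
    unfold Fs at this
    rwa [h, bot_sup_eq, top_inf_eq] at this

end Cfsg.Agent.S1326
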