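import Cfsg.Statements.S1335
import Cfsg.Agent.Lib.Helper9.StrongEmb

set_option autoImplicit false
open Cfsg
open Cfsg.Agent.Lib.Helper9.RankOne Cfsg.Agent.Lib.Helper9.SylowIn Cfsg.Agent.Lib.Helper9.StrongEmb

namespace Cfsg.Agent.S1335

/-- Let H be a subgroup of the finite group G, p a prime, k ≥ 1, P a Sylow p-subgroup of H of p-rank at least k, and suppose N_G(X) ≤ H for every subgroup X ≤ P of p-rank at least k. Then P is a Sylow p-subgroup of G. -/
theorem result {G : Type*} [Group G] [Finite G] {p : ℕ} [Fact p.Prime] (k : ℕ) (hk : 1 ≤ k) (H : Subgroup G) (P : Sylow p ↥H) (hP : ¬ Cfsg.PRankLE p (k - 1) ↥(P : Subgroup ↥H)) (hΓ : (∀ X : Subgroup G, X ≤ (P : Subgroup ↥H).map H.subtype → ¬ Cfsg.PRankLE p (k - 1) ↥X → Subgroup.normalizer (X : Set G) ≤ H)) : ∃ Q : Sylow p G, (Q : Subgroup G) = (P : Subgroup ↥H).map H.subtype := by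
  have hS := IsSylowIn.of_sylow P
  have hbig : Big (EA p (k - 1)) ((P : Subgroup ↥H).map H.subtype) :=
    big_of_hom (H.subtype.comp (P : Subgroup ↥H).subtype)
      (H.subtype_injective.comp (P : Subgroup ↥H).subtype_injective) _
      (fun y => ⟨y.1, y.2, rfl⟩) hP
  exact IsSylowIn.top_iff.mp (sylow_top hS (fun X hX hb => hΓ X hX (big_iff.mpr hb)) hbig)

end Cfsg.Agent.S1335
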