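import Cfsg.Statements.S1342
import Cfsg.Agent.Lib.Helper9.PComp4

set_option autoImplicit false
open Cfsg

namespace Cfsg.Agent.S1342

open Cfsg.Agent.Lib.Helper6.Basic Cfsg.Agent.Lib.Helper6.Subn Cfsg.Agent.Lib.Helper6.Quasi Cfsg.Agent.Lib.Helper6.Comp Cfsg.Agent.Lib.Helper6.Rad Cfsg.Agent.Lib.Helper6.FStar Cfsg.Agent.Lib.Helper6.Ores Cfsg.Agent.Lib.Helper9.PComp

/-- For a finite group X, L*_{2'}(X) is normal in X. -/
theorem result {X : Type*} [Group X] [Finite X] : (Cfsg.extendedTwoLayer X).Normal := by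
  have : Fact (Nat.Prime 2) := ⟨Nat.prime_two⟩
  obtain ⟨S⟩ : Nonempty (Sylow 2 X) := inferInstance
  have hMn := M_normal (X := X) (p := 2)
  have hT : Syl 2 ((S : Subgroup X) ⊓ (Cfsg.pLayer 2 X ⊔ Cfsg.pPrimePCore 2 X))
      (Cfsg.pLayer 2 X ⊔ Cfsg.pPrimePCore 2 X) :=
    (syl_of_sylow S).inf_normal le_top (le_Nz_of_normal hMn _)
  set T := (S : Subgroup X) ⊓ (Cfsg.pLayer 2 X ⊔ Cfsg.pPrimePCore 2 X) with hTdef
  have hn := pLayer_sup_core_normal (X := X) (p := 2)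
  have hcj : ∀ g : X, cj g (Cfsg.extendedTwoLayer X) ≤ Cfsg.extendedTwoLayer X := by
    intro g
    rw [ext_eq hT, cj_sup]
    apply sup_le
    · have h1 : cj g (Cfsg.pLayer 2 X ⊔ Cfsg.pPrimeCore 2 X) = Cfsg.pLayer 2 X ⊔ Cfsg.pPrimeCore 2 X :=
        cj_normal g
      exact (le_of_eq h1).trans le_sup_left
    · rw [cj_Op'_Cz]
      have h2 : Syl 2 (cj g T) (Cfsg.pLayer 2 X ⊔ Cfsg.pPrimePCore 2 X) := by
        have := hT.cj g
        rwa [cj_normal (H := Cfsg.pLayer 2 X ⊔ Cfsg.pPrimePCore 2 X) g] at this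
      exact Op'_Cz_le hT h2
  constructor
  intro n hn g
  apply hcj g
  rw [mem_cj]
  have : g⁻¹ * (g * n * g⁻¹) * g = n := by group
  rw [this]
  exact hn

end Cfsg.Agent.S1342
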