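import Cfsg.Statements.S1343
import Cfsg.Agent.Lib.Helper9.PComp4

set_option autoImplicit false
open Cfsg

namespace Cfsg.Agent.S1343

open Cfsg.Agent.Lib.Helper6.Basic Cfsg.Agent.Lib.Helper6.Subn Cfsg.Agent.Lib.Helper6.Quasi Cfsg.Agent.Lib.Helper6.Comp Cfsg.Agent.Lib.Helper6.Rad Cfsg.Agent.Lib.Helper6.FStar Cfsg.Agent.Lib.Helper6.Ores Cfsg.Agent.Lib.Helper9.PComp

/-- Let X be finite. Then L*_{2'}(X) = L_{2'}(X) ⊔ F for some subgroup F of odd order normalized by a Sylow 2-subgroup of X. -/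
theorem result {X : Type*} [Group X] [Finite X] : ∃ F : Subgroup X, Odd (Nat.card ↥F) ∧ (∃ S : Sylow 2 X, (S : Subgroup X) ≤ Subgroup.normalizer (F : Set X)) ∧ Cfsg.extendedTwoLayer X = Cfsg.pLayer 2 X ⊔ F := by
  have : Fact (Nat.Prime 2) := ⟨Nat.prime_two⟩
  obtain ⟨S⟩ : Nonempty (Sylow 2 X) := inferInstance
  have hMn := M_normal (X := X) (p := 2)
  have hT : Syl 2 ((S : Subgroup X) ⊓ (Cfsg.pLayer 2 X ⊔ Cfsg.pPrimePCore 2 X))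
      (Cfsg.pLayer 2 X ⊔ Cfsg.pPrimePCore 2 X) :=
    (syl_of_sylow S).inf_normal le_top (le_Nz_of_normal hMn _)
  refine ⟨Cfsg.oddCore X ⊔ Op' 2 (Cz ((S : Subgroup X) ⊓ (Cfsg.pLayer 2 X ⊔ Cfsg.pPrimePCore 2 X))),
    ?_, ⟨S, ?_⟩, ?_⟩
  · have h1 := Cfsg.Agent.Lib.Helper1.card_sup_mul_card_inf'
      (Op' 2 (Cz ((S : Subgroup X) ⊓ (Cfsg.pLayer 2 X ⊔ Cfsg.pPrimePCore 2 X)))) (Cfsg.oddCore X)
      (le_Nz_of_normal inferInstance _)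
    have h2 : (Nat.card (Cfsg.oddCore X)).Coprime 2 := core_coprime
    have h3 := Op'_coprime 2 (Cz ((S : Subgroup X) ⊓ (Cfsg.pLayer 2 X ⊔ Cfsg.pPrimePCore 2 X)))
    have h4 : (Nat.card ↥(Op' 2 (Cz ((S : Subgroup X) ⊓ (Cfsg.pLayer 2 X ⊔ Cfsg.pPrimePCore 2 X))) ⊔
        Cfsg.oddCore X : Subgroup X)).Coprime 2 :=
      Nat.Coprime.coprime_dvd_left (Dvd.intro _ h1) (Nat.Coprime.mul_left h3 h2)
    rw [sup_comm]
    exact Nat.coprime_two_right.mp h4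
  · apply le_Nz_sup (le_Nz_of_normal inferInstance _)
    exact ((le_Nz_inf Subgroup.le_normalizer (le_Nz_of_normal hMn _)).trans (Nz_le_Nz_Cz _)).trans
      (Nz_le_Nz_Op' 2 _)
  · rw [ext_eq hT, sup_assoc]

end Cfsg.Agent.S1343
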