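import Cfsg.Statements.S1344
import Cfsg.Agent.Lib.Helper9.PComp3

set_option autoImplicit false
open Cfsg

namespace Cfsg.Agent.S1344

open Cfsg.Agent.Lib.Helper6.Basic Cfsg.Agent.Lib.Helper6.Subn Cfsg.Agent.Lib.Helper6.Quasi Cfsg.Agent.Lib.Helper6.Comp Cfsg.Agent.Lib.Helper6.FStar Cfsg.Agent.Lib.Helper6.Ores Cfsg.Agent.Lib.Helper9.PComp

/-- Let K be a 2-component of the finite group X. Then K ≤ L*_{2'}(X) and K is normal in L*_{2'}(X). -/
theorem result {X : Type*} [Group X] [Finite X] (K : Subgroup X) (hK : Cfsg.IsPComponent 2 K) : K ≤ Cfsg.extendedTwoLayer X ∧ (K.subgroupOf (Cfsg.extendedTwoLayer X)).Normal := by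
  have : Fact (Nat.Prime 2) := ⟨Nat.prime_two⟩
  have hKL : K ≤ Cfsg.pLayer 2 X := le_sSup hK
  have hle : K ≤ Cfsg.extendedTwoLayer X := hKL.trans (le_sup_left.trans le_sup_left)
  refine ⟨hle, (Subgroup.normal_subgroupOf_iff_le_normalizer hle).mpr ?_⟩
  unfold Cfsg.extendedTwoLayer
  refine sup_le (sup_le (pLayer_le_Nz hK) (core_le_Nz hK)) (iSup_le fun T => ?_)
  have h1 := (syl_of_sylow' T).inf_sn ((pc_iff.mp hK).1.of_le (hKL.trans le_sup_left) le_top)
  exact (Subgroup.map_subtype_le _).trans ((Cz_anti inf_le_left).trans (Cz_syl_le_Nz hK h1))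

end Cfsg.Agent.S1344
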