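import Cfsg.Statements.S1463
import Cfsg.Agent.Lib.Helper3.SL2Sub
import Cfsg.Agent.Lib.Helper3.QuadSL

set_option autoImplicit false
open scoped MatrixGroups
open Cfsg

namespace Cfsg.Agent.S1463

section lin

variable {F : Type*} [Field F]

theorem fix1 (p : ℕ) [Fact p.Prime] [CharP F p] {A : Matrix (Fin 2) (Fin 2) F} {k : ℕ}
    (hA : A ^ p ^ k = 1) : ∃ w : Fin 2 → F, w ≠ 0 ∧ A.mulVec w = w := by
  have h1 : (A - 1) ^ p ^ k = 0 := by
    rw [sub_pow_char_pow_of_commute _ _ (Commute.one_right A), hA, one_pow, sub_self]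
  have h2 : (A - 1).det = 0 := by
    have := congrArg Matrix.det h1
    rw [Matrix.det_pow, Matrix.det_zero] at this
    exact pow_eq_zero_iff (pow_ne_zero _ (Fact.out : p.Prime).ne_zero) |>.1 this
  obtain ⟨w, hw, hw0⟩ := Matrix.exists_mulVec_eq_zero_iff.2 h2
  refine ⟨w, hw, ?_⟩
  rw [Matrix.sub_mulVec, Matrix.one_mulVec, sub_eq_zero] at hw0
  exact hw0

theorem fix2 {A : Matrix (Fin 2) (Fin 2) F} (hA : A ≠ 1) {w w' : Fin 2 → F} (hw : w ≠ 0)
    (h1 : A.mulVec w = w) (h2 : A.mulVec w' = w') : ∃ a : F, a • w = w' := by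
  by_cases hd : w 0 * w' 1 - w 1 * w' 0 = 0
  · by_cases hw0 : w 0 = 0
    · have hw1 : w 1 ≠ 0 := by
        intro h
        apply hw
        ext i
        fin_cases i
        · exact hw0
        · exact h
      refine ⟨w' 1 / w 1, ?_⟩
      ext i
      fin_cases i
      · simp only [Fin.zero_eta, Pi.smul_apply, smul_eq_mul]
        rw [hw0] at hd ⊢
        have : w 1 * w' 0 = 0 := by linear_combination -hd
        rcases mul_eq_zero.1 this with h | h
        · exact absurd h hw1
        · rw [h, mul_zero]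
      · simp only [Fin.mk_one, Pi.smul_apply, smul_eq_mul]
        field_simp
    · refine ⟨w' 0 / w 0, ?_⟩
      ext i
      fin_cases i
      · simp only [Fin.zero_eta, Pi.smul_apply, smul_eq_mul]
        field_simp
      · simp only [Fin.mk_one, Pi.smul_apply, smul_eq_mul]
        field_simp
        linear_combination -hd
  · exfalso
    apply hA
    have e1 : ∀ i, A i 0 * w 0 + A i 1 * w 1 = w i := by
      intro i
      have := congrFun h1 i
      simpa [Matrix.mulVec, dotProduct, Fin.sum_univ_two] using this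
    have e2 : ∀ i, A i 0 * w' 0 + A i 1 * w' 1 = w' i := by
      intro i
      have := congrFun h2 i
      simpa [Matrix.mulVec, dotProduct, Fin.sum_univ_two] using this
    ext i j
    fin_cases i <;> fin_cases j
    · simp only [Fin.zero_eta, Matrix.one_apply_eq]
      have : (A 0 0 - 1) * (w 0 * w' 1 - w 1 * w' 0) = 0 := by
        linear_combination (w' 1) * e1 0 - (w 1) * e2 0
      rcases mul_eq_zero.1 this with h | h
      · exact sub_eq_zero.1 h
      · exact absurd h hd
    · simp only [Fin.zero_eta, Fin.mk_one]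
      rw [Matrix.one_apply_ne (by decide)]
      have : (A 0 1) * (w 0 * w' 1 - w 1 * w' 0) = 0 := by
        linear_combination (w 0) * e2 0 - (w' 0) * e1 0
      rcases mul_eq_zero.1 this with h | h
      · exact h
      · exact absurd h hd
    · simp only [Fin.zero_eta, Fin.mk_one]
      rw [Matrix.one_apply_ne (by decide)]
      have : (A 1 0) * (w 0 * w' 1 - w 1 * w' 0) = 0 := by
        linear_combination (w' 1) * e1 1 - (w 1) * e2 1
      rcases mul_eq_zero.1 this with h | h
      · exact h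
      · exact absurd h hd
    · simp only [Fin.mk_one, Matrix.one_apply_eq]
      have : (A 1 1 - 1) * (w 0 * w' 1 - w 1 * w' 0) = 0 := by
        linear_combination (w 0) * e2 1 - (w' 0) * e1 1
      rcases mul_eq_zero.1 this with h | h
      · exact sub_eq_zero.1 h
      · exact absurd h hd

/-- an element of `p`-power order commuting with a nonidentity matrix `Z` fixes the fixed vectors
of `Z` -/
theorem fix3 (p : ℕ) [Fact p.Prime] [CharP F p] {Z U : Matrix (Fin 2) (Fin 2) F} (hZ : Z ≠ 1)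
    (hc : Z * U = U * Z) (hU : U ^ p = 1) {w : Fin 2 → F} (hw : w ≠ 0) (hZw : Z.mulVec w = w) :
    U.mulVec w = w := by
  have h1 : Z.mulVec (U.mulVec w) = U.mulVec w := by
    rw [Matrix.mulVec_mulVec, hc, ← Matrix.mulVec_mulVec, hZw]
  obtain ⟨a, ha⟩ := fix2 hZ hw hZw h1
  have h2 : ∀ k : ℕ, (U ^ k).mulVec w = a ^ k • w := by
    intro k
    induction k with
    | zero => simp
    | succ k ih =>
      rw [pow_succ, ← Matrix.mulVec_mulVec, ← ha, Matrix.mulVec_smul, ih, smul_smul, pow_succ,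
        mul_comm]
  have h3 := h2 p
  rw [hU, Matrix.one_mulVec] at h3
  have h4 : a ^ p = 1 := by
    have h5 : (a ^ p - 1) • w = 0 := by rw [sub_smul, one_smul, ← h3, sub_self]
    rcases smul_eq_zero.1 h5 with h | h
    · exact sub_eq_zero.1 h
    · exact absurd h hw
  have h6 : a = 1 := Cfsg.Agent.Lib.Helper3.QuadSL.eq_one_of_pow_char (p := p) h4
  rw [← ha, h6, one_smul]

end lin

/-- Let F be a field of odd characteristic p and H a finite subgroup of odd order of GL(2, F) that leaves no 1-dimensional subspace of F² invariant. Then p does not divide the order of H. -/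
theorem result {F : Type*} [Field F] (p : ℕ) [Fact p.Prime] [CharP F p] (hp : p ≠ 2)
    (H : Subgroup (GL (Fin 2) F)) [Finite H] (hodd : Odd (Nat.card H))
    (hirr : ∀ v : Fin 2 → F, v ≠ 0 → ∃ g ∈ H, (g : Matrix (Fin 2) (Fin 2) F).mulVec v ∉ Submodule.span F {v}) :
    ¬ p ∣ Nat.card H := by
  intro hpd
  classical
  obtain ⟨u, hu⟩ := exists_prime_orderOf_dvd_card' p hpd
  obtain ⟨U, hUdef⟩ : ∃ U : GL (Fin 2) F, U = (u : GL (Fin 2) F) := ⟨_, rfl⟩
  have hUH : U ∈ H := hUdef ▸ u.2
  have hUo : orderOf U = p := by rw [hUdef, Subgroup.orderOf_coe]; exact hu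
  have hUp : U ^ p = 1 := by rw [← hUo]; exact pow_orderOf_eq_one U
  have hU1 : U ≠ 1 := by
    rintro rfl
    rw [orderOf_one] at hUo
    exact (Fact.out : p.Prime).one_lt.ne hUo
  have hUmp : (U : Matrix (Fin 2) (Fin 2) F) ^ p = 1 := by
    rw [← Units.val_pow_eq_pow_val, hUp]; rfl
  have hUm1 : (U : Matrix (Fin 2) (Fin 2) F) ≠ 1 := fun h => hU1 (Units.ext h)
  obtain ⟨w, hw, hUw⟩ := fix1 p (A := (U : Matrix (Fin 2) (Fin 2) F)) (k := 1) (by rwa [pow_one])
  obtain ⟨g, hgH, hgw⟩ := hirr w hw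
  obtain ⟨V, hVdef⟩ : ∃ V : GL (Fin 2) F, V = g * U * g⁻¹ := ⟨_, rfl⟩
  have hVH : V ∈ H := hVdef ▸ H.mul_mem (H.mul_mem hgH hUH) (H.inv_mem hgH)
  have hVp : V ^ p = 1 := by rw [hVdef, conj_pow, hUp]; group
  have hVmp : (V : Matrix (Fin 2) (Fin 2) F) ^ p = 1 := by
    rw [← Units.val_pow_eq_pow_val, hVp]; rfl
  have hV1 : V ≠ 1 := by
    intro h
    apply hU1
    have : U = g⁻¹ * V * g := by rw [hVdef]; group
    rw [this, h]; group
  have hVm1 : (V : Matrix (Fin 2) (Fin 2) F) ≠ 1 := fun h => hV1 (Units.ext h)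
  have hVgw : (V : Matrix (Fin 2) (Fin 2) F).mulVec ((g : Matrix (Fin 2) (Fin 2) F).mulVec w) =
      (g : Matrix (Fin 2) (Fin 2) F).mulVec w := by
    rw [Matrix.mulVec_mulVec, ← Units.val_mul, hVdef]
    have : g * U * g⁻¹ * g = g * U := by group
    rw [this, Units.val_mul, ← Matrix.mulVec_mulVec, hUw]
  have hgw0 : (g : Matrix (Fin 2) (Fin 2) F).mulVec w ≠ 0 := by
    intro h
    apply hgw
    rw [h]
    exact Submodule.zero_mem _
  -- the group generated by `U` and `V`
  set X : Subgroup (GL (Fin 2) F) := Subgroup.closure {U, V} with hX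
  have hXH : X ≤ H := by
    rw [hX, Subgroup.closure_le]
    rintro x (rfl | rfl)
    · exact hUH
    · exact hVH
  haveI : Finite X := Finite.of_injective (Subgroup.inclusion hXH) (Subgroup.inclusion_injective hXH)
  have hdet : ∀ x ∈ X, (x : Matrix (Fin 2) (Fin 2) F).det = 1 := by
    have hle : X ≤ (Matrix.GeneralLinearGroup.det : GL (Fin 2) F →* Fˣ).ker := by
      rw [hX, Subgroup.closure_le]
      have key : ∀ y : GL (Fin 2) F, y ^ p = 1 →
          y ∈ (Matrix.GeneralLinearGroup.det : GL (Fin 2) F →* Fˣ).ker := by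
        intro y hy
        rw [MonoidHom.mem_ker]
        have h1 : (Matrix.GeneralLinearGroup.det y) ^ p = 1 := by rw [← map_pow, hy, map_one]
        have h2 : ((Matrix.GeneralLinearGroup.det y : Fˣ) : F) ^ p = 1 := by
          rw [← Units.val_pow_eq_pow_val, h1]; rfl
        exact Units.ext (Cfsg.Agent.Lib.Helper3.QuadSL.eq_one_of_pow_char (p := p) h2)
      rintro x (rfl | rfl)
      · exact key _ hUp
      · exact key _ hVp
    intro x hx
    have h1 := MonoidHom.mem_ker.1 (hle hx)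
    have h2 := congrArg Units.val h1
    simpa using h2
  let ι : X →* Matrix.SpecialLinearGroup (Fin 2) F :=
    { toFun := fun x => ⟨((x : GL (Fin 2) F) : Matrix (Fin 2) (Fin 2) F), hdet x x.2⟩
      map_one' := rfl
      map_mul' := fun _ _ => rfl }
  have hι : Function.Injective ι := by
    intro a b hab
    have h1 : ((a : GL (Fin 2) F) : Matrix (Fin 2) (Fin 2) F) = ((b : GL (Fin 2) F) : Matrix (Fin 2) (Fin 2) F) :=
      congrArg Subtype.val hab
    exact Subtype.ext (Units.ext h1)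
  have hXodd : Odd (Nat.card X) := by
    have h1 : Nat.card X ∣ Nat.card H := Subgroup.card_dvd_of_le hXH
    exact Odd.of_dvd_nat hodd h1
  have hXp : IsPGroup p X := by
    let T : Sylow 2 X := default
    have hT : (T : Subgroup X) = ⊥ := by
      by_contra hne
      obtain ⟨k, hk⟩ := T.2.exists_card_eq
      have hk0 : k ≠ 0 := by
        rintro rfl
        rw [pow_zero] at hk
        exact hne (Subgroup.card_eq_one.1 hk)
      have h2 : 2 ∣ Nat.card X :=
        (dvd_pow_self 2 hk0).trans (hk ▸ Subgroup.card_subgroup_dvd_card (T : Subgroup X))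
      exact (Nat.not_even_iff_odd.2 hXodd) (even_iff_two_dvd.2 h2)
    refine Cfsg.Agent.Lib.Helper3.SL2Sub.isPGroup_of_gen hι hp
      (Cfsg.Agent.Lib.Helper3.QuadSL.closure_pair_top U V) (Subtype.ext hUp) (Subtype.ext hVp) T ?_
    intro a ha b hb
    have ha' : a ∈ (T : Subgroup X) := ha
    rw [hT, Subgroup.mem_bot] at ha'
    rw [ha', one_mul, mul_one]
  haveI : Nontrivial X :=
    ⟨⟨⟨U, Subgroup.subset_closure (by simp)⟩, 1, fun h => hU1 (congrArg Subtype.val h)⟩⟩
  haveI := hXp.center_nontrivial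
  obtain ⟨z, hz⟩ := exists_ne (1 : Subgroup.center X)
  obtain ⟨Z, hZdef⟩ : ∃ Z : GL (Fin 2) F, Z = ((z : X) : GL (Fin 2) F) := ⟨_, rfl⟩
  have hZ1 : Z ≠ 1 := by
    intro h
    apply hz
    exact Subtype.ext (Subtype.ext (hZdef ▸ h))
  have hZm1 : (Z : Matrix (Fin 2) (Fin 2) F) ≠ 1 := fun h => hZ1 (Units.ext h)
  obtain ⟨k, hk⟩ := hXp (z : X)
  have hZk : (Z : Matrix (Fin 2) (Fin 2) F) ^ p ^ k = 1 := by
    rw [← Units.val_pow_eq_pow_val, hZdef]
    have : ((z : X) : GL (Fin 2) F) ^ p ^ k = 1 := congrArg Subtype.val hk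
    rw [this]; rfl
  obtain ⟨w0, hw0, hZw0⟩ := fix1 p hZk
  have hcomm : ∀ y ∈ X, (Z : Matrix (Fin 2) (Fin 2) F) * (y : Matrix (Fin 2) (Fin 2) F) =
      (y : Matrix (Fin 2) (Fin 2) F) * (Z : Matrix (Fin 2) (Fin 2) F) := by
    intro y hy
    have h1 := (Subgroup.mem_center_iff.1 z.2) ⟨y, hy⟩
    have h2 : y * Z = Z * y := by rw [hZdef]; exact congrArg Subtype.val h1
    rw [← Units.val_mul, ← Units.val_mul, h2]
  have hUw0 := fix3 p hZm1 (hcomm U (Subgroup.subset_closure (by simp))) hUmp hw0 hZw0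
  have hVw0 := fix3 p hZm1 (hcomm V (Subgroup.subset_closure (by simp))) hVmp hw0 hZw0
  obtain ⟨a, ha⟩ := fix2 hUm1 hw hUw hUw0
  obtain ⟨b, hb⟩ := fix2 hVm1 hgw0 hVgw hVw0
  have hb0 : b ≠ 0 := by
    rintro rfl
    rw [zero_smul] at hb
    exact hw0 hb.symm
  apply hgw
  rw [Submodule.mem_span_singleton]
  refine ⟨b⁻¹ * a, ?_⟩
  rw [mul_smul, ha, ← hb, smul_smul, inv_mul_cancel₀ hb0, one_smul]

end Cfsg.Agent.S1463
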