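import Cfsg.Statements.S1467
import Mathlib

set_option autoImplicit false
open Cfsg

namespace Cfsg.Agent.S1467

open Cfsg

theorem step_anti {G : Type*} [Group G] {X Y : Subgroup G} (h : X ≤ Y) : Cfsg.puigStep Y ≤ Cfsg.puigStep X := by
  unfold Cfsg.puigStep
  apply sSup_le_sSup
  rintro A ⟨hA, hY⟩
  exact ⟨hA, h.trans hY⟩

/-- Let G be a finite group with Puig series L_n(G). Then L_0 = 1, L_1 = G; L_{2n} ≤ L_{2n+2} ≤ L_{2m+3} ≤ L_{2m+1} for all n, m; there is k with L_{2n}(G) = L_*(G) and L_{2n+1}(G) = L(G) for all n ≥ k; L_*(G) ≤ L(G); and applying one Puig step to L_*(G) gives L(G) and to L(G) gives L_*(G). -/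
theorem result {G : Type*} [Group G] [Finite G] :
    Cfsg.puigSeq G 0 = ⊥ ∧ Cfsg.puigSeq G 1 = ⊤ ∧
      (∀ n m : ℕ, Cfsg.puigSeq G (2 * n) ≤ Cfsg.puigSeq G (2 * n + 2) ∧ Cfsg.puigSeq G (2 * n) ≤ Cfsg.puigSeq G (2 * m + 1) ∧
        Cfsg.puigSeq G (2 * m + 3) ≤ Cfsg.puigSeq G (2 * m + 1)) ∧
      (∃ k : ℕ, ∀ n : ℕ, k ≤ n → Cfsg.puigSeq G (2 * n) = Cfsg.puigLower G ∧ Cfsg.puigSeq G (2 * n + 1) = Cfsg.puigSubgroup G) ∧
      Cfsg.puigLower G ≤ Cfsg.puigSubgroup G ∧
      Cfsg.puigStep (Cfsg.puigLower G) = Cfsg.puigSubgroup G ∧ Cfsg.puigStep (Cfsg.puigSubgroup G) = Cfsg.puigLower G := by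
  have hsucc : ∀ n, Cfsg.puigSeq G (n + 1) = Cfsg.puigStep (Cfsg.puigSeq G n) := fun n => rfl
  have h0 : Cfsg.puigSeq G 0 = ⊥ := rfl
  have h1 : Cfsg.puigSeq G 1 = ⊤ := by
    rw [eq_top_iff]
    intro x _
    have : Subgroup.zpowers x ≤ Cfsg.puigSeq G 1 := by
      show _ ≤ Cfsg.puigStep (Cfsg.puigSeq G 0)
      unfold Cfsg.puigStep
      apply le_sSup
      refine ⟨inferInstance, ?_⟩
      rw [h0]; exact bot_le
    exact this (Subgroup.mem_zpowers x)
  have heven : ∀ n, Cfsg.puigSeq G (2 * n) ≤ Cfsg.puigSeq G (2 * n + 2) := by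
    intro n
    induction n with
    | zero => rw [mul_zero, h0]; exact bot_le
    | succ n ih =>
      have e1 : 2 * (n + 1) = (2 * n + 1) + 1 := by ring
      have e2 : 2 * (n + 1) + 2 = (2 * n + 2 + 1) + 1 := by ring
      rw [e2, e1, hsucc, hsucc (2 * n + 2 + 1), hsucc (2 * n), hsucc (2 * n + 2)]
      exact step_anti (step_anti ih)
  have hodd : ∀ m, Cfsg.puigSeq G (2 * m + 3) ≤ Cfsg.puigSeq G (2 * m + 1) := by
    intro m
    have e : 2 * m + 3 = (2 * m + 2) + 1 := by ring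
    rw [e, hsucc, hsucc (2 * m)]
    exact step_anti (heven m)
  have hcross : ∀ s n m, n + m = s → Cfsg.puigSeq G (2 * n) ≤ Cfsg.puigSeq G (2 * m + 1) := by
    intro s
    induction s with
    | zero =>
      intro n m h
      have : n = 0 := by omega
      rw [this, mul_zero, h0]; exact bot_le
    | succ s ih =>
      intro n m h
      rcases n with _ | n
      · rw [mul_zero, h0]; exact bot_le
      · have e1 : 2 * (n + 1) = (2 * n + 1) + 1 := by ring
        rw [e1, hsucc, hsucc (2 * m)]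
        exact step_anti (ih m n (by omega))
  have hmono : Monotone (fun n => Cfsg.puigSeq G (2 * n)) := by
    apply monotone_nat_of_le_succ
    intro n
    have e : 2 * (n + 1) = 2 * n + 2 := by ring
    show Cfsg.puigSeq G (2 * n) ≤ Cfsg.puigSeq G (2 * (n + 1))
    rw [e]; exact heven n
  obtain ⟨k, hk⟩ := WellFoundedGT.monotone_chain_condition (⟨fun n => Cfsg.puigSeq G (2 * n), hmono⟩ : ℕ →o Subgroup G)
  have hk' : ∀ n, k ≤ n → Cfsg.puigSeq G (2 * n) = Cfsg.puigSeq G (2 * k) := fun n hn => (hk n hn).symm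
  have hk'' : ∀ n, k ≤ n → Cfsg.puigSeq G (2 * n + 1) = Cfsg.puigSeq G (2 * k + 1) := by
    intro n hn
    rw [hsucc, hsucc (2 * k), hk' n hn]
  have hanti : Antitone (fun n => Cfsg.puigSeq G (2 * n + 1)) := by
    intro a b hab
    show Cfsg.puigSeq G (2 * b + 1) ≤ Cfsg.puigSeq G (2 * a + 1)
    rw [hsucc, hsucc (2 * a)]
    exact step_anti (hmono hab)
  have hL : Cfsg.puigLower G = Cfsg.puigSeq G (2 * k) := by
    unfold Cfsg.puigLower
    apply le_antisymm
    · apply iSup_le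
      intro n
      rcases le_total n k with h | h
      · exact hmono h
      · rw [hk' n h]
    · exact le_iSup (fun n => Cfsg.puigSeq G (2 * n)) k
  have hU : Cfsg.puigSubgroup G = Cfsg.puigSeq G (2 * k + 1) := by
    unfold Cfsg.puigSubgroup
    apply le_antisymm
    · exact iInf_le (fun n => Cfsg.puigSeq G (2 * n + 1)) k
    · apply le_iInf
      intro n
      rcases le_total n k with h | h
      · exact hanti h
      · rw [hk'' n h]
  refine ⟨h0, h1, fun n m => ⟨heven n, hcross _ n m rfl, hodd m⟩, ⟨k, fun n hn => ⟨by rw [hL, hk' n hn], by rw [hU, hk'' n hn]⟩⟩, ?_, ?_, ?_⟩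
  · rw [hL, hU]; exact hcross _ k k rfl
  · rw [hL, hU]; rfl
  · rw [hL, hU, ← hsucc]
    have e : 2 * k + 1 + 1 = 2 * (k + 1) := by ring
    rw [e, hk' (k + 1) (by omega)]

end Cfsg.Agent.S1467
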