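import Cfsg.Statements.S1483
import Cfsg.Agent.Lib.Helper3.CN2
open Cfsg.Agent.Lib.Helper3

set_option autoImplicit false
open Cfsg

namespace Cfsg.Agent.S1483

/-- Let G be a minimal simple group of odd order in which every non-identity element has nilpotent centralizer. Then any two nilpotent subgroups each contained in no larger nilpotent subgroup are either conjugate or of coprime orders; and for primes p, q, r: if some elements x, y ≠ 1 of p-power and q-power order commute, and some elements y', z ≠ 1 of q-power and r-power order commute, then some elements of p-power and r-power order, both ≠ 1, commute. -/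
theorem result {G : Type*} [Group G] [Finite G] (hG : Cfsg.IsMinSimpleOddOrder G) (hCN : Cfsg.IsCNGroup G) :
    (∀ H₁ H₂ : Subgroup G, (Group.IsNilpotent ↥H₁ ∧ ∀ L : Subgroup G, Group.IsNilpotent L → H₁ ≤ L → L = H₁) → (Group.IsNilpotent ↥H₂ ∧ ∀ L : Subgroup G, Group.IsNilpotent L → H₂ ≤ L → L = H₂) → (∃ g : G, H₂ = H₁.map (MulAut.conj g).toMonoidHom) ∨ (Nat.card H₁).Coprime (Nat.card H₂)) ∧
      ∀ (p q r : ℕ), p.Prime → q.Prime → r.Prime → ∀ (x y y' z : G), x ≠ 1 → y ≠ 1 → y' ≠ 1 → z ≠ 1 →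
        IsPGroup p (Subgroup.zpowers x) → IsPGroup q (Subgroup.zpowers y) → IsPGroup q (Subgroup.zpowers y') → IsPGroup r (Subgroup.zpowers z) →
        x * y = y * x → y' * z = z * y' →
        ∃ x' z' : G, x' ≠ 1 ∧ z' ≠ 1 ∧ IsPGroup p (Subgroup.zpowers x') ∧ IsPGroup r (Subgroup.zpowers z') ∧ x' * z' = z' * x' := by
  refine ⟨fun H₁ H₂ h₁ h₂ => CN.conj_or_coprime hCN h₁ h₂, ?_⟩
  intro p q r hp hq hr x y y' z hx hy hy' hz hxp hyq hy'q hzr hxy hyz
  haveI : Fact p.Prime := ⟨hp⟩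
  haveI : Fact q.Prime := ⟨hq⟩
  haveI : Fact r.Prime := ⟨hr⟩
  obtain ⟨H₁, h₁, hC₁⟩ := CN.exists_maxNil (hCN y hy)
  obtain ⟨H₂, h₂, hC₂⟩ := CN.exists_maxNil (hCN y' hy')
  have hxH : x ∈ H₁ := hC₁ (by rw [Subgroup.mem_centralizer_singleton_iff]; exact hxy)
  have hyH : y ∈ H₁ := hC₁ (by rw [Subgroup.mem_centralizer_singleton_iff])
  have hy'H : y' ∈ H₂ := hC₂ (by rw [Subgroup.mem_centralizer_singleton_iff])
  have hzH : z ∈ H₂ := hC₂ (by rw [Subgroup.mem_centralizer_singleton_iff]; exact hyz.symm)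
  have hpd : p ∣ Nat.card H₁ := CN.dvd_card_of_mem hxH hx hxp
  have hqd₁ : q ∣ Nat.card H₁ := CN.dvd_card_of_mem hyH hy hyq
  have hqd₂ : q ∣ Nat.card H₂ := CN.dvd_card_of_mem hy'H hy' hy'q
  have hcard : Nat.card H₂ = Nat.card H₁ := by
    rcases CN.conj_or_coprime hCN h₁ h₂ with ⟨g, hg⟩ | hc
    · rw [hg, Subgroup.card_map_of_injective (MulAut.conj g).injective]
    · exact absurd (Nat.eq_one_of_dvd_coprimes hc hqd₁ hqd₂) hq.one_lt.ne'
  obtain ⟨x', hx'H, hx'o, hx'c⟩ := CN.exists_central h₂.1 hp (hcard ▸ hpd)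
  exact ⟨x', z, CN.ne_one_of_orderOf hp hx'o, hz, CN.isPGroup_zpowers hx'o, hzr, (hx'c z hzH).symm⟩

end Cfsg.Agent.S1483
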