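import Mathlib
import Cfsg.Statements.S1488
import Mathlib
import Cfsg.Agent.Lib.Helper7.CharInd

set_option autoImplicit false
open Cfsg

namespace Cfsg.Agent.S1488

/-- Let A be a normal subgroup of the finite group G contained in the subgroup H, let θ be a function on H and θ₁ a function on the image of H in G ⧸ A whose composite with the projection is θ. Then the function induced from θ₁ to G ⧸ A, composed with the projection G → G ⧸ A, equals the function induced from θ to G. -/
theorem result {G : Type*} [Group G] [Fintype G] (A H : Subgroup G) [A.Normal] (hAH : A ≤ H) [Fintype (G ⧸ A)] [Fintype ↥(H.map (QuotientGroup.mk' A))] (θ : H → ℂ) (θ₁ : ↥(H.map (QuotientGroup.mk' A)) → ℂ) (hθ : ∀ x : H, θ₁ ⟨QuotientGroup.mk' A x, Subgroup.mem_map_of_mem _ x.2⟩ = θ x) (g : G) : Cfsg.indFun (H.map (QuotientGroup.mk' A)) θ₁ (QuotientGroup.mk' A g) = Cfsg.indFun H θ g := by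
  classical
  have hmemiff : ∀ y : G, QuotientGroup.mk' A y ∈ H.map (QuotientGroup.mk' A) ↔ y ∈ H := by
    intro y
    constructor
    · rintro ⟨h, hh, hhy⟩
      have h1 : h⁻¹ * y ∈ A := QuotientGroup.eq.mp hhy
      have h2 : y = h * (h⁻¹ * y) := by group
      rw [h2]
      exact H.mul_mem hh (hAH h1)
    · intro hy
      exact Subgroup.mem_map_of_mem _ hy
  have key1 : ∀ y : G, Cfsg.extendByZero H θ y =
      Cfsg.extendByZero (H.map (QuotientGroup.mk' A)) θ₁ (QuotientGroup.mk' A y) := by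
    intro y
    by_cases hy : y ∈ H
    · rw [Cfsg.Agent.Lib.Helper7.CharInd.extendByZero_of_mem H θ hy,
        Cfsg.Agent.Lib.Helper7.CharInd.extendByZero_of_mem _ θ₁ ((hmemiff y).mpr hy)]
      exact (hθ ⟨y, hy⟩).symm
    · rw [Cfsg.Agent.Lib.Helper7.CharInd.extendByZero_of_not_mem H θ hy,
        Cfsg.Agent.Lib.Helper7.CharInd.extendByZero_of_not_mem _ θ₁
          (fun h => hy ((hmemiff y).mp h))]
  have hfib : ∀ q : G ⧸ A, ((Finset.univ.filter
      (fun x : G => QuotientGroup.mk' A x = q)).card : ℂ) = (Nat.card A : ℂ) := by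
    intro q
    have h1 := QuotientGroup.card_preimage_mk A ({q} : Set (G ⧸ A))
    have h0 : Nat.card ({q} : Set (G ⧸ A)) = 1 := by simp
    rw [h0, mul_one] at h1
    rw [← h1, ← Fintype.card_subtype, ← Nat.card_eq_fintype_card]
    rfl
  have hcardH : (Nat.card H : ℂ) = (Nat.card A : ℂ) *
      (Nat.card (H.map (QuotientGroup.mk' A)) : ℂ) := by
    have h1 := QuotientGroup.card_preimage_mk A ((H.map (QuotientGroup.mk' A) : Subgroup (G ⧸ A)) :
      Set (G ⧸ A))
    have h2 : (QuotientGroup.mk ⁻¹' ((H.map (QuotientGroup.mk' A) : Subgroup (G ⧸ A)) :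
      Set (G ⧸ A)) : Set G) = (H : Set G) := by
      ext y
      exact hmemiff y
    rw [h2] at h1
    have h3 : Nat.card H = Nat.card A * Nat.card (H.map (QuotientGroup.mk' A)) := h1
    rw [h3]
    push_cast
    ring
  unfold Cfsg.indFun
  have hsum : ∑ x : G, Cfsg.extendByZero H θ (x⁻¹ * g * x) = (Nat.card A : ℂ) *
      ∑ q : G ⧸ A, Cfsg.extendByZero (H.map (QuotientGroup.mk' A)) θ₁
        (q⁻¹ * QuotientGroup.mk' A g * q) := by
    have h1 : ∀ x : G, Cfsg.extendByZero H θ (x⁻¹ * g * x) =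
        (fun q : G ⧸ A => Cfsg.extendByZero (H.map (QuotientGroup.mk' A)) θ₁
          (q⁻¹ * QuotientGroup.mk' A g * q)) (QuotientGroup.mk' A x) := by
      intro x
      rw [key1]
      simp only [map_mul, map_inv]
    have h2 := Finset.sum_fiberwise' (Finset.univ : Finset G)
      (fun x : G => QuotientGroup.mk' A x)
      (fun q : G ⧸ A => Cfsg.extendByZero (H.map (QuotientGroup.mk' A)) θ₁
        (q⁻¹ * QuotientGroup.mk' A g * q))
    rw [Finset.sum_congr rfl (fun x _ => h1 x)]
    refine h2.symm.trans ?_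
    rw [Finset.mul_sum]
    apply Finset.sum_congr rfl
    intro q _
    rw [Finset.sum_const, nsmul_eq_mul, hfib]
  rw [hsum, hcardH]
  have hA0 : (Nat.card A : ℂ) ≠ 0 := Nat.cast_ne_zero.mpr Nat.card_pos.ne'
  have hH0 : (Nat.card (H.map (QuotientGroup.mk' A)) : ℂ) ≠ 0 :=
    Nat.cast_ne_zero.mpr Nat.card_pos.ne'
  field_simp

end Cfsg.Agent.S1488
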