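import Cfsg.Statements.S1491
import Cfsg.Agent.Lib.Helper7.All1
import Cfsg.Agent.Lib.Helper7.AbInd
import Cfsg.Agent.Lib.Helper7.Glaub1
-- import your own Cfsg.Agent.* helpers here

set_option autoImplicit false
open Cfsg
open Cfsg.Agent.Lib.Helper7.CharBasic Cfsg.Agent.Lib.Helper7.CharIrr Cfsg.Agent.Lib.Helper7.CharDecomp Cfsg.Agent.Lib.Helper7.CharComplete Cfsg.Agent.Lib.Helper7.CharOrth Cfsg.Agent.Lib.Helper7.CharInd Cfsg.Agent.Lib.Helper7.CharIntegral Cfsg.Agent.Lib.Helper7.CharBurnside Cfsg.Agent.Lib.Helper7.CharLinear Cfsg.Agent.Lib.Helper7.CharEquiv Cfsg.Agent.Lib.Helper7.CharMore Cfsg.Agent.Lib.Helper7.CharCount Cfsg.Agent.Lib.Helper7.CharMisc Cfsg.Agent.Lib.Helper7.CharMisc2 Cfsg.Agent.Lib.Helper7.CharNormal Cfsg.Agent.Lib.Helper7.CharOdd Cfsg.Agent.Lib.Helper7.CharClifford Cfsg.Agent.Lib.Helper7.CharProd Cfsg.Agent.Lib.Helper7.CharPerm Cfsg.Agent.Lib.Helper7.CharClassAlg Cfsg.Agent.Lib.Helper7.CharClassAlg2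 Cfsg.Agent.Lib.Helper7.CharCentral Cfsg.Agent.Lib.Helper7.CharNormal2 Cfsg.Agent.Lib.Helper7.CharCliffordCorr
open scoped ComplexConjugate

namespace Cfsg.Agent.S1491

/-- Let H be a normal subgroup of the finite group G and θ an irreducible character of H with inertia group T, where T/H is abelian (commutators of T lie in H) and the index of H in T is coprime to the order of H. Then the function induced from θ is the sum of a set of exactly [T:H] irreducible characters of G, each of degree [G:T] * θ(1). -/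
theorem result {G : Type*} [Group G] [Fintype G] (H T : Subgroup G) [hN : H.Normal] (θ : H → ℂ) (hθ : Cfsg.IsIrrCharacter H θ) (hT : ∀ g : G, g ∈ T ↔ ∀ h : H, θ ⟨g * h * g⁻¹, hN.conj_mem h h.2 g⟩ = θ h) (hab : ∀ x ∈ T, ∀ y ∈ T, x * y * x⁻¹ * y⁻¹ ∈ H) (hcop : Nat.Coprime (Nat.card H) (H.relIndex T)) : ∃ C : Finset (G → ℂ), (∀ χ ∈ C, Cfsg.IsIrrCharacter G χ) ∧ C.card = H.relIndex T ∧ Cfsg.indFun H θ = ∑ χ ∈ C, χ ∧ ∀ χ ∈ C, χ 1 = (T.index : ℂ) * θ 1 := by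
  classical
  haveI := Fintype.ofFinite H
  haveI := Fintype.ofFinite T
  obtain ⟨e, C, he, hC, hcard, hind, hdeg, hone⟩ := Cfsg.Agent.Lib.Helper7.AbInd.main H T θ hθ hT hab
  have hHT : H ≤ T := by
    intro x hx
    rw [hT]
    intro h
    exact IsIrrCharacter.isClassFunction hθ h ⟨x, hx⟩
  have hθ₀ := isIrrCharacter_thetaT H T θ hθ hHT
  have hcardN : Nat.card (H.subgroupOf T) = Nat.card H :=
    Nat.card_congr (Subgroup.subgroupOfEquivOfLe hHT).toEquiv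
  obtain ⟨d, hd⟩ := irr_one_eq_natCast (IsIrrCharacter.isCharacter hθ₀)
  have h1 : d ∣ Nat.card H := hcardN ▸ irr_degree_dvd_card hθ₀ hd
  have h2 : detOrder (thetaT H T θ) ∣ Nat.card H :=
    hcardN ▸ Cfsg.Agent.Lib.Helper7.Glaub1.detOrder_dvd_card (IsIrrCharacter.isCharacter hθ₀)
  have h3 : Nat.Coprime (H.subgroupOf T).index (detOrder (thetaT H T θ) * d) :=
    Nat.Coprime.mul_right (Nat.Coprime.coprime_dvd_right h2 hcop.symm)
      (Nat.Coprime.coprime_dvd_right h1 hcop.symm)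
  obtain ⟨ψ, ⟨hψ1, hψ2, _⟩, _⟩ := Cfsg.Agent.Lib.Helper7.ProjExt5.canonical_ext (H.subgroupOf T)
    (thetaT H T θ) hθ₀ (fun g n => congrFun (conjFun_thetaT H T θ hT g) n) d hd h3
  have he1 : e = 1 := hone ⟨ψ, hψ1, hψ2⟩
  subst he1
  refine ⟨C, hC, ?_, ?_, ?_⟩
  · rw [← hcard]; simp
  · rw [hind]; simp
  · intro χ hχ
    rw [hdeg χ hχ]; simp

end Cfsg.Agent.S1491
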