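import Cfsg.Statements.S1494
import Cfsg.Agent.Lib.Helper7.All1
import Cfsg.Agent.Lib.Helper7.CharGalois
-- import your own Cfsg.Agent.* helpers here

set_option autoImplicit false
open Cfsg
open Cfsg.Agent.Lib.Helper7.CharBasic Cfsg.Agent.Lib.Helper7.CharIrr Cfsg.Agent.Lib.Helper7.CharDecomp Cfsg.Agent.Lib.Helper7.CharComplete Cfsg.Agent.Lib.Helper7.CharOrth Cfsg.Agent.Lib.Helper7.CharInd Cfsg.Agent.Lib.Helper7.CharIntegral Cfsg.Agent.Lib.Helper7.CharBurnside Cfsg.Agent.Lib.Helper7.CharLinear Cfsg.Agent.Lib.Helper7.CharEquiv Cfsg.Agent.Lib.Helper7.CharMore Cfsg.Agent.Lib.Helper7.CharCount Cfsg.Agent.Lib.Helper7.CharMisc Cfsg.Agent.Lib.Helper7.CharMisc2 Cfsg.Agent.Lib.Helper7.CharNormal Cfsg.Agent.Lib.Helper7.CharOdd Cfsg.Agent.Lib.Helper7.CharClifford Cfsg.Agent.Lib.Helper7.CharProd Cfsg.Agent.Lib.Helper7.CharPerm Cfsg.Agent.Lib.Helper7.CharClassAlg Cfsg.Agent.Lib.Helper7.CharClassAlg2 Cfsg.Agent.Lib.Helper7.CharCentral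 Cfsg.Agent.Lib.Helper7.CharNormal2 Cfsg.Agent.Lib.Helper7.CharCliffordCorr Cfsg.Agent.Lib.Helper7.CharKer Cfsg.Agent.Lib.Helper7.CharRes Cfsg.Agent.Lib.Helper7.CharGen Cfsg.Agent.Lib.Helper7.GalC Cfsg.Agent.Lib.Helper7.CharGalois
open scoped ComplexConjugate

namespace Cfsg.Agent.S1494

/-- Let χ be a generalized character of the finite group G, p a prime, x an element of order p and y an element commuting with x. Then χ(x * y) − χ(y) = (1 − ε) * ω for some algebraic integer ω, where ε = exp(2πi/p). -/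
theorem result {G : Type*} [Group G] [Finite G] (χ : G → ℂ) (hχ : Cfsg.IsGeneralizedCharacter G χ) (p : ℕ) (hp : p.Prime) (x y : G) (hx : orderOf x = p) (hxy : x * y = y * x) : ∃ ω : ℂ, IsIntegral ℤ ω ∧ χ (x * y) - χ y = (1 - Complex.exp (2 * Real.pi * Complex.I / p)) * ω := by
  classical
  haveI := Fintype.ofFinite G
  have hpos : 0 < p := hp.pos
  haveI : NeZero p := ⟨hpos.ne'⟩
  have hζ : IsPrimitiveRoot (Complex.exp (2 * Real.pi * Complex.I / p)) p :=
    Complex.isPrimitiveRoot_exp _ hpos.ne'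
  set ζ := Complex.exp (2 * Real.pi * Complex.I / p) with hζdef
  have hζint : IsIntegral ℤ ζ := hζ.isIntegral hpos
  let A : Subgroup G := Subgroup.closure {x, y}
  have hcommS : ∀ a ∈ ({x, y} : Set G), ∀ b ∈ ({x, y} : Set G), a * b = b * a := by
    intro a ha b hb
    simp only [Set.mem_insert_iff, Set.mem_singleton_iff] at ha hb
    rcases ha with rfl | rfl <;> rcases hb with rfl | rfl <;> first | rfl | exact hxy | exact hxy.symm
  have hcomm : ∀ a b : A, a * b = b * a :=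
    fun a b => (Subgroup.closureCommGroupOfComm hcommS).mul_comm a b
  haveI := Fintype.ofFinite A
  haveI := Fintype.ofFinite (IrrCharacter A)
  have hxA : x ∈ A := Subgroup.subset_closure (by simp)
  have hyA : y ∈ A := Subgroup.subset_closure (by simp)
  obtain ⟨c, _, hsum⟩ := gen_eq_sum (isGen_restrict A hχ)
  have hlin := comm_iff_all_linear.mp hcomm
  have hex : ∀ ψ : IrrCharacter A, ∃ ω : ℂ, IsIntegral ℤ ω ∧
      (ψ : A → ℂ) (⟨x, hxA⟩ * ⟨y, hyA⟩) - (ψ : A → ℂ) ⟨y, hyA⟩ = (1 - ζ) * ω := by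
    intro ψ
    obtain ⟨l, hl⟩ := exists_hom_of_irr_of_one (IsIrrCharacter.isCharacter ψ.2) (hlin ψ)
    have h1 : ((l ⟨x, hxA⟩ : ℂˣ) : ℂ) ^ p = 1 := by
      rw [← Units.val_pow_eq_pow_val, ← map_pow]
      have : (⟨x, hxA⟩ : A) ^ p = 1 := by
        apply Subtype.ext
        simp only [Subgroup.coe_pow, Subgroup.coe_one]
        rw [← hx]; exact pow_orderOf_eq_one x
      rw [this, map_one, Units.val_one]
    obtain ⟨j, _, hj⟩ := hζ.eq_pow_of_pow_eq_one h1
    refine ⟨-(∑ i ∈ Finset.range j, ζ ^ i) * (ψ : A → ℂ) ⟨y, hyA⟩, ?_, ?_⟩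
    · apply IsIntegral.mul
      · apply IsIntegral.neg
        exact IsIntegral.sum _ (fun i _ => hζint.pow i)
      · exact isIntegral_of_isCharacter (IsIrrCharacter.isCharacter ψ.2) _
    · rw [hl]
      simp only
      rw [map_mul, Units.val_mul, ← hj]
      have := mul_geom_sum ζ j
      linear_combination (-(l ⟨y, hyA⟩ : ℂ)) * this
  choose ω hω1 hω2 using hex
  refine ⟨∑ ψ : IrrCharacter A, (c ψ : ℂ) * ω ψ, ?_, ?_⟩
  · apply IsIntegral.sum
    intro ψ _
    exact IsIntegral.mul isIntegral_algebraMap (hω1 ψ)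
  · have e1 := congrFun hsum (⟨x, hxA⟩ * ⟨y, hyA⟩)
    have e2 := congrFun hsum ⟨y, hyA⟩
    simp only [Finset.sum_apply, Pi.smul_apply, smul_eq_mul] at e1 e2
    have e1' : χ (x * y) = ∑ ψ : IrrCharacter A, (c ψ : ℂ) * (ψ : A → ℂ) (⟨x, hxA⟩ * ⟨y, hyA⟩) := e1
    rw [e1', e2, ← Finset.sum_sub_distrib, Finset.mul_sum]
    apply Finset.sum_congr rfl
    intro ψ _
    rw [← mul_sub, hω2]
    ring

end Cfsg.Agent.S1494
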