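import Mathlib
import Cfsg.Statements.S1495
import Mathlib
import Cfsg.Agent.Lib.Helper7.GalC

set_option autoImplicit false
open Cfsg

namespace Cfsg.Agent.S1495

/-- Let p be a prime, ε = exp(2πi/p), and n an integer such that n = (1 − ε) * ω for some algebraic integer ω. Then p divides n. -/
theorem result (p : ℕ) (hp : p.Prime) (n : ℤ) (ω : ℂ) (hω : IsIntegral ℤ ω) (h : (n : ℂ) = (1 - Complex.exp (2 * Real.pi * Complex.I / p)) * ω) : (p : ℤ) ∣ n := by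
  classical
  obtain ⟨ζ, hζdef⟩ : ∃ ζ : ℂ, ζ = Complex.exp (2 * Real.pi * Complex.I / p) := ⟨_, rfl⟩
  rw [← hζdef] at h
  have hζ : IsPrimitiveRoot ζ p := by rw [hζdef]; exact Complex.isPrimitiveRoot_exp p hp.ne_zero
  obtain ⟨m, hm⟩ : ∃ m, p = m + 1 := ⟨p - 1, (Nat.succ_pred_eq_of_pos hp.pos).symm⟩
  have hprod : ∏ k ∈ Finset.range m, (1 - ζ ^ (k + 1)) = (p : ℂ) := by
    have h1 := IsPrimitiveRoot.prod_one_sub_pow_eq_order (n := m) (μ := ζ) (hm ▸ hζ)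
    rw [h1, hm]
    push_cast
    ring
  have hk : ∀ k ∈ Finset.range m, ∃ w : ℂ, IsIntegral ℤ w ∧ (n : ℂ) = (1 - ζ ^ (k + 1)) * w := by
    intro k hk
    have hkp : k + 1 < p := by rw [hm]; have := Finset.mem_range.mp hk; omega
    have hcop : (k + 1).Coprime p :=
      ((Nat.Prime.coprime_iff_not_dvd hp).mpr
        (fun hd => absurd (Nat.le_of_dvd (Nat.succ_pos k) hd) (not_le.mpr hkp))).symm
    obtain ⟨σ, hσ⟩ := Cfsg.Agent.Lib.Helper7.GalC.exists_aut_pow p (k + 1) hp.pos hcop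
    refine ⟨σ ω, ?_, ?_⟩
    · exact hω.map (σ : ℂ ≃+* ℂ).toRingHom.toIntAlgHom
    · have h2 := congrArg σ h
      rw [map_intCast, map_mul, map_sub, map_one, hσ ζ hζ.pow_eq_one] at h2
      exact h2
  choose! w hw1 hw2 using hk
  have h3 : (n : ℂ) ^ m = (p : ℂ) * ∏ k ∈ Finset.range m, w k := by
    rw [← hprod, ← Finset.prod_mul_distrib]
    rw [← Finset.card_range m, ← Finset.prod_const]
    simp only [Finset.card_range]
    exact Finset.prod_congr rfl (fun k hk => hw2 k hk)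
  have hint : IsIntegral ℤ (∏ k ∈ Finset.range m, w k) :=
    IsIntegral.prod _ (fun k hk => hw1 k hk)
  have hp0 : (p : ℂ) ≠ 0 := Nat.cast_ne_zero.mpr hp.ne_zero
  have h4 : (∏ k ∈ Finset.range m, w k) = (((n ^ m : ℤ) : ℚ) / (p : ℚ) : ℚ) := by
    push_cast
    rw [h3]
    field_simp
  rw [h4] at hint
  have h5 : IsIntegral ℤ (((n ^ m : ℤ) : ℚ) / (p : ℚ) : ℚ) :=
    (isIntegral_algebraMap_iff (algebraMap ℚ ℂ).injective).mp hint
  obtain ⟨z, hz⟩ := IsIntegrallyClosed.isIntegral_iff.mp h5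
  have h6 : (n ^ m : ℤ) = z * p := by
    have hp0' : (p : ℚ) ≠ 0 := Nat.cast_ne_zero.mpr hp.ne_zero
    have h7 : ((n ^ m : ℤ) : ℚ) = (z : ℚ) * (p : ℚ) := by
      have h8 : (z : ℚ) = ((n ^ m : ℤ) : ℚ) / (p : ℚ) := hz
      rw [h8]
      field_simp
    exact_mod_cast h7
  have h9 : (p : ℤ) ∣ n ^ m := ⟨z, by rw [h6]; ring⟩
  exact (Nat.prime_iff_prime_int.mp hp).dvd_of_dvd_pow h9

end Cfsg.Agent.S1495
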