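import Cfsg.Statements.S1497
import Mathlib

set_option autoImplicit false
open Cfsg

namespace Cfsg.Agent.S1497

/-- Let A be a nonempty subset of the finite group G not containing 1 and L a subgroup. Then A is a TI-subset whose normaliser is L if and only if the Dade hypothesis holds for A, L and the constant choice H(a) = ⊥. -/
theorem result {G : Type*} [Group G] [Finite G] (A : Set G) (hA : A.Nonempty) (h1 : (1 : G) ∉ A) (L : Subgroup G) : (Cfsg.IsTISubset A ∧ Subgroup.normalizer A = L) ↔ Cfsg.DadeHypothesis A L (fun _ => ⊥) := by
  constructor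
  · rintro ⟨hTI, hN⟩
    have hkey : ∀ a ∈ A, ∀ g : G, g * a * g⁻¹ ∈ A → g ∈ L := by
      intro a ha g hg
      rw [← hN]
      by_contra hcon
      have := hTI g hcon a ha hg
      exact h1 (this ▸ ha)
    refine
      { one_not_mem := h1
        subset := ?_
        conj_mem := ?_
        fusion := ?_
        le_centralizer := fun a _ => bot_le
        conj_mem_H := ?_
        inf_eq_bot := fun a _ => bot_inf_eq _
        sup_eq := ?_
        coprime := ?_ }
    · intro a ha
      exact hkey a ha a (by simpa using ha)
    · intro x hx a ha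
      rw [← hN] at hx
      exact (Subgroup.mem_set_normalizer_iff.mp hx a).mp ha
    · intro a ha g hg
      exact ⟨g, hkey a ha g hg, rfl⟩
    · intro a _ c _ u hu
      rw [Subgroup.mem_bot] at hu ⊢
      rw [hu]; group
    · intro a ha
      rw [bot_sup_eq]
      apply inf_of_le_right
      intro c hc
      apply hkey a ha c
      have h2 : c * a = a * c := Subgroup.mem_centralizer_singleton_iff.mp hc
      rw [h2, mul_inv_cancel_right]; exact ha
    · intro a _ b _
      rw [Subgroup.card_bot]; exact Nat.coprime_one_left _
  · intro hD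
    have hkey : ∀ a ∈ A, ∀ g : G, g * a * g⁻¹ ∈ A → g ∈ L := by
      intro a ha g hg
      obtain ⟨x, hx, hxg⟩ := hD.fusion a ha g hg
      have h2 : x⁻¹ * g ∈ Subgroup.centralizer ({a} : Set G) := by
        rw [Subgroup.mem_centralizer_singleton_iff]
        have h3 : g * a = x * a * x⁻¹ * g := by rw [hxg]; group
        calc x⁻¹ * g * a = x⁻¹ * (g * a) := by group
          _ = x⁻¹ * (x * a * x⁻¹ * g) := by rw [h3]
          _ = a * (x⁻¹ * g) := by group
      have h4 := hD.sup_eq a ha
      rw [bot_sup_eq] at h4
      rw [← h4] at h2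
      have h5 : g = x * (x⁻¹ * g) := by group
      rw [h5]; exact mul_mem hx h2.1
    have hLN : L ≤ Subgroup.normalizer A := by
      intro x hx
      rw [Subgroup.mem_set_normalizer_iff]
      intro h
      constructor
      · intro hh; exact hD.conj_mem x hx h hh
      · intro hh
        have h2 := hD.conj_mem x⁻¹ (inv_mem hx) _ hh
        have h3 : x⁻¹ * (x * h * x⁻¹) * x⁻¹⁻¹ = h := by group
        rwa [h3] at h2
    constructor
    · intro g hg x hx hgx
      exact absurd (hLN (hkey x hx g hgx)) hg
    · apply le_antisymm _ hLN
      intro g hg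
      obtain ⟨a, ha⟩ := hA
      exact hkey a ha g ((Subgroup.mem_set_normalizer_iff.mp hg a).mp ha)

end Cfsg.Agent.S1497
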