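import Cfsg.Statements.S1498
import Mathlib

set_option autoImplicit false
open Cfsg

namespace Cfsg.Agent.S1498

/-- Under the Dade hypothesis for (A, L, H): for a ∈ A and x ∈ L, the subgroup attached to x * a * x⁻¹ is the conjugate of H a by x. -/
theorem result {G : Type*} [Group G] [Finite G] (A : Set G) (L : Subgroup G) (H : G → Subgroup G) (hD : Cfsg.DadeHypothesis A L H) (a : G) (ha : a ∈ A) (x : G) (hx : x ∈ L) : H (x * a * x⁻¹) = (H a).map (MulAut.conj x).toMonoidHom := by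
  have hincl : ∀ a ∈ A, ∀ x ∈ L, ∀ u ∈ H a, x * u * x⁻¹ ∈ H (x * a * x⁻¹) := by
    intro a ha x hx u hu
    have hb : x * a * x⁻¹ ∈ A := hD.conj_mem x hx a ha
    obtain ⟨b, hbdef⟩ : ∃ b, b = x * a * x⁻¹ := ⟨_, rfl⟩
    rw [← hbdef] at hb ⊢
    have hua : u * a = a * u := Subgroup.mem_centralizer_singleton_iff.mp (hD.le_centralizer a ha hu)
    have hvC : x * u * x⁻¹ ∈ Subgroup.centralizer ({b} : Set G) := by
      rw [Subgroup.mem_centralizer_singleton_iff, hbdef]
      calc x * u * x⁻¹ * (x * a * x⁻¹) = x * (u * a) * x⁻¹ := by group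
        _ = x * (a * u) * x⁻¹ := by rw [hua]
        _ = x * a * x⁻¹ * (x * u * x⁻¹) := by group
    have hnorm : L ⊓ Subgroup.centralizer ({b} : Set G) ≤ Subgroup.normalizer (H b : Set G) := by
      intro c hc
      rw [Subgroup.mem_normalizer_iff]
      intro h
      constructor
      · intro hh; exact hD.conj_mem_H b hb c hc.2 h hh
      · intro hh
        have h1 := hD.conj_mem_H b hb c⁻¹ (inv_mem hc.2) _ hh
        have h2 : c⁻¹ * (c * h * c⁻¹) * c⁻¹⁻¹ = h := by group
        rwa [h2] at h1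
    have hv : x * u * x⁻¹ ∈ ((H b ⊔ (L ⊓ Subgroup.centralizer ({b} : Set G)) : Subgroup G) : Set G) := by
      rw [hD.sup_eq b hb]; exact hvC
    rw [Subgroup.coe_mul_of_right_le_normalizer_left _ _ hnorm] at hv
    obtain ⟨h, hh, c, hc, hhc⟩ := Set.mem_mul.mp hv
    have hpow : ∀ k : ℕ, ∃ h' ∈ H b, (h * c) ^ k = h' * c ^ k := by
      intro k
      induction k with
      | zero => exact ⟨1, one_mem _, by simp⟩
      | succ k ih =>
        obtain ⟨h', hh', hk⟩ := ih
        refine ⟨h' * (c ^ k * h * (c ^ k)⁻¹), mul_mem hh'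
          (hD.conj_mem_H b hb _ (pow_mem hc.2 k) h hh), ?_⟩
        rw [pow_succ, hk, pow_succ]; group
    have hum : u ^ Nat.card (H a) = 1 := by
      have := pow_card_eq_one' (x := (⟨u, hu⟩ : H a))
      exact congrArg Subtype.val this
    obtain ⟨h', hh', hk⟩ := hpow (Nat.card (H a))
    rw [hhc, conj_pow, hum] at hk
    have hcm : c ^ Nat.card (H a) = 1 := by
      have h1 : c ^ Nat.card (H a) = h'⁻¹ := by
        have h2 : h' * c ^ Nat.card (H a) = 1 := by rw [← hk]; group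
        exact eq_inv_of_mul_eq_one_right h2
      have h3 : c ^ Nat.card (H a) ∈ H b ⊓ (L ⊓ Subgroup.centralizer ({b} : Set G)) :=
        ⟨by rw [h1]; exact (H b).inv_mem hh', Subgroup.pow_mem _ hc _⟩
      rw [hD.inf_eq_bot b hb] at h3
      exact Subgroup.mem_bot.mp h3
    have hcn : c ^ Nat.card ↥(L ⊓ Subgroup.centralizer ({b} : Set G)) = 1 := by
      have := pow_card_eq_one' (x := (⟨c, hc⟩ : ↥(L ⊓ Subgroup.centralizer ({b} : Set G))))
      exact congrArg Subtype.val this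
    have hc1 : c = 1 := by
      have h1 := orderOf_dvd_of_pow_eq_one hcm
      have h2 := orderOf_dvd_of_pow_eq_one hcn
      have h3 := Nat.dvd_gcd h1 h2
      rw [(hD.coprime a ha b hb)] at h3
      exact orderOf_eq_one_iff.mp (Nat.dvd_one.mp h3)
    rw [← hhc, hc1, mul_one]; exact hh
  apply le_antisymm
  · intro w hw
    have hb : x * a * x⁻¹ ∈ A := hD.conj_mem x hx a ha
    have h1 := hincl _ hb x⁻¹ (inv_mem hx) w hw
    have h2 : x⁻¹ * (x * a * x⁻¹) * x⁻¹⁻¹ = a := by group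
    rw [h2] at h1
    refine ⟨_, h1, ?_⟩
    show x * (x⁻¹ * w * x⁻¹⁻¹) * x⁻¹ = w
    group
  · rintro _ ⟨u, hu, rfl⟩
    exact hincl a ha x hx u hu

end Cfsg.Agent.S1498
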