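import Mathlib
import Cfsg.Statements.S1499

set_option autoImplicit false
open Cfsg

namespace Cfsg.Agent.S1499


/-- Under the Dade hypothesis for (A, L, H), let a, b ∈ A. If an element of the coset a·H(a) is conjugate in G to an element of b·H(b), then a and b are conjugate by an element of L. Moreover the set normaliser of the coset a·H(a) is the centraliser of a. -/
theorem result {G : Type*} [Group G] [Finite G] (A : Set G) (L : Subgroup G) (H : G → Subgroup G) (hD : Cfsg.DadeHypothesis A L H) (a b : G) (ha : a ∈ A) (hb : b ∈ A) : ((∃ u ∈ H a, ∃ v ∈ H b, ∃ g : G, g * (a * u) * g⁻¹ = b * v) → ∃ x ∈ L, x * a * x⁻¹ = b) ∧ Subgroup.normalizer ((fun u : G => a * u) '' (H a : Set G)) = Subgroup.centralizer ({a} : Set G) := by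
  have hpow : ∀ (K : Subgroup G) (y : G), y ∈ K → y ^ Nat.card K = 1 := by
    intro K y hy
    have h1 := pow_card_eq_one' (G := K) (x := ⟨y, hy⟩)
    have h2 := congrArg Subtype.val h1
    rw [Subgroup.coe_pow, Subgroup.coe_one] at h2
    exact h2
  have pw : ∀ (c w : G) (n m k : ℕ), Commute c w → c ^ n = 1 → w ^ m = 1 → k ≡ 1 [MOD n] →
      k ≡ 0 [MOD m] → (c * w) ^ k = c := by
    intro c w n m k hcw hc hw hk1 hk0
    rw [hcw.mul_pow]
    have h1 : c ^ k = c ^ 1 :=
      pow_eq_pow_iff_modEq.mpr (Nat.ModEq.of_dvd (orderOf_dvd_of_pow_eq_one hc) hk1)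
    have h2 : w ^ k = w ^ 0 :=
      pow_eq_pow_iff_modEq.mpr (Nat.ModEq.of_dvd (orderOf_dvd_of_pow_eq_one hw) hk0)
    rw [h1, h2]
    simp
  have hcomm : ∀ c ∈ A, ∀ w ∈ H c, Commute c w := by
    intro c hc w hw
    have h1 := hD.le_centralizer c hc hw
    rw [Subgroup.mem_centralizer_iff] at h1
    exact h1 c rfl
  have hself : ∀ c ∈ A, c ∈ L ⊓ Subgroup.centralizer ({c} : Set G) := by
    intro c hc
    refine ⟨hD.subset hc, ?_⟩
    show c ∈ Subgroup.centralizer ({c} : Set G)
    rw [Subgroup.mem_centralizer_iff]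
    intro y hy
    rw [Set.mem_singleton_iff] at hy
    rw [hy]
  have co : (Nat.card ↥(L ⊓ Subgroup.centralizer ({a} : Set G)) *
      Nat.card ↥(L ⊓ Subgroup.centralizer ({b} : Set G))).Coprime
      (Nat.card (H a) * Nat.card (H b)) := by
    rw [Nat.coprime_mul_iff_left, Nat.coprime_mul_iff_right, Nat.coprime_mul_iff_right]
    exact ⟨⟨(hD.coprime a ha a ha).symm, (hD.coprime b hb a ha).symm⟩,
      ⟨(hD.coprime a ha b hb).symm, (hD.coprime b hb b hb).symm⟩⟩
  obtain ⟨k, hk1, hk0⟩ := Nat.chineseRemainder co 1 0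
  have ha1 : a ^ (Nat.card ↥(L ⊓ Subgroup.centralizer ({a} : Set G)) *
      Nat.card ↥(L ⊓ Subgroup.centralizer ({b} : Set G))) = 1 := by
    rw [pow_mul, hpow _ a (hself a ha), one_pow]
  have hb1 : b ^ (Nat.card ↥(L ⊓ Subgroup.centralizer ({a} : Set G)) *
      Nat.card ↥(L ⊓ Subgroup.centralizer ({b} : Set G))) = 1 := by
    rw [mul_comm, pow_mul, hpow _ b (hself b hb), one_pow]
  have hu1 : ∀ u ∈ H a, u ^ (Nat.card (H a) * Nat.card (H b)) = 1 := by
    intro u hu
    rw [pow_mul, hpow _ u hu, one_pow]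
  have hv1 : ∀ v ∈ H b, v ^ (Nat.card (H a) * Nat.card (H b)) = 1 := by
    intro v hv
    rw [mul_comm, pow_mul, hpow _ v hv, one_pow]
  have hPa : ∀ u ∈ H a, (a * u) ^ k = a := fun u hu =>
    pw a u _ _ k (hcomm a ha u hu) ha1 (hu1 u hu) hk1 hk0
  have hPb : ∀ v ∈ H b, (b * v) ^ k = b := fun v hv =>
    pw b v _ _ k (hcomm b hb v hv) hb1 (hv1 v hv) hk1 hk0
  constructor
  · rintro ⟨u, hu, v, hv, g, hg⟩
    have h1 : g * a * g⁻¹ = b := by
      rw [← hPa u hu, ← conj_pow, hg, hPb v hv]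
    obtain ⟨x, hx, hxa⟩ := hD.fusion a ha g (by rw [h1]; exact hb)
    exact ⟨x, hx, hxa.trans h1⟩
  · have hcent : ∀ c : G, c ∈ Subgroup.centralizer ({a} : Set G) ↔ c * a * c⁻¹ = a := by
      intro c
      rw [Subgroup.mem_centralizer_iff]
      constructor
      · intro hc
        have h2 := hc a rfl
        rw [← h2, mul_assoc, mul_inv_cancel, mul_one]
      · intro hc y hy
        rw [Set.mem_singleton_iff] at hy
        subst hy
        rw [mul_inv_eq_iff_eq_mul] at hc
        exact hc.symm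
    have hfwd : ∀ c ∈ Subgroup.centralizer ({a} : Set G), ∀ y,
        y ∈ (fun u : G => a * u) '' (H a : Set G) →
        c * y * c⁻¹ ∈ (fun u : G => a * u) '' (H a : Set G) := by
      rintro c hc y ⟨u, hu, rfl⟩
      refine ⟨c * u * c⁻¹, hD.conj_mem_H a ha c hc u hu, ?_⟩
      have h2 := (hcent c).mp hc
      show a * (c * u * c⁻¹) = c * (a * u) * c⁻¹
      calc a * (c * u * c⁻¹) = (c * a * c⁻¹) * (c * u * c⁻¹) := by rw [h2]
        _ = c * (a * u) * c⁻¹ := by group
    ext g
    have hmem : g ∈ Subgroup.normalizer ((fun u : G => a * u) '' (H a : Set G)) ↔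
        ∀ y, y ∈ (fun u : G => a * u) '' (H a : Set G) ↔
          g * y * g⁻¹ ∈ (fun u : G => a * u) '' (H a : Set G) := Iff.rfl
    rw [hmem]
    constructor
    · intro hg
      have h3 : a ∈ (fun u : G => a * u) '' (H a : Set G) := ⟨1, (H a).one_mem, by simp⟩
      obtain ⟨v, hv, hv2⟩ := (hg a).mp h3
      have hv3 : a * v = g * a * g⁻¹ := hv2
      rw [hcent]
      have h4 : (g * a * g⁻¹) ^ k = a := by rw [← hv3]; exact hPa v hv
      have h5 : a ^ k = a := by
        have := hPa 1 (H a).one_mem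
        simpa using this
      rw [conj_pow, h5] at h4
      exact h4
    · intro hg y
      constructor
      · exact hfwd g hg y
      · intro hy
        have h6 := hfwd g⁻¹ ((Subgroup.centralizer ({a} : Set G)).inv_mem hg) _ hy
        have h7 : g⁻¹ * (g * y * g⁻¹) * g⁻¹⁻¹ = y := by group
        rwa [h7] at h6

end Cfsg.Agent.S1499
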