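import Cfsg.Statements.S1512
import Cfsg.Agent.Lib.Helper7.All1
import Cfsg.Agent.Lib.Helper7.Glaub9
-- import your own Cfsg.Agent.* helpers here

set_option autoImplicit false
open Cfsg
open Cfsg.Agent.Lib.Helper7.CharBasic Cfsg.Agent.Lib.Helper7.CharIrr Cfsg.Agent.Lib.Helper7.CharDecomp Cfsg.Agent.Lib.Helper7.CharComplete Cfsg.Agent.Lib.Helper7.CharOrth Cfsg.Agent.Lib.Helper7.CharInd Cfsg.Agent.Lib.Helper7.CharIntegral Cfsg.Agent.Lib.Helper7.CharBurnside Cfsg.Agent.Lib.Helper7.CharLinear Cfsg.Agent.Lib.Helper7.CharEquiv Cfsg.Agent.Lib.Helper7.CharMore Cfsg.Agent.Lib.Helper7.CharCount Cfsg.Agent.Lib.Helper7.CharMisc Cfsg.Agent.Lib.Helper7.CharMisc2 Cfsg.Agent.Lib.Helper7.CharNormal Cfsg.Agent.Lib.Helper7.CharOdd Cfsg.Agent.Lib.Helper7.CharClifford Cfsg.Agent.Lib.Helper7.CharProd Cfsg.Agent.Lib.Helper7.CharPerm Cfsg.Agent.Lib.Helper7.CharClassAlg Cfsg.Agent.Lib.Helper7.CharClassAlg2 Cfsg.Agent.Lib.Helper7.CharCentral Cfsg.Agent.Lib.Helper7.CharNormal2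 Cfsg.Agent.Lib.Helper7.CharCliffordCorr
open scoped ComplexConjugate

namespace Cfsg.Agent.S1512

/-- Let K be a normal subgroup of the finite group L and x a non-identity element whose order is coprime to the order of K, such that K ⊓ C_L(y) = W₂ for every non-identity element y of the cyclic group generated by x. Then the number of conjugacy classes of K mapped to themselves by conjugation by x is at most Nat.card W₂. -/
theorem result {L : Type*} [Group L] [Finite L] (K W₂ : Subgroup L) [hK : K.Normal] (x : L) (hx1 : x ≠ 1) (hx : Nat.Coprime (orderOf x) (Nat.card K)) (hC : ∀ y ∈ Subgroup.zpowers x, y ≠ 1 → K ⊓ Subgroup.centralizer ({y} : Set L) = W₂) : Nat.card {C : ConjClasses K // ConjClasses.map (MulEquiv.toMonoidHom ((MulAut.conjNormal x : MulAut K))) C = C} ≤ Nat.card W₂ := by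
  classical
  have hnorm : ∀ s ∈ Subgroup.zpowers x, ∀ g ∈ K, s * g * s⁻¹ ∈ K := fun s _ g hg => hK.conj_mem g hg s
  have hcop : (Nat.card K).Coprime (Nat.card (Subgroup.zpowers x)) := by
    rw [Nat.card_zpowers]; exact hx.symm
  obtain ⟨_, hb⟩ := Cfsg.Agent.Lib.Helper7.Glaub9.CL_zpowers x K hnorm hcop
  have hW : K ⊓ Subgroup.centralizer ({x} : Set L) = W₂ := hC x (Subgroup.mem_zpowers x) hx1
  have hex : ∀ C : {C : ConjClasses K // ConjClasses.map (MulEquiv.toMonoidHom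
      ((MulAut.conjNormal x : MulAut K))) C = C}, ∃ w : W₂, ∃ hw : (w : L) ∈ K,
      ConjClasses.mk (⟨w, hw⟩ : K) = C.1 := by
    rintro ⟨C, hCfix⟩
    obtain ⟨k, rfl⟩ := ConjClasses.mk_surjective C
    have hinv1 : ∃ g ∈ K, x * (k : L) * x⁻¹ = g * k * g⁻¹ := by
      have h1 : ConjClasses.mk ((MulAut.conjNormal x : MulAut K) k) = ConjClasses.mk k := hCfix
      rw [ConjClasses.mk_eq_mk_iff_isConj, isConj_comm, isConj_iff] at h1
      obtain ⟨g, hg⟩ := h1
      refine ⟨g, g.2, ?_⟩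
      have := congrArg Subtype.val hg
      simpa using this.symm
    have hinv : ∀ s ∈ Subgroup.zpowers x, ∃ g ∈ K, s * (k : L) * s⁻¹ = g * k * g⁻¹ := by
      let A : Subgroup L :=
        { carrier := {s | ∃ g ∈ K, s * (k : L) * s⁻¹ = g * k * g⁻¹}
          one_mem' := ⟨1, K.one_mem, by simp⟩
          mul_mem' := by
            rintro a b ⟨g, hg, hga⟩ ⟨g', hg', hgb⟩
            refine ⟨(a * g' * a⁻¹) * g, K.mul_mem (hK.conj_mem g' hg' a) hg, ?_⟩
            calc a * b * (k : L) * (a * b)⁻¹ = a * (b * k * b⁻¹) * a⁻¹ := by group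
              _ = (a * g' * a⁻¹) * (a * k * a⁻¹) * (a * g' * a⁻¹)⁻¹ := by rw [hgb]; group
              _ = a * g' * a⁻¹ * g * ↑k * (a * g' * a⁻¹ * g)⁻¹ := by rw [hga]; group
          inv_mem' := by
            rintro a ⟨g, hg, hga⟩
            refine ⟨a⁻¹ * g⁻¹ * a, by
              have := hK.conj_mem g⁻¹ (K.inv_mem hg) a⁻¹
              simpa using this, ?_⟩
            have h2 : (k : L) = g⁻¹ * (a * k * a⁻¹) * g := by rw [hga]; group
            calc a⁻¹ * (k : L) * a⁻¹⁻¹ = a⁻¹ * (g⁻¹ * (a * k * a⁻¹) * g) * a := by rw [← h2]; group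
              _ = a⁻¹ * g⁻¹ * a * ↑k * (a⁻¹ * g⁻¹ * a)⁻¹ := by group }
      have hle : Subgroup.zpowers x ≤ A := by
        rw [Subgroup.zpowers_le]
        exact hinv1
      exact fun s hs => hle hs
    obtain ⟨g, hg, hgs⟩ := hb k k.2 hinv
    have hmemK : g * k * g⁻¹ ∈ K := K.mul_mem (K.mul_mem hg k.2) (K.inv_mem hg)
    have hmemW : g * k * g⁻¹ ∈ W₂ := by
      rw [← hW, Subgroup.mem_inf, Subgroup.mem_centralizer_singleton_iff]
      exact ⟨hmemK, hgs x (Subgroup.mem_zpowers x)⟩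
    refine ⟨⟨_, hmemW⟩, hmemK, ?_⟩
    rw [ConjClasses.mk_eq_mk_iff_isConj, isConj_comm, isConj_iff]
    exact ⟨⟨g, hg⟩, rfl⟩
  choose f hf1 hf2 using hex
  apply Nat.card_le_card_of_injective f
  intro C C' h
  apply Subtype.ext
  rw [← hf2 C, ← hf2 C']
  congr 1
  apply Subtype.ext
  exact congrArg (fun w : W₂ => (w : L)) h

end Cfsg.Agent.S1512
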