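import Cfsg.Statements.S1513
import Cfsg.Agent.Lib.Helper7.All1
import Cfsg.Agent.Lib.Helper7.SNC1
import Cfsg.Agent.S1491
-- import your own Cfsg.Agent.* helpers here

set_option autoImplicit false
open Cfsg
open Cfsg.Agent.Lib.Helper7.CharBasic Cfsg.Agent.Lib.Helper7.CharIrr Cfsg.Agent.Lib.Helper7.CharDecomp Cfsg.Agent.Lib.Helper7.CharComplete Cfsg.Agent.Lib.Helper7.CharOrth Cfsg.Agent.Lib.Helper7.CharInd Cfsg.Agent.Lib.Helper7.CharIntegral Cfsg.Agent.Lib.Helper7.CharBurnside Cfsg.Agent.Lib.Helper7.CharLinear Cfsg.Agent.Lib.Helper7.CharEquiv Cfsg.Agent.Lib.Helper7.CharMore Cfsg.Agent.Lib.Helper7.CharCount Cfsg.Agent.Lib.Helper7.CharMisc Cfsg.Agent.Lib.Helper7.CharMisc2 Cfsg.Agent.Lib.Helper7.CharNormal Cfsg.Agent.Lib.Helper7.CharOdd Cfsg.Agent.Lib.Helper7.CharClifford Cfsg.Agent.Lib.Helper7.CharProd Cfsg.Agent.Lib.Helper7.CharPerm Cfsg.Agent.Lib.Helper7.CharClassAlg Cfsg.Agent.Lib.Helper7.CharClassAlg2 Cfsg.Agent.Lib.Helper7.CharCentral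 Cfsg.Agent.Lib.Helper7.CharNormal2 Cfsg.Agent.Lib.Helper7.CharCliffordCorr Cfsg.Agent.Lib.Helper7.SNC1 Cfsg.Agent.Lib.Helper7.McKay2 Cfsg.Agent.Lib.Helper7.Glaub3 Cfsg.Agent.Lib.Helper7.Glaub10
open scoped ComplexConjugate

namespace Cfsg.Agent.S1513

/-- Let L be a finite group with K normal with complement W₁ ≠ 1 a cyclic Hall subgroup, and W₂ ≠ 1 a cyclic subgroup of K equal to C_K(x) for every non-identity x ∈ W₁, with W₁W₂ of odd order. For an irreducible character θ of K: if θ is not fixed under conjugation by some element of W₁, then the function induced from θ to L is an irreducible character of L; and the irreducible characters of K fixed by all of W₁ are exactly Nat.card W₂ in number, each inducing to the sum of Nat.card W₁ pairwise distinct irreducible characters of L. -/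
theorem result {L : Type*} [Group L] [Fintype L] (K W₁ W₂ : Subgroup L) [hK : K.Normal] (hKW₁ : K ⊓ W₁ = ⊥) (hKW₁' : K ⊔ W₁ = ⊤) (hW₁ : W₁ ≠ ⊥) (hW₁c : IsCyclic W₁) (hHall : Nat.Coprime (Nat.card W₁) W₁.index) (hW₂ : W₂ ≠ ⊥) (hW₂c : IsCyclic W₂) (hW₂K : W₂ ≤ K) (hC : ∀ x ∈ W₁, x ≠ 1 → K ⊓ Subgroup.centralizer ({x} : Set L) = W₂) (hodd : Odd (Nat.card ↥(W₁ ⊔ W₂))) : (∀ θ : K → ℂ, Cfsg.IsIrrCharacter K θ → (∃ x ∈ W₁, (fun k : K => θ ⟨x * k * x⁻¹, hK.conj_mem (k : L) k.2 x⟩) ≠ θ) → Cfsg.IsIrrCharacter L (Cfsg.indFun K θ)) ∧ Nat.card {θ : Cfsg.IrrCharacter K // ∀ x ∈ W₁, (fun k : K => (θ : K → ℂ) ⟨x * k * x⁻¹, hK.conj_mem (k : L) k.2 x⟩) = θ} = Nat.card W₂ ∧ (∀ θ : K → ℂ, Cfsg.IsIrrCharacter K θ → (∀ x ∈ W₁, (fun k : K => θ ⟨x * k * x⁻¹, hK.conj_mem (k : L) k.2 x⟩) = θ) → ∃ C : Finset (L → ℂ), C.card = Nat.card W₁ ∧ (∀ μ ∈ C, Cfsg.IsIrrCharacter L μ) ∧ Cfsg.indFun K θ = ∑ μ ∈ C, μ) := by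
  classical
  have hInv : ∀ (θ : K → ℂ) (x : L),
      ((fun k : K => θ ⟨x * k * x⁻¹, hK.conj_mem (k : L) k.2 x⟩) = θ) ↔ InvBy K θ x := by
    intro θ x
    constructor
    · intro h g g' hgg
      have := congrFun h g
      rw [← this]
      exact congrArg θ (Subtype.ext hgg)
    · intro h
      funext k
      exact h k _ rfl
  refine ⟨?_, ?_, ?_⟩
  · rintro θ hθ ⟨x, hx, hne⟩
    have hT : ∀ g : L, g ∈ K ↔ ∀ h : K, θ ⟨g * h * g⁻¹, hK.conj_mem h h.2 g⟩ = θ h := by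
      intro g
      constructor
      · intro hg h
        exact IsIrrCharacter.isClassFunction hθ h ⟨g, hg⟩
      · intro hg
        obtain ⟨k, hk, w, hw, rfl⟩ := exists_mul_of_sup K W₁ hKW₁' g
        by_cases hw1 : w = 1
        · rw [hw1, mul_one]; exact hk
        · exfalso
          apply hne
          rw [hInv]
          refine inv_of_inv_one K W₁ W₂ hKW₁ hKW₁' hW₁c hHall hW₂c hC hθ hw hw1 ?_ x hx
          intro a a' haa
          have h1 := hg a
          have h2 := IsIrrCharacter.isClassFunction hθ a' ⟨k, hk⟩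
          rw [← h2, ← h1]
          refine congrArg θ (Subtype.ext ?_)
          simp [haa, mul_assoc]
    obtain ⟨e, C, he, hCirr, hcard, hind, _, _⟩ := Cfsg.Agent.Lib.Helper7.AbInd.main K K θ hθ hT
      (fun x hx y hy => K.mul_mem (K.mul_mem (K.mul_mem hx hy) (K.inv_mem hx)) (K.inv_mem hy))
    rw [Subgroup.relIndex_self] at hcard
    have he1 : e = 1 := by
      have : e ^ 2 = 1 := Nat.eq_one_of_mul_eq_one_right hcard
      exact (Nat.pow_eq_one.mp this).resolve_right (by norm_num)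
    have hC1 : C.card = 1 := Nat.eq_one_of_mul_eq_one_left hcard
    obtain ⟨χ, rfl⟩ := Finset.card_eq_one.mp hC1
    rw [hind, he1]
    simp only [Nat.cast_one, Finset.sum_singleton, one_smul]
    exact hCirr χ (Finset.mem_singleton_self χ)
  · rw [← NI_eq K W₁ W₂ hKW₁ hKW₁' hW₁c hHall hW₂c hC W₁ le_rfl hW₁]
    unfold NI
    exact Nat.card_congr
      { toFun := fun θ => ⟨θ.1.1, θ.1.2, fun s hs => (hInv _ _).mp (θ.2 s hs)⟩
        invFun := fun θ => ⟨⟨θ.1, θ.2.1⟩, fun s hs => (hInv _ _).mpr (θ.2.2 s hs)⟩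
        left_inv := fun _ => rfl
        right_inv := fun _ => rfl }
  · intro θ hθ hinv
    have hT : ∀ g : L, g ∈ (⊤ : Subgroup L) ↔
        ∀ h : K, θ ⟨g * h * g⁻¹, hK.conj_mem h h.2 g⟩ = θ h := by
      intro g
      refine ⟨fun _ => ?_, fun _ => Subgroup.mem_top g⟩
      intro h
      obtain ⟨k, hk, w, hw, rfl⟩ := exists_mul_of_sup K W₁ hKW₁' g
      have h1 := congrFun (hinv w hw) h
      have h2 := IsIrrCharacter.isClassFunction hθ ⟨w * h * w⁻¹, hK.conj_mem h h.2 w⟩ ⟨k, hk⟩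
      rw [← h1, ← h2]
      refine congrArg θ (Subtype.ext ?_)
      simp [mul_assoc]
    have hcommQ : ∀ a b : L ⧸ K, a * b = b * a := by
      intro a b
      have e := compEquiv K W₁ hKW₁' hKW₁
      have h3 := (IsCyclic.isMulCommutative (α := W₁)).is_comm.comm (e.symm a) (e.symm b)
      have h4 := congrArg e h3
      simpa using h4
    have hab : ∀ x ∈ (⊤ : Subgroup L), ∀ y ∈ (⊤ : Subgroup L), x * y * x⁻¹ * y⁻¹ ∈ K := by
      intro x _ y _
      rw [← QuotientGroup.eq_one_iff]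
      simp only [QuotientGroup.mk_mul, QuotientGroup.mk_inv]
      rw [hcommQ (x : L ⧸ K) y]
      group
    have hidx := index_eq_card_compl K W₁ hKW₁' hKW₁
    have hcop : Nat.Coprime (Nat.card K) (K.relIndex ⊤) := by
      rw [Subgroup.relIndex_top_right, hidx]
      exact coprime_KW K W₁ hKW₁ hKW₁' hHall
    obtain ⟨C, hC1, hC2, hC3, _⟩ := Cfsg.Agent.S1491.result K ⊤ θ hθ hT hab hcop
    exact ⟨C, by rw [hC2, Subgroup.relIndex_top_right, hidx], hC1, hC3⟩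

end Cfsg.Agent.S1513
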