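import Cfsg.Statements.S1546
import Mathlib

set_option autoImplicit false
open Cfsg

namespace Cfsg.Agent.S1546

open Cfsg

theorem geom_modEq (p m : ℕ) (h : p ≡ 1 [MOD m]) (n : ℕ) : ∑ i ∈ Finset.range n, p ^ i ≡ n [MOD m] := by
  induction n with
  | zero => simp [Nat.ModEq]
  | succ n ih =>
    rw [Finset.sum_range_succ]
    have := h.pow n
    rw [one_pow] at this
    exact ih.add this

/-- Let p and q be odd primes and N = (p ^ q − 1) / (p − 1) = 1 + p + ⋯ + p^(q−1). Then N is odd; if p ≡ 1 (mod q) then q ∣ N; and if p is not ≡ 1 (mod q) then N is coprime to p − 1 and every divisor of N is ≡ 1 (mod q). -/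
theorem result (p q : ℕ) (hp : p.Prime) (hq : q.Prime) (hp2 : p ≠ 2) (hq2 : q ≠ 2) : Odd ((p ^ q - 1) / (p - 1)) ∧ (p % q = 1 → q ∣ (p ^ q - 1) / (p - 1)) ∧ (p % q ≠ 1 → Nat.Coprime ((p ^ q - 1) / (p - 1)) (p - 1) ∧ ∀ x : ℕ, x ∣ (p ^ q - 1) / (p - 1) → x % q = 1) := by
  have hN : (p ^ q - 1) / (p - 1) = ∑ i ∈ Finset.range q, p ^ i := (Nat.geomSum_eq hp.two_le q).symm
  set N := (p ^ q - 1) / (p - 1) with hNdef
  have hq2le := hq.two_le
  have hp2le := hp.two_le
  have hodd : Odd N := by
    have h1 : p ≡ 1 [MOD 2] := by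
      have := hp.eq_two_or_odd
      rcases this with h | h
      · exact absurd h hp2
      · exact h
    have h2 := geom_modEq p 2 h1 q
    rw [← hN] at h2
    have h3 : q % 2 = 1 := by
      rcases hq.eq_two_or_odd with h | h
      · exact absurd h hq2
      · exact h
    rw [Nat.odd_iff]
    rw [Nat.ModEq, h3] at h2
    exact h2
  refine ⟨hodd, ?_, ?_⟩
  · intro h
    have h1 : p ≡ 1 [MOD q] := by
      rw [Nat.ModEq, h, Nat.mod_eq_of_lt (by omega)]
    have h2 := geom_modEq p q h1 q
    rw [← hN] at h2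
    rw [Nat.ModEq, Nat.mod_self] at h2
    exact Nat.dvd_of_mod_eq_zero h2
  · intro h
    have hcop : Nat.Coprime N (p - 1) := by
      have h1 : p ≡ 1 [MOD (p - 1)] := by
        have : p = 1 + (p - 1) := by omega
        rw [Nat.ModEq]
        conv_lhs => rw [this]
        simp
      have h2 := geom_modEq p (p - 1) h1 q
      rw [← hN] at h2
      have h3 := h2.gcd_eq
      unfold Nat.Coprime
      rw [h3]
      rcases (Nat.dvd_prime hq).mp (Nat.gcd_dvd_left q (p - 1)) with h4 | h4
      · exact h4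
      · exfalso
        apply h
        have h5 : q ∣ p - 1 := h4 ▸ Nat.gcd_dvd_right q (p - 1)
        obtain ⟨c, hc⟩ := h5
        have : p = 1 + q * c := by omega
        rw [this, Nat.add_mul_mod_self_left, Nat.mod_eq_of_lt (by omega)]
    refine ⟨hcop, ?_⟩
    have hmul : N * (p - 1) = p ^ q - 1 := by
      apply Nat.div_mul_cancel
      exact Nat.sub_one_dvd_pow_sub_one p q
    have hprime : ∀ r : ℕ, r.Prime → r ∣ N → r % q = 1 := by
      intro r hr hrN
      haveI : Fact r.Prime := ⟨hr⟩
      have h1 : r ∣ p ^ q - 1 := hmul ▸ (hrN.mul_right _)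
      have hpos : 1 ≤ p ^ q := Nat.one_le_pow _ _ hp.pos
      have h2 : ((p : ZMod r)) ^ q = 1 := by
        have : ((p ^ q - 1 : ℕ) : ZMod r) = 0 := (ZMod.natCast_eq_zero_iff _ _).mpr h1
        rw [Nat.cast_sub hpos, Nat.cast_pow, Nat.cast_one, sub_eq_zero] at this
        exact this
      have h3 : (p : ZMod r) ≠ 1 := by
        intro h3
        have : ((p - 1 : ℕ) : ZMod r) = 0 := by
          rw [Nat.cast_sub hp.one_le, h3, Nat.cast_one, sub_self]
        have h4 : r ∣ p - 1 := (ZMod.natCast_eq_zero_iff _ _).mp this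
        have h5 := Nat.dvd_gcd hrN h4
        rw [hcop] at h5
        exact hr.one_lt.ne' (Nat.dvd_one.mp h5)
      haveI : Fact q.Prime := ⟨hq⟩
      have h4 : orderOf (p : ZMod r) = q := orderOf_eq_prime h2 h3
      have h5 : (p : ZMod r) ≠ 0 := by
        intro h5
        rw [h5, zero_pow hq.ne_zero] at h2
        exact zero_ne_one h2
      have h6 := ZMod.orderOf_dvd_card_sub_one h5
      rw [h4] at h6
      obtain ⟨c, hc⟩ := h6
      have h7 := hr.two_le
      have : r = 1 + q * c := by omega
      rw [this, Nat.add_mul_mod_self_left, Nat.mod_eq_of_lt (by omega)]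
    intro x
    induction x using Nat.recOnMul with
    | zero =>
      intro h0
      rw [zero_dvd_iff] at h0
      rw [h0] at hodd
      exact absurd hodd (by decide)
    | one => intro _; exact Nat.mod_eq_of_lt (by omega)
    | prime r hr => exact hprime r hr
    | mul a b iha ihb =>
      intro hab
      have ha := iha (dvd_of_mul_right_dvd hab)
      have hb := ihb (dvd_of_mul_left_dvd hab)
      rw [Nat.mul_mod, ha, hb, one_mul, Nat.mod_eq_of_lt (by omega)]

end Cfsg.Agent.S1546
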