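import Cfsg.Statements.S1552
import Cfsg.Agent.Lib.Helper8.Coatoms

set_option autoImplicit false
open scoped Pointwise
open Cfsg

namespace Cfsg.Agent.S1552

/-- A sextet stabiliser has four orbits on the 1771 sextets, of sizes 1, 90, 240, 1440; and the stabiliser is a maximal proper subgroup. -/
theorem result (S : Finset (Finset Cfsg.GolayPt)) (hS : S ∈ Cfsg.sextets) : ∃ X₁ ∈ Cfsg.sextets, ∃ X₂ ∈ Cfsg.sextets, ∃ X₃ ∈ Cfsg.sextets, (MulAction.orbit ↥(MulAction.stabilizer Cfsg.M24 S) X₁).ncard = 90 ∧ (MulAction.orbit ↥(MulAction.stabilizer Cfsg.M24 S) X₂).ncard = 240 ∧ (MulAction.orbit ↥(MulAction.stabilizer Cfsg.M24 S) X₃).ncard = 1440 ∧ Cfsg.sextets = {S} ∪ MulAction.orbit ↥(MulAction.stabilizer Cfsg.M24 S) X₁ ∪ MulAction.orbit ↥(MulAction.stabilizer Cfsg.M24 S) X₂ ∪ MulAction.orbit ↥(MulAction.stabilizer Cfsg.M24 S) X₃ ∧ IsCoatom (MulAction.stabilizer Cfsg.M24 S) := by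
  open Cfsg.Agent.Lib.Helper8 in
  obtain ⟨g, rfl⟩ := exists_smul_sx0 hS
  obtain ⟨r, h1, h2⟩ := (decomp_sx_sx.smul g (sextets_inv g)).orbit_zero hS (by decide)
  refine ⟨r 0, (h1 0 (by simp)).1, r 1, (h1 1 (by simp)).1, r 2, (h1 2 (by simp)).1,
    (h1 0 (by simp)).2, (h1 1 (by simp)).2, (h1 2 (by simp)).2, ?_, coatom_sextet hS⟩
  ext a
  rw [h2]
  simp only [Set.mem_union, Set.mem_singleton_iff, List.length_cons, List.length_nil]
  constructor
  · rintro (h | ⟨l, hl, h⟩)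
    · exact Or.inl (Or.inl (Or.inl h))
    · interval_cases l
      · exact Or.inl (Or.inl (Or.inr h))
      · exact Or.inl (Or.inr h)
      · exact Or.inr h
  · rintro (((h | h) | h) | h)
    · exact Or.inl h
    · exact Or.inr ⟨0, by norm_num, h⟩
    · exact Or.inr ⟨1, by norm_num, h⟩
    · exact Or.inr ⟨2, by norm_num, h⟩

end Cfsg.Agent.S1552
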