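import Cfsg.Statements.S1555
import Cfsg.Agent.Lib.Helper8.Sets

set_option autoImplicit false
open scoped Pointwise
open Cfsg

namespace Cfsg.Agent.S1555

/-- Bottom row of the Leech triangle: an octad is met in a prescribed pair of its points by exactly 16 octads and in a prescribed 4-subset by exactly 4 octads. -/
theorem result (o : Finset Cfsg.GolayPt) (ho : o ∈ Cfsg.octads) (s : Finset Cfsg.GolayPt) (hs : s ⊆ o) : (s.card = 2 → {o' : Finset Cfsg.GolayPt | o' ∈ Cfsg.octads ∧ o ∩ o' = s}.ncard = 16) ∧ (s.card = 4 → {o' : Finset Cfsg.GolayPt | o' ∈ Cfsg.octads ∧ o ∩ o' = s}.ncard = 4) := by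
  open Cfsg.Agent.Lib.Helper8 in
  have key : ∀ (g : Equiv.Perm Cfsg.GolayPt) (b : ℕ), g ∈ Cfsg.M24 → b < 2 ^ 24 →
      g • o = setOf 8536111 → g • s = setOf b →
      {o' : Finset Cfsg.GolayPt | o' ∈ Cfsg.octads ∧ o ∩ o' = s}.ncard =
        cntOct (fun m => Nat.beq (8536111 &&& m) b) := by
    intro g b hg hb hgo hgs
    rw [count_transport g _ (fun t => t ∈ Cfsg.octads ∧ setOf 8536111 ∩ t = setOf b)
      (fun t => by rw [smul_mem_octads_iff hg, ← hgo, ← hgs, smul_inter_eq_iff])]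
    exact ncard_oct _ _ (fun m => by rw [Nat.beq_eq, inter_setOf_eq_iff (by norm_num) hb])
  constructor
  · intro h
    obtain ⟨g, hg, hgo, hgs⟩ := norm_O_set2 ho hs h
    rw [key g _ hg (by norm_num) hgo hgs]
    decide +kernel
  · intro h
    obtain ⟨g, hg, hgo, hgs⟩ := norm_O_set4 ho hs h
    rw [key g _ hg (by norm_num) hgo hgs]
    decide +kernel

end Cfsg.Agent.S1555
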