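import Cfsg.Statements.S1556
import Cfsg.Agent.Lib.Helper8.Pair

set_option autoImplicit false
open scoped Pointwise
open Cfsg

namespace Cfsg.Agent.S1556

/-- Two octads meeting a fixed octad in equally many points are in the same orbit of its stabiliser. -/
theorem result (o o' o'' : Finset Cfsg.GolayPt) (ho : o ∈ Cfsg.octads) (ho' : o' ∈ Cfsg.octads) (ho'' : o'' ∈ Cfsg.octads) (h : (o ∩ o').card = (o ∩ o'').card) : ∃ g : Equiv.Perm Cfsg.GolayPt, g ∈ Cfsg.M24 ∧ g • o = o ∧ g • o' = o'' := by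
  open Cfsg.Agent.Lib.Helper8 in
  obtain ⟨g, hg, hgo⟩ := norm_O ho
  obtain ⟨k, hk, hks, hkL⟩ := pair_trans orbO hg ho'.1 ho''.1 (by
    simp only [List.mem_cons, List.not_mem_nil, or_false, forall_eq_or_imp, forall_eq,
      card_inter_full, Finset.card_smul_finset, card_smul_inter_set hgo]
    exact ⟨ho'.2.trans ho''.2.symm, h⟩)
  exact ⟨k, hk, (inv_conj_iff hgo).mp (hkL.2 _ (by simp)), hks⟩

end Cfsg.Agent.S1556
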