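import Cfsg.Statements.S1559
import Cfsg.Agent.Lib.Helper8.Coatoms

set_option autoImplicit false
open scoped Pointwise
open Cfsg

namespace Cfsg.Agent.S1559

/-- A trio stabiliser has five orbits on the 3795 trios, of sizes 1, 42, 56, 1008, 2688; and the stabiliser is a maximal proper subgroup. -/
theorem result (T : Finset (Finset Cfsg.GolayPt)) (hT : T ∈ Cfsg.trios) : ∃ X₁ ∈ Cfsg.trios, ∃ X₂ ∈ Cfsg.trios, ∃ X₃ ∈ Cfsg.trios, ∃ X₄ ∈ Cfsg.trios, (MulAction.orbit ↥(MulAction.stabilizer Cfsg.M24 T) X₁).ncard = 42 ∧ (MulAction.orbit ↥(MulAction.stabilizer Cfsg.M24 T) X₂).ncard = 56 ∧ (MulAction.orbit ↥(MulAction.stabilizer Cfsg.M24 T) X₃).ncard = 1008 ∧ (MulAction.orbit ↥(MulAction.stabilizer Cfsg.M24 T) X₄).ncard = 2688 ∧ Cfsg.trios = {T} ∪ MulAction.orbit ↥(MulAction.stabilizer Cfsg.M24 T) X₁ ∪ MulAction.orbit ↥(MulAction.stabilizer Cfsg.M24 T) X₂ ∪ MulAction.orbit ↥(MulAction.stabilizer Cfsg.M24 T)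 X₃ ∪ MulAction.orbit ↥(MulAction.stabilizer Cfsg.M24 T) X₄ ∧ IsCoatom (MulAction.stabilizer Cfsg.M24 T) := by
  open Cfsg.Agent.Lib.Helper8 in
  obtain ⟨g, rfl⟩ := exists_smul_tr0 hT
  obtain ⟨r, h1, h2⟩ := (decomp_tr_tr.smul g (trios_inv g)).orbit_zero hT (by decide)
  refine ⟨r 0, (h1 0 (by simp)).1, r 1, (h1 1 (by simp)).1, r 2, (h1 2 (by simp)).1,
    r 3, (h1 3 (by simp)).1,
    (h1 0 (by simp)).2, (h1 1 (by simp)).2, (h1 2 (by simp)).2, (h1 3 (by simp)).2, ?_,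
    coatom_trio hT⟩
  ext a
  rw [h2]
  simp only [Set.mem_union, Set.mem_singleton_iff, List.length_cons, List.length_nil]
  constructor
  · rintro (h | ⟨l, hl, h⟩)
    · exact Or.inl (Or.inl (Or.inl (Or.inl h)))
    · interval_cases l
      · exact Or.inl (Or.inl (Or.inl (Or.inr h)))
      · exact Or.inl (Or.inl (Or.inr h))
      · exact Or.inl (Or.inr h)
      · exact Or.inr h
  · rintro ((((h | h) | h) | h) | h)
    · exact Or.inl h
    · exact Or.inr ⟨0, by norm_num, h⟩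
    · exact Or.inr ⟨1, by norm_num, h⟩
    · exact Or.inr ⟨2, by norm_num, h⟩
    · exact Or.inr ⟨3, by norm_num, h⟩

end Cfsg.Agent.S1559
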