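import Cfsg.Statements.S1560
import Cfsg.Agent.Lib.Helper8.Pair

set_option autoImplicit false
open scoped Pointwise
open Cfsg

namespace Cfsg.Agent.S1560

/-- Intersection numbers of dodecads: a dodecad meets every other dodecad in 0, 4, 6 or 8 points, meeting 495 of them in 4 points, 1584 in 6 points and 495 in 8 points. -/
theorem result (d : Finset Cfsg.GolayPt) (hd : d ∈ Cfsg.dodecads) : (∀ d' ∈ Cfsg.dodecads, d' ≠ d → (d ∩ d').card = 0 ∨ (d ∩ d').card = 4 ∨ (d ∩ d').card = 6 ∨ (d ∩ d').card = 8) ∧ {d' : Finset Cfsg.GolayPt | d' ∈ Cfsg.dodecads ∧ (d ∩ d').card = 4}.ncard = 495 ∧ {d' : Finset Cfsg.GolayPt | d' ∈ Cfsg.dodecads ∧ (d ∩ d').card = 6}.ncard = 1584 ∧ {d' : Finset Cfsg.GolayPt | d' ∈ Cfsg.dodecads ∧ (d ∩ d').card = 8}.ncard = 495 := by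
  open Cfsg.Agent.Lib.Helper8 in
  refine ⟨?_, ?_⟩
  · intro d' hd' hne
    have h1 := card_of_mem_supports (symmDiff_mem_supports hd.1 hd'.1)
    have h3 := card_symmDiff_add d d'
    rw [hd.2, hd'.2] at h3
    have h4 : (symmDiff d d').card ≠ 0 := by
      intro h
      rw [Finset.card_eq_zero] at h
      exact hne (symmDiff_eq_bot.mp h).symm
    omega
  · obtain ⟨g, hg, hgo⟩ := norm_D hd
    have tr : ∀ n, {d' : Finset Cfsg.GolayPt | d' ∈ Cfsg.dodecads ∧ (d ∩ d').card = n}.ncard =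
        cntDod (fun m => Nat.beq (popF (340831 &&& m)) n) := by
      intro n
      rw [count_transport g _ (fun s => s ∈ Cfsg.dodecads ∧ (setOf 340831 ∩ s).card = n)
        (fun s => by rw [smul_mem_dodecads_iff hg, ← hgo, card_smul_inter])]
      exact ncard_dod _ _ (fun m => by rw [Nat.beq_eq, card_inter_setOf])
    rw [tr, tr, tr]
    decide +kernel

end Cfsg.Agent.S1560
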