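import Cfsg.Statements.S1561
import Cfsg.Agent.Lib.Helper8.Pair

set_option autoImplicit false
open scoped Pointwise
open Cfsg

namespace Cfsg.Agent.S1561

/-- Two dodecads meeting a fixed dodecad in equally many points lie in one orbit of its stabiliser. -/
theorem result (d d' d'' : Finset Cfsg.GolayPt) (hd : d ∈ Cfsg.dodecads) (hd' : d' ∈ Cfsg.dodecads) (hd'' : d'' ∈ Cfsg.dodecads) (h : (d ∩ d').card = (d ∩ d'').card) : ∃ g : Equiv.Perm Cfsg.GolayPt, g ∈ Cfsg.M24 ∧ g • d = d ∧ g • d' = d'' := by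
  open Cfsg.Agent.Lib.Helper8 in
  obtain ⟨g, hg, hgo⟩ := norm_D hd
  obtain ⟨k, hk, hks, hkL⟩ := pair_trans orbD hg hd'.1 hd''.1 (by
    simp only [List.mem_cons, List.not_mem_nil, or_false, forall_eq_or_imp, forall_eq,
      card_inter_full, Finset.card_smul_finset, card_smul_inter_set hgo]
    exact ⟨hd'.2.trans hd''.2.symm, h⟩)
  exact ⟨k, hk, (inv_conj_iff hgo).mp (hkL.2 _ (by simp)), hks⟩

end Cfsg.Agent.S1561
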