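import Cfsg.Statements.S1562
import Cfsg.Agent.Lib.Helper8.Special

set_option autoImplicit false
open scoped Pointwise
open Cfsg

namespace Cfsg.Agent.S1562

/-- Orbits of a triad stabiliser on the triads disjoint from it: the 210 triads inside a common octad with it form one orbit and the remaining 1120 another. -/
theorem result (T : Finset Cfsg.GolayPt) (hT : T.card = 3) : {U : Finset Cfsg.GolayPt | U.card = 3 ∧ Disjoint T U ∧ (∃ o ∈ Cfsg.octads, T ∪ U ⊆ o)}.ncard = 210 ∧ {U : Finset Cfsg.GolayPt | U.card = 3 ∧ Disjoint T U ∧ ¬ (∃ o ∈ Cfsg.octads, T ∪ U ⊆ o)}.ncard = 1120 ∧ ∀ U U' : Finset Cfsg.GolayPt, U.card = 3 → U'.card = 3 → Disjoint T U → Disjoint T U' → ((∃ o ∈ Cfsg.octads, T ∪ U ⊆ o) ↔ (∃ o ∈ Cfsg.octads, T ∪ U' ⊆ o)) → ∃ g : Equiv.Perm Cfsg.GolayPt, g ∈ Cfsg.M24 ∧ g • T = T ∧ g • U = U' := by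
  open Cfsg.Agent.Lib.Helper8 in
  have k1 := trip_class true 2 (by decide +kernel) (by norm_num) hT
  have k2 := trip_class false 4 (by decide +kernel) (by norm_num) hT
  have e1 : {U : Finset Cfsg.GolayPt | U.card = 3 ∧ Disjoint T U ∧ (∃ o ∈ Cfsg.octads, T ∪ U ⊆ o)} =
      {U : Finset Cfsg.GolayPt | U.card = 3 ∧ PTrip true T U} := by
    ext U
    simp [PTrip]
  have e2 : {U : Finset Cfsg.GolayPt | U.card = 3 ∧ Disjoint T U ∧ ¬ (∃ o ∈ Cfsg.octads, T ∪ U ⊆ o)} =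
      {U : Finset Cfsg.GolayPt | U.card = 3 ∧ PTrip false T U} := by
    ext U
    simp [PTrip]
  refine ⟨by rw [e1]; exact k1.1, by rw [e2]; exact k2.1, ?_⟩
  intro U U' hU hU' hd hd' hiff
  by_cases hs : ∃ o ∈ Cfsg.octads, T ∪ U ⊆ o
  · obtain ⟨h, hh, e⟩ := k1.2 U U' hU ⟨hd, by simp [hs]⟩ hU' ⟨hd', by simp [hiff.mp hs]⟩
    exact ⟨h.1, h.2, hh, e⟩
  · have hs' : ¬ ∃ o ∈ Cfsg.octads, T ∪ U' ⊆ o := fun h' => hs (hiff.mpr h')
    obtain ⟨h, hh, e⟩ := k2.2 U U' hU ⟨hd, iff_of_false hs (by simp)⟩ hU'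
      ⟨hd', iff_of_false hs' (by simp)⟩
    exact ⟨h.1, h.2, hh, e⟩

end Cfsg.Agent.S1562
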