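import Cfsg.Statements.S1568
import Cfsg.Agent.Lib.Helper8.Leech5

set_option autoImplicit false
open scoped Pointwise
open Cfsg

namespace Cfsg.Agent.S1568

/-- Shape census of the lattice vectors of sum of squares 48 (customary norm 6): the four families (2^12, 0^12), (±3^3, ±1^21), (±4, ±2^8, 0^15) and (±5, ±1^23) have 5275648, 8290304, 3108864 and 98304 members. -/
theorem result : {x : Cfsg.GolayPt → ℤ | x ∈ Cfsg.leechLattice ∧ Cfsg.sqNorm x = 48 ∧ ∀ i, x i = 0 ∨ x i = 2 ∨ x i = -2}.ncard = 5275648 ∧ {x : Cfsg.GolayPt → ℤ | x ∈ Cfsg.leechLattice ∧ Cfsg.sqNorm x = 48 ∧ ∃ i j k, i ≠ j ∧ j ≠ k ∧ i ≠ k ∧ |x i| = 3 ∧ |x j| = 3 ∧ |x k| = 3}.ncard = 8290304 ∧ {x : Cfsg.GolayPt → ℤ | x ∈ Cfsg.leechLattice ∧ Cfsg.sqNorm x = 48 ∧ ∃ i, |x i| = 4}.ncard = 3108864 ∧ {x : Cfsg.GolayPt → ℤ | x ∈ Cfsg.leechLattice ∧ Cfsg.sqNorm x = 48 ∧ ∃ i, |x i| = 5}.ncard = 98304 := by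
  open Cfsg.Agent.Lib.Helper8 in
  refine ⟨?_, ?_, ?_, ?_⟩
  · rw [← cnt48a, ← ncard_leech_norm [0, 2, -2] (by decide) (by decide) 48]
    congr 1
    ext x
    simp only [Set.mem_ofPred_eq]
    constructor
    · rintro ⟨h1, h2, h3⟩
      refine ⟨h1, fun i => ?_, by rw [sqNorm_eq_nrm] at h2; exact_mod_cast h2⟩
      rcases h3 i with h | h | h <;> rw [h] <;> decide
    · rintro ⟨h1, h2, h3⟩
      refine ⟨h1, by rw [sqNorm_eq_nrm, h3]; norm_num, fun i => ?_⟩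
      have := h2 i
      simpa using this
  · rw [← cnt48b, ← ncard_leech_norm [1, -1, 3, -3] (by decide) (by decide) 48]
    congr 1
    ext x
    simp only [Set.mem_ofPred_eq]
    constructor
    · rintro ⟨h1, h2, h3⟩
      exact ⟨h1, (three_threes h1 h2).mp h3, by rw [sqNorm_eq_nrm] at h2; exact_mod_cast h2⟩
    · rintro ⟨h1, h2, h3⟩
      have hn : sqNorm x = 48 := by rw [sqNorm_eq_nrm, h3]; norm_num
      exact ⟨h1, hn, (three_threes h1 hn).mpr h2⟩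
  · have h := ncard_exists 48 (by norm_num) [-8, -7, -6, -5, -3, -2, -1, 0, 1, 2, 3, 5, 6, 7, 8]
      (by decide) (by decide) (fun v => |v| = 4) (by decide)
    rw [cnt48, cnt48c] at h
    exact_mod_cast h
  · have h := ncard_exists 48 (by norm_num) [-8, -7, -6, -4, -3, -2, -1, 0, 1, 2, 3, 4, 6, 7, 8]
      (by decide) (by decide) (fun v => |v| = 5) (by decide)
    rw [cnt48, cnt48d] at h
    exact_mod_cast h

end Cfsg.Agent.S1568
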