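import Cfsg.Statements.S1587


set_option autoImplicit false
open scoped Pointwise
open Matrix
open Cfsg

namespace Cfsg.Agent.S1587

/-- First step of the characterisation of the rank-24 lattice: in an even lattice without roots, norm-8 vectors congruent modulo 2 are equal, opposite or orthogonal. -/
theorem result (B : Matrix (Fin 24) (Fin 24) ℤ) (hsymm : B.IsSymm) (hpos : ∀ x : Fin 24 → ℤ, x ≠ 0 → 0 < x ⬝ᵥ (B *ᵥ x)) (heven : ∀ x : Fin 24 → ℤ, (2 : ℤ) ∣ x ⬝ᵥ (B *ᵥ x)) (h2 : ∀ x : Fin 24 → ℤ, x ⬝ᵥ (B *ᵥ x) ≠ 2) (x y : Fin 24 → ℤ) (hx : x ⬝ᵥ (B *ᵥ x) = 8) (hy : y ⬝ᵥ (B *ᵥ y) = 8) (hc : ∀ i, (2 : ℤ) ∣ (x - y) i) : y = x ∨ y = -x ∨ x ⬝ᵥ (B *ᵥ y) = 0 := by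
  -- write x = y + 2 z
  have hz : ∃ z : Fin 24 → ℤ, x = y + (2 : ℤ) • z := by
    choose z hz using hc
    refine ⟨z, ?_⟩
    funext i
    have := hz i
    simp only [Pi.sub_apply] at this
    simp only [Pi.add_apply, Pi.smul_apply, smul_eq_mul]
    linarith
  obtain ⟨z, rfl⟩ := hz
  have hsym : ∀ a b : Fin 24 → ℤ, a ⬝ᵥ (B *ᵥ b) = b ⬝ᵥ (B *ᵥ a) := by
    intro a b
    rw [Matrix.dotProduct_mulVec, ← Matrix.mulVec_transpose, hsymm.eq, dotProduct_comm]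
  set q : ℤ := z ⬝ᵥ (B *ᵥ z) with hq
  set r : ℤ := z ⬝ᵥ (B *ᵥ y) with hr
  have hyz : y ⬝ᵥ (B *ᵥ z) = r := hsym y z
  have e1 : (y + (2 : ℤ) • z) ⬝ᵥ (B *ᵥ (y + (2 : ℤ) • z)) = 8 + 4 * r + 4 * q := by
    rw [Matrix.mulVec_add, Matrix.mulVec_smul, add_dotProduct, dotProduct_add, dotProduct_add,
      smul_dotProduct, smul_dotProduct, dotProduct_smul, dotProduct_smul, hy, hyz, ← hr, ← hq]
    simp only [smul_eq_mul]
    ring
  have hrq : r = -q := by
    rw [e1] at hx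
    linarith
  have e2 : (y + (2 : ℤ) • z) ⬝ᵥ (B *ᵥ y) = 8 - 2 * q := by
    rw [add_dotProduct, smul_dotProduct, hy, ← hr, hrq]
    simp only [smul_eq_mul]
    ring
  have e3 : (y + z) ⬝ᵥ (B *ᵥ (y + z)) = 8 - q := by
    rw [Matrix.mulVec_add, add_dotProduct, dotProduct_add, dotProduct_add, hy, hyz, ← hr, ← hq, hrq]
    ring
  have big : ∀ v : Fin 24 → ℤ, v ≠ 0 → 4 ≤ v ⬝ᵥ (B *ᵥ v) := by
    intro v hv
    have h1 := hpos v hv
    obtain ⟨k, hk⟩ := heven v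
    have h3 := h2 v
    omega
  by_cases hz0 : z = 0
  · left
    rw [hz0]; simp
  · by_cases hz1 : y + z = 0
    · right; left
      have : z = -y := by
        have := eq_neg_of_add_eq_zero_right hz1
        exact this
      rw [this]
      funext i
      simp only [Pi.add_apply, Pi.smul_apply, Pi.neg_apply, smul_eq_mul]
      ring
    · right; right
      have h4 := big z hz0
      have h5 := big (y + z) hz1
      rw [e3] at h5
      rw [← hq] at h4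
      rw [e2]
      linarith

end Cfsg.Agent.S1587
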