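import Cfsg.Statements.S1591
import Mathlib

set_option autoImplicit false
open Cfsg

namespace Cfsg.Agent.S1591

theorem sum3 (f : ZMod 3 → ZMod 3) : ∑ r : ZMod 3, f r = f 0 + f 1 + f 2 :=
  Fin.sum_univ_three f

theorem tmem (a b : ZMod 3) :
    (a • ![0, 1, 1, 1] + b • ![1, 0, 1, 2] : Fin 4 → ZMod 3) ∈ Cfsg.tetracode :=
  Submodule.add_mem _ (Submodule.smul_mem _ _ (Submodule.subset_span (by simp)))
    (Submodule.smul_mem _ _ (Submodule.subset_span (by simp)))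

theorem key (x : Cfsg.ArrayPt → ZMod 3) (s : ZMod 3)
    (hs' : ∀ t ∈ Cfsg.tetracode, ∑ i : Fin 4, x (i, t i) = s) (a b : ZMod 3) :
    x (0, b) + x (1, a) + x (2, a + b) + x (3, a + b * 2) = s := by
  have := hs' _ (tmem a b)
  simpa [Fin.sum_univ_four] using this

theorem col (x : Cfsg.ArrayPt → ZMod 3) (s : ZMod 3)
    (hs : ∀ i : Fin 4, ∑ r : ZMod 3, x (i, r) = -s) (i : Fin 4) :
    x (i, 0) + x (i, 1) + x (i, 2) = -s := by
  rw [← hs i, sum3]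


/-- Any two words of the length-12 ternary code have dot product zero. -/
theorem result (x y : Cfsg.ArrayPt → ZMod 3) (hx : x ∈ Cfsg.ternaryGolayCode) (hy : y ∈ Cfsg.ternaryGolayCode) : ∑ p, x p * y p = 0 := by
  obtain ⟨s, hs, hs'⟩ := hx
  obtain ⟨s2, hs2, hs2'⟩ := hy
  have hxc0 : x (0, 0) + x (0, 1) + x (0, 2) = -s := col x s hs 0
  have hxc1 : x (1, 0) + x (1, 1) + x (1, 2) = -s := col x s hs 1
  have hxc2 : x (2, 0) + x (2, 1) + x (2, 2) = -s := col x s hs 2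
  have hxc3 : x (3, 0) + x (3, 1) + x (3, 2) = -s := col x s hs 3
  have hxt00 : x (0, 0) + x (1, 0) + x (2, 0) + x (3, 0) = s := key x s hs' 0 0
  have hxt01 : x (0, 1) + x (1, 0) + x (2, 1) + x (3, 2) = s := key x s hs' 0 1
  have hxt02 : x (0, 2) + x (1, 0) + x (2, 2) + x (3, 1) = s := key x s hs' 0 2
  have hxt10 : x (0, 0) + x (1, 1) + x (2, 1) + x (3, 1) = s := key x s hs' 1 0
  have hxt11 : x (0, 1) + x (1, 1) + x (2, 2) + x (3, 0) = s := key x s hs' 1 1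
  have hxt12 : x (0, 2) + x (1, 1) + x (2, 0) + x (3, 2) = s := key x s hs' 1 2
  have hxt20 : x (0, 0) + x (1, 2) + x (2, 2) + x (3, 2) = s := key x s hs' 2 0
  have hxt21 : x (0, 1) + x (1, 2) + x (2, 0) + x (3, 1) = s := key x s hs' 2 1
  have hxt22 : x (0, 2) + x (1, 2) + x (2, 1) + x (3, 0) = s := key x s hs' 2 2
  have hyc0 : y (0, 0) + y (0, 1) + y (0, 2) = -s2 := col y s2 hs2 0
  have hyc1 : y (1, 0) + y (1, 1) + y (1, 2) = -s2 := col y s2 hs2 1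
  have hyc2 : y (2, 0) + y (2, 1) + y (2, 2) = -s2 := col y s2 hs2 2
  have hyc3 : y (3, 0) + y (3, 1) + y (3, 2) = -s2 := col y s2 hs2 3
  have hyt00 : y (0, 0) + y (1, 0) + y (2, 0) + y (3, 0) = s2 := key y s2 hs2' 0 0
  have hyt01 : y (0, 1) + y (1, 0) + y (2, 1) + y (3, 2) = s2 := key y s2 hs2' 0 1
  have hyt02 : y (0, 2) + y (1, 0) + y (2, 2) + y (3, 1) = s2 := key y s2 hs2' 0 2
  have hyt10 : y (0, 0) + y (1, 1) + y (2, 1) + y (3, 1) = s2 := key y s2 hs2' 1 0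
  have hyt11 : y (0, 1) + y (1, 1) + y (2, 2) + y (3, 0) = s2 := key y s2 hs2' 1 1
  have hyt12 : y (0, 2) + y (1, 1) + y (2, 0) + y (3, 2) = s2 := key y s2 hs2' 1 2
  have hyt20 : y (0, 0) + y (1, 2) + y (2, 2) + y (3, 2) = s2 := key y s2 hs2' 2 0
  have hyt21 : y (0, 1) + y (1, 2) + y (2, 0) + y (3, 1) = s2 := key y s2 hs2' 2 1
  have hyt22 : y (0, 2) + y (1, 2) + y (2, 1) + y (3, 0) = s2 := key y s2 hs2' 2 2
  have h3 : (3 : ZMod 3) = 0 := by decide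
  rw [Fintype.sum_prod_type, Fin.sum_univ_four]
  simp only [sum3]
  linear_combination ((-1) * y (1, 2) + (-1) * y (2, 1) + 1 * y (3, 0) + (-1) * y (3, 1) + (-1) * y (3, 2)) * hxc0 + (1 * x (0, 2)) * hyc0 + (1 * y (1, 2)) * hxc1 + (1 * x (0, 0) + 1 * x (0, 1) + 1 * x (0, 2) + (-1) * x (1, 0) + (-1) * x (1, 1)) * hyc1 + (1 * y (2, 2)) * hxc2 + (1 * x (0, 0) + (-1) * x (0, 1) + 1 * x (1, 0) + (-1) * x (1, 1) + 1 * x (2, 0)) * hyc2 + (1 * y (2, 1) + (-1) * y (2, 2) + (-1) * y (3, 1) + (-1) * y (3, 2)) * hxc3 + ((-1) * x (0, 0) + 1 * x (0, 1) + (-1) * x (0, 2) + (-1) * x (1, 1) + (-1) * x (2, 0)) * hyc3 + ((-1) * y (2, 1) + 1 * y (2, 2) + 1 * y (3, 0) + 1 * y (3, 1) + 1 * y (3, 2)) * hxt00 + ((-1) * x (0, 0) + 1 * x (0, 1) + (-1) * x (1, 0) + 1 * x (1, 1)) * hyt00 + ((-1) * y (2, 1) + 1 * y (2, 2) + 1 * y (3, 1) + (-1) * y (3, 2)) * hxt01 + (1 * x (0, 1) + (-1)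 * x (0, 2)) * hyt01 + ((-1) * y (2, 1) + 1 * y (2, 2) + (-1) * y (3, 1) + 1 * y (3, 2)) * hxt10 + ((-1) * x (0, 0) + (-1) * x (0, 1) + (-1) * x (0, 2) + 1 * x (1, 0) + (-1) * x (1, 1)) * hyt10 + ((1) * x (0, 0) * y (0, 0) + (1) * x (0, 0) * y (2, 1) + (-1) * x (0, 0) * y (2, 2) + (1) * x (0, 0) * y (3, 1) + (-1) * x (0, 0) * s2 + (-1) * x (0, 1) * y (1, 0) + (1) * x (0, 1) * y (2, 1) + (-1) * x (0, 1) * y (3, 0) + (1) * x (0, 2) * y (2, 1) + (1) * x (0, 2) * y (3, 1) + (1) * x (0, 2) * y (3, 2) + (-1) * x (0, 2) * s2 + (1) * x (1, 0) * y (1, 0) + (-1) * x (1, 0) * y (2, 2) + (-1) * x (1, 0) * y (3, 1) + (1) * x (1, 1) * y (1, 1) + (1) * x (1, 1) * y (2, 1) + (1) * x (1, 1) * y (3, 1) + (1) * x (1, 1) * s2 + (-1) * x (2, 0) * y (2, 2) + (1) * x (2, 1) * y (2, 1) + (-1) * x (2, 1) * y (2, 2) + (1) * x (3, 1) * y (3, 1) + (1) * x (3, 2) * y (3, 2) + (-1) * s *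 y (2, 1) + (1) * s * y (2, 2) + (1) * s * y (3, 1) + (1) * s * y (3, 2)) * h3
end Cfsg.Agent.S1591
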