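import Cfsg.Statements.S1593
import Mathlib
import Cfsg.Agent.S1591

set_option autoImplicit false
open Cfsg

namespace Cfsg.Agent.S1593

theorem mem_of (x : Cfsg.ArrayPt → ZMod 3) (s : ZMod 3)
    (h1 : ∀ i : Fin 4, ∑ r : ZMod 3, x (i, r) = -s)
    (h2 : ∀ a b : ZMod 3,
      ∑ i : Fin 4, x (i, (a • ![0, 1, 1, 1] + b • ![1, 0, 1, 2] : Fin 4 → ZMod 3) i) = s) :
    x ∈ Cfsg.ternaryGolayCode := by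
  refine ⟨s, h1, fun t ht => ?_⟩
  obtain ⟨a, b, rfl⟩ := Submodule.mem_span_pair.1 ht
  exact h2 a b


/-- The only sign changes preserving the length-12 ternary code are the identity and negation of all coordinates. -/
theorem result (c : Cfsg.ArrayPt → (ZMod 3)ˣ) (h : (∀ x ∈ Cfsg.ternaryGolayCode, Cfsg.monomialMap 1 c x ∈ Cfsg.ternaryGolayCode)) : (∀ p, c p = 1) ∨ (∀ p, c p = -1) := by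
  have hb0 : (fun p : Cfsg.ArrayPt => (![![0, 0, 0], ![0, 0, 0], ![1, 1, 1], ![2, 2, 2]] : Fin 4 → Fin 3 → ZMod 3) p.1 p.2) ∈ Cfsg.ternaryGolayCode := mem_of _ 0 (by decide) (by decide)
  obtain ⟨s0, hc0, ht0⟩ := h _ hb0
  have hb1 : (fun p : Cfsg.ArrayPt => (![![0, 0, 0], ![0, 1, 2], ![0, 1, 2], ![0, 1, 2]] : Fin 4 → Fin 3 → ZMod 3) p.1 p.2) ∈ Cfsg.ternaryGolayCode := mem_of _ 0 (by decide) (by decide)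
  obtain ⟨s1, hc1, ht1⟩ := h _ hb1
  have hb2 : (fun p : Cfsg.ArrayPt => (![![0, 0, 0], ![1, 0, 2], ![0, 2, 1], ![2, 1, 0]] : Fin 4 → Fin 3 → ZMod 3) p.1 p.2) ∈ Cfsg.ternaryGolayCode := mem_of _ 0 (by decide) (by decide)
  obtain ⟨s2, hc2, ht2⟩ := h _ hb2
  have hb3 : (fun p : Cfsg.ArrayPt => (![![0, 0, 1], ![0, 0, 1], ![0, 1, 0], ![2, 1, 1]] : Fin 4 → Fin 3 → ZMod 3) p.1 p.2) ∈ Cfsg.ternaryGolayCode := mem_of _ 2 (by decide) (by decide)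
  obtain ⟨s3, hc3, ht3⟩ := h _ hb3
  have hb4 : (fun p : Cfsg.ArrayPt => (![![0, 1, 0], ![0, 0, 1], ![0, 2, 2], ![2, 0, 2]] : Fin 4 → Fin 3 → ZMod 3) p.1 p.2) ∈ Cfsg.ternaryGolayCode := mem_of _ 2 (by decide) (by decide)
  obtain ⟨s4, hc4, ht4⟩ := h _ hb4
  have hb5 : (fun p : Cfsg.ArrayPt => (![![1, 0, 0], ![0, 0, 1], ![0, 0, 1], ![1, 1, 2]] : Fin 4 → Fin 3 → ZMod 3) p.1 p.2) ∈ Cfsg.ternaryGolayCode := mem_of _ 2 (by decide) (by decide)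
  obtain ⟨s5, hc5, ht5⟩ := h _ hb5
  have e0c0 : (↑(c (0, 0)) : ZMod 3) * 0 + (↑(c (0, 1)) : ZMod 3) * 0 + (↑(c (0, 2)) : ZMod 3) * 0 = -s0 := Cfsg.Agent.S1591.col _ s0 hc0 0
  have e0c1 : (↑(c (1, 0)) : ZMod 3) * 0 + (↑(c (1, 1)) : ZMod 3) * 0 + (↑(c (1, 2)) : ZMod 3) * 0 = -s0 := Cfsg.Agent.S1591.col _ s0 hc0 1
  have e0c2 : (↑(c (2, 0)) : ZMod 3) * 1 + (↑(c (2, 1)) : ZMod 3) * 1 + (↑(c (2, 2)) : ZMod 3) * 1 = -s0 := Cfsg.Agent.S1591.col _ s0 hc0 2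
  have e0c3 : (↑(c (3, 0)) : ZMod 3) * 2 + (↑(c (3, 1)) : ZMod 3) * 2 + (↑(c (3, 2)) : ZMod 3) * 2 = -s0 := Cfsg.Agent.S1591.col _ s0 hc0 3
  have e0t00 : (↑(c (0, 0)) : ZMod 3) * 0 + (↑(c (1, 0)) : ZMod 3) * 0 + (↑(c (2, 0)) : ZMod 3) * 1 + (↑(c (3, 0)) : ZMod 3) * 2 = s0 := Cfsg.Agent.S1591.key _ s0 ht0 0 0
  have e0t01 : (↑(c (0, 1)) : ZMod 3) * 0 + (↑(c (1, 0)) : ZMod 3) * 0 + (↑(c (2, 1)) : ZMod 3) * 1 + (↑(c (3, 2)) : ZMod 3) * 2 = s0 := Cfsg.Agent.S1591.key _ s0 ht0 0 1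
  have e0t02 : (↑(c (0, 2)) : ZMod 3) * 0 + (↑(c (1, 0)) : ZMod 3) * 0 + (↑(c (2, 2)) : ZMod 3) * 1 + (↑(c (3, 1)) : ZMod 3) * 2 = s0 := Cfsg.Agent.S1591.key _ s0 ht0 0 2
  have e0t10 : (↑(c (0, 0)) : ZMod 3) * 0 + (↑(c (1, 1)) : ZMod 3) * 0 + (↑(c (2, 1)) : ZMod 3) * 1 + (↑(c (3, 1)) : ZMod 3) * 2 = s0 := Cfsg.Agent.S1591.key _ s0 ht0 1 0
  have e0t11 : (↑(c (0, 1)) : ZMod 3) * 0 + (↑(c (1, 1)) : ZMod 3) * 0 + (↑(c (2, 2)) : ZMod 3) * 1 + (↑(c (3, 0)) : ZMod 3) * 2 = s0 := Cfsg.Agent.S1591.key _ s0 ht0 1 1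
  have e0t12 : (↑(c (0, 2)) : ZMod 3) * 0 + (↑(c (1, 1)) : ZMod 3) * 0 + (↑(c (2, 0)) : ZMod 3) * 1 + (↑(c (3, 2)) : ZMod 3) * 2 = s0 := Cfsg.Agent.S1591.key _ s0 ht0 1 2
  have e0t20 : (↑(c (0, 0)) : ZMod 3) * 0 + (↑(c (1, 2)) : ZMod 3) * 0 + (↑(c (2, 2)) : ZMod 3) * 1 + (↑(c (3, 2)) : ZMod 3) * 2 = s0 := Cfsg.Agent.S1591.key _ s0 ht0 2 0
  have e0t21 : (↑(c (0, 1)) : ZMod 3) * 0 + (↑(c (1, 2)) : ZMod 3) * 0 + (↑(c (2, 0)) : ZMod 3) * 1 + (↑(c (3, 1)) : ZMod 3) * 2 = s0 := Cfsg.Agent.S1591.key _ s0 ht0 2 1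
  have e0t22 : (↑(c (0, 2)) : ZMod 3) * 0 + (↑(c (1, 2)) : ZMod 3) * 0 + (↑(c (2, 1)) : ZMod 3) * 1 + (↑(c (3, 0)) : ZMod 3) * 2 = s0 := Cfsg.Agent.S1591.key _ s0 ht0 2 2
  have e1c0 : (↑(c (0, 0)) : ZMod 3) * 0 + (↑(c (0, 1)) : ZMod 3) * 0 + (↑(c (0, 2)) : ZMod 3) * 0 = -s1 := Cfsg.Agent.S1591.col _ s1 hc1 0
  have e1c1 : (↑(c (1, 0)) : ZMod 3) * 0 + (↑(c (1, 1)) : ZMod 3) * 1 + (↑(c (1, 2)) : ZMod 3) * 2 = -s1 := Cfsg.Agent.S1591.col _ s1 hc1 1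
  have e1c2 : (↑(c (2, 0)) : ZMod 3) * 0 + (↑(c (2, 1)) : ZMod 3) * 1 + (↑(c (2, 2)) : ZMod 3) * 2 = -s1 := Cfsg.Agent.S1591.col _ s1 hc1 2
  have e1c3 : (↑(c (3, 0)) : ZMod 3) * 0 + (↑(c (3, 1)) : ZMod 3) * 1 + (↑(c (3, 2)) : ZMod 3) * 2 = -s1 := Cfsg.Agent.S1591.col _ s1 hc1 3
  have e1t00 : (↑(c (0, 0)) : ZMod 3) * 0 + (↑(c (1, 0)) : ZMod 3) * 0 + (↑(c (2, 0)) : ZMod 3) * 0 + (↑(c (3, 0)) : ZMod 3) * 0 = s1 := Cfsg.Agent.S1591.key _ s1 ht1 0 0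
  have e1t01 : (↑(c (0, 1)) : ZMod 3) * 0 + (↑(c (1, 0)) : ZMod 3) * 0 + (↑(c (2, 1)) : ZMod 3) * 1 + (↑(c (3, 2)) : ZMod 3) * 2 = s1 := Cfsg.Agent.S1591.key _ s1 ht1 0 1
  have e1t02 : (↑(c (0, 2)) : ZMod 3) * 0 + (↑(c (1, 0)) : ZMod 3) * 0 + (↑(c (2, 2)) : ZMod 3) * 2 + (↑(c (3, 1)) : ZMod 3) * 1 = s1 := Cfsg.Agent.S1591.key _ s1 ht1 0 2
  have e1t10 : (↑(c (0, 0)) : ZMod 3) * 0 + (↑(c (1, 1)) : ZMod 3) * 1 + (↑(c (2, 1)) : ZMod 3) * 1 + (↑(c (3, 1)) : ZMod 3) * 1 = s1 := Cfsg.Agent.S1591.key _ s1 ht1 1 0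
  have e1t11 : (↑(c (0, 1)) : ZMod 3) * 0 + (↑(c (1, 1)) : ZMod 3) * 1 + (↑(c (2, 2)) : ZMod 3) * 2 + (↑(c (3, 0)) : ZMod 3) * 0 = s1 := Cfsg.Agent.S1591.key _ s1 ht1 1 1
  have e1t12 : (↑(c (0, 2)) : ZMod 3) * 0 + (↑(c (1, 1)) : ZMod 3) * 1 + (↑(c (2, 0)) : ZMod 3) * 0 + (↑(c (3, 2)) : ZMod 3) * 2 = s1 := Cfsg.Agent.S1591.key _ s1 ht1 1 2
  have e1t20 : (↑(c (0, 0)) : ZMod 3) * 0 + (↑(c (1, 2)) : ZMod 3) * 2 + (↑(c (2, 2)) : ZMod 3) * 2 + (↑(c (3, 2)) : ZMod 3) * 2 = s1 := Cfsg.Agent.S1591.key _ s1 ht1 2 0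
  have e1t21 : (↑(c (0, 1)) : ZMod 3) * 0 + (↑(c (1, 2)) : ZMod 3) * 2 + (↑(c (2, 0)) : ZMod 3) * 0 + (↑(c (3, 1)) : ZMod 3) * 1 = s1 := Cfsg.Agent.S1591.key _ s1 ht1 2 1
  have e1t22 : (↑(c (0, 2)) : ZMod 3) * 0 + (↑(c (1, 2)) : ZMod 3) * 2 + (↑(c (2, 1)) : ZMod 3) * 1 + (↑(c (3, 0)) : ZMod 3) * 0 = s1 := Cfsg.Agent.S1591.key _ s1 ht1 2 2
  have e2c0 : (↑(c (0, 0)) : ZMod 3) * 0 + (↑(c (0, 1)) : ZMod 3) * 0 + (↑(c (0, 2)) : ZMod 3) * 0 = -s2 := Cfsg.Agent.S1591.col _ s2 hc2 0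
  have e2c1 : (↑(c (1, 0)) : ZMod 3) * 1 + (↑(c (1, 1)) : ZMod 3) * 0 + (↑(c (1, 2)) : ZMod 3) * 2 = -s2 := Cfsg.Agent.S1591.col _ s2 hc2 1
  have e2c2 : (↑(c (2, 0)) : ZMod 3) * 0 + (↑(c (2, 1)) : ZMod 3) * 2 + (↑(c (2, 2)) : ZMod 3) * 1 = -s2 := Cfsg.Agent.S1591.col _ s2 hc2 2
  have e2c3 : (↑(c (3, 0)) : ZMod 3) * 2 + (↑(c (3, 1)) : ZMod 3) * 1 + (↑(c (3, 2)) : ZMod 3) * 0 = -s2 := Cfsg.Agent.S1591.col _ s2 hc2 3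
  have e2t00 : (↑(c (0, 0)) : ZMod 3) * 0 + (↑(c (1, 0)) : ZMod 3) * 1 + (↑(c (2, 0)) : ZMod 3) * 0 + (↑(c (3, 0)) : ZMod 3) * 2 = s2 := Cfsg.Agent.S1591.key _ s2 ht2 0 0
  have e2t01 : (↑(c (0, 1)) : ZMod 3) * 0 + (↑(c (1, 0)) : ZMod 3) * 1 + (↑(c (2, 1)) : ZMod 3) * 2 + (↑(c (3, 2)) : ZMod 3) * 0 = s2 := Cfsg.Agent.S1591.key _ s2 ht2 0 1
  have e2t02 : (↑(c (0, 2)) : ZMod 3) * 0 + (↑(c (1, 0)) : ZMod 3) * 1 + (↑(c (2, 2)) : ZMod 3) * 1 + (↑(c (3, 1)) : ZMod 3) * 1 = s2 := Cfsg.Agent.S1591.key _ s2 ht2 0 2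
  have e2t10 : (↑(c (0, 0)) : ZMod 3) * 0 + (↑(c (1, 1)) : ZMod 3) * 0 + (↑(c (2, 1)) : ZMod 3) * 2 + (↑(c (3, 1)) : ZMod 3) * 1 = s2 := Cfsg.Agent.S1591.key _ s2 ht2 1 0
  have e2t11 : (↑(c (0, 1)) : ZMod 3) * 0 + (↑(c (1, 1)) : ZMod 3) * 0 + (↑(c (2, 2)) : ZMod 3) * 1 + (↑(c (3, 0)) : ZMod 3) * 2 = s2 := Cfsg.Agent.S1591.key _ s2 ht2 1 1
  have e2t12 : (↑(c (0, 2)) : ZMod 3) * 0 + (↑(c (1, 1)) : ZMod 3) * 0 + (↑(c (2, 0)) : ZMod 3) * 0 + (↑(c (3, 2)) : ZMod 3) * 0 = s2 := Cfsg.Agent.S1591.key _ s2 ht2 1 2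
  have e2t20 : (↑(c (0, 0)) : ZMod 3) * 0 + (↑(c (1, 2)) : ZMod 3) * 2 + (↑(c (2, 2)) : ZMod 3) * 1 + (↑(c (3, 2)) : ZMod 3) * 0 = s2 := Cfsg.Agent.S1591.key _ s2 ht2 2 0
  have e2t21 : (↑(c (0, 1)) : ZMod 3) * 0 + (↑(c (1, 2)) : ZMod 3) * 2 + (↑(c (2, 0)) : ZMod 3) * 0 + (↑(c (3, 1)) : ZMod 3) * 1 = s2 := Cfsg.Agent.S1591.key _ s2 ht2 2 1
  have e2t22 : (↑(c (0, 2)) : ZMod 3) * 0 + (↑(c (1, 2)) : ZMod 3) * 2 + (↑(c (2, 1)) : ZMod 3) * 2 + (↑(c (3, 0)) : ZMod 3) * 2 = s2 := Cfsg.Agent.S1591.key _ s2 ht2 2 2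
  have e3c0 : (↑(c (0, 0)) : ZMod 3) * 0 + (↑(c (0, 1)) : ZMod 3) * 0 + (↑(c (0, 2)) : ZMod 3) * 1 = -s3 := Cfsg.Agent.S1591.col _ s3 hc3 0
  have e3c1 : (↑(c (1, 0)) : ZMod 3) * 0 + (↑(c (1, 1)) : ZMod 3) * 0 + (↑(c (1, 2)) : ZMod 3) * 1 = -s3 := Cfsg.Agent.S1591.col _ s3 hc3 1
  have e3c2 : (↑(c (2, 0)) : ZMod 3) * 0 + (↑(c (2, 1)) : ZMod 3) * 1 + (↑(c (2, 2)) : ZMod 3) * 0 = -s3 := Cfsg.Agent.S1591.col _ s3 hc3 2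
  have e3c3 : (↑(c (3, 0)) : ZMod 3) * 2 + (↑(c (3, 1)) : ZMod 3) * 1 + (↑(c (3, 2)) : ZMod 3) * 1 = -s3 := Cfsg.Agent.S1591.col _ s3 hc3 3
  have e3t00 : (↑(c (0, 0)) : ZMod 3) * 0 + (↑(c (1, 0)) : ZMod 3) * 0 + (↑(c (2, 0)) : ZMod 3) * 0 + (↑(c (3, 0)) : ZMod 3) * 2 = s3 := Cfsg.Agent.S1591.key _ s3 ht3 0 0
  have e3t01 : (↑(c (0, 1)) : ZMod 3) * 0 + (↑(c (1, 0)) : ZMod 3) * 0 + (↑(c (2, 1)) : ZMod 3) * 1 + (↑(c (3, 2)) : ZMod 3) * 1 = s3 := Cfsg.Agent.S1591.key _ s3 ht3 0 1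
  have e3t02 : (↑(c (0, 2)) : ZMod 3) * 1 + (↑(c (1, 0)) : ZMod 3) * 0 + (↑(c (2, 2)) : ZMod 3) * 0 + (↑(c (3, 1)) : ZMod 3) * 1 = s3 := Cfsg.Agent.S1591.key _ s3 ht3 0 2
  have e3t10 : (↑(c (0, 0)) : ZMod 3) * 0 + (↑(c (1, 1)) : ZMod 3) * 0 + (↑(c (2, 1)) : ZMod 3) * 1 + (↑(c (3, 1)) : ZMod 3) * 1 = s3 := Cfsg.Agent.S1591.key _ s3 ht3 1 0
  have e3t11 : (↑(c (0, 1)) : ZMod 3) * 0 + (↑(c (1, 1)) : ZMod 3) * 0 + (↑(c (2, 2)) : ZMod 3) * 0 + (↑(c (3, 0)) : ZMod 3) * 2 = s3 := Cfsg.Agent.S1591.key _ s3 ht3 1 1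
  have e3t12 : (↑(c (0, 2)) : ZMod 3) * 1 + (↑(c (1, 1)) : ZMod 3) * 0 + (↑(c (2, 0)) : ZMod 3) * 0 + (↑(c (3, 2)) : ZMod 3) * 1 = s3 := Cfsg.Agent.S1591.key _ s3 ht3 1 2
  have e3t20 : (↑(c (0, 0)) : ZMod 3) * 0 + (↑(c (1, 2)) : ZMod 3) * 1 + (↑(c (2, 2)) : ZMod 3) * 0 + (↑(c (3, 2)) : ZMod 3) * 1 = s3 := Cfsg.Agent.S1591.key _ s3 ht3 2 0
  have e3t21 : (↑(c (0, 1)) : ZMod 3) * 0 + (↑(c (1, 2)) : ZMod 3) * 1 + (↑(c (2, 0)) : ZMod 3) * 0 + (↑(c (3, 1)) : ZMod 3) * 1 = s3 := Cfsg.Agent.S1591.key _ s3 ht3 2 1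
  have e3t22 : (↑(c (0, 2)) : ZMod 3) * 1 + (↑(c (1, 2)) : ZMod 3) * 1 + (↑(c (2, 1)) : ZMod 3) * 1 + (↑(c (3, 0)) : ZMod 3) * 2 = s3 := Cfsg.Agent.S1591.key _ s3 ht3 2 2
  have e4c0 : (↑(c (0, 0)) : ZMod 3) * 0 + (↑(c (0, 1)) : ZMod 3) * 1 + (↑(c (0, 2)) : ZMod 3) * 0 = -s4 := Cfsg.Agent.S1591.col _ s4 hc4 0
  have e4c1 : (↑(c (1, 0)) : ZMod 3) * 0 + (↑(c (1, 1)) : ZMod 3) * 0 + (↑(c (1, 2)) : ZMod 3) * 1 = -s4 := Cfsg.Agent.S1591.col _ s4 hc4 1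
  have e4c2 : (↑(c (2, 0)) : ZMod 3) * 0 + (↑(c (2, 1)) : ZMod 3) * 2 + (↑(c (2, 2)) : ZMod 3) * 2 = -s4 := Cfsg.Agent.S1591.col _ s4 hc4 2
  have e4c3 : (↑(c (3, 0)) : ZMod 3) * 2 + (↑(c (3, 1)) : ZMod 3) * 0 + (↑(c (3, 2)) : ZMod 3) * 2 = -s4 := Cfsg.Agent.S1591.col _ s4 hc4 3
  have e4t00 : (↑(c (0, 0)) : ZMod 3) * 0 + (↑(c (1, 0)) : ZMod 3) * 0 + (↑(c (2, 0)) : ZMod 3) * 0 + (↑(c (3, 0)) : ZMod 3) * 2 = s4 := Cfsg.Agent.S1591.key _ s4 ht4 0 0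
  have e4t01 : (↑(c (0, 1)) : ZMod 3) * 1 + (↑(c (1, 0)) : ZMod 3) * 0 + (↑(c (2, 1)) : ZMod 3) * 2 + (↑(c (3, 2)) : ZMod 3) * 2 = s4 := Cfsg.Agent.S1591.key _ s4 ht4 0 1
  have e4t02 : (↑(c (0, 2)) : ZMod 3) * 0 + (↑(c (1, 0)) : ZMod 3) * 0 + (↑(c (2, 2)) : ZMod 3) * 2 + (↑(c (3, 1)) : ZMod 3) * 0 = s4 := Cfsg.Agent.S1591.key _ s4 ht4 0 2
  have e4t10 : (↑(c (0, 0)) : ZMod 3) * 0 + (↑(c (1, 1)) : ZMod 3) * 0 + (↑(c (2, 1)) : ZMod 3) * 2 + (↑(c (3, 1)) : ZMod 3) * 0 = s4 := Cfsg.Agent.S1591.key _ s4 ht4 1 0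
  have e4t11 : (↑(c (0, 1)) : ZMod 3) * 1 + (↑(c (1, 1)) : ZMod 3) * 0 + (↑(c (2, 2)) : ZMod 3) * 2 + (↑(c (3, 0)) : ZMod 3) * 2 = s4 := Cfsg.Agent.S1591.key _ s4 ht4 1 1
  have e4t12 : (↑(c (0, 2)) : ZMod 3) * 0 + (↑(c (1, 1)) : ZMod 3) * 0 + (↑(c (2, 0)) : ZMod 3) * 0 + (↑(c (3, 2)) : ZMod 3) * 2 = s4 := Cfsg.Agent.S1591.key _ s4 ht4 1 2
  have e4t20 : (↑(c (0, 0)) : ZMod 3) * 0 + (↑(c (1, 2)) : ZMod 3) * 1 + (↑(c (2, 2)) : ZMod 3) * 2 + (↑(c (3, 2)) : ZMod 3) * 2 = s4 := Cfsg.Agent.S1591.key _ s4 ht4 2 0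
  have e4t21 : (↑(c (0, 1)) : ZMod 3) * 1 + (↑(c (1, 2)) : ZMod 3) * 1 + (↑(c (2, 0)) : ZMod 3) * 0 + (↑(c (3, 1)) : ZMod 3) * 0 = s4 := Cfsg.Agent.S1591.key _ s4 ht4 2 1
  have e4t22 : (↑(c (0, 2)) : ZMod 3) * 0 + (↑(c (1, 2)) : ZMod 3) * 1 + (↑(c (2, 1)) : ZMod 3) * 2 + (↑(c (3, 0)) : ZMod 3) * 2 = s4 := Cfsg.Agent.S1591.key _ s4 ht4 2 2
  have e5c0 : (↑(c (0, 0)) : ZMod 3) * 1 + (↑(c (0, 1)) : ZMod 3) * 0 + (↑(c (0, 2)) : ZMod 3) * 0 = -s5 := Cfsg.Agent.S1591.col _ s5 hc5 0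
  have e5c1 : (↑(c (1, 0)) : ZMod 3) * 0 + (↑(c (1, 1)) : ZMod 3) * 0 + (↑(c (1, 2)) : ZMod 3) * 1 = -s5 := Cfsg.Agent.S1591.col _ s5 hc5 1
  have e5c2 : (↑(c (2, 0)) : ZMod 3) * 0 + (↑(c (2, 1)) : ZMod 3) * 0 + (↑(c (2, 2)) : ZMod 3) * 1 = -s5 := Cfsg.Agent.S1591.col _ s5 hc5 2
  have e5c3 : (↑(c (3, 0)) : ZMod 3) * 1 + (↑(c (3, 1)) : ZMod 3) * 1 + (↑(c (3, 2)) : ZMod 3) * 2 = -s5 := Cfsg.Agent.S1591.col _ s5 hc5 3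
  have e5t00 : (↑(c (0, 0)) : ZMod 3) * 1 + (↑(c (1, 0)) : ZMod 3) * 0 + (↑(c (2, 0)) : ZMod 3) * 0 + (↑(c (3, 0)) : ZMod 3) * 1 = s5 := Cfsg.Agent.S1591.key _ s5 ht5 0 0
  have e5t01 : (↑(c (0, 1)) : ZMod 3) * 0 + (↑(c (1, 0)) : ZMod 3) * 0 + (↑(c (2, 1)) : ZMod 3) * 0 + (↑(c (3, 2)) : ZMod 3) * 2 = s5 := Cfsg.Agent.S1591.key _ s5 ht5 0 1
  have e5t02 : (↑(c (0, 2)) : ZMod 3) * 0 + (↑(c (1, 0)) : ZMod 3) * 0 + (↑(c (2, 2)) : ZMod 3) * 1 + (↑(c (3, 1)) : ZMod 3) * 1 = s5 := Cfsg.Agent.S1591.key _ s5 ht5 0 2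
  have e5t10 : (↑(c (0, 0)) : ZMod 3) * 1 + (↑(c (1, 1)) : ZMod 3) * 0 + (↑(c (2, 1)) : ZMod 3) * 0 + (↑(c (3, 1)) : ZMod 3) * 1 = s5 := Cfsg.Agent.S1591.key _ s5 ht5 1 0
  have e5t11 : (↑(c (0, 1)) : ZMod 3) * 0 + (↑(c (1, 1)) : ZMod 3) * 0 + (↑(c (2, 2)) : ZMod 3) * 1 + (↑(c (3, 0)) : ZMod 3) * 1 = s5 := Cfsg.Agent.S1591.key _ s5 ht5 1 1
  have e5t12 : (↑(c (0, 2)) : ZMod 3) * 0 + (↑(c (1, 1)) : ZMod 3) * 0 + (↑(c (2, 0)) : ZMod 3) * 0 + (↑(c (3, 2)) : ZMod 3) * 2 = s5 := Cfsg.Agent.S1591.key _ s5 ht5 1 2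
  have e5t20 : (↑(c (0, 0)) : ZMod 3) * 1 + (↑(c (1, 2)) : ZMod 3) * 1 + (↑(c (2, 2)) : ZMod 3) * 1 + (↑(c (3, 2)) : ZMod 3) * 2 = s5 := Cfsg.Agent.S1591.key _ s5 ht5 2 0
  have e5t21 : (↑(c (0, 1)) : ZMod 3) * 0 + (↑(c (1, 2)) : ZMod 3) * 1 + (↑(c (2, 0)) : ZMod 3) * 0 + (↑(c (3, 1)) : ZMod 3) * 1 = s5 := Cfsg.Agent.S1591.key _ s5 ht5 2 1
  have e5t22 : (↑(c (0, 2)) : ZMod 3) * 0 + (↑(c (1, 2)) : ZMod 3) * 1 + (↑(c (2, 1)) : ZMod 3) * 0 + (↑(c (3, 0)) : ZMod 3) * 1 = s5 := Cfsg.Agent.S1591.key _ s5 ht5 2 2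
  have h3 : (3 : ZMod 3) = 0 := by decide
  have g1 : (↑(c (0, 1)) : ZMod 3) = (↑(c (0, 0)) : ZMod 3) := by
    linear_combination (1) * e4c0 + (-1) * e4c1 + (-1) * e5c0 + (1) * e5c1
  have g2 : (↑(c (0, 2)) : ZMod 3) = (↑(c (0, 0)) : ZMod 3) := by
    linear_combination (1) * e3c0 + (-1) * e3c1 + (-1) * e5c0 + (1) * e5c1
  have g3 : (↑(c (1, 0)) : ZMod 3) = (↑(c (0, 0)) : ZMod 3) := by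
    linear_combination (-1) * e2c0 + (1) * e2c1 + (-1) * e5c0 + (1) * e5c1 + ((-1) * (↑(c (1, 2)) : ZMod 3)) * h3
  have g4 : (↑(c (1, 1)) : ZMod 3) = (↑(c (0, 0)) : ZMod 3) := by
    linear_combination (-1) * e1c0 + (1) * e1c1 + (-1) * e5c0 + (1) * e5c1 + ((-1) * (↑(c (1, 2)) : ZMod 3)) * h3
  have g5 : (↑(c (1, 2)) : ZMod 3) = (↑(c (0, 0)) : ZMod 3) := by
    linear_combination (-1) * e5c0 + (1) * e5c1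
  have g6 : (↑(c (2, 0)) : ZMod 3) = (↑(c (0, 0)) : ZMod 3) := by
    linear_combination (-1) * e0c3 + (1) * e0t00 + (1) * e0t01 + (1) * e1c0 + (1) * e1c1 + (-1) * e1t10 + (-1) * e5c0 + (1) * e5c1 + ((-1) * (↑(c (1, 2)) : ZMod 3) + (1) * (↑(c (3, 1)) : ZMod 3) + (1) * s0 + (-1) * s1) * h3
  have g7 : (↑(c (2, 1)) : ZMod 3) = (↑(c (0, 0)) : ZMod 3) := by
    linear_combination (-1) * e0c0 + (-1) * e0t10 + (1) * e1c0 + (1) * e1c1 + (-1) * e1t10 + (-1) * e5c0 + (1) * e5c1 + ((-1) * (↑(c (1, 2)) : ZMod 3) + (1) * (↑(c (2, 1)) : ZMod 3) + (1) * (↑(c (3, 1)) : ZMod 3) + (-1) * s1) * h3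
  have g8 : (↑(c (2, 2)) : ZMod 3) = (↑(c (0, 0)) : ZMod 3) := by
    linear_combination (1) * e0c2 + (1) * e0c3 + (-1) * e0t00 + (-1) * e0t01 + (1) * e0t10 + (1) * e1c0 + (1) * e1c1 + (-1) * e1t10 + (-1) * e5c0 + (1) * e5c1 + ((-1) * (↑(c (1, 2)) : ZMod 3) + (-1) * (↑(c (3, 1)) : ZMod 3) + (-1) * s0 + (-1) * s1) * h3
  have g9 : (↑(c (3, 0)) : ZMod 3) = (↑(c (0, 0)) : ZMod 3) := by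
    linear_combination (-1) * e0c0 + (-1) * e0c3 + (1) * e0t01 + (1) * e1c0 + (1) * e1c1 + (-1) * e1t10 + (-1) * e5c0 + (1) * e5c1 + ((-1) * (↑(c (1, 2)) : ZMod 3) + (1) * (↑(c (3, 0)) : ZMod 3) + (1) * (↑(c (3, 1)) : ZMod 3) + (1) * s0 + (-1) * s1) * h3
  have g10 : (↑(c (3, 1)) : ZMod 3) = (↑(c (0, 0)) : ZMod 3) := by
    linear_combination (1) * e0c0 + (1) * e0t10 + (1) * e1c0 + (1) * e1c1 + (-1) * e1t10 + (-1) * e5c0 + (1) * e5c1 + ((-1) * (↑(c (1, 2)) : ZMod 3) + (-1) * s1) * h3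
  have g11 : (↑(c (3, 2)) : ZMod 3) = (↑(c (0, 0)) : ZMod 3) := by
    linear_combination (1) * e0c0 + (-1) * e0t01 + (-1) * e0t10 + (1) * e1c0 + (1) * e1c1 + (-1) * e1t10 + (-1) * e5c0 + (1) * e5c1 + ((-1) * (↑(c (1, 2)) : ZMod 3) + (1) * (↑(c (2, 1)) : ZMod 3) + (1) * (↑(c (3, 1)) : ZMod 3) + (1) * (↑(c (3, 2)) : ZMod 3) + (-1) * s0 + (-1) * s1) * h3
  have hi : ∀ i : Fin 4, i = 0 ∨ i = 1 ∨ i = 2 ∨ i = 3 := by decide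
  have hr : ∀ r : ZMod 3, r = 0 ∨ r = 1 ∨ r = 2 := by decide
  have hall : ∀ p : Cfsg.ArrayPt, (↑(c p) : ZMod 3) = (↑(c (0, 0)) : ZMod 3) := by
    rintro ⟨i, r⟩
    rcases hi i with rfl | rfl | rfl | rfl <;> rcases hr r with rfl | rfl | rfl
    · rfl
    · exact g1
    · exact g2
    · exact g3
    · exact g4
    · exact g5
    · exact g6
    · exact g7
    · exact g8
    · exact g9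
    · exact g10
    · exact g11
  have hu : ∀ u : (ZMod 3)ˣ, u = 1 ∨ u = -1 := by decide
  rcases hu (c (0, 0)) with h0 | h0
  · left; intro p; exact Units.ext (by rw [hall p, h0])
  · right; intro p; exact Units.ext (by rw [hall p, h0])
end Cfsg.Agent.S1593
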