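import Cfsg.Statements.S1590
import Mathlib
import Cfsg.Agent.S1591
import Cfsg.Agent.S1593

set_option autoImplicit false
open Cfsg

namespace Cfsg.Agent.S1590

def B0 : Cfsg.ArrayPt → ZMod 3 := fun p => (![![1, 0, 0], ![0, 0, 1], ![0, 0, 1], ![1, 1, 2]] : Fin 4 → Fin 3 → ZMod 3) p.1 p.2

theorem hB0 : B0 ∈ Cfsg.ternaryGolayCode := Cfsg.Agent.S1593.mem_of _ 2 (by decide) (by decide)

def B1 : Cfsg.ArrayPt → ZMod 3 := fun p => (![![0, 1, 0], ![0, 0, 1], ![0, 2, 2], ![2, 0, 2]] : Fin 4 → Fin 3 → ZMod 3) p.1 p.2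

theorem hB1 : B1 ∈ Cfsg.ternaryGolayCode := Cfsg.Agent.S1593.mem_of _ 2 (by decide) (by decide)

def B2 : Cfsg.ArrayPt → ZMod 3 := fun p => (![![0, 0, 1], ![0, 0, 1], ![0, 1, 0], ![2, 1, 1]] : Fin 4 → Fin 3 → ZMod 3) p.1 p.2

theorem hB2 : B2 ∈ Cfsg.ternaryGolayCode := Cfsg.Agent.S1593.mem_of _ 2 (by decide) (by decide)

def B3 : Cfsg.ArrayPt → ZMod 3 := fun p => (![![0, 0, 0], ![1, 0, 2], ![0, 2, 1], ![2, 1, 0]] : Fin 4 → Fin 3 → ZMod 3) p.1 p.2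

theorem hB3 : B3 ∈ Cfsg.ternaryGolayCode := Cfsg.Agent.S1593.mem_of _ 0 (by decide) (by decide)

def B4 : Cfsg.ArrayPt → ZMod 3 := fun p => (![![0, 0, 0], ![0, 1, 2], ![0, 1, 2], ![0, 1, 2]] : Fin 4 → Fin 3 → ZMod 3) p.1 p.2

theorem hB4 : B4 ∈ Cfsg.ternaryGolayCode := Cfsg.Agent.S1593.mem_of _ 0 (by decide) (by decide)

def B5 : Cfsg.ArrayPt → ZMod 3 := fun p => (![![0, 0, 0], ![0, 0, 0], ![1, 1, 1], ![2, 2, 2]] : Fin 4 → Fin 3 → ZMod 3) p.1 p.2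

theorem hB5 : B5 ∈ Cfsg.ternaryGolayCode := Cfsg.Agent.S1593.mem_of _ 0 (by decide) (by decide)

abbrev A6 : Type := ZMod 3 × ZMod 3 × ZMod 3 × ZMod 3 × ZMod 3 × ZMod 3

def enc (a : A6) : Cfsg.ArrayPt → ZMod 3 := a.1 • B0 + a.2.1 • B1 + a.2.2.1 • B2 + a.2.2.2.1 • B3 + a.2.2.2.2.1 • B4 + a.2.2.2.2.2 • B5

def dec (x : Cfsg.ArrayPt → ZMod 3) : A6 := (x (0, 0), x (0, 1), x (0, 2), x (1, 0), x (1, 1), x (2, 0))

theorem enc_mem (a : A6) : enc a ∈ Cfsg.ternaryGolayCode := by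
  unfold enc
  exact Submodule.add_mem _ (Submodule.add_mem _ (Submodule.add_mem _ (Submodule.add_mem _ (Submodule.add_mem _ (Submodule.smul_mem _ _ hB0) (Submodule.smul_mem _ _ hB1)) (Submodule.smul_mem _ _ hB2)) (Submodule.smul_mem _ _ hB3)) (Submodule.smul_mem _ _ hB4)) (Submodule.smul_mem _ _ hB5)

theorem dec_enc : ∀ a : A6, dec (enc a) = a := by decide +kernel

theorem enc_inj : Function.Injective enc := Function.LeftInverse.injective dec_enc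

theorem enc_dec (x : Cfsg.ArrayPt → ZMod 3) (hx : x ∈ Cfsg.ternaryGolayCode) : enc (dec x) = x := by
  obtain ⟨s, hs, hs'⟩ := hx
  have hc0 : x (0, 0) + x (0, 1) + x (0, 2) = -s := Cfsg.Agent.S1591.col x s hs 0
  have hc1 : x (1, 0) + x (1, 1) + x (1, 2) = -s := Cfsg.Agent.S1591.col x s hs 1
  have hc2 : x (2, 0) + x (2, 1) + x (2, 2) = -s := Cfsg.Agent.S1591.col x s hs 2
  have hc3 : x (3, 0) + x (3, 1) + x (3, 2) = -s := Cfsg.Agent.S1591.col x s hs 3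
  have ht00 : x (0, 0) + x (1, 0) + x (2, 0) + x (3, 0) = s := Cfsg.Agent.S1591.key x s hs' 0 0
  have ht01 : x (0, 1) + x (1, 0) + x (2, 1) + x (3, 2) = s := Cfsg.Agent.S1591.key x s hs' 0 1
  have ht02 : x (0, 2) + x (1, 0) + x (2, 2) + x (3, 1) = s := Cfsg.Agent.S1591.key x s hs' 0 2
  have ht10 : x (0, 0) + x (1, 1) + x (2, 1) + x (3, 1) = s := Cfsg.Agent.S1591.key x s hs' 1 0
  have ht11 : x (0, 1) + x (1, 1) + x (2, 2) + x (3, 0) = s := Cfsg.Agent.S1591.key x s hs' 1 1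
  have ht12 : x (0, 2) + x (1, 1) + x (2, 0) + x (3, 2) = s := Cfsg.Agent.S1591.key x s hs' 1 2
  have ht20 : x (0, 0) + x (1, 2) + x (2, 2) + x (3, 2) = s := Cfsg.Agent.S1591.key x s hs' 2 0
  have ht21 : x (0, 1) + x (1, 2) + x (2, 0) + x (3, 1) = s := Cfsg.Agent.S1591.key x s hs' 2 1
  have ht22 : x (0, 2) + x (1, 2) + x (2, 1) + x (3, 0) = s := Cfsg.Agent.S1591.key x s hs' 2 2
  have h3 : (3 : ZMod 3) = 0 := by decide
  have hi : ∀ i : Fin 4, i = 0 ∨ i = 1 ∨ i = 2 ∨ i = 3 := by decide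
  have hr : ∀ r : ZMod 3, r = 0 ∨ r = 1 ∨ r = 2 := by decide
  funext ⟨i, r⟩
  rcases hi i with rfl | rfl | rfl | rfl <;> rcases hr r with rfl | rfl | rfl
  · show x (0, 0) * 1 + x (0, 1) * 0 + x (0, 2) * 0 + x (1, 0) * 0 + x (1, 1) * 0 + x (2, 0) * 0 = x (0, 0)
    linear_combination 0 * h3
  · show x (0, 0) * 0 + x (0, 1) * 1 + x (0, 2) * 0 + x (1, 0) * 0 + x (1, 1) * 0 + x (2, 0) * 0 = x (0, 1)
    linear_combination 0 * h3
  · show x (0, 0) * 0 + x (0, 1) * 0 + x (0, 2) * 1 + x (1, 0) * 0 + x (1, 1) * 0 + x (2, 0) * 0 = x (0, 2)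
    linear_combination 0 * h3
  · show x (0, 0) * 0 + x (0, 1) * 0 + x (0, 2) * 0 + x (1, 0) * 1 + x (1, 1) * 0 + x (2, 0) * 0 = x (1, 0)
    linear_combination 0 * h3
  · show x (0, 0) * 0 + x (0, 1) * 0 + x (0, 2) * 0 + x (1, 0) * 0 + x (1, 1) * 1 + x (2, 0) * 0 = x (1, 1)
    linear_combination 0 * h3
  · show x (0, 0) * 1 + x (0, 1) * 1 + x (0, 2) * 1 + x (1, 0) * 2 + x (1, 1) * 2 + x (2, 0) * 0 = x (1, 2)
    linear_combination (1) * hc0 + (-1) * hc1 + ((1) * x (1, 0) + (1) * x (1, 1)) * h3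
  · show x (0, 0) * 0 + x (0, 1) * 0 + x (0, 2) * 0 + x (1, 0) * 0 + x (1, 1) * 0 + x (2, 0) * 1 = x (2, 0)
    linear_combination 0 * h3
  · show x (0, 0) * 0 + x (0, 1) * 2 + x (0, 2) * 1 + x (1, 0) * 2 + x (1, 1) * 1 + x (2, 0) * 1 = x (2, 1)
    linear_combination (1) * hc0 + (-1) * hc3 + (1) * ht00 + (1) * ht01 + (1) * ht10 + ((-1) * x (0, 0) + (-1) * x (2, 1) + (1) * s) * h3
  · show x (0, 0) * 1 + x (0, 1) * 2 + x (0, 2) * 0 + x (1, 0) * 1 + x (1, 1) * 2 + x (2, 0) * 1 = x (2, 2)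
    linear_combination (-1) * hc2 + (1) * hc3 + (-1) * ht00 + (-1) * ht01 + (-1) * ht10 + ((1) * x (0, 0) + (1) * x (0, 1) + (1) * x (1, 0) + (1) * x (1, 1) + (1) * x (2, 0) + (1) * x (2, 1) + (-1) * s) * h3
  · show x (0, 0) * 1 + x (0, 1) * 2 + x (0, 2) * 2 + x (1, 0) * 2 + x (1, 1) * 0 + x (2, 0) * 2 = x (3, 0)
    linear_combination (-1) * hc0 + (-1) * ht00 + ((1) * x (0, 0) + (1) * x (0, 1) + (1) * x (0, 2) + (1) * x (1, 0) + (1) * x (2, 0)) * h3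
  · show x (0, 0) * 1 + x (0, 1) * 0 + x (0, 2) * 1 + x (1, 0) * 1 + x (1, 1) * 1 + x (2, 0) * 2 = x (3, 1)
    linear_combination (1) * hc0 + (1) * hc3 + (-1) * ht00 + (-1) * ht01 + (1) * ht10 + ((1) * x (1, 0) + (1) * x (2, 0) + (-1) * x (3, 1) + (-1) * s) * h3
  · show x (0, 0) * 2 + x (0, 1) * 2 + x (0, 2) * 1 + x (1, 0) * 0 + x (1, 1) * 2 + x (2, 0) * 2 = x (3, 2)
    linear_combination (1) * hc0 + (1) * hc3 + (-1) * ht00 + (1) * ht01 + (-1) * ht10 + ((1) * x (0, 0) + (1) * x (1, 1) + (1) * x (2, 0) + (-1) * x (3, 2) + (-1) * s) * h3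


theorem cnt (w n : ℕ)
    (h : (Finset.univ.filter (fun a : A6 => (Cfsg.ternarySupport (enc a)).card = w)).card = n) :
    {x : Cfsg.ArrayPt → ZMod 3 | x ∈ Cfsg.ternaryGolayCode ∧ (Cfsg.ternarySupport x).card = w}.ncard = n := by
  have hset : {x : Cfsg.ArrayPt → ZMod 3 | x ∈ Cfsg.ternaryGolayCode ∧ (Cfsg.ternarySupport x).card = w}
      = enc '' {a : A6 | (Cfsg.ternarySupport (enc a)).card = w} := by
    ext x
    constructor
    · rintro ⟨hx, hw⟩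
      refine ⟨dec x, ?_, enc_dec x hx⟩
      show (Cfsg.ternarySupport (enc (dec x))).card = w
      rw [enc_dec x hx]; exact hw
    · rintro ⟨a, ha, rfl⟩
      exact ⟨enc_mem a, ha⟩
  rw [hset, Set.ncard_image_of_injective _ enc_inj, ← h, ← Set.ncard_coe_finset]
  congr 1
  ext a
  simp

theorem c6 : (Finset.univ.filter (fun a : A6 => (Cfsg.ternarySupport (enc a)).card = 6)).card = 264 := by
  decide +kernel
theorem c9 : (Finset.univ.filter (fun a : A6 => (Cfsg.ternarySupport (enc a)).card = 9)).card = 440 := by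
  decide +kernel
theorem c12 : (Finset.univ.filter (fun a : A6 => (Cfsg.ternarySupport (enc a)).card = 12)).card = 24 := by
  decide +kernel
theorem cw : ∀ a : A6, enc a = 0 ∨ (Cfsg.ternarySupport (enc a)).card = 6 ∨ (Cfsg.ternarySupport (enc a)).card = 9 ∨ (Cfsg.ternarySupport (enc a)).card = 12 := by
  decide +kernel
theorem cardC : Nat.card ↥Cfsg.ternaryGolayCode = 729 := by
  have e : A6 ≃ ↥Cfsg.ternaryGolayCode := Equiv.ofBijective (fun a => ⟨enc a, enc_mem a⟩)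
    ⟨fun a b hab => enc_inj (congrArg Subtype.val hab), fun x => ⟨dec x.1, Subtype.ext (enc_dec x.1 x.2)⟩⟩
  rw [← Nat.card_congr e, Nat.card_eq_fintype_card]
  decide +kernel


/-- The length-12 ternary code has 729 words with weight distribution 0^1 6^264 9^440 12^24. -/
theorem result : Nat.card ↥Cfsg.ternaryGolayCode = 729 ∧ (∀ x ∈ Cfsg.ternaryGolayCode, x ≠ 0 → (Cfsg.ternarySupport x).card = 6 ∨ (Cfsg.ternarySupport x).card = 9 ∨ (Cfsg.ternarySupport x).card = 12) ∧ {x : Cfsg.ArrayPt → ZMod 3 | x ∈ Cfsg.ternaryGolayCode ∧ (Cfsg.ternarySupport x).card = 6}.ncard = 264 ∧ {x : Cfsg.ArrayPt → ZMod 3 | x ∈ Cfsg.ternaryGolayCode ∧ (Cfsg.ternarySupport x).card = 9}.ncard = 440 ∧ {x : Cfsg.ArrayPt → ZMod 3 | x ∈ Cfsg.ternaryGolayCode ∧ (Cfsg.ternarySupport x).card = 12}.ncard = 24 := by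
  refine ⟨cardC, ?_, cnt 6 264 c6, cnt 9 440 c9, cnt 12 24 c12⟩
  intro x hx hx0
  have := cw (dec x)
  rw [enc_dec x hx] at this
  exact this.resolve_left hx0
end Cfsg.Agent.S1590
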