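import Cfsg.Statements.S1595
import Cfsg.Agent.Lib.Helper8.Steiner

set_option autoImplicit false
open scoped Pointwise
open Cfsg

namespace Cfsg.Agent.S1595

/-- Leech triangle of S(5, 6, 12): blocks meet in 0, 2, 3 or 4 points, and a block is met exactly in a given 2-, 3- or 4-subset by 3, 2, 3 blocks respectively. -/
theorem result {α : Type*} [Fintype α] [DecidableEq α] (hα : Fintype.card α = 12) {B : Set (Finset α)} (hB : Cfsg.IsSteinerSystem 5 6 B) (b : Finset α) (hb : b ∈ B) : (∀ c ∈ B, c ≠ b → (b ∩ c).card = 0 ∨ (b ∩ c).card = 2 ∨ (b ∩ c).card = 3 ∨ (b ∩ c).card = 4) ∧ ∀ s ⊆ b, (s.card = 2 → {c : Finset α | c ∈ B ∧ b ∩ c = s}.ncard = 3) ∧ (s.card = 3 → {c : Finset α | c ∈ B ∧ b ∩ c = s}.ncard = 2) ∧ (s.card = 4 → {c : Finset α | c ∈ B ∧ b ∩ c = s}.ncard = 3) := by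
  open Cfsg.Agent.Lib.Helper8.St in
  refine ⟨fun c hc hcb => ?_, fun s hs => ⟨fun h2 => ?_, fun h3 => ?_, fun h4 => ?_⟩⟩
  · have h := inter_pos hB hb hc (by norm_num)
    rw [hα] at h
    rcases k12 _ (inter_le hB hb c) h with h' | h' | h' | h' | h'
    · exact Or.inl h'
    · exact Or.inr (Or.inl h')
    · exact Or.inr (Or.inr (Or.inl h'))
    · exact Or.inr (Or.inr (Or.inr h'))
    · exact absurd (eq_of_inter_card hB hb hc h').symm hcb
  · rw [exact_inter hB hb (by norm_num) hs, hα, h2]; exact k12'.2.1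
  · rw [exact_inter hB hb (by norm_num) hs, hα, h3]; exact k12'.2.2.1
  · rw [exact_inter hB hb (by norm_num) hs, hα, h4]; exact k12'.2.2.2

end Cfsg.Agent.S1595
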