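import Cfsg.Statements.S1600
import Cfsg.Agent.Lib.Helper8.M12

set_option autoImplicit false
open scoped Pointwise
open Cfsg

namespace Cfsg.Agent.S1600

/-- The pointwise stabiliser of three points of a dodecad inside the dodecad stabiliser (order 72) is transitive on the complementary dodecad. -/
theorem result (d : Finset Cfsg.GolayPt) (hd : d ∈ Cfsg.dodecads) (p q r : Cfsg.GolayPt) (hp : p ∈ d) (hq : q ∈ d) (hr : r ∈ d) (hpq : p ≠ q) (hpr : p ≠ r) (hqr : q ≠ r) : Nat.card ↥(MulAction.stabilizer Cfsg.M24 d ⊓ MulAction.stabilizer Cfsg.M24 p ⊓ MulAction.stabilizer Cfsg.M24 q ⊓ MulAction.stabilizer Cfsg.M24 r) = 72 ∧ ∀ x ∉ d, ∀ y ∉ d, ∃ g ∈ (MulAction.stabilizer Cfsg.M24 d ⊓ MulAction.stabilizer Cfsg.M24 p ⊓ MulAction.stabilizer Cfsg.M24 q ⊓ MulAction.stabilizer Cfsg.M24 r), ((g : ↥Cfsg.M24) : Equiv.Perm Cfsg.GolayPt) x = y := by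
  open Cfsg.Agent.Lib.Helper8 in
  obtain ⟨w, hw, hwd, wp, wq, wr⟩ := normD3 hd hp hq hr hpq hpr hqr
  have hmem : ∀ k : Cfsg.M24, k ∈ (MulAction.stabilizer Cfsg.M24 d ⊓ MulAction.stabilizer Cfsg.M24 p ⊓
      MulAction.stabilizer Cfsg.M24 q ⊓ MulAction.stabilizer Cfsg.M24 r) ↔
      w * (k : Equiv.Perm Cfsg.GolayPt) * w⁻¹ ∈ GInv [2 ^ 2, 2 ^ 1, 2 ^ 0, 340831] := by
    intro k
    rw [mem_GInv_conj hw]
    simp only [List.mem_cons, List.not_mem_nil, or_false, forall_eq_or_imp, forall_eq,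
      inv_conj_iff hwd, inv_conj_pt_iff (show 0 < 24 by norm_num) wp,
      inv_conj_pt_iff (show 1 < 24 by norm_num) wq, inv_conj_pt_iff (show 2 < 24 by norm_num) wr,
      Subgroup.mem_inf, MulAction.mem_stabilizer_iff, k.2, true_and]
    constructor
    · rintro ⟨⟨⟨h1, h2⟩, h3⟩, h4⟩; exact ⟨h4, h3, h2, h1⟩
    · rintro ⟨h4, h3, h2, h1⟩; exact ⟨⟨⟨h1, h2⟩, h3⟩, h4⟩
  refine ⟨by rw [card_eq_card_GInv _ _ hw hmem, card_D3], ?_⟩
  intro x hx y hy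
  obtain ⟨h, hh, hxy⟩ := level_trans2 m9o (tbC0 _ (idx_lt _) (notMem_D0 hwd hx))
    (tbC0 _ (idx_lt _) (notMem_D0 hwd hy))
  refine ⟨⟨w⁻¹ * h * w, conj_mem hw hh.1⟩, ?_, conj_apply hxy⟩
  rw [hmem]
  have : w * (w⁻¹ * h * w) * w⁻¹ = h := by group
  show w * (w⁻¹ * h * w) * w⁻¹ ∈ _
  rw [this]; exact hh

end Cfsg.Agent.S1600
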