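import Cfsg.Statements.S1604
import Cfsg.Agent.Lib.Helper8.Pair

set_option autoImplicit false
open scoped Pointwise
open Cfsg

namespace Cfsg.Agent.S1604

/-- A hexad stabiliser in the two-point stabiliser has orbits of sizes 1, 16, 60 on the 77 hexads: the 16 hexads disjoint from it and the 60 meeting it in two points. -/
theorem result (p q : Cfsg.GolayPt) (hpq : p ≠ q) (o o' o'' : Finset Cfsg.GolayPt) (ho : o ∈ Cfsg.octads) (ho' : o' ∈ Cfsg.octads) (ho'' : o'' ∈ Cfsg.octads) (hp : p ∈ o ∧ p ∈ o' ∧ p ∈ o'') (hq : q ∈ o ∧ q ∈ o' ∧ q ∈ o'') (h : (o ∩ o').card = (o ∩ o'').card) : {x : Finset Cfsg.GolayPt | x ∈ Cfsg.octads ∧ p ∈ x ∧ q ∈ x ∧ (o ∩ x).card = 2}.ncard = 16 ∧ {x : Finset Cfsg.GolayPt | x ∈ Cfsg.octads ∧ p ∈ x ∧ q ∈ x ∧ (o ∩ x).card = 4}.ncard = 60 ∧ ∃ g : Equiv.Perm Cfsg.GolayPt, g ∈ Cfsg.M24 ∧ g p = p ∧ g q = q ∧ g • o = o ∧ g • o' = o'' := by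
  open Cfsg.Agent.Lib.Helper8 in
  obtain ⟨g, hg, hgp, hgq, hgo⟩ := norm_PQ_code hpq ho.1 O0_mem.1 (ho.2.trans O0_mem.2.symm)
    (iff_of_true' hp.1 ((pt_mem_setOf (by norm_num) _).mpr (by decide)))
    (iff_of_true' hq.1 ((pt_mem_setOf (by norm_num) _).mpr (by decide)))
  have tr : ∀ n, {x : Finset Cfsg.GolayPt | x ∈ Cfsg.octads ∧ p ∈ x ∧ q ∈ x ∧ (o ∩ x).card = n}.ncard =
      cntOct (fun m => m.testBit 23 && (m.testBit 0 && Nat.beq (popF (8536111 &&& m)) n)) := by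
    intro n
    rw [count_transport g _ (fun s => s ∈ Cfsg.octads ∧ pt 23 ∈ s ∧ pt 0 ∈ s ∧
        (setOf 8536111 ∩ s).card = n)
      (fun s => by rw [smul_mem_octads_iff hg, ← hgo, card_smul_inter, ← hgp, apply_mem_smul_iff,
        ← hgq, apply_mem_smul_iff])]
    exact ncard_oct _ _ (fun m => by
      rw [Bool.and_eq_true, Bool.and_eq_true, Nat.beq_eq, card_inter_setOf,
        pt_mem_setOf (by norm_num), pt_mem_setOf (by norm_num)])
  refine ⟨by rw [tr]; decide +kernel, by rw [tr]; decide +kernel, ?_⟩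
  obtain ⟨k, hk, hks, hkL⟩ := pair_trans orbPQOin hg ho'.1 ho''.1 (by
    simp only [List.mem_cons, List.not_mem_nil, or_false, forall_eq_or_imp, forall_eq,
      card_inter_full, Finset.card_smul_finset, card_smul_inter_set hgo,
      card_smul_inter_pt (show 23 < 24 by norm_num) hgp,
      card_smul_inter_pt (show 0 < 24 by norm_num) hgq, hp.2.1, hp.2.2, hq.2.1, hq.2.2, if_true]
    exact ⟨ho'.2.trans ho''.2.symm, trivial, trivial, h⟩)
  exact ⟨k, hk, (inv_conj_pt_iff (by norm_num) hgp).mp (hkL.2 _ (by simp)),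
    (inv_conj_pt_iff (by norm_num) hgq).mp (hkL.2 _ (by simp)),
    (inv_conj_iff hgo).mp (hkL.2 _ (by simp)), hks⟩

end Cfsg.Agent.S1604
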