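import Cfsg.Statements.S1605
import Cfsg.Agent.Lib.Helper8.Pair

set_option autoImplicit false
open scoped Pointwise
open Cfsg

namespace Cfsg.Agent.S1605

/-- The two-point stabiliser acts on the 176 octads through the first point avoiding the second with rank 3 and subdegrees 1, 70, 105 (intersections 8, 2, 4). -/
theorem result (p q : Cfsg.GolayPt) (hpq : p ≠ q) : {x : Finset Cfsg.GolayPt | (x ∈ Cfsg.octads ∧ p ∈ x ∧ q ∉ x)}.ncard = 176 ∧ (∀ o o' : Finset Cfsg.GolayPt, (o ∈ Cfsg.octads ∧ p ∈ o ∧ q ∉ o) → (o' ∈ Cfsg.octads ∧ p ∈ o' ∧ q ∉ o') → ∃ g : Equiv.Perm Cfsg.GolayPt, g ∈ Cfsg.M24 ∧ g p = p ∧ g q = q ∧ g • o = o') ∧ ∀ o : Finset Cfsg.GolayPt, (o ∈ Cfsg.octads ∧ p ∈ o ∧ q ∉ o) → {x : Finset Cfsg.GolayPt | (x ∈ Cfsg.octads ∧ p ∈ x ∧ q ∉ x) ∧ (o ∩ x).card = 2}.ncard = 70 ∧ {x : Finset Cfsg.GolayPt | (x ∈ Cfsg.octads ∧ p ∈ x ∧ q ∉ x) ∧ (o ∩ x).card = 4}.ncard = 105 ∧ ∀ o' o'' : Finset Cfsg.GolayPt, (o' ∈ Cfsg.octads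 ∧ p ∈ o' ∧ q ∉ o') → (o'' ∈ Cfsg.octads ∧ p ∈ o'' ∧ q ∉ o'') → (o ∩ o').card = (o ∩ o'').card → ∃ g : Equiv.Perm Cfsg.GolayPt, g ∈ Cfsg.M24 ∧ g p = p ∧ g q = q ∧ g • o = o ∧ g • o' = o'' := by
  open Cfsg.Agent.Lib.Helper8 in
  refine ⟨?_, ?_, ?_⟩
  · obtain ⟨g, hg, hgp, hgq⟩ := move2 hpq
    rw [count_transport g _ (fun s => s ∈ Cfsg.octads ∧ pt 23 ∈ s ∧ pt 0 ∉ s)
      (fun s => by rw [smul_mem_octads_iff hg, ← hgp, apply_mem_smul_iff,
        ← hgq, apply_mem_smul_iff]),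
      ncard_oct _ (fun m => m.testBit 23 && !m.testBit 0) (fun m => by
      rw [Bool.and_eq_true, pt_mem_setOf (by norm_num), pt_mem_setOf (by norm_num),
        Bool.not_eq_true', Bool.not_eq_true])]
    decide +kernel
  · intro o o' ho ho'
    obtain ⟨g, hg, hgp, hgq⟩ := move2 hpq
    obtain ⟨k, hk, hks, hkL⟩ := pair_trans orbPQ hg ho.1.1 ho'.1.1 (by
      simp only [List.mem_cons, List.not_mem_nil, or_false, forall_eq_or_imp, forall_eq,
        card_inter_full, Finset.card_smul_finset,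
        card_smul_inter_pt (show 23 < 24 by norm_num) hgp,
        card_smul_inter_pt (show 0 < 24 by norm_num) hgq, ho.2.1, ho.2.2, ho'.2.1, ho'.2.2,
        if_true, if_false]
      exact ⟨ho.1.2.trans ho'.1.2.symm, trivial, trivial⟩)
    exact ⟨k, hk, (inv_conj_pt_iff (by norm_num) hgp).mp (hkL.2 _ (by simp)),
      (inv_conj_pt_iff (by norm_num) hgq).mp (hkL.2 _ (by simp)), hks⟩
  · intro o ho
    obtain ⟨g, hg, hgp, hgq, hgo⟩ := norm_PQ_code hpq ho.1.1 O1_mem.1 (ho.1.2.trans O1_mem.2.symm)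
      (iff_of_true' ho.2.1 ((pt_mem_setOf (by norm_num) _).mpr (by decide)))
      (iff_of_false' ho.2.2 (fun h => absurd ((pt_mem_setOf (by norm_num) _).mp h) (by decide)))
    have tr : ∀ n, {x : Finset Cfsg.GolayPt | (x ∈ Cfsg.octads ∧ p ∈ x ∧ q ∉ x) ∧
        (o ∩ x).card = n}.ncard =
        cntOct (fun m => m.testBit 23 && (!m.testBit 0 && Nat.beq (popF (8394986 &&& m)) n)) := by
      intro n
      rw [count_transport g _ (fun s => s ∈ Cfsg.octads ∧ pt 23 ∈ s ∧ pt 0 ∉ s ∧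
          (setOf 8394986 ∩ s).card = n)
        (fun s => by rw [smul_mem_octads_iff hg, ← hgo, card_smul_inter, ← hgp, apply_mem_smul_iff,
          ← hgq, apply_mem_smul_iff, and_assoc, and_assoc])]
      exact ncard_oct _ _ (fun m => by
        rw [Bool.and_eq_true, Bool.and_eq_true, Nat.beq_eq, card_inter_setOf,
          pt_mem_setOf (by norm_num), pt_mem_setOf (by norm_num), Bool.not_eq_true',
          Bool.not_eq_true])
    refine ⟨by rw [tr]; decide +kernel, by rw [tr]; decide +kernel, ?_⟩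
    intro o' o'' ho' ho'' h
    obtain ⟨k, hk, hks, hkL⟩ := pair_trans orbPQOio hg ho'.1.1 ho''.1.1 (by
      simp only [List.mem_cons, List.not_mem_nil, or_false, forall_eq_or_imp, forall_eq,
        card_inter_full, Finset.card_smul_finset, card_smul_inter_set hgo,
        card_smul_inter_pt (show 23 < 24 by norm_num) hgp,
        card_smul_inter_pt (show 0 < 24 by norm_num) hgq, ho'.2.1, ho'.2.2, ho''.2.1, ho''.2.2,
        if_true, if_false]
      exact ⟨ho'.1.2.trans ho''.1.2.symm, trivial, trivial, h⟩)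
    exact ⟨k, hk, (inv_conj_pt_iff (by norm_num) hgp).mp (hkL.2 _ (by simp)),
      (inv_conj_pt_iff (by norm_num) hgq).mp (hkL.2 _ (by simp)),
      (inv_conj_iff hgo).mp (hkL.2 _ (by simp)), hks⟩

end Cfsg.Agent.S1605
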