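import Cfsg.Statements.S1607
import Cfsg.Agent.Lib.Helper8.Pair

set_option autoImplicit false
open scoped Pointwise
open Cfsg

namespace Cfsg.Agent.S1607

/-- The point stabiliser acts on the 253 heptads of its S(4, 7, 23) with rank 3 and subdegrees 1, 112, 140 (intersections 8, 2, 4). -/
theorem result (x : Cfsg.GolayPt) (o : Finset Cfsg.GolayPt) (ho : o ∈ Cfsg.octads) (hx : x ∈ o) : {o' : Finset Cfsg.GolayPt | o' ∈ Cfsg.octads ∧ x ∈ o' ∧ (o ∩ o').card = 2}.ncard = 112 ∧ {o' : Finset Cfsg.GolayPt | o' ∈ Cfsg.octads ∧ x ∈ o' ∧ (o ∩ o').card = 4}.ncard = 140 ∧ ∀ o' o'' : Finset Cfsg.GolayPt, o' ∈ Cfsg.octads → o'' ∈ Cfsg.octads → x ∈ o' → x ∈ o'' → (o ∩ o').card = (o ∩ o'').card → ∃ g : Equiv.Perm Cfsg.GolayPt, g ∈ Cfsg.M24 ∧ g x = x ∧ g • o = o ∧ g • o' = o'' := by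
  open Cfsg.Agent.Lib.Helper8 in
  obtain ⟨g, hg, hgx, hgo⟩ := norm_PO_in ho hx
  have tr : ∀ n, {o' : Finset Cfsg.GolayPt | o' ∈ Cfsg.octads ∧ x ∈ o' ∧ (o ∩ o').card = n}.ncard =
      cntOct (fun m => m.testBit 23 && Nat.beq (popF (8536111 &&& m)) n) := by
    intro n
    rw [count_transport g _ (fun s => s ∈ Cfsg.octads ∧ pt 23 ∈ s ∧ (setOf 8536111 ∩ s).card = n)
      (fun s => by rw [smul_mem_octads_iff hg, ← hgo, card_smul_inter, ← hgx, apply_mem_smul_iff])]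
    exact ncard_oct _ _ (fun m => by
      rw [Bool.and_eq_true, Nat.beq_eq, card_inter_setOf, pt_mem_setOf (by norm_num)])
  refine ⟨by rw [tr]; decide +kernel, by rw [tr]; decide +kernel, ?_⟩
  intro o' o'' ho' ho'' hx' hx'' h
  obtain ⟨k, hk, hks, hkL⟩ := pair_trans orbPOin hg ho'.1 ho''.1 (by
    simp only [List.mem_cons, List.not_mem_nil, or_false, forall_eq_or_imp, forall_eq,
      card_inter_full, Finset.card_smul_finset, card_smul_inter_set hgo,
      card_smul_inter_pt (show 23 < 24 by norm_num) hgx, hx', hx'', if_true]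
    exact ⟨ho'.2.trans ho''.2.symm, trivial, h⟩)
  exact ⟨k, hk, (inv_conj_pt_iff (by norm_num) hgx).mp (hkL.2 _ (by simp)),
    (inv_conj_iff hgo).mp (hkL.2 _ (by simp)), hks⟩

end Cfsg.Agent.S1607
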