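import Cfsg.Statements.S1635
import Cfsg.Agent.Lib.Helper8.CosetLead

set_option autoImplicit false
open scoped Pointwise
open Cfsg

namespace Cfsg.Agent.S1635

/-- Coset leaders of the length-24 code: a coset contains a unique word of weight ≤ 3, or else exactly six words of weight 4 and none lighter. -/
theorem result (w : Cfsg.GolayPt → ZMod 2) : ({v : Cfsg.GolayPt → ZMod 2 | hammingNorm v ≤ 4 ∧ w - v ∈ Cfsg.golayCode}.ncard = 1 ∧ ∃ v : Cfsg.GolayPt → ZMod 2, hammingNorm v ≤ 3 ∧ w - v ∈ Cfsg.golayCode) ∨ ({v : Cfsg.GolayPt → ZMod 2 | hammingNorm v ≤ 4 ∧ w - v ∈ Cfsg.golayCode}.ncard = 6 ∧ ∀ v : Cfsg.GolayPt → ZMod 2, w - v ∈ Cfsg.golayCode → hammingNorm v ≤ 4 → hammingNorm v = 4) := by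
  open Cfsg.Agent.Lib.Helper8 in
  rw [Lds_image]
  rcases Lds_main (support₂ w) with ⟨h1, v, hv3, hv⟩ | ⟨h1, h2⟩
  · left
    refine ⟨h1, vecOf (maskS v), ?_, ?_⟩
    · rw [hammingNorm_eq, support₂_vecOf, setOf_maskS]; exact hv3
    · rw [sub_mem_iff, support₂_vecOf, setOf_maskS]; exact hv
  · right
    refine ⟨h1, fun v hv h4 => ?_⟩
    exact h2 (support₂ v) ⟨h4, (sub_mem_iff w v).mp hv⟩

end Cfsg.Agent.S1635
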