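import Cfsg.Statements.S1636
import Cfsg.Agent.Lib.Helper8.Punct

set_option autoImplicit false
open scoped Pointwise
open Cfsg

namespace Cfsg.Agent.S1636

/-- The punctured length-23 code has weight distribution 0^1 7^253 8^506 11^1288 12^1288 15^506 16^253 23^1. -/
theorem result : {u : ZMod 23 → ZMod 2 | ∃ w ∈ Cfsg.golayCode, ∀ x : ZMod 23, u x = w (some x)}.ncard = 4096 ∧ {u : ZMod 23 → ZMod 2 | u ∈ {u : ZMod 23 → ZMod 2 | ∃ w ∈ Cfsg.golayCode, ∀ x : ZMod 23, u x = w (some x)} ∧ hammingNorm u = 7}.ncard = 253 ∧ {u : ZMod 23 → ZMod 2 | u ∈ {u : ZMod 23 → ZMod 2 | ∃ w ∈ Cfsg.golayCode, ∀ x : ZMod 23, u x = w (some x)} ∧ hammingNorm u = 8}.ncard = 506 ∧ {u : ZMod 23 → ZMod 2 | u ∈ {u : ZMod 23 → ZMod 2 | ∃ w ∈ Cfsg.golayCode, ∀ x : ZMod 23, u x = w (some x)} ∧ hammingNorm u = 11}.ncard = 1288 ∧ {u : ZMod 23 → ZMod 2 | u ∈ {u : ZMod 23 → ZMod 2 | ∃ w ∈ Cfsg.golayCode, ∀ x : ZMod 23, u x = w (some x)} ∧ hammingNorm u = 12}.ncard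 = 1288 ∧ {u : ZMod 23 → ZMod 2 | u ∈ {u : ZMod 23 → ZMod 2 | ∃ w ∈ Cfsg.golayCode, ∀ x : ZMod 23, u x = w (some x)} ∧ hammingNorm u = 15}.ncard = 506 ∧ {u : ZMod 23 → ZMod 2 | u ∈ {u : ZMod 23 → ZMod 2 | ∃ w ∈ Cfsg.golayCode, ∀ x : ZMod 23, u x = w (some x)} ∧ hammingNorm u = 16}.ncard = 253 ∧ ∀ u ∈ {u : ZMod 23 → ZMod 2 | ∃ w ∈ Cfsg.golayCode, ∀ x : ZMod 23, u x = w (some x)}, u ≠ 0 → 7 ≤ hammingNorm u := by
  open Cfsg.Agent.Lib.Helper8 in
  refine ⟨?_, ?_, ?_, ?_, ?_, ?_, ?_, ?_⟩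
  · have h := P23_eq
    rw [show {u : ZMod 23 → ZMod 2 | ∃ w ∈ Cfsg.golayCode, ∀ x : ZMod 23, u x = w (some x)} = P23 from rfl,
      h, Set.InjOn.ncard_image punct_injOn]
    exact card_golayCode
  · exact (punct_count 7).trans (by decide +kernel)
  · exact (punct_count 8).trans (by decide +kernel)
  · exact (punct_count 11).trans (by decide +kernel)
  · exact (punct_count 12).trans (by decide +kernel)
  · exact (punct_count 15).trans (by decide +kernel)
  · exact (punct_count 16).trans (by decide +kernel)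
  · rintro u ⟨w, hw, hu⟩ hne
    have hu' : u = punct w := funext hu
    rw [hu', norm_punct]
    have hw0 : support₂ w ≠ ∅ := by
      intro h0
      apply hne
      have : w = 0 := support₂_injective (h0.trans (by simp [support₂]))
      rw [hu', this]; rfl
    have h8 : 8 ≤ (support₂ w).card := by
      rcases card_of_mem_supports ((mem_code_iff_CS w).mp hw) with h' | h' | h' | h' | h'
      · exact absurd (Finset.card_eq_zero.mp h') hw0
      all_goals omega
    have := Finset.pred_card_le_card_erase (s := support₂ w) (a := none)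
    omega

end Cfsg.Agent.S1636
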