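import Cfsg.Statements.S1639
import Cfsg.Agent.Lib.Helper8.Pair

set_option autoImplicit false
open scoped Pointwise
open Cfsg

namespace Cfsg.Agent.S1639

/-- The point stabiliser acts on the 1288 dodecads through the point with rank 4 and subdegrees 1, 165, 330, 792, distinguished by intersection 4, 8, 6 with the fixed dodecad. -/
theorem result (x : Cfsg.GolayPt) (d : Finset Cfsg.GolayPt) (hd : d ∈ Cfsg.dodecads) (hx : x ∈ d) : {d' : Finset Cfsg.GolayPt | d' ∈ Cfsg.dodecads ∧ x ∈ d' ∧ (d ∩ d').card = 4}.ncard = 165 ∧ {d' : Finset Cfsg.GolayPt | d' ∈ Cfsg.dodecads ∧ x ∈ d' ∧ (d ∩ d').card = 8}.ncard = 330 ∧ {d' : Finset Cfsg.GolayPt | d' ∈ Cfsg.dodecads ∧ x ∈ d' ∧ (d ∩ d').card = 6}.ncard = 792 ∧ ∀ d' d'' : Finset Cfsg.GolayPt, d' ∈ Cfsg.dodecads → d'' ∈ Cfsg.dodecads → x ∈ d' → x ∈ d'' → (d ∩ d').card = (d ∩ d'').card → ∃ g : Equiv.Perm Cfsg.GolayPt, g ∈ Cfsg.M24 ∧ g x = x ∧ g • d = d ∧ g • d' = d'' := by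
  open Cfsg.Agent.Lib.Helper8 in
  obtain ⟨g, hg, hgx, hgo⟩ := norm_PD_in hd hx
  have tr : ∀ n, {d' : Finset Cfsg.GolayPt | d' ∈ Cfsg.dodecads ∧ x ∈ d' ∧ (d ∩ d').card = n}.ncard =
      cntDod (fun m => m.testBit 23 && Nat.beq (popF (16436384 &&& m)) n) := by
    intro n
    rw [count_transport g _ (fun s => s ∈ Cfsg.dodecads ∧ pt 23 ∈ s ∧ (setOf 16436384 ∩ s).card = n)
      (fun s => by rw [smul_mem_dodecads_iff hg, ← hgo, card_smul_inter, ← hgx, apply_mem_smul_iff])]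
    exact ncard_dod _ _ (fun m => by
      rw [Bool.and_eq_true, Nat.beq_eq, card_inter_setOf, pt_mem_setOf (by norm_num)])
  refine ⟨by rw [tr]; decide +kernel, by rw [tr]; decide +kernel, by rw [tr]; decide +kernel, ?_⟩
  intro o' o'' ho' ho'' hx' hx'' h
  obtain ⟨k, hk, hks, hkL⟩ := pair_trans orbPD hg ho'.1 ho''.1 (by
    simp only [List.mem_cons, List.not_mem_nil, or_false, forall_eq_or_imp, forall_eq,
      card_inter_full, Finset.card_smul_finset, card_smul_inter_set hgo,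
      card_smul_inter_pt (show 23 < 24 by norm_num) hgx, hx', hx'', if_true]
    exact ⟨ho'.2.trans ho''.2.symm, trivial, h⟩)
  exact ⟨k, hk, (inv_conj_pt_iff (by norm_num) hgx).mp (hkL.2 _ (by simp)),
    (inv_conj_iff hgo).mp (hkL.2 _ (by simp)), hks⟩

end Cfsg.Agent.S1639
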