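import Cfsg.Statements.S1640
import Cfsg.Agent.Lib.Helper8.LeechLam3c

set_option autoImplicit false
open scoped Pointwise
open Cfsg

namespace Cfsg.Agent.S1640

/-- The stabiliser of a vector of customary norm 6 is transitive on the 11178 minimal vectors of customary inner product −2 with it. -/
theorem result (u : ↥Cfsg.leechLattice) (hu : Cfsg.sqNorm (u : Cfsg.GolayPt → ℤ) = 48) : {x : ↥Cfsg.leechLattice | Cfsg.sqNorm (x : Cfsg.GolayPt → ℤ) = 32 ∧ Cfsg.dotInt (u : Cfsg.GolayPt → ℤ) (x : Cfsg.GolayPt → ℤ) = -16}.ncard = 11178 ∧ ∀ x ∈ {x : ↥Cfsg.leechLattice | Cfsg.sqNorm (x : Cfsg.GolayPt → ℤ) = 32 ∧ Cfsg.dotInt (u : Cfsg.GolayPt → ℤ) (x : Cfsg.GolayPt → ℤ) = -16}, ∀ x' ∈ {x : ↥Cfsg.leechLattice | Cfsg.sqNorm (x : Cfsg.GolayPt → ℤ) = 32 ∧ Cfsg.dotInt (u : Cfsg.GolayPt → ℤ) (x : Cfsg.GolayPt → ℤ) = -16}, ∃ g : ↥Cfsg.Co0, g • u = u ∧ g • x = x' := by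
  open Cfsg.Agent.Lib.Helper8 in
  refine ⟨by rw [ncard_dot3 u hu (-16) 48 (by norm_num), cls3_48], ?_⟩
  intro x hx x' hx'
  open Cfsg.Agent.Lib.Helper8 in
  exact trans3_transport (-16) (fun a b ha han hb hbn hda hdb => co3_conn48 ha han hb hbn hda hdb)
    u x x' hu hx.1 hx'.1 hx.2 hx'.2

end Cfsg.Agent.S1640
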