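import Cfsg.Statements.S1641
import Cfsg.Agent.Lib.Helper8.LeechHS2

set_option autoImplicit false
open scoped Pointwise
open Cfsg

namespace Cfsg.Agent.S1641

/-- The third Conway group acts on the 11178 cosets of the Higman–Sims group with rank 5 and subdegrees 1, 352, 1100, 4125, 5600. -/
theorem result (u x : ↥Cfsg.leechLattice) (hu : Cfsg.sqNorm (u : Cfsg.GolayPt → ℤ) = 48) (hx : x ∈ {x : ↥Cfsg.leechLattice | Cfsg.sqNorm (x : Cfsg.GolayPt → ℤ) = 32 ∧ Cfsg.dotInt (u : Cfsg.GolayPt → ℤ) (x : Cfsg.GolayPt → ℤ) = -16}) : ∃ y₁ ∈ {x : ↥Cfsg.leechLattice | Cfsg.sqNorm (x : Cfsg.GolayPt → ℤ) = 32 ∧ Cfsg.dotInt (u : Cfsg.GolayPt → ℤ) (x : Cfsg.GolayPt → ℤ) = -16}, ∃ y₂ ∈ {x : ↥Cfsg.leechLattice | Cfsg.sqNorm (x : Cfsg.GolayPt → ℤ) = 32 ∧ Cfsg.dotInt (u : Cfsg.GolayPt → ℤ) (x : Cfsg.GolayPt → ℤ) = -16}, ∃ y₃ ∈ {x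 : ↥Cfsg.leechLattice | Cfsg.sqNorm (x : Cfsg.GolayPt → ℤ) = 32 ∧ Cfsg.dotInt (u : Cfsg.GolayPt → ℤ) (x : Cfsg.GolayPt → ℤ) = -16}, ∃ y₄ ∈ {x : ↥Cfsg.leechLattice | Cfsg.sqNorm (x : Cfsg.GolayPt → ℤ) = 32 ∧ Cfsg.dotInt (u : Cfsg.GolayPt → ℤ) (x : Cfsg.GolayPt → ℤ) = -16}, (MulAction.orbit ↥(MulAction.stabilizer ↥Cfsg.Co0 u ⊓ MulAction.stabilizer ↥Cfsg.Co0 x) y₁).ncard = 352 ∧ (MulAction.orbit ↥(MulAction.stabilizer ↥Cfsg.Co0 u ⊓ MulAction.stabilizer ↥Cfsg.Co0 x) y₂).ncard = 1100 ∧ (MulAction.orbit ↥(MulAction.stabilizer ↥Cfsg.Co0 u ⊓ MulAction.stabilizer ↥Cfsg.Co0 x) y₃).ncard = 4125 ∧ (MulAction.orbit ↥(MulAction.stabilizer ↥Cfsg.Co0 u ⊓ MulAction.stabilizer ↥Cfsg.Co0 x) y₄).ncard = 5600 ∧ {x : ↥Cfsg.leechLattice | Cfsg.sqNorm (x : Cfsg.GolayPt → ℤ) = 32 ∧ Cfsg.dotInt (u : Cfsg.GolayPt → ℤ) (x : Cfsg.GolayPt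 → ℤ) = -16} = {x} ∪ MulAction.orbit ↥(MulAction.stabilizer ↥Cfsg.Co0 u ⊓ MulAction.stabilizer ↥Cfsg.Co0 x) y₁ ∪ MulAction.orbit ↥(MulAction.stabilizer ↥Cfsg.Co0 u ⊓ MulAction.stabilizer ↥Cfsg.Co0 x) y₂ ∪ MulAction.orbit ↥(MulAction.stabilizer ↥Cfsg.Co0 u ⊓ MulAction.stabilizer ↥Cfsg.Co0 x) y₃ ∪ MulAction.orbit ↥(MulAction.stabilizer ↥Cfsg.Co0 u ⊓ MulAction.stabilizer ↥Cfsg.Co0 x) y₄ := by
  open Cfsg.Agent.Lib.Helper8 in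
  obtain ⟨y1, a1, e1, b1⟩ := hsM_orbit u x hu hx (-8) 56 352 (by norm_num) (by norm_num) hsM_c56 (by norm_num)
  open Cfsg.Agent.Lib.Helper8 in
  obtain ⟨y2, a2, e2, b2⟩ := hsM_orbit u x hu hx 16 80 1100 (by norm_num) (by norm_num) hsM_c80 (by norm_num)
  open Cfsg.Agent.Lib.Helper8 in
  obtain ⟨y3, a3, e3, b3⟩ := hsM_orbit u x hu hx 0 64 4125 (by norm_num) (by norm_num) hsM_c64 (by norm_num)
  open Cfsg.Agent.Lib.Helper8 in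
  obtain ⟨y4, a4, e4, b4⟩ := hsM_orbit u x hu hx 8 72 5600 (by norm_num) (by norm_num) hsM_c72 (by norm_num)
  refine ⟨y1, a1, y2, a2, y3, a3, y4, a4, b1, b2, b3, b4, ?_⟩
  rw [e1, e2, e3, e4]
  open Cfsg.Agent.Lib.Helper8 in
  obtain ⟨_, cov, _⟩ := hsM_gen u x hu hx
  ext y
  simp only [Set.mem_union, Set.mem_singleton_iff, Set.mem_ofPred_eq]
  constructor
  · intro hy
    rcases cov y hy with c | c | c | c | c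
    · exact Or.inl (Or.inl (Or.inl (Or.inl c)))
    · exact Or.inl (Or.inl (Or.inl (Or.inr ⟨hy, c⟩)))
    · exact Or.inl (Or.inr ⟨hy, c⟩)
    · exact Or.inr ⟨hy, c⟩
    · exact Or.inl (Or.inl (Or.inr ⟨hy, c⟩))
  · rintro ((((c | c) | c) | c) | c)
    · rw [c]; exact hx
    · exact c.1
    · exact c.1
    · exact c.1
    · exact c.1

end Cfsg.Agent.S1641
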