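import Cfsg.Statements.S1754
import Cfsg.Agent.Lib.Helper6.FStar

set_option autoImplicit false
open Cfsg

namespace Cfsg.Agent.S1754

open Cfsg.Agent.Lib.Helper6.Basic Cfsg.Agent.Lib.Helper6.Subn Cfsg.Agent.Lib.Helper6.Quasi Cfsg.Agent.Lib.Helper6.Comp Cfsg.Agent.Lib.Helper6.FStar

/-- Let A be a standard subgroup of the finite group G (A quasisimple, C_G(A) tightly embedded of even order, A commuting elementwise with no other conjugate of itself, and N_G(A) = N_G(C_G(A))), and let t be an involution of G centralizing A. Then the centralizer of t lies in the normalizer of A; in particular A, viewed inside C_G(t), is a component of C_G(t). -/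
theorem result {G : Type*} [Group G] [Finite G]
    (A : Subgroup G) (hA : Cfsg.IsStandardSubgroup A) (t : G) (ht : orderOf t = 2) (htA : t ∈ Subgroup.centralizer (A : Set G)) :
    Subgroup.centralizer ({t} : Set G) ≤ Subgroup.normalizer (A : Set G) ∧
      Cfsg.IsComponent (A.subgroupOf (Subgroup.centralizer ({t} : Set G))) := by
  obtain ⟨hqs, ⟨-, hte⟩, -, hN⟩ := hA
  have h1 : Subgroup.centralizer ({t} : Set G) ≤ Subgroup.normalizer (A : Set G) := by
    intro c hc
    rw [hN]
    by_contra hcon
    have hodd := hte c hcon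
    have hct : c⁻¹ * t * c = t := by
      have := Subgroup.mem_centralizer_iff.mp hc t rfl
      rw [mul_assoc, this]; group
    have htm : t ∈ Cz A ⊓ cj c (Cz A) := ⟨htA, mem_cj.mpr (by rw [hct]; exact htA)⟩
    have h2 : 2 ∣ Nat.card ↥(Cz A ⊓ cj c (Cz A)) := by
      rw [← ht]
      have := orderOf_dvd_natCard (⟨t, htm⟩ : ↥(Cz A ⊓ cj c (Cz A)))
      rwa [Subgroup.orderOf_mk] at this
    exact (Nat.not_even_iff_odd.mpr hodd) (even_iff_two_dvd.mpr h2)
  have hAt : A ≤ Subgroup.centralizer ({t} : Set G) := by
    intro a ha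
    rw [Subgroup.mem_centralizer_iff]
    intro z hz
    rw [show z = t from hz]
    exact (Subgroup.mem_centralizer_iff.mp htA a ha).symm
  exact ⟨h1, (isComponent_subgroupOf_iff hAt).mpr ⟨SN.of_normal hAt h1, quasisimple_iff.mp hqs⟩⟩

end Cfsg.Agent.S1754
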