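import Cfsg.Statements.S1757
import Mathlib
import Cfsg.Agent.Lib.Helper1.Coprime
import Cfsg.Agent.Lib.Helper1.Basic

set_option autoImplicit false
open Cfsg

namespace Cfsg.Agent.S1757

open Cfsg
open Cfsg.Agent.Lib.Helper1
open scoped Pointwise commutatorElement

/-- Let p be a prime and A, B p-subgroups of the finite group G, each of which meets every conjugate of itself other than itself trivially. Suppose the order of A is at most that of B, A and B intersect trivially, and B normalizes A. Then A and B commute elementwise. -/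
theorem result {G : Type*} [Group G] [Finite G] (p : ℕ) [Fact p.Prime] (A B : Subgroup G)
    (hA : IsPGroup p ↥A) (hB : IsPGroup p ↥B)
    (hAti : ∀ g : G, A.map (MulAut.conj g).toMonoidHom = A ∨ A.map (MulAut.conj g).toMonoidHom ⊓ A = ⊥)
    (hBti : ∀ g : G, B.map (MulAut.conj g).toMonoidHom = B ∨ B.map (MulAut.conj g).toMonoidHom ⊓ B = ⊥)
    (hle : Nat.card ↥A ≤ Nat.card ↥B) (hAB : A ⊓ B = ⊥) (hN : B ≤ Subgroup.normalizer (A : Set G)) : ⁅A, B⁆ = ⊥ := by
  have hcard : Nat.card (B ⊔ A : Subgroup G) = Nat.card B * Nat.card A := by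
    have h1 := card_sup_mul_card_inf' B A hN
    rw [inf_comm, hAB, Subgroup.card_bot, mul_one] at h1
    exact h1
  have hAN : ∀ a ∈ A, MulAut.conj a • B = B := by
    intro a ha
    rcases hBti a with h | h
    · exact h
    · have h' : MulAut.conj a • B ⊓ B = ⊥ := h
      have hB'le : MulAut.conj a • B ≤ B ⊔ A := by
        intro w hw
        rw [mem_conj_smul] at hw
        have e : w = a * (a⁻¹ * w * a) * a⁻¹ := by group
        rw [e]
        exact Subgroup.mul_mem _ (Subgroup.mul_mem _ (Subgroup.mem_sup_right ha) (Subgroup.mem_sup_left hw))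
          (Subgroup.inv_mem _ (Subgroup.mem_sup_right ha))
      have hbij : Function.Bijective (fun q : ↥(MulAut.conj a • B : Subgroup G) × ↥B =>
          (⟨q.1.1 * q.2.1, Subgroup.mul_mem _ (hB'le q.1.2) (Subgroup.mem_sup_left q.2.2)⟩ : ↥(B ⊔ A : Subgroup G))) := by
        rw [Nat.bijective_iff_injective_and_card]
        have hinj : Function.Injective (fun q : ↥(MulAut.conj a • B : Subgroup G) × ↥B =>
          (⟨q.1.1 * q.2.1, Subgroup.mul_mem _ (hB'le q.1.2) (Subgroup.mem_sup_left q.2.2)⟩ : ↥(B ⊔ A : Subgroup G))) := by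
          intro q1 q2 hq
          have hq' : q1.1.1 * q1.2.1 = q2.1.1 * q2.2.1 := congrArg Subtype.val hq
          have h2 : q2.1.1⁻¹ * q1.1.1 = q2.2.1 * q1.2.1⁻¹ := by
            calc q2.1.1⁻¹ * q1.1.1 = q2.1.1⁻¹ * (q1.1.1 * q1.2.1) * q1.2.1⁻¹ := by group
              _ = q2.1.1⁻¹ * (q2.1.1 * q2.2.1) * q1.2.1⁻¹ := by rw [hq']
              _ = q2.2.1 * q1.2.1⁻¹ := by group
          have h3 : q2.1.1⁻¹ * q1.1.1 ∈ MulAut.conj a • B ⊓ B := by
            refine Subgroup.mem_inf.mpr ⟨Subgroup.mul_mem _ (Subgroup.inv_mem _ q2.1.2) q1.1.2, ?_⟩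
            rw [h2]
            exact B.mul_mem q2.2.2 (B.inv_mem q1.2.2)
          rw [h', Subgroup.mem_bot] at h3
          have h4 : q1.1.1 = q2.1.1 := (inv_mul_eq_one.mp h3).symm
          have h5 : q1.2.1 = q2.2.1 := by
            rw [h4] at hq'
            exact mul_left_cancel hq'
          exact Prod.ext (Subtype.ext h4) (Subtype.ext h5)
        refine ⟨hinj, ?_⟩
        apply le_antisymm
        · exact Nat.card_le_card_of_injective _ hinj
        · rw [Nat.card_prod, card_conj_smul, hcard]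
          exact Nat.mul_le_mul_left _ hle
      obtain ⟨q, hq⟩ := hbij.2 ⟨a, Subgroup.mem_sup_right ha⟩
      have hq' : q.1.1 * q.2.1 = a := congrArg Subtype.val hq
      have h6 := q.1.2
      rw [mem_conj_smul] at h6
      have h7 : a ∈ B := by
        have e : ∀ (u v w : G), u * v = w → v * (w⁻¹ * u * w) = w := by
          intro u v w h; subst h; group
        rw [← e q.1.1 q.2.1 a hq']
        exact B.mul_mem q.2.2 h6
      have h8 : a ∈ A ⊓ B := ⟨ha, h7⟩
      rw [hAB, Subgroup.mem_bot] at h8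
      rw [h8, map_one, one_smul]
  rw [eq_bot_iff, ← hAB, Subgroup.commutator_le]
  intro a ha b hb
  rw [commutatorElement_def]
  refine Subgroup.mem_inf.mpr ⟨?_, ?_⟩
  · have h1 := (Subgroup.mem_normalizer_iff.mp (hN hb) a⁻¹).mp (A.inv_mem ha)
    have e : a * b * a⁻¹ * b⁻¹ = a * (b * a⁻¹ * b⁻¹) := by group
    rw [e]
    exact A.mul_mem ha h1
  · have h1 : a * b * a⁻¹ ∈ MulAut.conj a • B := by
      rw [mem_conj_smul]
      have e : a⁻¹ * (a * b * a⁻¹) * a = b := by group
      rw [e]; exact hb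
    rw [hAN a ha] at h1
    exact B.mul_mem h1 (B.inv_mem hb)

end Cfsg.Agent.S1757
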