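import Cfsg.Statements.S1780
import Mathlib
import Cfsg.Agent.Lib.Helper1.FixCoset

set_option autoImplicit false
open Cfsg

namespace Cfsg.Agent.S1780

open Cfsg
open Cfsg.Agent.Lib.Helper1

/-- Let A be a finite abelian 2-group and t an automorphism of A whose order is a power of 2. If every element of A fixed by t² is fixed by t, then t fixes every element of A. -/
theorem result {A : Type*} [CommGroup A] [Finite A]
    (hA : IsPGroup 2 A) (t : MulAut A) (ht : ∃ k : ℕ, orderOf t = 2 ^ k) (hC : ∀ a : A, t (t a) = a → t a = a) :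
    ∀ a : A, t a = a := by
  haveI : Fact (Nat.Prime 2) := ⟨Nat.prime_two⟩
  let M : Subgroup A :=
    { carrier := {a | t a = a}
      one_mem' := map_one t
      mul_mem' := by
        intro a b ha hb
        show t (a * b) = a * b
        rw [map_mul, ha, hb]
      inv_mem' := by
        intro a ha
        show t a⁻¹ = a⁻¹
        rw [map_inv, ha] }
  have hM : ∀ g : A, g ∈ M ↔ t g = g := fun g => Iff.rfl
  by_contra hcon
  push Not at hcon
  obtain ⟨a₀, ha₀⟩ := hcon
  have hidx : 2 ∣ M.index := by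
    obtain ⟨n, hn⟩ := IsPGroup.iff_card.mp hA
    have h1 : M.index ∣ 2 ^ n := by rw [← hn]; exact Subgroup.index_dvd_card M
    obtain ⟨j, _, hj⟩ := (Nat.dvd_prime_pow Nat.prime_two).mp h1
    rw [hj]
    apply dvd_pow_self
    rintro rfl
    rw [pow_zero, Subgroup.index_eq_one] at hj
    apply ha₀
    have : a₀ ∈ M := by rw [hj]; trivial
    exact this
  obtain ⟨g, hgM, hgc⟩ := FixCoset.exists_fixed_coset 2 t ht M hM hidx
  obtain ⟨c, hc⟩ : ∃ c, c = g⁻¹ * t g := ⟨_, rfl⟩
  rw [← hc] at hgc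
  have htg : t g = g * c := by rw [hc]; group
  have htc : t c = c := hgc
  have hc1 : c ≠ 1 := by
    intro h
    rw [h, mul_one] at htg
    exact hgM htg
  obtain ⟨m, hm⟩ := (IsPGroup.iff_orderOf.mp hA) c
  have hm0 : m ≠ 0 := by
    rintro rfl
    rw [pow_zero, orderOf_eq_one_iff] at hm
    exact hc1 hm
  obtain ⟨e, rfl⟩ : ∃ e, m = e + 1 := ⟨m - 1, by omega⟩
  have hce : c ^ (2 ^ e) ≠ 1 := by
    intro h
    have h1 := orderOf_dvd_of_pow_eq_one h
    rw [hm] at h1
    have h2 := Nat.le_of_dvd (by positivity) h1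
    rw [pow_succ] at h2
    have : 0 < 2 ^ e := by positivity
    omega
  have hce2 : c ^ (2 ^ e) * c ^ (2 ^ e) = 1 := by
    rw [← pow_add, ← two_mul, mul_comm, ← pow_succ, ← hm]
    exact pow_orderOf_eq_one c
  have h1 : t (g ^ (2 ^ e)) = g ^ (2 ^ e) * c ^ (2 ^ e) := by
    rw [map_pow, htg, mul_pow]
  have h2 : t (t (g ^ (2 ^ e))) = g ^ (2 ^ e) := by
    rw [h1, map_mul, h1, map_pow, htc, mul_assoc, hce2, mul_one]
  have h3 := hC _ h2
  rw [h1] at h3
  exact hce (mul_left_cancel (h3.trans (mul_one _).symm))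

end Cfsg.Agent.S1780
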