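import Cfsg.Statements.S1781
import Mathlib
import Cfsg.Agent.Lib.Helper1.FixCoset
import Cfsg.Agent.Lib.Helper1.Basic
import Cfsg.Agent.S1757

set_option autoImplicit false
open Cfsg

namespace Cfsg.Agent.S1781

open Cfsg
open Cfsg.Agent.Lib.Helper1
open scoped Pointwise

theorem aux1780 {A : Type*} [Group A] [Finite A] (hcomm : ∀ a b : A, a * b = b * a)
    (hA : IsPGroup 2 A) (t : MulAut A) (ht : ∃ k : ℕ, orderOf t = 2 ^ k) (hC : ∀ a : A, t (t a) = a → t a = a) :
    ∀ a : A, t a = a := by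
  haveI : Fact (Nat.Prime 2) := ⟨Nat.prime_two⟩
  let M : Subgroup A :=
    { carrier := {a | t a = a}
      one_mem' := map_one t
      mul_mem' := by
        intro a b ha hb
        show t (a * b) = a * b
        rw [map_mul, ha, hb]
      inv_mem' := by
        intro a ha
        show t a⁻¹ = a⁻¹
        rw [map_inv, ha] }
  have hM : ∀ g : A, g ∈ M ↔ t g = g := fun g => Iff.rfl
  by_contra hcon
  push Not at hcon
  obtain ⟨a₀, ha₀⟩ := hcon
  have hidx : 2 ∣ M.index := by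
    obtain ⟨n, hn⟩ := IsPGroup.iff_card.mp hA
    have h1 : M.index ∣ 2 ^ n := by rw [← hn]; exact Subgroup.index_dvd_card M
    obtain ⟨j, _, hj⟩ := (Nat.dvd_prime_pow Nat.prime_two).mp h1
    rw [hj]
    apply dvd_pow_self
    rintro rfl
    rw [pow_zero, Subgroup.index_eq_one] at hj
    apply ha₀
    have : a₀ ∈ M := by rw [hj]; trivial
    exact this
  obtain ⟨g, hgM, hgc⟩ := FixCoset.exists_fixed_coset 2 t ht M hM hidx
  obtain ⟨c, hc⟩ : ∃ c, c = g⁻¹ * t g := ⟨_, rfl⟩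
  rw [← hc] at hgc
  have htg : t g = g * c := by rw [hc]; group
  have htc : t c = c := hgc
  have hc1 : c ≠ 1 := by
    intro h
    rw [h, mul_one] at htg
    exact hgM htg
  obtain ⟨m, hm⟩ := (IsPGroup.iff_orderOf.mp hA) c
  have hm0 : m ≠ 0 := by
    rintro rfl
    rw [pow_zero, orderOf_eq_one_iff] at hm
    exact hc1 hm
  obtain ⟨e, rfl⟩ : ∃ e, m = e + 1 := ⟨m - 1, by omega⟩
  have hce : c ^ (2 ^ e) ≠ 1 := by
    intro h
    have h1 := orderOf_dvd_of_pow_eq_one h
    rw [hm] at h1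
    have h2 := Nat.le_of_dvd (by positivity) h1
    rw [pow_succ] at h2
    have : 0 < 2 ^ e := by positivity
    omega
  have hce2 : c ^ (2 ^ e) * c ^ (2 ^ e) = 1 := by
    rw [← pow_add, ← two_mul, mul_comm, ← pow_succ, ← hm]
    exact pow_orderOf_eq_one c
  have h1 : t (g ^ (2 ^ e)) = g ^ (2 ^ e) * c ^ (2 ^ e) := by
    rw [map_pow, htg, (show Commute g c from hcomm g c).mul_pow]
  have h2 : t (t (g ^ (2 ^ e))) = g ^ (2 ^ e) := by
    rw [h1, map_mul, h1, map_pow, htc, mul_assoc, hce2, mul_one]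
  have h3 := hC _ h2
  rw [h1] at h3
  exact hce (mul_left_cancel (h3.trans (mul_one _).symm))

/-- Let A be an abelian 2-subgroup of the finite group G such that every conjugate of A equals A or meets A trivially, and let g ∈ G with g A g⁻¹ ≠ A. Then either the subgroup of those elements of A that normalize g A g⁻¹ is an elementary abelian 2-group, or A and g A g⁻¹ commute elementwise. -/
theorem result {G : Type*} [Group G] [Finite G] (A : Subgroup G)
    (hA2 : IsPGroup 2 ↥A) (hAa : IsMulCommutative ↥A)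
    (hti : ∀ h : G, A.map (MulAut.conj h).toMonoidHom = A ∨ A.map (MulAut.conj h).toMonoidHom ⊓ A = ⊥)
    (g : G) (hg : A.map (MulAut.conj g).toMonoidHom ≠ A) :
    Cfsg.IsElementaryAbelian 2 (A ⊓ Subgroup.normalizer ((A.map (MulAut.conj g).toMonoidHom : Subgroup G) : Set G)) ∨
      ⁅A, A.map (MulAut.conj g).toMonoidHom⁆ = ⊥ := by
  haveI : Fact (Nat.Prime 2) := ⟨Nat.prime_two⟩
  have hAab : ∀ a ∈ A, ∀ b ∈ A, a * b = b * a := fun a ha b hb =>
    congrArg Subtype.val (hAa.is_comm.comm ⟨a, ha⟩ ⟨b, hb⟩)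
  have hti' : ∀ h : G, MulAut.conj h • A = A ∨ MulAut.conj h • A ⊓ A = ⊥ := hti
  obtain ⟨B, hB⟩ : ∃ B, B = MulAut.conj g • A := ⟨_, rfl⟩
  have hBdef : A.map (MulAut.conj g).toMonoidHom = B := hB.symm
  rw [hBdef] at hg ⊢
  by_cases hel : ∀ d ∈ A ⊓ Subgroup.normalizer (B : Set G), d ^ 2 = 1
  · left
    refine ⟨⟨⟨fun a b => Subtype.ext (hAab a.1 a.2.1 b.1 b.2.1)⟩⟩, hel⟩
  right
  push Not at hel
  obtain ⟨d, hd, hd2⟩ := hel
  obtain ⟨hdA, hdN⟩ := Subgroup.mem_inf.mp hd
  have hAB : A ⊓ B = ⊥ := by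
    rcases hti' g with h | h
    · exact absurd (hB.trans h) hg
    · rw [inf_comm, hB]; exact h
  have hBab : ∀ a b : B, a * b = b * a := by
    intro a b
    apply Subtype.ext
    have ha : a.1 ∈ MulAut.conj g • A := (le_of_eq hB) a.2
    have hb : b.1 ∈ MulAut.conj g • A := (le_of_eq hB) b.2
    rw [mem_conj_smul] at ha hb
    have := hAab _ ha _ hb
    show a.1 * b.1 = b.1 * a.1
    calc a.1 * b.1 = g * ((g⁻¹ * a.1 * g) * (g⁻¹ * b.1 * g)) * g⁻¹ := by group
      _ = g * ((g⁻¹ * b.1 * g) * (g⁻¹ * a.1 * g)) * g⁻¹ := by rw [this]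
      _ = b.1 * a.1 := by group
  have hB2 : IsPGroup 2 B := by rw [hB]; exact hA2.map (MulAut.conj g).toMonoidHom
  have hBti : ∀ h : G, B.map (MulAut.conj h).toMonoidHom = B ∨ B.map (MulAut.conj h).toMonoidHom ⊓ B = ⊥ := by
    intro h
    show MulAut.conj h • B = B ∨ MulAut.conj h • B ⊓ B = ⊥
    have e : MulAut.conj h • B = MulAut.conj g • (MulAut.conj (g⁻¹ * h * g) • A) := by
      rw [hB, conj_smul_smul, conj_smul_smul]; congr 2; group
    rcases hti' (g⁻¹ * h * g) with h1 | h1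
    · left; rw [e, h1, hB]
    · right
      rw [e, hB, ← Subgroup.smul_inf, h1, Subgroup.smul_bot]
  -- nontrivial common element forces normalizing
  have hnorm : ∀ (b x : G), x ∈ A → x ≠ 1 → b * x = x * b → MulAut.conj b • A = A := by
    intro b x hx hx1 hbx
    rcases hti' b with h | h
    · exact h
    · exfalso
      have : x ∈ MulAut.conj b • A ⊓ A := by
        refine Subgroup.mem_inf.mpr ⟨?_, hx⟩
        rw [mem_conj_smul]
        have e : b⁻¹ * x * b = x := by
          calc b⁻¹ * x * b = b⁻¹ * (x * b) := by group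
            _ = b⁻¹ * (b * x) := by rw [hbx]
            _ = x := by group
        rw [e]; exact hx
      rw [h, Subgroup.mem_bot] at this
      exact hx1 this
  have hcent : ∀ b : B, (B.normalizerMonoidHom ⟨d, hdN⟩) b = b := by
    apply aux1780 hBab hB2
    · have h1 : orderOf (B.normalizerMonoidHom ⟨d, hdN⟩) ∣ orderOf (⟨d, hdN⟩ : Subgroup.normalizer (B : Set G)) :=
        orderOf_map_dvd _ _
      rw [Subgroup.orderOf_mk] at h1
      obtain ⟨m, hm⟩ := (IsPGroup.iff_orderOf.mp hA2) ⟨d, hdA⟩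
      rw [Subgroup.orderOf_mk] at hm
      rw [hm] at h1
      obtain ⟨k, _, hk⟩ := (Nat.dvd_prime_pow Nat.prime_two).mp h1
      exact ⟨k, hk⟩
    · intro b hb
      have hb' : d * (d * b.1 * d⁻¹) * d⁻¹ = b.1 := congrArg Subtype.val hb
      have hcomm2 : b.1 * d ^ 2 = d ^ 2 * b.1 := by
        calc b.1 * d ^ 2 = (d * (d * b.1 * d⁻¹) * d⁻¹) * d ^ 2 := by rw [hb']
          _ = d ^ 2 * b.1 := by rw [sq]; group
      have hbN := hnorm b.1 (d ^ 2) (A.pow_mem hdA 2) hd2 hcomm2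
      have hc : b.1 * d * b.1⁻¹ * d⁻¹ ∈ A ⊓ B := by
        refine Subgroup.mem_inf.mpr ⟨?_, ?_⟩
        · apply A.mul_mem _ (A.inv_mem hdA)
          rw [← hbN, mem_conj_smul]
          have e : b.1⁻¹ * (b.1 * d * b.1⁻¹) * b.1 = d := by group
          rw [e]; exact hdA
        · have e : b.1 * d * b.1⁻¹ * d⁻¹ = b.1 * (d * b.1⁻¹ * d⁻¹) := by group
          rw [e]
          exact B.mul_mem b.2 ((Subgroup.mem_normalizer_iff.mp hdN _).mp (B.inv_mem b.2))
      rw [hAB, Subgroup.mem_bot] at hc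
      apply Subtype.ext
      show d * b.1 * d⁻¹ = b.1
      calc d * b.1 * d⁻¹ = (b.1 * d * b.1⁻¹ * d⁻¹)⁻¹ * b.1 := by group
        _ = b.1 := by rw [hc]; group
  have hd1 : d ≠ 1 := by
    rintro rfl
    exact hd2 (one_pow 2)
  have hBN : B ≤ Subgroup.normalizer (A : Set G) := by
    intro b hb
    rw [Subgroup.mem_normalizer_iff_map_conj_eq]
    apply hnorm b d hdA hd1
    have h1 : d * b * d⁻¹ = b := congrArg Subtype.val (hcent ⟨b, hb⟩)
    calc b * d = (d * b * d⁻¹) * d := by rw [h1]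
      _ = d * b := by group
  exact Cfsg.Agent.S1757.result 2 A B hA2 hB2 hti hBti (by rw [hB, card_conj_smul]) hAB hBN

end Cfsg.Agent.S1781
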