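import Cfsg.Statements.S1961
import Cfsg.Agent.Lib.Helper1.WellPlaced
open Cfsg.Agent.Lib.Helper1
open scoped Pointwise

set_option autoImplicit false
open Cfsg

namespace Cfsg.Agent.S1961

theorem fus_wellPlaced {G : Type*} [Group G] [Finite G] {p : ℕ} [Fact p.Prime] (S : Sylow p G)
    (W : Subgroup G → Subgroup G) (hW : Cfsg.IsConjugacyFunctor p W)
    (A : Set G) (g : G) (hA : A ⊆ (S : Set G)) (hAg : (fun a => g⁻¹ * a * g) '' A ⊆ (S : Set G)) :
    Fus {T : Subgroup G | Cfsg.IsWellPlaced p W (S : Subgroup G) T} A g := by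
  apply fus_of_closure S _ _ A g hA hAg
  intro T g hT hTg
  refine alperin_general S _ ?_ _ T g rfl hT hTg
  intro T hT
  obtain ⟨g, hg, -⟩ := exists_wellPlaced S W hW _ T hT rfl
  exact ⟨_, hg.1, ⟨g, rfl⟩, card_eq_of_not_dvd_relIndex (S.2.to_le inf_le_left) inf_le_right (hg.2 0),
    fun m _ => Or.inl hg⟩

theorem climb1961 {G : Type*} [Group G] [Finite G] {p : ℕ} [hp : Fact p.Prime] (S : Sylow p G) (W : Subgroup G → Subgroup G) (hW : Cfsg.IsConjugacyFunctor p W) (hloc : ∀ T : Subgroup G, T ≠ ⊥ → Cfsg.IsWellPlaced p W (S : Subgroup G) T → Cfsg.ControlsStrongFusionIn p W (Subgroup.normalizer ((T : Subgroup G) : Set G))) :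
    ∀ (n : ℕ) (T : Subgroup G), T ≠ ⊥ → Cfsg.IsWellPlaced p W (S : Subgroup G) T →
      Nat.card (S : Subgroup G) - Nat.card ((S : Subgroup G) ⊓ Subgroup.normalizer (T : Set G) : Subgroup G) = n →
      ∀ (A : Set G) (x : G), A ⊆ ((S : Subgroup G) ⊓ Subgroup.normalizer (T : Set G) : Subgroup G) →
        x ∈ Subgroup.normalizer (T : Set G) →
        (fun a => x * a * x⁻¹) '' A ⊆ ((S : Subgroup G) ⊓ Subgroup.normalizer (T : Set G) : Subgroup G) →
        ∃ y ∈ Subgroup.normalizer ((W (S : Subgroup G) : Subgroup G) : Set G), ∀ a ∈ A, y * a * y⁻¹ = x * a * x⁻¹ := by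
  have hWn : ∀ R : Subgroup G, IsPGroup p R →
      Subgroup.normalizer (R : Set G) ≤ Subgroup.normalizer ((W R : Subgroup G) : Set G) := by
    intro R hR g hg
    apply mem_normalizer_of_conj_smul_eq
    have h1 := (hW R hR).2.2 g
    rw [map_conj_eq_smul, map_conj_eq_smul, conj_smul_eq_of_mem_normalizer hg] at h1
    exact h1.symm
  intro n
  induction n using Nat.strong_induction_on with
  | _ n ih =>
  intro T hT1 hTw hn A x hA hx hAx
  set N := Subgroup.normalizer (T : Set G) with hN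
  set S1 := (S : Subgroup G) ⊓ N with hS1
  have hS1p : IsPGroup p S1 := S.2.to_le inf_le_left
  have hS1c : Nat.card S1 = p ^ (Nat.card N).factorization p :=
    card_eq_of_not_dvd_relIndex hS1p inf_le_right (hTw.2 0)
  obtain ⟨T', hT'N, hT'p, hT'i, hT'⟩ := hloc T hT1 hTw
  have hT'c : Nat.card T' = p ^ (Nat.card N).factorization p := card_eq_of_not_dvd_relIndex hT'p hT'N hT'i
  obtain ⟨m, hm, hmS⟩ := sylow_conj_in N S1 T' inf_le_right hT'N hS1c hT'c
  -- first step: x' normalizing W S1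
  obtain ⟨x0, hx0, hx0a⟩ := hT' ((fun a => m * a * m⁻¹) '' A) (m * x * m⁻¹)
    (N.mul_mem (N.mul_mem hm hx) (N.inv_mem hm))
    (by
      rintro _ ⟨a, ha, rfl⟩
      rw [← hmS]
      change _ ∈ MulAut.conj m • S1
      rw [mem_conj_smul]
      have : m⁻¹ * (m * a * m⁻¹) * m = a := by group
      rw [this]; exact hA ha)
    (by
      rintro _ ⟨_, ⟨a, ha, rfl⟩, rfl⟩
      rw [← hmS]
      change _ ∈ MulAut.conj m • S1
      rw [mem_conj_smul]
      have : m⁻¹ * (m * x * m⁻¹ * (m * a * m⁻¹) * (m * x * m⁻¹)⁻¹) * m = x * a * x⁻¹ := by group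
      rw [this]; exact hAx ⟨a, ha, rfl⟩)
  obtain ⟨hx0N, hx0W⟩ := Subgroup.mem_inf.mp hx0
  have hWS1 : W T' = MulAut.conj m • W S1 := by
    rw [← hmS]; exact (hW S1 hS1p).2.2 m
  have hx'W : m⁻¹ * x0 * m ∈ Subgroup.normalizer ((W S1 : Subgroup G) : Set G) := by
    rw [hWS1, ← conj_smul_normalizer, mem_conj_smul] at hx0W
    exact hx0W
  have hx'a : ∀ a ∈ A, (m⁻¹ * x0 * m) * a * (m⁻¹ * x0 * m)⁻¹ = x * a * x⁻¹ := by
    intro a ha
    have h1 := hx0a _ ⟨a, ha, rfl⟩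
    calc (m⁻¹ * x0 * m) * a * (m⁻¹ * x0 * m)⁻¹ = m⁻¹ * (x0 * (m * a * m⁻¹) * x0⁻¹) * m := by group
      _ = m⁻¹ * (m * x * m⁻¹ * (m * a * m⁻¹) * (m * x * m⁻¹)⁻¹) * m := by rw [h1]
      _ = x * a * x⁻¹ := by group
  rcases eq_or_lt_of_le (inf_le_left : S1 ≤ (S : Subgroup G)) with heq | hlt
  · exact ⟨_, heq ▸ hx'W, hx'a⟩
  · set T1 := W S1 with hT1def
    have hT1S1 : T1 ≤ S1 := (hW S1 hS1p).1
    have hS1ne : S1 ≠ ⊥ := by
      intro hb
      apply hT1
      have : T ≤ S1 := le_inf hTw.1 Subgroup.le_normalizer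
      rw [hb] at this
      exact le_bot_iff.mp this
    have hT1ne : T1 ≠ ⊥ := (hW S1 hS1p).2.1 hS1ne
    have hT1w : Cfsg.IsWellPlaced p W (S : Subgroup G) T1 := by
      refine ⟨hT1S1.trans inf_le_left, fun i => ?_⟩
      rw [← tower_shift W (S : Subgroup G) T T1 rfl i]
      exact hTw.2 (i + 1)
    have hRN : S1 < (S : Subgroup G) ⊓ Subgroup.normalizer (S1 : Set G) := lt_inf_normalizer_of_lt S.2 hlt
    have hRN1 : S1 < (S : Subgroup G) ⊓ Subgroup.normalizer (T1 : Set G) :=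
      lt_of_lt_of_le hRN (inf_le_inf_left _ (hWn S1 hS1p))
    have hc2 := card_lt_of_lt hRN1
    have hc3 : Nat.card ((S : Subgroup G) ⊓ Subgroup.normalizer (T1 : Set G) : Subgroup G) ≤ Nat.card (S : Subgroup G) :=
      Subgroup.card_le_of_le inf_le_left
    obtain ⟨y, hy, hya⟩ := ih _ (by omega) T1 hT1ne hT1w rfl A (m⁻¹ * x0 * m)
      (hA.trans hRN1.le) hx'W (by
        rintro _ ⟨a, ha, rfl⟩
        simp only
        rw [hx'a a ha]
        exact hRN1.le (hAx ⟨a, ha, rfl⟩))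
    exact ⟨y, hy, fun a ha => (hya a ha).trans (hx'a a ha)⟩

theorem fus1961 {G : Type*} [Group G] [Finite G] {p : ℕ} [hp : Fact p.Prime] (S : Sylow p G) (W : Subgroup G → Subgroup G) (hW : Cfsg.IsConjugacyFunctor p W) (hloc : ∀ T : Subgroup G, T ≠ ⊥ → Cfsg.IsWellPlaced p W (S : Subgroup G) T → Cfsg.ControlsStrongFusionIn p W (Subgroup.normalizer ((T : Subgroup G) : Set G)))
    (A : Set G) (g : G) (hf : Fus {T : Subgroup G | Cfsg.IsWellPlaced p W (S : Subgroup G) T} A g) :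
    (∃ a ∈ A, a ≠ 1) → ∃ y ∈ Subgroup.normalizer ((W (S : Subgroup G) : Subgroup G) : Set G),
      ∀ a ∈ A, y⁻¹ * a * y = g⁻¹ * a * g := by
  induction hf with
  | nil A => intro _; exact ⟨1, one_mem _, fun a _ => rfl⟩
  | cons A T x g hT hx hA _ ih =>
    intro hne
    obtain ⟨a0, ha0, ha01⟩ := hne
    have hTne : T ≠ ⊥ := by
      intro hb
      have := hA ha0
      rw [hb] at this
      exact ha01 (Subgroup.mem_bot.mp this)
    have hTS1 : T ≤ (S : Subgroup G) ⊓ Subgroup.normalizer (T : Set G) := le_inf hT.1 Subgroup.le_normalizer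
    obtain ⟨y1, hy1, hy1a⟩ := climb1961 S W hW hloc _ T hTne hT rfl A x⁻¹ (hA.trans hTS1)
      (Subgroup.inv_mem _ hx) (by
        rintro _ ⟨a, ha, rfl⟩
        apply hTS1
        exact (Subgroup.mem_normalizer_iff.mp (Subgroup.inv_mem _ hx) a).mp (hA ha))
    obtain ⟨y2, hy2, hy2a⟩ := ih ⟨x⁻¹ * a0 * x, ⟨a0, ha0, rfl⟩, by
        intro h1
        apply ha01
        have : a0 = x * (x⁻¹ * a0 * x) * x⁻¹ := by group
        rw [this, h1]; group⟩
    refine ⟨y1⁻¹ * y2, Subgroup.mul_mem _ (Subgroup.inv_mem _ hy1) hy2, ?_⟩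
    intro a ha
    have h3 := hy2a _ ⟨a, ha, rfl⟩
    simp only at h3
    have h4 := hy1a a ha
    rw [inv_inv] at h4
    calc (y1⁻¹ * y2)⁻¹ * a * (y1⁻¹ * y2) = y2⁻¹ * (y1 * a * y1⁻¹) * y2 := by group
      _ = y2⁻¹ * (x⁻¹ * a * x) * y2 := by rw [h4]
      _ = g⁻¹ * (x⁻¹ * a * x) * g := h3
      _ = (x * g)⁻¹ * a * (x * g) := by group

/-- Local-to-global control of strong fusion through well-placed subgroups. Let p be a prime, G a finite group with Sylow p-subgroup S, and W a conjugacy functor for p on G. If W controls strong fusion in N_G(T) for every nonidentity subgroup T of S that is well placed in S with respect to W, then W controls strong fusion in G. -/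
theorem result {G : Type*} [Group G] [Finite G] {p : ℕ} [Fact p.Prime] (S : Sylow p G) (W : Subgroup G → Subgroup G) (hW : Cfsg.IsConjugacyFunctor p W) (hloc : ∀ T : Subgroup G, T ≠ ⊥ → Cfsg.IsWellPlaced p W (S : Subgroup G) T → Cfsg.ControlsStrongFusionIn p W (Subgroup.normalizer ((T : Subgroup G) : Set G))) : Cfsg.ControlsStrongFusionIn p W ⊤ := by
  refine ⟨S, le_top, S.2, by rw [Subgroup.relIndex_top_right]; exact S.not_dvd_index, ?_⟩
  intro A h _ hA hAh
  by_cases hne : ∃ a ∈ A, a ≠ 1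
  · have hf := fus_wellPlaced S W hW A h⁻¹ hA (by
      rintro _ ⟨a, ha, rfl⟩
      simp only [inv_inv]
      exact hAh ⟨a, ha, rfl⟩)
    obtain ⟨y, hy, hya⟩ := fus1961 S W hW hloc A h⁻¹ hf hne
    refine ⟨y⁻¹, Subgroup.mem_inf.mpr ⟨Subgroup.mem_top _, Subgroup.inv_mem _ hy⟩, ?_⟩
    intro a ha
    have := hya a ha
    simpa using this
  · push Not at hne
    refine ⟨1, one_mem _, ?_⟩
    intro a ha
    rw [hne a ha]; simp

end Cfsg.Agent.S1961
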