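import Cfsg.Statements.S1962
import Cfsg.Agent.S1961
open Cfsg.Agent.Lib.Helper1
open scoped Pointwise

set_option autoImplicit false
open Cfsg

namespace Cfsg.Agent.S1962

theorem climb1962 {G : Type*} [Group G] [Finite G] {p : ℕ} [hp : Fact p.Prime] (S : Sylow p G) (W : Subgroup G → Subgroup G) (hW : Cfsg.IsConjugacyFunctor p W) (hloc : ∀ T : Subgroup G, T ≠ ⊥ → Cfsg.IsWellPlaced p W (S : Subgroup G) T → Cfsg.ControlsTransferIn p W (Subgroup.normalizer ((T : Subgroup G) : Set G))) :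
    ∀ (n : ℕ) (T : Subgroup G), T ≠ ⊥ → Cfsg.IsWellPlaced p W (S : Subgroup G) T →
      Nat.card (S : Subgroup G) - Nat.card ((S : Subgroup G) ⊓ Subgroup.normalizer (T : Set G) : Subgroup G) = n →
      ((S : Subgroup G) ⊓ Subgroup.normalizer (T : Set G)) ⊓ ⁅Subgroup.normalizer (T : Set G), Subgroup.normalizer (T : Set G)⁆ ≤
        (S : Subgroup G) ⊓ ⁅Subgroup.normalizer ((W (S : Subgroup G) : Subgroup G) : Set G), Subgroup.normalizer ((W (S : Subgroup G) : Subgroup G) : Set G)⁆ := by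
  have hWn : ∀ R : Subgroup G, IsPGroup p R →
      Subgroup.normalizer (R : Set G) ≤ Subgroup.normalizer ((W R : Subgroup G) : Set G) := by
    intro R hR g hg
    apply mem_normalizer_of_conj_smul_eq
    have h1 := (hW R hR).2.2 g
    rw [map_conj_eq_smul, map_conj_eq_smul, conj_smul_eq_of_mem_normalizer hg] at h1
    exact h1.symm
  intro n
  induction n using Nat.strong_induction_on with
  | _ n ih =>
  intro T hT1 hTw hn
  set N := Subgroup.normalizer (T : Set G) with hN
  set S1 := (S : Subgroup G) ⊓ N with hS1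
  have hS1p : IsPGroup p S1 := S.2.to_le inf_le_left
  have hS1c : Nat.card S1 = p ^ (Nat.card N).factorization p :=
    card_eq_of_not_dvd_relIndex hS1p inf_le_right (hTw.2 0)
  obtain ⟨T', hT'N, hT'p, hT'i, hT'⟩ := hloc T hT1 hTw
  have hT'c : Nat.card T' = p ^ (Nat.card N).factorization p := card_eq_of_not_dvd_relIndex hT'p hT'N hT'i
  obtain ⟨m, hm, hmS⟩ := sylow_conj_in N T' S1 hT'N inf_le_right hT'c hS1c
  have hmN : MulAut.conj m • N = N := Subgroup.conj_smul_eq_self_of_mem hm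
  have hWS1 : MulAut.conj m • W T' = W S1 := by
    rw [← hmS]; exact ((hW T' hT'p).2.2 m).symm
  have key : S1 ⊓ ⁅N, N⁆ = S1 ⊓ ⁅N ⊓ Subgroup.normalizer ((W S1 : Subgroup G) : Set G), N ⊓ Subgroup.normalizer ((W S1 : Subgroup G) : Set G)⁆ := by
    have h1 := congrArg (fun H : Subgroup G => MulAut.conj m • H) hT'
    have hmT : MulAut.conj m • T = T := conj_smul_eq_of_mem_normalizer hm
    simp only [Subgroup.smul_inf, conj_smul_commutator, conj_smul_normalizer, hmT, hmS, hWS1] at h1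
    exact h1
  rw [key]
  have h2 : S1 ⊓ ⁅N ⊓ Subgroup.normalizer ((W S1 : Subgroup G) : Set G), N ⊓ Subgroup.normalizer ((W S1 : Subgroup G) : Set G)⁆ ≤
      S1 ⊓ ⁅Subgroup.normalizer ((W S1 : Subgroup G) : Set G), Subgroup.normalizer ((W S1 : Subgroup G) : Set G)⁆ :=
    inf_le_inf_left _ (Subgroup.commutator_mono inf_le_right inf_le_right)
  refine h2.trans ?_
  rcases eq_or_lt_of_le (inf_le_left : S1 ≤ (S : Subgroup G)) with heq | hlt
  · have heq' : S1 = (S : Subgroup G) := heq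
    rw [heq']
  · set T1 := W S1 with hT1def
    have hT1S1 : T1 ≤ S1 := (hW S1 hS1p).1
    have hS1ne : S1 ≠ ⊥ := by
      intro hb
      apply hT1
      have : T ≤ S1 := le_inf hTw.1 Subgroup.le_normalizer
      rw [hb] at this
      exact le_bot_iff.mp this
    have hT1ne : T1 ≠ ⊥ := (hW S1 hS1p).2.1 hS1ne
    have hT1w : Cfsg.IsWellPlaced p W (S : Subgroup G) T1 := by
      refine ⟨hT1S1.trans inf_le_left, fun i => ?_⟩
      rw [← tower_shift W (S : Subgroup G) T T1 rfl i]
      exact hTw.2 (i + 1)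
    have hRN : S1 < (S : Subgroup G) ⊓ Subgroup.normalizer (S1 : Set G) := lt_inf_normalizer_of_lt S.2 hlt
    have hRN1 : S1 < (S : Subgroup G) ⊓ Subgroup.normalizer (T1 : Set G) :=
      lt_of_lt_of_le hRN (inf_le_inf_left _ (hWn S1 hS1p))
    have hc2 := card_lt_of_lt hRN1
    have hc3 : Nat.card ((S : Subgroup G) ⊓ Subgroup.normalizer (T1 : Set G) : Subgroup G) ≤ Nat.card (S : Subgroup G) :=
      Subgroup.card_le_of_le inf_le_left
    exact (inf_le_inf_right _ hRN1.le).trans (ih _ (by omega) T1 hT1ne hT1w rfl)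

open scoped commutatorElement in
theorem fus1962 {G : Type*} [Group G] [Finite G] {p : ℕ} [hp : Fact p.Prime] (S : Sylow p G) (W : Subgroup G → Subgroup G) (hW : Cfsg.IsConjugacyFunctor p W) (hloc : ∀ T : Subgroup G, T ≠ ⊥ → Cfsg.IsWellPlaced p W (S : Subgroup G) T → Cfsg.ControlsTransferIn p W (Subgroup.normalizer ((T : Subgroup G) : Set G)))
    (A : Set G) (g : G) (hf : Fus {T : Subgroup G | Cfsg.IsWellPlaced p W (S : Subgroup G) T} A g) :
    (∃ a ∈ A, a ≠ 1) → ∀ a ∈ A, a * (g⁻¹ * a * g)⁻¹ ∈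
      (S : Subgroup G) ⊓ ⁅Subgroup.normalizer ((W (S : Subgroup G) : Subgroup G) : Set G), Subgroup.normalizer ((W (S : Subgroup G) : Subgroup G) : Set G)⁆ := by
  induction hf with
  | nil A => intro _ a _; simp
  | cons A T x g hT hx hA _ ih =>
    intro hne a ha
    obtain ⟨a0, ha0, ha01⟩ := hne
    have hTne : T ≠ ⊥ := by
      intro hb
      have := hA ha0
      rw [hb] at this
      exact ha01 (Subgroup.mem_bot.mp this)
    have hTS1 : T ≤ (S : Subgroup G) ⊓ Subgroup.normalizer (T : Set G) := le_inf hT.1 Subgroup.le_normalizer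
    have h1 := ih ⟨x⁻¹ * a0 * x, ⟨a0, ha0, rfl⟩, by
        intro h1
        apply ha01
        have : a0 = x * (x⁻¹ * a0 * x) * x⁻¹ := by group
        rw [this, h1]; group⟩ _ ⟨a, ha, rfl⟩
    simp only at h1
    have hxa : x⁻¹ * a * x ∈ T := by
      have := (Subgroup.mem_normalizer_iff.mp (Subgroup.inv_mem _ hx) a).mp (hA ha)
      simpa using this
    have h2 : a * (x⁻¹ * a * x)⁻¹ ∈ ((S : Subgroup G) ⊓ Subgroup.normalizer (T : Set G)) ⊓ ⁅Subgroup.normalizer (T : Set G), Subgroup.normalizer (T : Set G)⁆ := by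
      refine Subgroup.mem_inf.mpr ⟨hTS1 (T.mul_mem (hA ha) (T.inv_mem hxa)), ?_⟩
      have : a * (x⁻¹ * a * x)⁻¹ = ⁅a, x⁻¹⁆ := by rw [commutatorElement_def]; group
      rw [this]
      exact Subgroup.commutator_mem_commutator (Subgroup.le_normalizer (hA ha)) (Subgroup.inv_mem _ hx)
    have h3 := climb1962 S W hW hloc _ T hTne hT rfl h2
    have h4 : a * ((x * g)⁻¹ * a * (x * g))⁻¹ = (a * (x⁻¹ * a * x)⁻¹) * ((x⁻¹ * a * x) * (g⁻¹ * (x⁻¹ * a * x) * g)⁻¹) := by group
    rw [h4]
    exact Subgroup.mul_mem _ h3 h1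

open scoped commutatorElement in
theorem aux1962 {G : Type*} [Group G] [Finite G] {p : ℕ} [Fact p.Prime] (S : Sylow p G) (W : Subgroup G → Subgroup G) (hW : Cfsg.IsConjugacyFunctor p W) (hloc : ∀ T : Subgroup G, T ≠ ⊥ → Cfsg.IsWellPlaced p W (S : Subgroup G) T → Cfsg.ControlsTransferIn p W (Subgroup.normalizer ((T : Subgroup G) : Set G))) : Cfsg.ControlsTransferIn p W ⊤ := by
  refine ⟨S, le_top, S.2, by rw [Subgroup.relIndex_top_right]; exact S.not_dvd_index, ?_⟩
  apply le_antisymm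
  · have h1 := (focal_sylow S).2.2
    rw [top_inf_eq]
    have h2 : (S : Subgroup G) ⊓ ⁅(⊤ : Subgroup G), ⊤⁆ = (S : Subgroup G).focalSubgroup := by
      rw [← h1, inf_comm]; rfl
    rw [h2, Subgroup.focalSubgroup, Subgroup.closure_le]
    rintro _ ⟨hc, x, hx, u, rfl⟩
    by_cases hx1 : x = 1
    · subst hx1; simp
    have hux : u * x * u⁻¹ ∈ (S : Subgroup G) := by
      have h3 : u * x * u⁻¹ = (x⁻¹ * ⁅x, u⁆)⁻¹ := by rw [commutatorElement_def]; group
      rw [h3]
      exact inv_mem (mul_mem (inv_mem hx) hc)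
    have hf := Cfsg.Agent.S1961.fus_wellPlaced S W hW {x} u⁻¹ (by rintro _ rfl; exact hx) (by
      rintro _ ⟨_, rfl, rfl⟩
      simp only [inv_inv]; exact hux)
    have h4 := fus1962 S W hW hloc {x} u⁻¹ hf ⟨x, rfl, hx1⟩ x rfl
    have h5 : x * (u⁻¹⁻¹ * x * u⁻¹)⁻¹ = ⁅x, u⁆ := by rw [commutatorElement_def]; group
    rw [h5] at h4
    exact h4
  · exact inf_le_inf_left _ (Subgroup.commutator_mono inf_le_left inf_le_left)

/-- Local-to-global control of transfer through well-placed subgroups. Let p be a prime, G a finite group with Sylow p-subgroup S, and W a conjugacy functor for p on G. If W controls transfer in N_G(T) for every nonidentity subgroup T of S that is well placed in S with respect to W, then W controls transfer in G: S ∩ G' = S ∩ (N_G(W(S)))'. -/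
theorem result {G : Type*} [Group G] [Finite G] {p : ℕ} [Fact p.Prime] (S : Sylow p G) (W : Subgroup G → Subgroup G) (hW : Cfsg.IsConjugacyFunctor p W) (hloc : ∀ T : Subgroup G, T ≠ ⊥ → Cfsg.IsWellPlaced p W (S : Subgroup G) T → Cfsg.ControlsTransferIn p W (Subgroup.normalizer ((T : Subgroup G) : Set G))) : Cfsg.ControlsTransferIn p W ⊤ := by
  exact aux1962 S W hW hloc

end Cfsg.Agent.S1962
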