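import Cfsg.Statements.S1966
import Mathlib

set_option autoImplicit false
open Cfsg

namespace Cfsg.Agent.S1966

theorem pCore_normal (p : ℕ) (G : Type*) [Group G] : (Cfsg.pCore p G).Normal :=
  Subgroup.sSup_normal _ (fun _ hH => hH.1)

theorem pCore_le_sylow {G : Type*} [Group G] {p : ℕ} (S : Sylow p G) :
    Cfsg.pCore p G ≤ (S : Subgroup G) := by
  apply sSup_le
  intro N hN
  have := hN.1
  exact hN.2.le_sylow_of_normal S

/-- Let p be a prime, G a finite group with Sylow p-subgroup S and 𝓕 a conjugation family for S in G. Then the members of 𝓕 containing O_p(G) still form a conjugation family for S in G. -/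
theorem result {G : Type*} [Group G] [Finite G] {p : ℕ} [Fact p.Prime] (S : Sylow p G) (𝓕 : Set (Subgroup G)) (h : Cfsg.IsConjugationFamily 𝓕 (S : Subgroup G)) : Cfsg.IsConjugationFamily {T : Subgroup G | T ∈ 𝓕 ∧ Cfsg.pCore p G ≤ T} (S : Subgroup G) := by
  have hn := pCore_normal p G
  have hle := pCore_le_sylow S
  refine ⟨fun T hT => h.1 T hT.1, ?_⟩
  intro A g hA hAS hAg
  obtain ⟨n, T, x, hprod, hT, hx, h0, hstep⟩ := h.2 (A ∪ (Cfsg.pCore p G : Set G)) g
    (hA.mono Set.subset_union_left) (Set.union_subset hAS hle) (by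
      rintro _ ⟨a, ha | ha, rfl⟩
      · exact hAg ⟨a, ha, rfl⟩
      · apply hle
        have := hn.conj_mem a ha g⁻¹
        simpa using this)
  refine ⟨n, T, x, hprod, ?_, hx, ?_, ?_⟩
  · intro i
    refine ⟨hT i, ?_⟩
    obtain ⟨i, hi⟩ := i
    cases i with
    | zero =>
      intro y hy
      exact h0 hi (Or.inr hy)
    | succ j =>
      intro y hy
      have hj : j < n := by omega
      have := hstep ⟨j, hj⟩ hi
      apply this
      set w := ((List.ofFn x).take (j + 1)).prod with hw
      refine ⟨w * y * w⁻¹, Or.inr (hn.conj_mem y hy w), ?_⟩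
      show w⁻¹ * (w * y * w⁻¹) * w = y
      group
  · intro h0n
    exact Set.subset_union_left.trans (h0 h0n)
  · intro i hi
    exact (Set.image_mono Set.subset_union_left).trans (hstep i hi)

end Cfsg.Agent.S1966
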