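import Cfsg.Statements.S1967
import Cfsg.Agent.Lib.Helper1.WellPlaced
open Cfsg.Agent.Lib.Helper1
open scoped Pointwise

set_option autoImplicit false
open Cfsg

namespace Cfsg.Agent.S1967

/-- Let p be a prime, G a finite group with Sylow p-subgroup S and W a conjugacy functor for p on G. Then W controls strong fusion in G if and only if, whenever T ≤ S and g ∈ G satisfy gTg⁻¹ ≤ S, one can write g = n c with n ∈ N_G(W(S)) and c ∈ C_G(T). -/
theorem result {G : Type*} [Group G] [Finite G] {p : ℕ} [Fact p.Prime] (S : Sylow p G) (W : Subgroup G → Subgroup G) (hW : Cfsg.IsConjugacyFunctor p W) : Cfsg.ControlsStrongFusionIn p W ⊤ ↔ ∀ (T : Subgroup G) (g : G), T ≤ (S : Subgroup G) → T.map (MulAut.conj g).toMonoidHom ≤ (S : Subgroup G) → ∃ n ∈ Subgroup.normalizer ((W (S : Subgroup G) : Subgroup G) : Set G), ∃ c ∈ Subgroup.centralizer (T : Set G), g = n * c := by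
  constructor
  · rintro ⟨T', -, hT'p, hT'i, hT'⟩ T g hT hTg
    have hT'c : Nat.card T' = p ^ (Nat.card (⊤ : Subgroup G)).factorization p :=
      card_eq_of_not_dvd_relIndex hT'p le_top hT'i
    obtain ⟨m, -, hmS⟩ := sylow_conj_in ⊤ (S : Subgroup G) T' le_top le_top (sylow_card_top S) hT'c
    obtain ⟨x0, hx0, hx0a⟩ := hT' ((fun a => m * a * m⁻¹) '' (T : Set G)) (m * g * m⁻¹) (Subgroup.mem_top _)
      (by
        rintro _ ⟨a, ha, rfl⟩
        rw [← hmS]
        change _ ∈ MulAut.conj m • (S : Subgroup G)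
        rw [mem_conj_smul]
        have : m⁻¹ * (m * a * m⁻¹) * m = a := by group
        rw [this]; exact hT ha)
      (by
        rintro _ ⟨_, ⟨a, ha, rfl⟩, rfl⟩
        rw [← hmS]
        change _ ∈ MulAut.conj m • (S : Subgroup G)
        rw [mem_conj_smul]
        have : m⁻¹ * (m * g * m⁻¹ * (m * a * m⁻¹) * (m * g * m⁻¹)⁻¹) * m = g * a * g⁻¹ := by group
        rw [this]; exact hTg ⟨a, ha, rfl⟩)
    have hx0W := (Subgroup.mem_inf.mp hx0).2
    have hWS1 : W T' = MulAut.conj m • W (S : Subgroup G) := by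
      rw [← hmS]; exact (hW S S.2).2.2 m
    have hx'W : m⁻¹ * x0 * m ∈ Subgroup.normalizer ((W (S : Subgroup G) : Subgroup G) : Set G) := by
      rw [hWS1, ← conj_smul_normalizer, mem_conj_smul] at hx0W
      exact hx0W
    have hx'a : ∀ a ∈ T, (m⁻¹ * x0 * m) * a * (m⁻¹ * x0 * m)⁻¹ = g * a * g⁻¹ := by
      intro a ha
      have h1 := hx0a _ ⟨a, ha, rfl⟩
      calc (m⁻¹ * x0 * m) * a * (m⁻¹ * x0 * m)⁻¹ = m⁻¹ * (x0 * (m * a * m⁻¹) * x0⁻¹) * m := by group
        _ = m⁻¹ * (m * g * m⁻¹ * (m * a * m⁻¹) * (m * g * m⁻¹)⁻¹) * m := by rw [h1]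
        _ = g * a * g⁻¹ := by group
    refine ⟨m⁻¹ * x0 * m, hx'W, (m⁻¹ * x0 * m)⁻¹ * g, ?_, by group⟩
    rw [Subgroup.mem_centralizer_iff]
    intro a ha
    have h2 := hx'a a ha
    set n := m⁻¹ * x0 * m
    calc a * (n⁻¹ * g) = n⁻¹ * (n * a * n⁻¹) * g := by group
      _ = n⁻¹ * (g * a * g⁻¹) * g := by rw [h2]
      _ = n⁻¹ * g * a := by group
  · intro h
    refine ⟨S, le_top, S.2, by rw [Subgroup.relIndex_top_right]; exact S.not_dvd_index, ?_⟩
    intro A g _ hA hAg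
    obtain ⟨n, hn, c, hc, rfl⟩ := h (Subgroup.closure A) g ((Subgroup.closure_le _).mpr hA) (by
      rw [MonoidHom.map_closure, Subgroup.closure_le]
      rintro _ ⟨a, ha, rfl⟩
      exact hAg ⟨a, ha, rfl⟩)
    refine ⟨n, Subgroup.mem_inf.mpr ⟨Subgroup.mem_top _, hn⟩, ?_⟩
    intro a ha
    have h1 := Subgroup.mem_centralizer_iff.mp hc a (Subgroup.subset_closure ha)
    calc n * a * n⁻¹ = n * (a * c) * c⁻¹ * n⁻¹ := by group
      _ = n * (c * a) * c⁻¹ * n⁻¹ := by rw [h1]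
      _ = n * c * a * (n * c)⁻¹ := by group

end Cfsg.Agent.S1967
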