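import Cfsg.Statements.S1975
import Mathlib

set_option autoImplicit false
open Cfsg

namespace Cfsg.Agent.S1975

theorem upper_anti {P : Type*} [Group P] {Q R : Subgroup P} (h : Q ≤ R) :
    Cfsg.kUpperStarFamily R ⊆ Cfsg.kUpperStarFamily Q := by
  intro B hB
  exact ⟨hB.1, (Subgroup.commutator_mono le_rfl h).trans hB.2⟩

theorem lower_anti {P : Type*} [Group P] {Q R : Subgroup P} (h : Q ≤ R) :
    Cfsg.kLowerStarFamily R ⊆ Cfsg.kLowerStarFamily Q := by
  intro B hB
  exact ⟨hB.1, h.trans hB.2.1, fun A hA hAQ => hB.2.2 A hA (hAQ.trans h)⟩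

theorem odd_anti {P : Type*} [Group P] (n : ℕ) : Cfsg.kSeqOdd P (n + 1) ≤ Cfsg.kSeqOdd P n := by
  induction n with
  | zero => exact le_top
  | succ n ih =>
    show sSup (kUpperStarFamily (sSup (kLowerStarFamily (kSeqOdd P (n+1))))) ≤
      sSup (kUpperStarFamily (sSup (kLowerStarFamily (kSeqOdd P n))))
    exact sSup_le_sSup (upper_anti (sSup_le_sSup (lower_anti ih)))

theorem even_mono {P : Type*} [Group P] (n : ℕ) : Cfsg.kSeqEven P n ≤ Cfsg.kSeqEven P (n + 1) :=
  sSup_le_sSup (lower_anti (odd_anti n))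

/-- Let P be a finite p-group. In the K-sequence of P the odd-indexed terms decrease and the even-indexed terms increase: with the numbering used here, kSeqOdd P (n+1) ≤ kSeqOdd P n and kSeqEven P n ≤ kSeqEven P (n+1) for every n. -/
theorem result {P : Type*} [Group P] [Finite P] {p : ℕ} [Fact p.Prime] (hP : IsPGroup p P) (n : ℕ) : Cfsg.kSeqOdd P (n + 1) ≤ Cfsg.kSeqOdd P n ∧ Cfsg.kSeqEven P n ≤ Cfsg.kSeqEven P (n + 1) :=
  ⟨odd_anti n, even_mono n⟩

end Cfsg.Agent.S1975
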