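import Cfsg.Statements.S1976
import Cfsg.Agent.S1975
import Mathlib

set_option autoImplicit false
open Cfsg

namespace Cfsg.Agent.S1976

theorem even_monotone (P : Type*) [Group P] : Monotone (Cfsg.kSeqEven P) :=
  monotone_nat_of_le_succ (Cfsg.Agent.S1975.even_mono)

theorem odd_antitone (P : Type*) [Group P] : Antitone (Cfsg.kSeqOdd P) :=
  antitone_nat_of_succ_le (Cfsg.Agent.S1975.odd_anti)

/-- Let P be a finite p-group. The K-sequence of P is eventually constant on each parity: from some index on, every even-indexed term equals the lower K-infinity subgroup and every odd-indexed term equals the upper K-infinity subgroup. -/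
theorem result {P : Type*} [Group P] [Finite P] {p : ℕ} [Fact p.Prime] (hP : IsPGroup p P) : ∃ n : ℕ, ∀ m : ℕ, n ≤ m → Cfsg.kSeqEven P m = Cfsg.kInfLower P ∧ Cfsg.kSeqOdd P m = Cfsg.kInfUpper P := by
  obtain ⟨n₁, h₁⟩ := WellFoundedGT.monotone_chain_condition (α := Subgroup P)
    ⟨Cfsg.kSeqEven P, even_monotone P⟩
  obtain ⟨n₂, h₂⟩ := WellFoundedGT.monotone_chain_condition (α := (Subgroup P)ᵒᵈ)
    ⟨fun n => OrderDual.toDual (Cfsg.kSeqOdd P n), fun a b hab => odd_antitone P hab⟩
  have h₁' : ∀ m, n₁ ≤ m → Cfsg.kSeqEven P n₁ = Cfsg.kSeqEven P m := h₁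
  have h₂' : ∀ m, n₂ ≤ m → Cfsg.kSeqOdd P n₂ = Cfsg.kSeqOdd P m := fun m hm =>
    OrderDual.toDual.injective (h₂ m hm)
  have e₁ : Cfsg.kInfLower P = Cfsg.kSeqEven P n₁ := by
    apply le_antisymm
    · apply iSup_le
      intro k
      rcases le_total k n₁ with h | h
      · exact even_monotone P h
      · exact (h₁' k h).ge
    · exact le_iSup (Cfsg.kSeqEven P) n₁
  have e₂ : Cfsg.kInfUpper P = Cfsg.kSeqOdd P n₂ := by
    apply le_antisymm
    · exact iInf_le (Cfsg.kSeqOdd P) n₂
    · apply le_iInf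
      intro k
      rcases le_total k n₂ with h | h
      · exact odd_antitone P h
      · exact (h₂' k h).le
  refine ⟨max n₁ n₂, fun m hm => ⟨?_, ?_⟩⟩
  · rw [e₁]; exact (h₁' m ((le_max_left _ _).trans hm)).symm
  · rw [e₂]; exact (h₂' m ((le_max_right _ _).trans hm)).symm

end Cfsg.Agent.S1976
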