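import Cfsg.Statements.S1980
import Mathlib

set_option autoImplicit false
open Cfsg

namespace Cfsg.Agent.S1980

theorem le_cent {P : Type*} [Group P] (A : Subgroup P) (hA : IsMulCommutative ↥A) :
    A ≤ Subgroup.centralizer (A : Set P) := by
  intro a ha
  rw [Subgroup.mem_centralizer_iff]
  intro b hb
  exact congrArg Subtype.val (hA.is_comm.comm ⟨b, hb⟩ ⟨a, ha⟩)

theorem classTwo {P : Type*} [Group P] (A : Subgroup P) (hA : IsMulCommutative ↥A) :
    A ∈ Cfsg.classTwoSubgroups P := by
  show ⁅A, A⁆ ≤ Subgroup.centralizer (A : Set P)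
  have : ⁅A, A⁆ = ⊥ := by
    rw [Subgroup.commutator_eq_bot_iff_le_centralizer]
    exact le_cent A hA
  rw [this]; exact bot_le

theorem comm_le {P : Type*} [Group P] (A : Subgroup P) [A.Normal] (hA : IsMulCommutative ↥A)
    (Q : Subgroup P) : ⁅A, Q⁆ ≤ A ⊓ Subgroup.centralizer (A : Set P) :=
  le_inf (Subgroup.commutator_le_left A Q) ((Subgroup.commutator_le_left A Q).trans (le_cent A hA))

theorem mem_lower {P : Type*} [Group P] (A : Subgroup P) [A.Normal] (hA : IsMulCommutative ↥A)
    (Q : Subgroup P) : A ∈ Cfsg.kLowerStarFamily Q := by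
  refine ⟨classTwo A hA, ?_, fun B _ _ _ _ _ => comm_le A hA B⟩
  rw [Subgroup.normalizer_eq_top]; exact le_top

theorem mem_upper {P : Type*} [Group P] (A : Subgroup P) [A.Normal] (hA : IsMulCommutative ↥A)
    (Q : Subgroup P) : A ∈ Cfsg.kUpperStarFamily Q :=
  ⟨classTwo A hA, comm_le A hA Q⟩

/-- Let P be a finite p-group and A an abelian normal subgroup of P. Then A belongs to every family used to build the K-sequence of P: the class-two family, every lower-star family relative to an odd-indexed term, and every upper-star family relative to an even-indexed term. In particular A lies in every term of the K-sequence. -/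
theorem result {P : Type*} [Group P] [Finite P] {p : ℕ} [Fact p.Prime] (hP : IsPGroup p P) (A : Subgroup P) [A.Normal] (hA : IsMulCommutative ↥A) : A ∈ Cfsg.classTwoSubgroups P ∧ ∀ n : ℕ, A ∈ Cfsg.kLowerStarFamily (Cfsg.kSeqOdd P n) ∧ A ∈ Cfsg.kUpperStarFamily (Cfsg.kSeqEven P n) :=
  ⟨classTwo A hA, fun _ => ⟨mem_lower A hA _, mem_upper A hA _⟩⟩

end Cfsg.Agent.S1980
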