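import Cfsg.Statements.S2007
import Mathlib
import Cfsg.Agent.Lib.Helper1.HallRel
import Cfsg.Agent.Lib.Helper1.Frat
import Cfsg.Agent.Lib.Helper1.Transfer1
import Cfsg.Agent.Lib.Helper1.Frobenius

set_option autoImplicit false
open Cfsg

namespace Cfsg.Agent.S2007

open Cfsg
open Cfsg.Agent.Lib.Helper1
open scoped Pointwise

/-- Let p be a prime, G a finite group with Sylow p-subgroup S, and T a normal subgroup of S containing C_S(T). If N_G(T)/C_G(T) is a p-group (every element of N_G(T) of order prime to p centralizes T), then N_G(T) has a normal p-complement. -/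
theorem result {G : Type*} [Group G] [Finite G] {p : ℕ} [Fact p.Prime] (S : Sylow p G) (T : Subgroup G) (hTS : T ≤ (S : Subgroup G)) (hTn : (S : Subgroup G) ≤ Subgroup.normalizer ((T : Subgroup G) : Set G)) (hC : (S : Subgroup G) ⊓ Subgroup.centralizer ((T : Subgroup G) : Set G) ≤ T) (hN : ∀ g ∈ Subgroup.normalizer ((T : Subgroup G) : Set G), (orderOf g).Coprime p → g ∈ Subgroup.centralizer ((T : Subgroup G) : Set G)) : Cfsg.HasNormalPComplement p ↥(Subgroup.normalizer ((T : Subgroup G) : Set G)) := by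
  have hp : p.Prime := Fact.out
  set N := Subgroup.normalizer ((T : Subgroup G) : Set G) with hNdef
  set C := Subgroup.centralizer ((T : Subgroup G) : Set G) with hCdef
  have hCN : C ≤ N := Subgroup.centralizer_le_normalizer _
  obtain ⟨P⟩ : Nonempty (Sylow p C) := inferInstance
  have hSc := sylow_card_of_le hTn le_top (sylow_card_top S)
  have hPp : IsPGroup p ((P : Subgroup C).map C.subtype) := P.2.map _
  obtain ⟨l, hl, h1⟩ := sylow_dominance_in N (S : Subgroup G) ((P : Subgroup C).map C.subtype) hTn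
    ((Subgroup.map_subtype_le _).trans hCN) hSc hPp
  have hPT : ∀ x : C, x ∈ P → (x : G) ∈ T := by
    intro x hx
    have h2 : (x : G) ∈ MulAut.conj l • (S : Subgroup G) := h1 ⟨x, hx, rfl⟩
    rw [mem_conj_smul] at h2
    have h3 : l⁻¹ * (x : G) * l ∈ C := by
      apply Subgroup.mem_centralizer_iff.mpr
      intro t ht
      have h5 : l * t * l⁻¹ ∈ T := (Subgroup.mem_normalizer_iff.mp hl _).mp ht
      have h6 := Subgroup.mem_centralizer_iff.mp x.2 _ h5
      calc t * (l⁻¹ * (x : G) * l) = l⁻¹ * ((l * t * l⁻¹) * (x : G)) * l := by group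
        _ = l⁻¹ * ((x : G) * (l * t * l⁻¹)) * l := by rw [h6]
        _ = _ := by group
    have h4 := hC ⟨h2, h3⟩
    have h5 := (Subgroup.mem_normalizer_iff.mp hl _).mp h4
    have e : l * (l⁻¹ * (x : G) * l) * l⁻¹ = x := by group
    rwa [e] at h5
  have hP : Subgroup.normalizer ((P : Subgroup C) : Set C) ≤ Subgroup.centralizer ((P : Subgroup C) : Set C) := by
    intro c _
    rw [Subgroup.mem_centralizer_iff]
    intro x hx
    apply Subtype.ext
    have := Subgroup.mem_centralizer_iff.mp c.2 x (hPT x hx)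
    exact this
  have hcompl := MonoidHom.ker_transferSylow_isComplement' P hP
  set K0 := (MonoidHom.transferSylow P hP).ker with hK0
  have hK0c : (Nat.card K0).Coprime p := by
    have h1 := hcompl.card_mul_card
    have h2 : Nat.card K0 = (P : Subgroup C).index := by
      rw [mul_comm] at h1
      exact Nat.eq_of_mul_eq_mul_left Nat.card_pos (h1.trans (P : Subgroup C).card_mul_index.symm)
    rw [h2]
    exact ((Nat.Prime.coprime_iff_not_dvd hp).mpr P.not_dvd_index).symm
  set K := K0.map C.subtype with hK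
  have hKN : K ≤ N := (Subgroup.map_subtype_le _).trans hCN
  have claim1 : ∀ g ∈ N, (orderOf g).Coprime p → g ∈ K := by
    intro g hg hco
    have hgC := hN g hg hco
    refine ⟨⟨g, hgC⟩, ?_, rfl⟩
    show (⟨g, hgC⟩ : C) ∈ K0
    rw [hK0, MonoidHom.mem_ker]
    obtain ⟨k, hk⟩ := P.2 (MonoidHom.transferSylow P hP ⟨g, hgC⟩)
    have h1 := orderOf_dvd_of_pow_eq_one hk
    have h2 : orderOf (MonoidHom.transferSylow P hP ⟨g, hgC⟩) ∣ orderOf g := by
      have := orderOf_map_dvd (MonoidHom.transferSylow P hP) (⟨g, hgC⟩ : C)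
      rwa [← Subgroup.orderOf_coe (⟨g, hgC⟩ : C)] at this
    rw [← orderOf_eq_one_iff]
    exact Nat.eq_one_of_dvd_coprimes (Nat.Coprime.pow_right k hco) h2 h1
  rw [hasNormalPComplement_iff]
  have h2 : pResidual p N ≤ K.subgroupOf N := by
    rw [pResidual, Subgroup.closure_le]
    intro g hg
    show g ∈ K.subgroupOf N
    rw [Subgroup.mem_subgroupOf]
    apply claim1 _ g.2
    rw [Subgroup.orderOf_coe]
    exact hg
  apply Nat.Coprime.coprime_dvd_left (Subgroup.card_dvd_of_le h2)
  rw [Nat.card_congr (Subgroup.subgroupOfEquivOfLe hKN).toEquiv, hK, Subgroup.card_map_of_injective C.subtype_injective]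
  exact hK0c

end Cfsg.Agent.S2007
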