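import Cfsg.Statements.S2008
import Mathlib

set_option autoImplicit false
open Cfsg

namespace Cfsg.Agent.S2008

/-- A fixed-point-free involution inverts a finite normal subgroup. -/
theorem inverts {H : Type*} [Group H] [Finite H] (N : Subgroup H) [N.Normal] (e : H) (he : e * e = 1)
    (hf : ∀ n ∈ N, e * n = n * e → n = 1) : ∀ n ∈ N, e * n * e⁻¹ = n⁻¹ := by
  have hinv : e⁻¹ = e := inv_eq_of_mul_eq_one_left he
  let f : N → N := fun n => ⟨(n : H)⁻¹ * (e * n * e⁻¹),
    N.mul_mem (N.inv_mem n.2) (Subgroup.Normal.conj_mem inferInstance _ n.2 e)⟩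
  have hinj : Function.Injective f := by
    intro n m hnm
    have h1 : (n : H)⁻¹ * (e * n * e⁻¹) = (m : H)⁻¹ * (e * m * e⁻¹) := congrArg Subtype.val hnm
    have h2 : e * ((m : H) * (n : H)⁻¹) = ((m : H) * (n : H)⁻¹) * e := by
      have h3 : (m : H) * (n : H)⁻¹ = e * m * e⁻¹ * (e * n * e⁻¹)⁻¹ := by
        have : (m : H) * ((n : H)⁻¹ * (e * n * e⁻¹)) = e * m * e⁻¹ := by rw [h1]; group
        calc (m : H) * (n : H)⁻¹ = (m : H) * ((n : H)⁻¹ * (e * n * e⁻¹)) * (e * n * e⁻¹)⁻¹ := by group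
          _ = _ := by rw [this]
      have h4 : e * m * e⁻¹ * (e * n * e⁻¹)⁻¹ = e * ((m : H) * (n : H)⁻¹) * e⁻¹ := by group
      rw [h4] at h3
      calc e * ((m : H) * (n : H)⁻¹) = e * ((m : H) * (n : H)⁻¹) * e⁻¹ * e := by group
        _ = _ := by rw [← h3]
    have h5 := hf _ (N.mul_mem m.2 (N.inv_mem n.2)) h2
    exact Subtype.ext (mul_inv_eq_one.mp h5).symm
  have hsurj : Function.Surjective f := Finite.surjective_of_injective hinj
  intro x hx
  obtain ⟨n, hn⟩ := hsurj ⟨x, hx⟩
  have hx' : x = (n : H)⁻¹ * (e * n * e⁻¹) := (congrArg Subtype.val hn).symm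
  rw [hx', hinv]
  have : e * ((n : H)⁻¹ * (e * n * e)) * e = e * (n : H)⁻¹ * e * n * (e * e) := by group
  rw [this, he]
  have h6 : ((n : H)⁻¹ * (e * n * e))⁻¹ = e⁻¹ * (n : H)⁻¹ * e⁻¹ * n := by group
  rw [h6, hinv, mul_one]

theorem proper_normal_trivial {H : Type*} [Group H] [Finite H] (z : H) (hz : orderOf z = 2)
    (hN : ∀ N : Subgroup H, N.Normal → N ≠ ⊤ → N ⊓ Subgroup.centralizer ({z} : Set H) = ⊥)
    (E : Subgroup H) (hE : IsKleinFour ↥E) (hzE : z ∈ E) (hc : ∀ e ∈ E, e ≠ 1 → IsConj z e)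
    (N : Subgroup H) [N.Normal] (hne : N ≠ ⊤) : N = ⊥ := by
  have hfix : ∀ e ∈ E, e ≠ 1 → ∀ n ∈ N, e * n = n * e → n = 1 := by
    intro e he he1 n hn hcomm
    obtain ⟨g, hg⟩ := isConj_iff.mp (hc e he he1)
    have h1 : g⁻¹ * n * g ∈ N ⊓ Subgroup.centralizer ({z} : Set H) := by
      refine ⟨?_, ?_⟩
      · have := Subgroup.Normal.conj_mem (inferInstance : N.Normal) n hn g⁻¹
        simpa using this
      · show g⁻¹ * n * g ∈ Subgroup.centralizer ({z} : Set H)
        rw [Subgroup.mem_centralizer_singleton_iff]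
        rw [← hg] at hcomm
        have : g⁻¹ * (g * z * g⁻¹ * n) * g = g⁻¹ * (n * (g * z * g⁻¹)) * g := by rw [hcomm]
        calc g⁻¹ * n * g * z = g⁻¹ * (n * (g * z * g⁻¹)) * g := by group
          _ = g⁻¹ * (g * z * g⁻¹ * n) * g := this.symm
          _ = z * (g⁻¹ * n * g) := by group
    rw [hN N inferInstance hne, Subgroup.mem_bot] at h1
    have : n = g * (g⁻¹ * n * g) * g⁻¹ := by group
    rw [this, h1]; group
  have hsq : ∀ e ∈ E, e * e = 1 := by
    intro e he
    have := IsKleinFour.mul_self (⟨e, he⟩ : E)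
    exact congrArg Subtype.val this
  have hz1 : z ≠ 1 := by
    rintro rfl
    simp at hz
  -- a third element
  obtain ⟨e, he, he1, hez⟩ : ∃ e ∈ E, e ≠ 1 ∧ e ≠ z := by
    by_contra hcon
    push Not at hcon
    have hsub : (E : Set H) ⊆ {1, z} := by
      intro x hx
      by_cases hx1 : x = 1
      · simp [hx1]
      · simp [hcon x hx hx1]
    have h4 : Nat.card E = 4 := IsKleinFour.card_four
    have : (E : Set H).ncard ≤ ({1, z} : Set H).ncard := Set.ncard_le_ncard hsub (Set.toFinite _)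
    have h2 : ({1, z} : Set H).ncard ≤ 2 := (Set.ncard_insert_le 1 {z}).trans (by simp)
    have h3 : (E : Set H).ncard = Nat.card E := rfl
    omega
  have hze1 : z * e ≠ 1 := by
    intro h
    have : e = z := by
      calc e = (z * z) * e := by rw [hsq z hzE]; simp
        _ = z * (z * e) := by group
        _ = z := by rw [h]; simp
    exact hez this
  rw [eq_bot_iff]
  intro n hn
  have i1 := inverts N z (hsq z hzE) (hfix z hzE hz1) 
  have i2 := inverts N e (hsq e he) (hfix e he he1)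
  have i3 := inverts N (z * e) (hsq _ (E.mul_mem hzE he)) (hfix _ (E.mul_mem hzE he) hze1) n hn
  have h1 : (z * e) * n * (z * e)⁻¹ = n := by
    calc (z * e) * n * (z * e)⁻¹ = z * (e * n * e⁻¹) * z⁻¹ := by group
      _ = z * n⁻¹ * z⁻¹ := by rw [i2 n hn]
      _ = n⁻¹⁻¹ := i1 _ (N.inv_mem hn)
      _ = n := inv_inv n
  have h2 : (z * e) * n = n * (z * e) := by
    calc (z * e) * n = (z * e) * n * (z * e)⁻¹ * (z * e) := by group
      _ = _ := by rw [h1]
  rw [Subgroup.mem_bot]
  exact hfix _ (E.mul_mem hzE he) hze1 n hn h2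

/-- Let H be a finite group and z an involution such that every proper normal subgroup of H meets the centralizer of z trivially, and suppose z lies in a Klein four-subgroup E of H all three of whose involutions are conjugate to z in H. Then H has no non-trivial abelian normal subgroup. -/
theorem result {H : Type*} [Group H] [Finite H] (z : H) (hz : orderOf z = 2) (hN : ∀ N : Subgroup H, N.Normal → N ≠ ⊤ → N ⊓ Subgroup.centralizer ({z} : Set H) = ⊥) (E : Subgroup H) (hE : IsKleinFour ↥E) (hzE : z ∈ E) (hc : ∀ e ∈ E, e ≠ 1 → IsConj z e) (N : Subgroup H) [N.Normal] (hab : IsMulCommutative ↥N) : N = ⊥ := by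
  by_cases hne : N = ⊤
  · exfalso
    have hcomm : ∀ a b : H, a * b = b * a := by
      intro a b
      have := hab.is_comm.comm ⟨a, hne ▸ Subgroup.mem_top a⟩ ⟨b, hne ▸ Subgroup.mem_top b⟩
      exact congrArg Subtype.val this
    have hall : ∀ e ∈ E, e ≠ 1 → e = z := by
      intro e he he1
      obtain ⟨g, hg⟩ := isConj_iff.mp (hc e he he1)
      rw [← hg, hcomm g z]; group
    have hsub : (E : Set H) ⊆ {1, z} := by
      intro x hx
      by_cases hx1 : x = 1
      · simp [hx1]
      · simp [hall x hx hx1]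
    have h4 : Nat.card E = 4 := IsKleinFour.card_four
    have : (E : Set H).ncard ≤ ({1, z} : Set H).ncard := Set.ncard_le_ncard hsub (Set.toFinite _)
    have h2 : ({1, z} : Set H).ncard ≤ 2 := (Set.ncard_insert_le 1 {z}).trans (by simp)
    have h3 : (E : Set H).ncard = Nat.card E := rfl
    omega
  · exact proper_normal_trivial z hz hN E hE hzE hc N hne

end Cfsg.Agent.S2008
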