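import Cfsg.Statements.S2302
import Mathlib
import Cfsg.Agent.Lib.Helper4.GLTv2

set_option autoImplicit false
open Cfsg

namespace Cfsg.Agent.S2302

open Matrix Module Cfsg.Agent.Lib.Helper4.GLTv

variable {F : Type*} [Field F]

theorem isTv_of_order_two [CharP F 2] (g : Matrix.SpecialLinearGroup (Fin 2) F)
    (hg : orderOf g = 2) : Cfsg.IsTransvection g.1 := by
  have hsq : g.1 * g.1 = 1 := by
    have h := pow_orderOf_eq_one g
    rw [hg, sq] at h
    exact congr_arg Subtype.val h
  have hne : g.1 - 1 ≠ 0 := by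
    intro h
    have h1 : g = 1 := Subtype.ext (sub_eq_zero.1 h)
    rw [h1, orderOf_one] at hg
    omega
  have hNN : (g.1 - 1) * (g.1 - 1) = 0 := by
    have e : (g.1 - 1) * (g.1 - 1) = g.1 * g.1 + 1 - (g.1 + g.1) := by noncomm_ring
    rw [e, hsq, CharTwo.add_self_eq_zero, CharTwo.add_self_eq_zero, sub_zero]
  refine ⟨?_, hNN⟩
  have h1 := rank_add_rank_le_card_of_mul_eq_zero hNN
  rw [Fintype.card_fin] at h1
  have h2 : (g.1 - 1).rank ≠ 0 := by
    intro h0
    apply hne
    rw [Matrix.rank, Submodule.finrank_eq_zero, LinearMap.range_eq_bot] at h0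
    have : Matrix.toLin' (g.1 - 1) = 0 := h0
    exact Matrix.toLin'.injective (by rw [this, map_zero])
  omega

theorem sl_conj_of_gl_conj [Fintype F] [CharP F 2] (g h : Matrix.SpecialLinearGroup (Fin 2) F)
    (hc : IsConj (Matrix.SpecialLinearGroup.toGL g) (Matrix.SpecialLinearGroup.toGL h)) :
    IsConj g h := by
  obtain ⟨x, hx⟩ := isConj_iff.1 hc
  have hd : x.1.det ≠ 0 := GeneralLinearGroup.det_ne_zero x
  obtain ⟨c, hc⟩ := FiniteField.isSquare_of_char_two (ringChar.eq F 2) (x.1.det)⁻¹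
  have hdet : (c • x.1).det = 1 := by
    rw [det_smul, Fintype.card_fin, sq, ← hc, inv_mul_cancel₀ hd]
  rw [isConj_iff]
  set y : Matrix.SpecialLinearGroup (Fin 2) F := ⟨c • x.1, hdet⟩ with hy
  refine ⟨y, ?_⟩
  rw [mul_inv_eq_iff_eq_mul]
  apply Subtype.ext
  have hx' : x * Matrix.SpecialLinearGroup.toGL g = Matrix.SpecialLinearGroup.toGL h * x := by
    rw [← hx]; group
  have hx'' := congr_arg Units.val hx'
  change x.1 * g.1 = h.1 * x.1 at hx''
  change (c • x.1) * g.1 = h.1 * (c • x.1)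
  rw [smul_mul_assoc, mul_smul_comm, hx'']

theorem det_of_conj (g : Matrix.SpecialLinearGroup (Fin 2) F) (y : GL (Fin 2) F)
    (hy : IsConj (Matrix.SpecialLinearGroup.toGL g) y) : y.1.det = 1 := by
  obtain ⟨x, hx⟩ := isConj_iff.1 hy
  have hx' : x * Matrix.SpecialLinearGroup.toGL g = y * x := by
    rw [← hx]; group
  have hx'' := congr_arg (fun z : GL (Fin 2) F => z.1.det) hx'
  simp only [Units.val_mul, det_mul] at hx''
  have h5 : (Matrix.SpecialLinearGroup.toGL g).1.det = 1 := g.2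
  rw [h5, mul_one, mul_comm] at hx''
  have hd : x.1.det ≠ 0 := GeneralLinearGroup.det_ne_zero x
  exact (mul_left_cancel₀ hd (by rw [mul_one]; exact hx'')).symm

theorem card_class [Fintype F] [CharP F 2] (g : Matrix.SpecialLinearGroup (Fin 2) F)
    (hgt : Cfsg.IsTransvection g.1) :
    Nat.card (ConjClasses.mk g).carrier =
      Nat.card {y : GL (Fin 2) F // IsConj (Matrix.SpecialLinearGroup.toGL g) y} := by
  have hmem : ∀ k : Matrix.SpecialLinearGroup (Fin 2) F,
      k ∈ (ConjClasses.mk g).carrier ↔ IsConj g k := by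
    intro k
    rw [ConjClasses.mem_carrier_iff_mk_eq, ConjClasses.mk_eq_mk_iff_isConj]
    exact ⟨IsConj.symm, IsConj.symm⟩
  let φ : (ConjClasses.mk g).carrier →
      {y : GL (Fin 2) F // IsConj (Matrix.SpecialLinearGroup.toGL g) y} :=
    fun k => ⟨Matrix.SpecialLinearGroup.toGL k.1,
      MonoidHom.map_isConj Matrix.SpecialLinearGroup.toGL ((hmem k.1).1 k.2)⟩
  apply Nat.card_congr
  refine Equiv.ofBijective φ ⟨?_, ?_⟩
  · intro a b hab
    have h2 : (Matrix.SpecialLinearGroup.toGL a.1 : GL (Fin 2) F) =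
        Matrix.SpecialLinearGroup.toGL b.1 := congr_arg Subtype.val hab
    exact Subtype.ext (Matrix.SpecialLinearGroup.toGL_injective h2)
  · rintro ⟨y, hy⟩
    have hdet := det_of_conj g y hy
    set k₀ : Matrix.SpecialLinearGroup (Fin 2) F := ⟨y.1, hdet⟩ with hk₀
    have hk₀y : Matrix.SpecialLinearGroup.toGL k₀ = y := Units.ext rfl
    refine ⟨⟨k₀, (hmem k₀).2 (sl_conj_of_gl_conj g k₀ (by rw [hk₀y]; exact hy))⟩, ?_⟩
    exact Subtype.ext hk₀y

theorem arith2 (q idx : ℕ) (hq2 : 2 ≤ q) (h2 : q * (q - 1) * idx = (q ^ 2 - 1) * (q ^ 2 - q)) :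
    idx = q ^ 2 - 1 := by
  have e2 : q ^ 2 - q = q * (q - 1) := by rw [Nat.mul_sub, mul_one, sq]
  rw [e2] at h2
  have hpos : 0 < q * (q - 1) := Nat.mul_pos (by omega) (by omega)
  apply Nat.eq_of_mul_eq_mul_left hpos
  rw [h2]; ring

theorem idx_eq [Fintype F] (t : GL (Fin 2) F) (ht : Cfsg.IsTransvection t.1) :
    (Subgroup.centralizer ({t} : Set (GL (Fin 2) F))).index = Fintype.card F ^ 2 - 1 := by
  have hc : Nat.card (Subgroup.centralizer ({t} : Set (GL (Fin 2) F))) =
      Fintype.card F * (Fintype.card F - 1) := by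
    rw [card_centralizer (by norm_num) t ht]
    simp
  have hG : Nat.card (GL (Fin 2) F) =
      (Fintype.card F ^ 2 - 1) * (Fintype.card F ^ 2 - Fintype.card F) := by
    rw [Matrix.card_GL_field, Fin.prod_univ_two]
    simp
  have h2 := (Subgroup.centralizer ({t} : Set (GL (Fin 2) F))).card_mul_index
  rw [hc, hG] at h2
  exact arith2 _ _ Fintype.one_lt_card h2


/-- Over a finite field with q elements of characteristic 2, the involutions of SL₂ (the non-identity unipotent elements) form a single conjugacy class, of size q² − 1. -/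
theorem result {F : Type*} [Field F] [Fintype F] [CharP F 2] (g h : Matrix.SpecialLinearGroup (Fin 2) F) (hg : orderOf g = 2) (hh : orderOf h = 2) :
    IsConj g h ∧ Nat.card (ConjClasses.mk g).carrier = Fintype.card F ^ 2 - 1 := by
  classical
  have hgt := isTv_of_order_two g hg
  have hht := isTv_of_order_two h hh
  have hgt' : Cfsg.IsTransvection (Matrix.SpecialLinearGroup.toGL g).1 := hgt
  have hht' : Cfsg.IsTransvection (Matrix.SpecialLinearGroup.toGL h).1 := hht
  have hc := isConj_tv (le_refl 2) (Matrix.SpecialLinearGroup.toGL g)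
      (Matrix.SpecialLinearGroup.toGL h) hgt' hht'
  refine ⟨sl_conj_of_gl_conj g h hc, ?_⟩
  rw [card_class g hgt, ← Cfsg.Agent.Lib.Helper4.SL2Class.index_centralizer]
  exact idx_eq _ hgt'
end Cfsg.Agent.S2302
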