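import Cfsg.Statements.S2303
import Mathlib
import Cfsg.Agent.Lib.Helper4.GL2Syl

set_option autoImplicit false
open Cfsg

namespace Cfsg.Agent.S2303

open Matrix Cfsg.Agent.Lib.Helper4.GL2Syl

variable {F : Type*} [Field F]

theorem mem_cent (g h : GL (Fin 2) F) :
    h ∈ Subgroup.centralizer ({g} : Set (GL (Fin 2) F)) ↔ h * g = g * h := by
  rw [Subgroup.mem_centralizer_singleton_iff]

theorem ext2 {g h : GL (Fin 2) F} (h00 : g.1 0 0 = h.1 0 0) (h01 : g.1 0 1 = h.1 0 1)
    (h10 : g.1 1 0 = h.1 1 0) (h11 : g.1 1 1 = h.1 1 1) : g = h := by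
  apply Units.ext
  ext i j
  fin_cases i <;> fin_cases j <;> assumption

theorem part1 [Fintype F] (g : GL (Fin 2) F) (g01 : g.1 0 1 = 0) (g10 : g.1 1 0 = 0)
    (hne : g.1 0 0 ≠ g.1 1 1) :
    Nat.card (Subgroup.centralizer ({g} : Set (GL (Fin 2) F))) = (Fintype.card F - 1) ^ 2 := by
  classical
  have hcard : Nat.card (Fˣ × Fˣ) = (Fintype.card F - 1) ^ 2 := by
    rw [Nat.card_prod, Nat.card_eq_fintype_card, Fintype.card_units, sq]
  rw [← hcard]
  have hdiag : ∀ h : GL (Fin 2) F, h * g = g * h → h.1 0 1 = 0 ∧ h.1 1 0 = 0 := by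
    intro h hh
    have e01 := congr_arg (fun m : GL (Fin 2) F => m.1 0 1) hh
    have e10 := congr_arg (fun m : GL (Fin 2) F => m.1 1 0) hh
    simp only [mul_entries, g01, g10, mul_zero, zero_mul, add_zero, zero_add] at e01 e10
    constructor
    · have : (g.1 0 0 - g.1 1 1) * h.1 0 1 = 0 := by linear_combination -e01
      exact (mul_eq_zero.1 this).resolve_left (sub_ne_zero.2 hne)
    · have : (g.1 0 0 - g.1 1 1) * h.1 1 0 = 0 := by linear_combination e10
      exact (mul_eq_zero.1 this).resolve_left (sub_ne_zero.2 hne)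
  apply Nat.card_congr
  refine ⟨fun h => (Units.mk0 (h.1.1 0 0)
      (diag_ne_zero h.1 (hdiag h.1 ((mem_cent g h.1).1 h.2)).2).1,
    Units.mk0 (h.1.1 1 1) (diag_ne_zero h.1 (hdiag h.1 ((mem_cent g h.1).1 h.2)).2).2),
    fun p => ⟨GeneralLinearGroup.mkOfDetNeZero !![(p.1 : F), 0; 0, (p.2 : F)]
      (by simp [det_fin_two]), ?_⟩, ?_, ?_⟩
  · rw [mem_cent]
    apply ext2 <;> simp [mul_entries, GeneralLinearGroup.mkOfDetNeZero, g01, g10, mul_comm]
  · intro h
    apply Subtype.ext
    have hd := hdiag h.1 ((mem_cent g h.1).1 h.2)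
    apply ext2 <;> simp [GeneralLinearGroup.mkOfDetNeZero, hd.1, hd.2]
  · intro p
    apply Prod.ext <;> apply Units.ext <;> simp [GeneralLinearGroup.mkOfDetNeZero]

/-- elements of `F[g]` -/
noncomputable def pol (g : GL (Fin 2) F) (p : F × F) : Matrix (Fin 2) (Fin 2) F :=
  p.1 • (1 : Matrix (Fin 2) (Fin 2) F) + p.2 • g.1

theorem pol_apply (g : GL (Fin 2) F) (p : F × F) (i j : Fin 2) :
    pol g p i j = p.1 * (1 : Matrix (Fin 2) (Fin 2) F) i j + p.2 * g.1 i j := by
  simp [pol]

theorem part2 [Fintype F] (g : GL (Fin 2) F)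
    (hno : ∀ (c : F) (v : Fin 2 → F), v ≠ 0 → g.1 *ᵥ v ≠ c • v) :
    Nat.card (Subgroup.centralizer ({g} : Set (GL (Fin 2) F))) = Fintype.card F ^ 2 - 1 := by
  classical
  have hc : g.1 1 0 ≠ 0 := by
    intro h0
    apply hno (g.1 0 0) (Pi.single 0 1) (by
      intro h
      have := congr_fun h 0
      simp at this)
    rw [mulVec_single_one]
    ext i
    fin_cases i
    · simp [Matrix.col]
    · simp [Matrix.col, h0]
  have hdet : ∀ p : F × F, p ≠ 0 → (pol g p).det ≠ 0 := by
    intro p hp h0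
    obtain ⟨v, hv, hv0⟩ := Matrix.exists_mulVec_eq_zero_iff.2 h0
    rw [pol, add_mulVec, smul_mulVec, smul_mulVec, one_mulVec] at hv0
    by_cases hy : p.2 = 0
    · have hx : p.1 ≠ 0 := fun hx => hp (Prod.ext hx hy)
      rw [hy, zero_smul, add_zero] at hv0
      exact hv ((smul_eq_zero.1 hv0).resolve_left hx)
    · apply hno (-p.1 / p.2) v hv
      have h1 : p.2 • (g.1 *ᵥ v) = -(p.1 • v) := eq_neg_of_add_eq_zero_right hv0
      calc g.1 *ᵥ v = p.2⁻¹ • (p.2 • (g.1 *ᵥ v)) := by
            rw [smul_smul, inv_mul_cancel₀ hy, one_smul]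
        _ = (-p.1 / p.2) • v := by
            rw [h1, smul_neg, smul_smul, ← neg_smul]
            congr 1
            field_simp
  have hcard : Nat.card {p : F × F // p ≠ 0} = Fintype.card F ^ 2 - 1 := by
    rw [Nat.card_eq_fintype_card, Fintype.card_subtype_compl (fun p : F × F => p = 0),
      Fintype.card_subtype_eq, Fintype.card_prod, sq]
  rw [← hcard]
  symm
  apply Nat.card_congr
  refine Equiv.ofBijective (fun p => ⟨GeneralLinearGroup.mkOfDetNeZero (pol g p.1) (hdet p.1 p.2),
    ?_⟩) ⟨?_, ?_⟩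
  · rw [mem_cent]
    apply Units.ext
    change pol g p.1 * g.1 = g.1 * pol g p.1
    simp [pol, add_mul, mul_add]
  · intro p p' h
    have h1 : pol g p.1 = pol g p'.1 :=
      congr_arg (fun z : Subgroup.centralizer ({g} : Set (GL (Fin 2) F)) => z.1.1) h
    have e10 := congr_fun₂ h1 1 0
    have e00 := congr_fun₂ h1 0 0
    rw [pol_apply, pol_apply] at e10 e00
    simp at e10 e00
    have hy : p.1.2 = p'.1.2 := e10.resolve_right hc
    rw [hy] at e00
    exact Subtype.ext (Prod.ext (by simpa using e00) hy)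
  · intro h
    have hh := (mem_cent g h.1).1 h.2
    have e00 := congr_arg (fun m : GL (Fin 2) F => m.1 0 0) hh
    have e10 := congr_arg (fun m : GL (Fin 2) F => m.1 1 0) hh
    simp only [mul_entries] at e00 e10
    set y := h.1.1 1 0 / g.1 1 0 with hy
    set x := h.1.1 0 0 - y * g.1 0 0 with hx
    have hyc : y * g.1 1 0 = h.1.1 1 0 := by rw [hy]; field_simp
    have hpol : pol g (x, y) = h.1.1 := by
      ext i j
      rw [pol_apply]
      fin_cases i <;> fin_cases j
      · simp [hx]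
      · simp only [Fin.zero_eta, Fin.mk_one, Fin.isValue, ne_eq, zero_ne_one, not_false_eq_true,
          one_apply_ne, mul_zero, zero_add]
        apply mul_right_cancel₀ hc
        linear_combination (g.1 0 1) * hyc - e00
      · simp [hyc]
      · simp only [Fin.mk_one, Fin.isValue, one_apply_eq, mul_one]
        apply mul_right_cancel₀ hc
        rw [hx]
        linear_combination (g.1 1 1 - g.1 0 0) * hyc - e10
    have hne : ((x, y) : F × F) ≠ 0 := by
      intro h0
      have hx0 : x = 0 := congr_arg Prod.fst h0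
      have hy0 : y = 0 := congr_arg Prod.snd h0
      have := GeneralLinearGroup.det_ne_zero h.1
      rw [← hpol, pol, hx0, hy0] at this
      simp at this
    refine ⟨⟨(x, y), hne⟩, ?_⟩
    apply Subtype.ext
    apply Units.ext
    exact hpol


/-- Over a finite field with q elements: a diagonal element of GL₂ with two distinct diagonal entries has centralizer of order (q − 1)² (so q(q + 1) conjugates), and an element of GL₂ with no eigenvector in F² has centralizer of order q² − 1 (so q(q − 1) conjugates). -/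
theorem result {F : Type*} [Field F] [Fintype F] (g : Matrix.GeneralLinearGroup (Fin 2) F) :
    ((g : Matrix (Fin 2) (Fin 2) F) 0 1 = 0 → (g : Matrix (Fin 2) (Fin 2) F) 1 0 = 0 → (g : Matrix (Fin 2) (Fin 2) F) 0 0 ≠ (g : Matrix (Fin 2) (Fin 2) F) 1 1 →
      Nat.card (Subgroup.centralizer ({g} : Set (Matrix.GeneralLinearGroup (Fin 2) F))) = (Fintype.card F - 1) ^ 2) ∧
    ((∀ (c : F) (v : Fin 2 → F), v ≠ 0 → (g : Matrix (Fin 2) (Fin 2) F).mulVec v ≠ c • v) →
      Nat.card (Subgroup.centralizer ({g} : Set (Matrix.GeneralLinearGroup (Fin 2) F))) = Fintype.card F ^ 2 - 1) := by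
  exact ⟨fun h1 h2 h3 => part1 g h1 h2 h3, fun h => part2 g h⟩
end Cfsg.Agent.S2303
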