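import Cfsg.Statements.S2329
import Cfsg.Agent.Lib.Helper4.GL2Conj
open Cfsg.Agent.Lib.Helper4.GL2Conj

set_option autoImplicit false
open Cfsg

namespace Cfsg.Agent.S2329

open Matrix

theorem key {F : Type*} [Field F] (p : ℕ) [Fact p.Prime] [CharP F p] (g : Matrix.GeneralLinearGroup (Fin 2) F)
    (hg : orderOf g = p) : IsConj g (compGL 2 1) := by
  have hp : p.Prime := Fact.out
  have hM : g.1 ^ p = 1 := by
    have := pow_orderOf_eq_one g
    rw [hg] at this
    exact congrArg Units.val this
  have hN : (g.1 - 1) ^ p = 0 := by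
    rw [sub_pow_char_of_commute _ (Commute.one_right _), hM, one_pow, sub_self]
  have hnil : IsNilpotent (g.1 - 1) := ⟨p, hN⟩
  have htr : (g.1 - 1).trace = 0 := (Matrix.isNilpotent_trace_of_isNilpotent hnil).eq_zero
  have hdet : (g.1 - 1).det = 0 := by
    have : (g.1 - 1).det ^ p = 0 := by rw [← Matrix.det_pow, hN, Matrix.det_zero]
    exact pow_eq_zero_iff hp.ne_zero |>.1 this
  rw [Matrix.trace_fin_two] at htr
  rw [Matrix.det_fin_two] at hdet
  simp only [Matrix.sub_apply, Matrix.one_apply_eq, Matrix.one_apply_ne (show (0 : Fin 2) ≠ 1 by decide),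
    Matrix.one_apply_ne (show (1 : Fin 2) ≠ 0 by decide), sub_zero] at htr hdet
  have ht : g.1.trace = 2 := by
    rw [Matrix.trace_fin_two]; linear_combination htr
  have hd : g.1.det = 1 := by
    rw [Matrix.det_fin_two]; linear_combination hdet + htr
  have hns : ∀ c : F, g.1 ≠ c • (1 : Matrix (Fin 2) (Fin 2) F) := by
    intro c hc
    have h00 : g.1 0 0 = c := by rw [hc]; simp
    have h11 : g.1 1 1 = c := by rw [hc]; simp
    have h01 : g.1 0 1 = 0 := by rw [hc]; simp
    rw [h00, h11, h01] at hdet
    have hc1 : c = 1 := by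
      have : (c - 1) ^ 2 = 0 := by linear_combination hdet
      have := pow_eq_zero_iff (two_ne_zero) |>.1 this
      linear_combination this
    have : g = 1 := by
      apply Units.ext
      rw [hc, hc1, one_smul]; rfl
    rw [this, orderOf_one] at hg
    exact hp.one_lt.ne hg
  have := isConj_compGL g hns
  have hd' : GeneralLinearGroup.det g = 1 := Units.ext hd
  rwa [ht, hd'] at this


/-- Over a finite field of characteristic p, any two elements of order p of GL₂ are conjugate: there is a single conjugacy class of non-identity unipotent elements. -/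
theorem result {F : Type*} [Field F] [Fintype F] (p : ℕ) [Fact p.Prime] [CharP F p] (g h : Matrix.GeneralLinearGroup (Fin 2) F)
    (hg : orderOf g = p) (hh : orderOf h = p) : IsConj g h := by
  exact (key p g hg).trans (key p h hh).symm
end Cfsg.Agent.S2329
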