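import Cfsg.Statements.S2330
import Cfsg.Agent.Lib.Helper4.GL2Conj
open Cfsg.Agent.Lib.Helper4.GL2Conj

set_option autoImplicit false
open Cfsg

namespace Cfsg.Agent.S2330



/-- Over a finite field with q elements, the general linear group GL₂ has exactly q² − 1 conjugacy classes. -/
theorem result {F : Type*} [Field F] [Fintype F] :
    Nat.card (ConjClasses (Matrix.GeneralLinearGroup (Fin 2) F)) = Fintype.card F ^ 2 - 1 := by
  classical
  rw [← Nat.card_congr (Equiv.ofBijective _ (param_bijective (F := F)))]
  rw [Nat.card_eq_fintype_card, Fintype.card_sum, Fintype.card_prod, Fintype.card_units]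
  have h1 : 1 ≤ Fintype.card F := Fintype.card_pos
  have h2 : 1 ≤ Fintype.card F ^ 2 := Nat.one_le_pow _ _ h1
  zify [h1, h2]
  ring
end Cfsg.Agent.S2330
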