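import Cfsg.Statements.S2331
import Cfsg.Agent.Lib.Helper4.SL2Conj
open Cfsg.Agent.Lib.Helper4.SL2Conj

set_option autoImplicit false
open Cfsg

namespace Cfsg.Agent.S2331



/-- Over a finite field with q elements, q even, the special linear group SL₂ has exactly q + 1 conjugacy classes. -/
theorem result {F : Type*} [Field F] [Fintype F] [CharP F 2] :
    Nat.card (ConjClasses (Matrix.SpecialLinearGroup (Fin 2) F)) = Fintype.card F + 1 := by
  classical
  rw [← Nat.card_congr (Equiv.ofBijective _ (param_bijective (F := F)))]
  rw [Nat.card_eq_fintype_card, Fintype.card_sum, Fintype.card_unit, add_comm]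
end Cfsg.Agent.S2331
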