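import Cfsg.Statements.S2540
import Cfsg.Agent.Lib.Helper3.SLn

set_option autoImplicit false
open Cfsg

namespace Cfsg.Agent.S2540

open Matrix Matrix.SpecialLinearGroup
open scoped commutatorElement

theorem normal_dichotomy {S : Type*} [Group S] (hp : commutator S = ⊤)
    (hs : IsSimpleGroup (S ⧸ Subgroup.center S)) (N : Subgroup S) (hN : N.Normal) :
    N ≤ Subgroup.center S ∨ N = ⊤ := by
  have hn : (N.map (QuotientGroup.mk' (Subgroup.center S))).Normal :=
    hN.map _ (QuotientGroup.mk'_surjective _)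
  rcases hs.eq_bot_or_eq_top_of_normal _ hn with h | h
  · left
    intro x hx
    have : QuotientGroup.mk' (Subgroup.center S) x ∈
        N.map (QuotientGroup.mk' (Subgroup.center S)) := Subgroup.mem_map_of_mem _ hx
    rw [h, Subgroup.mem_bot] at this
    exact (QuotientGroup.eq_one_iff x).1 this
  · right
    rw [eq_top_iff, ← hp, commutator_def, Subgroup.commutator_le]
    intro a _ b _
    have key : ∀ a : S, ∃ n ∈ N, ∃ z ∈ Subgroup.center S, a = n * z := by
      intro a
      have : QuotientGroup.mk' (Subgroup.center S) a ∈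
          N.map (QuotientGroup.mk' (Subgroup.center S)) := by rw [h]; trivial
      obtain ⟨n, hn, hna⟩ := this
      refine ⟨n, hn, n⁻¹ * a, ?_, by group⟩
      exact QuotientGroup.eq.1 hna
    obtain ⟨n₁, hn₁, z₁, hz₁, rfl⟩ := key a
    obtain ⟨n₂, hn₂, z₂, hz₂, rfl⟩ := key b
    have : ⁅n₁ * z₁, n₂ * z₂⁆ = ⁅n₁, n₂⁆ := by
      rw [Subgroup.mem_center_iff] at hz₁ hz₂
      rw [commutatorElement_def, commutatorElement_def]
      have e1 : (n₁ * z₁)⁻¹ = z₁⁻¹ * n₁⁻¹ := by group
      have e2 : (n₂ * z₂)⁻¹ = z₂⁻¹ * n₂⁻¹ := by group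
      rw [e1, e2]
      calc n₁ * z₁ * (n₂ * z₂) * (z₁⁻¹ * n₁⁻¹) * (z₂⁻¹ * n₂⁻¹)
          = n₁ * (z₁ * n₂) * (z₂ * z₁⁻¹) * (n₁⁻¹ * z₂⁻¹) * n₂⁻¹ := by group
        _ = n₁ * (n₂ * z₁) * (z₁⁻¹ * z₂) * (n₁⁻¹ * z₂⁻¹) * n₂⁻¹ := by
            rw [hz₁ n₂, hz₂ z₁⁻¹]
        _ = n₁ * n₂ * (z₂ * n₁⁻¹) * z₂⁻¹ * n₂⁻¹ := by group
        _ = n₁ * n₂ * (n₁⁻¹ * z₂) * z₂⁻¹ * n₂⁻¹ := by rw [hz₂ n₁⁻¹]
        _ = n₁ * n₂ * n₁⁻¹ * n₂⁻¹ := by group
    rw [this, commutatorElement_def]
    exact N.mul_mem (N.mul_mem (N.mul_mem hn₁ hn₂) (N.inv_mem hn₁)) (N.inv_mem hn₂)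

theorem sl_dichotomy {F : Type*} [Field F] [Fintype F] (n : ℕ) (hn : 2 ≤ n)
    (hex : ¬ (n = 2 ∧ Fintype.card F ≤ 3))
    (N : Subgroup (SpecialLinearGroup (Fin n) F)) (hN : N.Normal) :
    N ≤ Subgroup.center _ ∨ N = ⊤ := by
  by_cases h3 : 3 ≤ n
  · exact normal_dichotomy (Cfsg.Agent.Lib.Helper3.SLn.commutator_eq_top (by simpa using h3))
      (Cfsg.Agent.Lib.Helper3.SLn.psl_simple (by simpa using h3)) N hN
  · obtain rfl : n = 2 := by omega
    have hF : 4 ≤ Nat.card F := by
      rw [Nat.card_eq_fintype_card]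
      by_contra hc
      exact hex ⟨rfl, by omega⟩
    have hcond : ∃ a : F, a ≠ 0 ∧ a ^ 2 ≠ 1 := by
      obtain ⟨x, hx⟩ : IsCyclic Fˣ := by infer_instance
      refine ⟨x, Units.ne_zero x, fun h ↦ ?_⟩
      grw [Nat.card_eq_card_units_add_one F, ← orderOf_eq_card_of_forall_mem_zpowers hx,
        orderOf_le_of_pow_eq_one zero_lt_two (Units.ext <| by simpa using h)] at hF
      omega
    obtain ⟨a, ha, hasq⟩ := hcond
    exact normal_dichotomy (SL2.commutator_eq_top ha hasq)
      (Matrix.ProjectiveSpecialLinearGroup.rank_two_simple hF) N hN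

theorem commute_of_scalar {F : Type*} [Field F] {n : ℕ} (M M' : Matrix (Fin n) (Fin n) F)
    (h1 : M * M' = 1) (h2 : M' * M = 1) {i j : Fin n} (hij : i ≠ j) (c r : F)
    (h : (1 + single i j c) * M = r • (M * (1 + single i j c))) :
    (1 + single i j c) * M = M * (1 + single i j c) := by
  have hTT : single i j c * single i j c = 0 := single_mul_single_of_ne _ _ _ _ hij.symm _
  have e1 : M' * (single i j c) * M = (r - 1) • (1 : Matrix (Fin n) (Fin n) F) + r • single i j c := by
    have : M' * ((1 + single i j c) * M) = M' * (r • (M * (1 + single i j c))) := by rw [h]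
    rw [add_mul, one_mul, mul_add, h2, mul_smul_comm, ← mul_assoc M' M, h2, one_mul, smul_add,
      ← mul_assoc] at this
    rw [sub_smul, one_smul]
    rw [← sub_eq_zero] at this ⊢
    rw [← this]; abel
  have e2 : (M' * (single i j c) * M) * (M' * (single i j c) * M) = 0 := by
    calc (M' * (single i j c) * M) * (M' * (single i j c) * M)
        = M' * (single i j c) * (M * M') * (single i j c) * M := by simp only [mul_assoc]
      _ = 0 := by rw [h1, mul_one, mul_assoc M', hTT]; simp
  rw [e1] at e2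
  have e3 := congr_fun₂ e2 i i
  have hr : r = 1 := by
    simp only [add_mul, mul_add, smul_mul_assoc, mul_smul_comm, one_mul, mul_one, hTT] at e3
    simp [Matrix.add_apply, Matrix.smul_apply, single_apply, hij, hij.symm] at e3
    linear_combination e3
  rw [h, hr, one_smul]


/-- Let F be a finite field and n ≥ 1, excluding the case n = 2 with #F ≤ 3. A subgroup of GL_n(F) that is normalized by every element of SL_n(F) either consists of scalar matrices or contains SL_n(F). -/
theorem result {F : Type*} [Field F] [Fintype F] (n : ℕ) (hn : 1 ≤ n) (hex : ¬ (n = 2 ∧ Fintype.card F ≤ 3)) (G : Subgroup (Matrix.GeneralLinearGroup (Fin n) F)) (hG : ∀ s : Matrix.SpecialLinearGroup (Fin n) F, ∀ g ∈ G, (Matrix.SpecialLinearGroup.toGL s) * g * (Matrix.SpecialLinearGroup.toGL s)⁻¹ ∈ G) : (∀ g ∈ G, ∃ c : F, (g : Matrix (Fin n) (Fin n) F) = c • (1 : Matrix (Fin n) (Fin n) F)) ∨ (Matrix.SpecialLinearGroup.toGL : Matrix.SpecialLinearGroup (Fin n) F →* _).range ≤ G := by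
  classical
  rcases Nat.lt_or_ge n 2 with h1 | h2
  · obtain rfl : n = 1 := by omega
    left
    intro g _
    refine ⟨g.1 0 0, ?_⟩
    ext i j
    fin_cases i; fin_cases j
    simp
  · have hN : (G.comap (toGL : SpecialLinearGroup (Fin n) F →* _)).Normal := by
      constructor
      intro x hx s
      rw [Subgroup.mem_comap] at hx ⊢
      rw [map_mul, map_mul, map_inv]
      exact hG s _ hx
    rcases sl_dichotomy n h2 hex _ hN with h | h
    · left
      intro g hg
      have hcomm : ∀ t : TransvectionStruct (Fin n) F, Commute t.toMatrix g.1 := by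
        intro t
        obtain ⟨i, j, hij, c⟩ := t
        set s : SpecialLinearGroup (Fin n) F := SpecialLinearGroup.transvection hij c with hs
        have hmem : toGL s * g * (toGL s)⁻¹ * g⁻¹ ∈ G := G.mul_mem (hG s g hg) (G.inv_mem hg)
        have hdet : (toGL s * g * (toGL s)⁻¹ * g⁻¹ : GeneralLinearGroup (Fin n) F).1.det = 1 := by
          have := map_mul GeneralLinearGroup.det (toGL s * g * (toGL s)⁻¹) g⁻¹
          have h' : GeneralLinearGroup.det (toGL s * g * (toGL s)⁻¹ * g⁻¹) = 1 := by
            simp only [map_mul, map_inv]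
            rw [mul_comm (GeneralLinearGroup.det (toGL s))]
            simp
          have := congr_arg Units.val h'
          exact this
        set k : SpecialLinearGroup (Fin n) F := ⟨_, hdet⟩ with hk
        have hkG : toGL k = toGL s * g * (toGL s)⁻¹ * g⁻¹ := by
          apply Units.ext
          rfl
        have hkN : k ∈ G.comap (toGL : SpecialLinearGroup (Fin n) F →* _) := by
          rw [Subgroup.mem_comap, hkG]; exact hmem
        obtain ⟨r, -, hr⟩ := Matrix.SpecialLinearGroup.mem_center_iff.1 (h hkN)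
        have hrel : toGL s * g = toGL k * (g * toGL s) := by
          rw [hkG]; group
        have hrel' := congr_arg Units.val hrel
        simp only [Units.val_mul, coe_GL_coe_matrix] at hrel'
        rw [← hr] at hrel'
        have hsm : (s : Matrix (Fin n) (Fin n) F) = 1 + single i j c := rfl
        rw [hsm] at hrel'
        have := commute_of_scalar g.1 g⁻¹.1 (by simp) (by simp) hij c r
          (by rw [hrel']; simp [Matrix.scalar_apply, Matrix.smul_eq_diagonal_mul])
        exact this
      obtain ⟨c, hc⟩ := Matrix.mem_range_scalar_of_commute_transvectionStruct hcomm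
      refine ⟨c, ?_⟩
      rw [← hc]
      ext a b
      simp [Matrix.scalar_apply, Matrix.diagonal_apply, Matrix.one_apply]
    · right
      rintro _ ⟨s, rfl⟩
      have : s ∈ G.comap (toGL : SpecialLinearGroup (Fin n) F →* _) := by rw [h]; trivial
      exact this
end Cfsg.Agent.S2540
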