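import Cfsg.Statements.S2541
import Mathlib

set_option autoImplicit false
open Cfsg

namespace Cfsg.Agent.S2541

/-- Let F be a field with 9 elements. The symmetric group S_6 is not isomorphic to PGL_2(F) (although both have index-2 subgroups isomorphic to A_6). -/
theorem result {F : Type*} [Field F] [Fintype F] (hF : Fintype.card F = 9) : ¬ Nonempty (Equiv.Perm (Fin 6) ≃* Matrix.ProjGenLinGroup (Fin 2) F) := by
  classical
  rintro ⟨e⟩
  -- no element of order 8 in S₆
  have hS6 : ∀ σ : Equiv.Perm (Fin 6), orderOf σ ≠ 8 := by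
    intro σ hσ
    have h4 : σ ^ 4 = 1 := by
      ext x
      by_cases hx : σ x = x
      · have : (σ ^ 4) x = x := by
          simp [pow_succ, Equiv.Perm.mul_apply, hx]
        rw [this]; rfl
      · have hc := Equiv.Perm.isCycle_cycleOf σ hx
        have h1 := Equiv.Perm.orderOf_cycleOf_dvd_orderOf σ x
        rw [hσ] at h1
        have h2 : orderOf (σ.cycleOf x) ≤ 6 := by
          rw [hc.orderOf]
          exact (Finset.card_le_univ _).trans (by simp)
        have h3 : orderOf (σ.cycleOf x) ∣ 4 := by
          generalize orderOf (σ.cycleOf x) = o at *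
          interval_cases o <;> revert h1 <;> decide
        have h5 : (σ.cycleOf x) ^ 4 = 1 := orderOf_dvd_iff_pow_eq_one.mp h3
        have h6 := Equiv.Perm.cycleOf_pow_apply_self σ x 4
        rw [h5] at h6
        rw [← h6]
    have h7 := orderOf_dvd_of_pow_eq_one h4
    rw [hσ] at h7
    revert h7; decide
  -- an element of order 8 in PGL₂(9)
  obtain ⟨ζ, hζ⟩ := IsCyclic.exists_generator (α := Fˣ)
  have hζo : orderOf ζ = 8 := by
    rw [orderOf_eq_card_of_forall_mem_zpowers hζ, Nat.card_eq_fintype_card, Fintype.card_units, hF]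
  let d : F →* Matrix (Fin 2) (Fin 2) F :=
    { toFun := fun t => Matrix.diagonal ![t, 1]
      map_one' := by
        ext i j
        fin_cases i <;> fin_cases j <;> simp
      map_mul' := by
        intro a b
        rw [Matrix.diagonal_mul_diagonal]
        congr 1
        ext i
        fin_cases i <;> simp }
  let δ : Fˣ →* Matrix.ProjGenLinGroup (Fin 2) F :=
    (QuotientGroup.mk' (Subgroup.center (GL (Fin 2) F))).comp (Units.map d)
  have hinj : Function.Injective δ := by
    rw [injective_iff_map_eq_one]
    intro t ht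
    have h1 : Units.map d t ∈ Subgroup.center (GL (Fin 2) F) := (QuotientGroup.eq_one_iff _).mp ht
    let E : GL (Fin 2) F := Matrix.GeneralLinearGroup.mkOfDetNeZero !![1, 1; 0, 1]
      (by simp [Matrix.det_fin_two])
    have h2 := Subgroup.mem_center_iff.mp h1 E
    have h3 : (!![1, 1; 0, 1] : Matrix (Fin 2) (Fin 2) F) * Matrix.diagonal ![(t : F), 1] =
        Matrix.diagonal ![(t : F), 1] * !![1, 1; 0, 1] := congrArg Units.val h2
    have h4 := congrFun (congrFun h3 0) 1
    simp [Matrix.mul_apply, Fin.sum_univ_two] at h4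
    exact Units.ext h4.symm
  have h8 : orderOf (δ ζ) = 8 := by rw [orderOf_injective δ hinj, hζo]
  apply hS6 (e.symm (δ ζ))
  rw [MulEquiv.orderOf_eq, h8]

end Cfsg.Agent.S2541
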