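import Cfsg.Statements.S2552
import Mathlib

set_option autoImplicit false
open Cfsg

namespace Cfsg.Agent.S2552

open Matrix Module

variable {F : Type*} [Field F] {n : ℕ}

theorem exists_equiv (U₁ U₂ : Submodule F (Fin n → F)) (h : finrank F U₁ = finrank F U₂) :
    ∃ g : (Fin n → F) ≃ₗ[F] (Fin n → F), ∀ x ∈ U₁, g x ∈ U₂ := by
  obtain ⟨C₁, hC₁⟩ := Submodule.exists_isCompl U₁
  obtain ⟨C₂, hC₂⟩ := Submodule.exists_isCompl U₂
  have hc : finrank F C₁ = finrank F C₂ := by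
    have h1 := Submodule.finrank_add_eq_of_isCompl hC₁
    have h2 := Submodule.finrank_add_eq_of_isCompl hC₂
    omega
  let α := LinearEquiv.ofFinrankEq U₁ U₂ h
  let γ := LinearEquiv.ofFinrankEq C₁ C₂ hc
  let g := (U₁.prodEquivOfIsCompl C₁ hC₁).symm.trans
    ((α.prodCongr γ).trans (U₂.prodEquivOfIsCompl C₂ hC₂))
  refine ⟨g, fun x hx => ?_⟩
  have h1 : (U₁.prodEquivOfIsCompl C₁ hC₁).symm x = (⟨x, hx⟩, 0) :=
    Submodule.prodEquivOfIsCompl_symm_apply_left U₁ C₁ hC₁ ⟨x, hx⟩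
  simp only [g, LinearEquiv.trans_apply, h1, LinearEquiv.prodCongr_apply, map_zero,
    Submodule.coe_prodEquivOfIsCompl', Submodule.coe_zero, add_zero]
  exact Subtype.coe_prop _

theorem exists_dil (w : Fin n → F) (hw : w ≠ 0) (c : F) :
    ∃ Z : Matrix (Fin n) (Fin n) F, Z.det = c ∧ ∀ y, ∃ a : F, Z *ᵥ y = y + a • w := by
  obtain ⟨i, hi⟩ := Function.ne_iff.1 hw
  have hi' : w i ≠ 0 := hi
  refine ⟨1 + vecMulVec ((c - 1) • w) (Pi.single i (w i)⁻¹), ?_, fun y => ?_⟩
  · rw [vecMulVec_eq Unit, det_one_add_replicateCol_mul_replicateRow, single_dotProduct,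
      Pi.smul_apply, smul_eq_mul]
    field_simp
    ring
  · refine ⟨(Pi.single i (w i)⁻¹ ⬝ᵥ y) * (c - 1), ?_⟩
    rw [add_mulVec, one_mulVec, vecMulVec_mulVec, op_smul_eq_smul, smul_smul]


/-- Let F be a finite field and n ≥ 1. For every k, the special linear group SL_n(F) acts transitively on the set of k-dimensional subspaces of F^n: any two subspaces of the same dimension are carried onto each other by some matrix of determinant 1. -/
theorem result {F : Type*} [Field F] [Fintype F] (n : ℕ) (hn : 1 ≤ n) (U₁ U₂ : Submodule F (Fin n → F)) (h : Module.finrank F U₁ = Module.finrank F U₂) : ∃ g : Matrix.SpecialLinearGroup (Fin n) F, U₁.map ((Matrix.SpecialLinearGroup.toLin' g : (Fin n → F) ≃ₗ[F] (Fin n → F)) : (Fin n → F) →ₗ[F] (Fin n → F)) = U₂ := by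
  classical
  obtain ⟨g, hg⟩ := exists_equiv U₁ U₂ h
  set G : Matrix (Fin n) (Fin n) F :=
    LinearMap.toMatrix' (g : (Fin n → F) →ₗ[F] (Fin n → F)) with hG
  have hGv : ∀ x, G *ᵥ x = g x := by
    intro x
    rw [← Matrix.toLin'_apply, hG, Matrix.toLin'_toMatrix']
    rfl
  have hGdet : G.det ≠ 0 := by
    have hG' : G * LinearMap.toMatrix' (g.symm : (Fin n → F) →ₗ[F] (Fin n → F)) = 1 := by
      rw [hG, ← LinearMap.toMatrix'_comp]
      simp
    intro h0
    have := congr_arg Matrix.det hG'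
    rw [det_mul, h0, zero_mul, det_one] at this
    exact zero_ne_one this
  -- choose w
  obtain ⟨w, hw0, hwU⟩ : ∃ w : Fin n → F, w ≠ 0 ∧ (U₂ = ⊥ ∨ w ∈ U₂) := by
    by_cases hb : U₂ = ⊥
    · refine ⟨Pi.single ⟨0, by omega⟩ 1, ?_, Or.inl hb⟩
      intro h0
      have := congr_fun h0 ⟨0, by omega⟩
      simp at this
    · obtain ⟨w, hw, hw0⟩ := Submodule.exists_mem_ne_zero_of_ne_bot hb
      exact ⟨w, hw0, Or.inr hw⟩
  obtain ⟨Z, hZdet, hZ⟩ := exists_dil w hw0 (G.det)⁻¹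
  have hdet : (Z * G).det = 1 := by
    rw [det_mul, hZdet, inv_mul_cancel₀ hGdet]
  set M : Matrix.SpecialLinearGroup (Fin n) F := ⟨Z * G, hdet⟩ with hM
  refine ⟨M, ?_⟩
  apply Submodule.eq_of_le_of_finrank_eq
  · rintro _ ⟨x, hx, rfl⟩
    change (Z * G) *ᵥ x ∈ U₂
    rw [← mulVec_mulVec, hGv]
    obtain ⟨a, ha⟩ := hZ (g x)
    rw [ha]
    rcases hwU with hb | hwU
    · have h0 : g x = 0 := by
        have := hg x hx
        rw [hb] at this
        exact this
      have h1 := ha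
      rw [h0, mulVec_zero] at h1
      rw [h0, ← h1]
      exact U₂.zero_mem
    · exact U₂.add_mem (hg x hx) (U₂.smul_mem a hwU)
  · rw [← h]
    exact LinearEquiv.finrank_map_eq (Matrix.SpecialLinearGroup.toLin' M) U₁
end Cfsg.Agent.S2552
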