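import Cfsg.Statements.S2564
import Mathlib
import Cfsg.Agent.Lib.Helper4.QuadF2

set_option autoImplicit false
open Cfsg

namespace Cfsg.Agent.S2564

open Cfsg.Agent.Lib.Helper4.QuadFin


/-- On the 2m-dimensional space over the field of two elements (m ≥ 1) let f be the alternating form obtained by polarizing the plus-type form Σ xᵢyᵢ, and let q be any quadratic form polarizing to f. For a vector w, the function q + f(·, w) again polarizes to f, and it is equivalent to q under an invertible linear map (that is, has the same type) if and only if q(w) = 0. -/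
theorem result (m : ℕ) (hm : 1 ≤ m) (q : (Fin m ⊕ Fin m → ZMod 2) → ZMod 2) (hq : (∀ u v : (Fin m ⊕ Fin m → ZMod 2), q (u + v) = q u + q v + (Cfsg.quadFormPlus m (ZMod 2) (u + v) - Cfsg.quadFormPlus m (ZMod 2) u - Cfsg.quadFormPlus m (ZMod 2) v))) (w : (Fin m ⊕ Fin m → ZMod 2)) :
    (∀ u v : (Fin m ⊕ Fin m → ZMod 2), (q (u + v) + (Cfsg.quadFormPlus m (ZMod 2) (u + v + w) - Cfsg.quadFormPlus m (ZMod 2) (u + v) - Cfsg.quadFormPlus m (ZMod 2) w)) =
        (q u + (Cfsg.quadFormPlus m (ZMod 2) (u + w) - Cfsg.quadFormPlus m (ZMod 2) u - Cfsg.quadFormPlus m (ZMod 2) w)) + (q v + (Cfsg.quadFormPlus m (ZMod 2) (v + w) - Cfsg.quadFormPlus m (ZMod 2) v - Cfsg.quadFormPlus m (ZMod 2) w)) +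
        (Cfsg.quadFormPlus m (ZMod 2) (u + v) - Cfsg.quadFormPlus m (ZMod 2) u - Cfsg.quadFormPlus m (ZMod 2) v)) ∧
    ((∃ g : (Fin m ⊕ Fin m → ZMod 2) ≃ₗ[ZMod 2] (Fin m ⊕ Fin m → ZMod 2), ∀ v, q v + (Cfsg.quadFormPlus m (ZMod 2) (v + w) - Cfsg.quadFormPlus m (ZMod 2) v - Cfsg.quadFormPlus m (ZMod 2) w) = q (g v)) ↔ q w = 0) := by
  classical
  have hq' : Polarizes m q := hq
  simp only [fP_eq]
  have hsq : ∀ c : ZMod 2, c * c = c := by decide
  have h2 : (2 : ZMod 2) = 0 := by decide
  refine ⟨?_, ?_, ?_⟩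
  · intro u v
    rw [hq' u v, fP_eq, polar_add_l]
    ring
  · rintro ⟨g, hg⟩
    by_contra hw
    have hw1 : q w = 1 := by
      have key : ∀ z : ZMod 2, z ≠ 0 → z = 1 := by decide
      exact key _ hw
    have e1 : {v // q v + QuadraticMap.polar (QP (ZMod 2) m) v w = 0} ≃ {v // q v = 0} :=
      Equiv.subtypeEquiv g.toEquiv (fun v => by rw [hg v]; rfl)
    have e2 : {v // q v + QuadraticMap.polar (QP (ZMod 2) m) v w = 0} ≃ {v // ¬ q v = 0} :=
      Equiv.subtypeEquiv (Equiv.addRight w) (fun v => by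
        have h3 : q (v + w) = q v + QuadraticMap.polar (QP (ZMod 2) m) v w + 1 := by
          rw [hq' v w, fP_eq, hw1]; ring
        simp only [Equiv.coe_addRight]
        rw [h3]
        generalize q v + QuadraticMap.polar (QP (ZMod 2) m) v w = z
        revert z; decide)
    have c1 := Fintype.card_congr e1
    have c2 := Fintype.card_congr e2
    rw [Fintype.card_subtype_compl] at c2
    have c3 : Fintype.card (Fin m ⊕ Fin m → ZMod 2) = 2 ^ (2 * m) := by
      simp [ZMod.card]; ring
    have c4 := card_zeros_polarizes hm q hq'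
    rw [Nat.card_eq_fintype_card] at c4
    have c5 : 2 ^ (2 * m) = 2 * 2 ^ (2 * m - 1) := by
      rw [← pow_succ']; congr 1; omega
    have c6 : 0 < 2 ^ (m - 1) := by positivity
    have c7 : Fintype.card {v // q v = 0} ≤ Fintype.card (Fin m ⊕ Fin m → ZMod 2) := Fintype.card_subtype_le _
    omega
  · intro hw
    let T : (Fin m ⊕ Fin m → ZMod 2) →ₗ[ZMod 2] (Fin m ⊕ Fin m → ZMod 2) :=
      LinearMap.id + ((QuadraticMap.polarBilin (QP (ZMod 2) m)).flip w).smulRight w
    have hT : ∀ v, T v = v + (QuadraticMap.polar (QP (ZMod 2) m) v w) • w := fun v => rfl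
    have hww : QuadraticMap.polar (QP (ZMod 2) m) w w = 0 := by
      rw [polar_self', h2, zero_mul]
    have hinv : Function.Involutive T := by
      intro v
      rw [hT, hT, polar_add_l, polar_smul_l, hww, mul_zero, add_zero, add_assoc, ← add_smul]
      have : QuadraticMap.polar (QP (ZMod 2) m) v w + QuadraticMap.polar (QP (ZMod 2) m) v w = 0 := by
        generalize QuadraticMap.polar (QP (ZMod 2) m) v w = z
        revert z; decide
      rw [this, zero_smul, add_zero]
    refine ⟨LinearEquiv.ofInvolutive T hinv, fun v => ?_⟩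
    change _ = q (T v)
    rw [hT, hq', fP_eq, polar_smul_r]
    have h5 : q ((QuadraticMap.polar (QP (ZMod 2) m) v w) • w) = 0 := by
      have := map_smul' (ofPolarizes q hq') (QuadraticMap.polar (QP (ZMod 2) m) v w) w
      simp only [ofPolarizes_apply] at this
      rw [this, hw, mul_zero]
    rw [h5, hsq, add_zero]
end Cfsg.Agent.S2564
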