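import Cfsg.Statements.S2617
import Mathlib
import Cfsg.Agent.Lib.Helper4.QuadSim
import Cfsg.Agent.S0289
import Cfsg.Agent.S0290

set_option autoImplicit false
open Cfsg

namespace Cfsg.Agent.S2617



/-- The two standard quadratic forms of even dimension 2m over a finite field are not isometric: there is no linear isomorphism carrying the elliptic form Σ_(i<m−1) x_i y_i + z₁² + z₁z₂ + ζ z₂² (t² + t + ζ without roots) to the hyperbolic form Σ_(i<m) x_i y_i (they have different Witt index). -/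
theorem result {F : Type*} [Field F] [Finite F] {m : ℕ} (hm : 1 ≤ m) (ζ : F) (hζ : ∀ t : F, t ^ 2 + t + ζ ≠ 0) (g : (Fin m ⊕ Fin m → F) ≃ₗ[F] ((Fin (m - 1) ⊕ Fin (m - 1)) ⊕ Fin 2 → F)) : ¬ (∀ v : Fin m ⊕ Fin m → F, Cfsg.quadFormMinus (m - 1) F 1 ζ (g v) = Cfsg.quadFormPlus m F v) := by
  intro h
  have := Fintype.ofFinite F
  have e : {v : Fin m ⊕ Fin m → F // Cfsg.quadFormPlus m F v = 0} ≃
      {w : (Fin (m - 1) ⊕ Fin (m - 1)) ⊕ Fin 2 → F // Cfsg.quadFormMinus (m - 1) F 1 ζ w = 0} :=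
    Equiv.subtypeEquiv g.toEquiv (fun v => by rw [← h v]; rfl)
  have hc := Nat.card_congr e
  rw [Cfsg.Agent.S0289.result rfl m hm,
    Cfsg.Agent.S0290.result rfl m hm 1 ζ (Lib.Helper4.QuadFin.aniso_of_noroot hζ)] at hc
  have hq : 1 < Fintype.card F := Fintype.one_lt_card
  have hlt : Fintype.card F ^ (m - 1) < Fintype.card F ^ m := Nat.pow_lt_pow_right hq (by omega)
  omega
end Cfsg.Agent.S2617
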