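import Cfsg.Statements.S2561
import Mathlib
import Cfsg.Agent.Lib.Helper4.QuadF2
import Cfsg.Agent.S2564
import Cfsg.Agent.S2617
import Cfsg.Agent.S0289

set_option autoImplicit false
open Cfsg

namespace Cfsg.Agent.S2561

open Cfsg.Agent.Lib.Helper4.QuadFin

theorem plus_polarizes (m : ℕ) : Polarizes m (Cfsg.quadFormPlus m (ZMod 2)) := by
  intro u v; ring

theorem shift_polarizes (m : ℕ) (w : Fin m ⊕ Fin m → ZMod 2) :
    Polarizes m (fun v => Cfsg.quadFormPlus m (ZMod 2) v + QuadraticMap.polar (QP (ZMod 2) m) v w) := by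
  intro u v
  simp only [fP_eq, polar_add_l]
  have := plus_polarizes m u v
  rw [fP_eq] at this
  rw [this]; ring

theorem exists_shift (m : ℕ) (q : (Fin m ⊕ Fin m → ZMod 2) → ZMod 2) (hq : Polarizes m q) :
    ∃ w, ∀ v, q v = Cfsg.quadFormPlus m (ZMod 2) v + QuadraticMap.polar (QP (ZMod 2) m) v w := by
  classical
  let φ₀ : (Fin m ⊕ Fin m → ZMod 2) →+ ZMod 2 :=
    { toFun := fun v => q v - Cfsg.quadFormPlus m (ZMod 2) v
      map_zero' := by
        rw [hq.zero, (plus_polarizes m).zero, sub_zero]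
      map_add' := by
        intro u v
        rw [hq u v, plus_polarizes m u v]; ring }
  let φ : (Fin m ⊕ Fin m → ZMod 2) →ₗ[ZMod 2] ZMod 2 := AddMonoidHom.toZModLinearMap 2 φ₀
  have hφ : ∀ v, φ v = q v - Cfsg.quadFormPlus m (ZMod 2) v := fun v => rfl
  refine ⟨Sum.elim (fun i => φ (Pi.single (Sum.inr i) 1)) (fun i => φ (Pi.single (Sum.inl i) 1)), fun v => ?_⟩
  have h1 : q v = Cfsg.quadFormPlus m (ZMod 2) v + φ v := by rw [hφ]; ring
  rw [h1, polar_QP, LinearMap.pi_apply_eq_sum_univ φ v, Fintype.sum_sum_type, Finset.sum_add_distrib]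
  simp only [Sum.elim_inl, Sum.elim_inr, smul_eq_mul]
  congr 2
  · apply Finset.sum_congr rfl; intro i _
    congr 2
    funext j; simp [Pi.single_apply, eq_comm]
  · apply Finset.sum_congr rfl; intro i _
    rw [mul_comm]
    congr 2
    funext j; simp [Pi.single_apply, eq_comm]

/-- parametrisation of the polarizing functions by vectors -/
noncomputable def shiftEquiv (m : ℕ) :
    (Fin m ⊕ Fin m → ZMod 2) ≃ {q : (Fin m ⊕ Fin m → ZMod 2) → ZMod 2 // Polarizes m q} :=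
  Equiv.ofBijective (fun w => ⟨_, shift_polarizes m w⟩) (by
    constructor
    · intro w w' h
      have h1 : ∀ v, QuadraticMap.polar (QP (ZMod 2) m) v w = QuadraticMap.polar (QP (ZMod 2) m) v w' := by
        intro v
        have := congrFun (congrArg Subtype.val h) v
        simpa using this
      have h2 : w - w' = 0 := by
        apply nd_QP m
        intro v
        rw [QuadraticMap.polar_comm, sub_eq_add_neg, polar_add_r, ← neg_one_smul (ZMod 2) w', polar_smul_r, h1]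
        ring
      exact sub_eq_zero.1 h2
    · rintro ⟨q, hq⟩
      obtain ⟨w, hw⟩ := exists_shift m q hq
      exact ⟨w, Subtype.ext (funext fun v => (hw v).symm)⟩)

theorem shiftEquiv_apply (m : ℕ) (w v : Fin m ⊕ Fin m → ZMod 2) :
    (shiftEquiv m w).1 v = Cfsg.quadFormPlus m (ZMod 2) v + QuadraticMap.polar (QP (ZMod 2) m) v w := rfl

theorem card_sub (m : ℕ) (R : ((Fin m ⊕ Fin m → ZMod 2) → ZMod 2) → Prop) :
    Nat.card {q : (Fin m ⊕ Fin m → ZMod 2) → ZMod 2 // Polarizes m q ∧ R q}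
      = Nat.card {w : Fin m ⊕ Fin m → ZMod 2 // R (shiftEquiv m w).1} := by
  apply Nat.card_congr
  refine (Equiv.subtypeSubtypeEquivSubtypeInter (Polarizes m) R).symm.trans ?_
  exact (Equiv.subtypeEquiv (shiftEquiv m) (fun w => Iff.rfl)).symm


/-- Fix the non-singular alternating form on the 2m-dimensional space over the field of two elements obtained by polarizing the plus-type form Σ xᵢyᵢ (m ≥ 1). The functions q on the space with q(u + v) = q(u) + q(v) + f(u, v) (the quadratic forms polarizing to f) number 2^(2m); each is equivalent under an invertible linear map either to the plus-type form or to the minus-type form Σ xᵢyᵢ + (z₁² + z₁z₂ + z₂²); and those of plus type number 2^(2m−1) + 2^(m−1), those of minus type 2^(2m−1) − 2^(m−1). -/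
theorem result (m : ℕ) (hm : 1 ≤ m) :
    Nat.card {q : (Fin m ⊕ Fin m → ZMod 2) → ZMod 2 // (∀ u v : (Fin m ⊕ Fin m → ZMod 2), q (u + v) = q u + q v + (Cfsg.quadFormPlus m (ZMod 2) (u + v) - Cfsg.quadFormPlus m (ZMod 2) u - Cfsg.quadFormPlus m (ZMod 2) v))} = 2 ^ (2 * m) ∧
    (∀ q : (Fin m ⊕ Fin m → ZMod 2) → ZMod 2, (∀ u v : (Fin m ⊕ Fin m → ZMod 2), q (u + v) = q u + q v + (Cfsg.quadFormPlus m (ZMod 2) (u + v) - Cfsg.quadFormPlus m (ZMod 2) u - Cfsg.quadFormPlus m (ZMod 2) v)) →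
      (∃ g : (Fin m ⊕ Fin m → ZMod 2) ≃ₗ[ZMod 2] (Fin m ⊕ Fin m → ZMod 2), ∀ v, q v = Cfsg.quadFormPlus m (ZMod 2) (g v)) ∨
      (∃ g : (Fin m ⊕ Fin m → ZMod 2) ≃ₗ[ZMod 2] ((Fin (m - 1) ⊕ Fin (m - 1)) ⊕ Fin 2 → ZMod 2), ∀ v, q v = Cfsg.quadFormMinus (m - 1) (ZMod 2) 1 1 (g v))) ∧
    Nat.card {q : (Fin m ⊕ Fin m → ZMod 2) → ZMod 2 // (∀ u v : (Fin m ⊕ Fin m → ZMod 2), q (u + v) = q u + q v + (Cfsg.quadFormPlus m (ZMod 2) (u + v) - Cfsg.quadFormPlus m (ZMod 2) u - Cfsg.quadFormPlus m (ZMod 2) v)) ∧ ∃ g : (Fin m ⊕ Fin m → ZMod 2) ≃ₗ[ZMod 2] (Fin m ⊕ Fin m → ZMod 2), ∀ v, q v = Cfsg.quadFormPlus m (ZMod 2) (g v)} = 2 ^ (2 * m - 1) + 2 ^ (m - 1) ∧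
    Nat.card {q : (Fin m ⊕ Fin m → ZMod 2) → ZMod 2 // (∀ u v : (Fin m ⊕ Fin m → ZMod 2), q (u + v) = q u + q v + (Cfsg.quadFormPlus m (ZMod 2) (u + v) - Cfsg.quadFormPlus m (ZMod 2) u - Cfsg.quadFormPlus m (ZMod 2) v)) ∧ ∃ g : (Fin m ⊕ Fin m → ZMod 2) ≃ₗ[ZMod 2] ((Fin (m - 1) ⊕ Fin (m - 1)) ⊕ Fin 2 → ZMod 2), ∀ v, q v = Cfsg.quadFormMinus (m - 1) (ZMod 2) 1 1 (g v)} = 2 ^ (2 * m - 1) - 2 ^ (m - 1) := by
  classical
  have hplus : ∀ w : Fin m ⊕ Fin m → ZMod 2,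
      (∃ g : (Fin m ⊕ Fin m → ZMod 2) ≃ₗ[ZMod 2] (Fin m ⊕ Fin m → ZMod 2),
        ∀ v, (shiftEquiv m w).1 v = Cfsg.quadFormPlus m (ZMod 2) (g v)) ↔ Cfsg.quadFormPlus m (ZMod 2) w = 0 := by
    intro w
    have := (Cfsg.Agent.S2564.result m hm _ (plus_polarizes m) w).2
    simp only [fP_eq] at this
    exact this
  have hminus : ∀ w : Fin m ⊕ Fin m → ZMod 2,
      (∃ g : (Fin m ⊕ Fin m → ZMod 2) ≃ₗ[ZMod 2] ((Fin (m - 1) ⊕ Fin (m - 1)) ⊕ Fin 2 → ZMod 2),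
        ∀ v, (shiftEquiv m w).1 v = Cfsg.quadFormMinus (m - 1) (ZMod 2) 1 1 (g v)) ↔
        ¬ Cfsg.quadFormPlus m (ZMod 2) w = 0 := by
    intro w
    rw [← hplus w]
    constructor
    · rintro ⟨g₂, h₂⟩ ⟨g₁, h₁⟩
      apply Cfsg.Agent.S2617.result hm (1 : ZMod 2) (by decide) (g₁.symm.trans g₂)
      intro v
      rw [LinearEquiv.trans_apply, ← h₂, h₁, LinearEquiv.apply_symm_apply]
    · intro h
      exact (classify_polarizes hm _ (shiftEquiv m w).2).resolve_left h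
  have cV : Nat.card (Fin m ⊕ Fin m → ZMod 2) = 2 ^ (2 * m) := by
    rw [Nat.card_eq_fintype_card]; simp [ZMod.card]; ring
  have cZ := Cfsg.Agent.S0289.result (F := ZMod 2) (q := 2) (ZMod.card 2) m hm
  have e5 : 2 ^ (2 * m) = 2 * 2 ^ (2 * m - 1) := by
    rw [← pow_succ']; congr 1; omega
  have e6 : 2 ^ m = 2 * 2 ^ (m - 1) := by
    rw [← pow_succ']; congr 1; omega
  have e7 : 2 ^ (m - 1) ≤ 2 ^ (2 * m - 1) := Nat.pow_le_pow_right (by norm_num) (by omega)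
  refine ⟨?_, ?_, ?_, ?_⟩
  · rw [← cV]
    exact (Nat.card_congr (shiftEquiv m)).symm
  · intro q hq
    exact classify_polarizes hm q hq
  · have := card_sub m (fun q => ∃ g : (Fin m ⊕ Fin m → ZMod 2) ≃ₗ[ZMod 2] (Fin m ⊕ Fin m → ZMod 2),
        ∀ v, q v = Cfsg.quadFormPlus m (ZMod 2) (g v))
    refine this.trans ?_
    simp only [hplus]
    rw [cZ]; omega
  · have := card_sub m (fun q => ∃ g : (Fin m ⊕ Fin m → ZMod 2) ≃ₗ[ZMod 2] ((Fin (m - 1) ⊕ Fin (m - 1)) ⊕ Fin 2 → ZMod 2),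
        ∀ v, q v = Cfsg.quadFormMinus (m - 1) (ZMod 2) 1 1 (g v))
    refine this.trans ?_
    simp only [hminus]
    rw [Nat.card_eq_fintype_card, Fintype.card_subtype_compl, ← Nat.card_eq_fintype_card, ← Nat.card_eq_fintype_card,
      cV, cZ]
    omega
end Cfsg.Agent.S2561
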