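import Mathlib
import Cfsg.Statements.S2565
import Cfsg.Agent.S0302
import Cfsg.Agent.S0256

set_option autoImplicit false
open Cfsg

namespace Cfsg.Agent.S2565

open Cfsg.Agent.Lib.Helper5 Matrix

/-- The commutator subgroup of the full orthogonal group of the plus-type form Σ xᵢyᵢ in dimension 6 over the field of two elements (the group Ω⁺₆(2), of index 2) is isomorphic to the alternating group of degree 8. -/
theorem result :
    (Cfsg.Omega (ZMod 2) (Cfsg.quadFormPlus 3 (ZMod 2))).index = 2 ∧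
    Nonempty (↥(Cfsg.Omega (ZMod 2) (Cfsg.quadFormPlus 3 (ZMod 2))) ≃* alternatingGroup (Fin 8)) := by
  have hF : Fintype.card (ZMod 2) = 2 := ZMod.card 2
  obtain ⟨f, hf⟩ := Cfsg.Agent.S0302.exists_klein_hom (F := ZMod 2)
  have hneg : (Cfsg.Agent.S0302.negOne : Matrix.SpecialLinearGroup (Fin 4) (ZMod 2)) = 1 := by
    apply Subtype.ext
    change (-1 : Matrix (Fin 4) (Fin 4) (ZMod 2)) = 1
    decide
  have hinj : Function.Injective f := by
    rw [injective_iff_map_eq_one]
    intro g hg
    rcases hf g hg with h | h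
    · exact h
    · rw [h, hneg]
  have hcard : Nat.card (Matrix.SpecialLinearGroup (Fin 4) (ZMod 2)) = 20160 := by
    rw [Cfsg.Agent.S0302.card_sl4, hF]; norm_num
  have hcO : Nat.card ↥(Cfsg.isometryGroup (ZMod 2) (Cfsg.quadFormPlus 3 (ZMod 2))) = 40320 := by
    rw [OrthPlus.card_plus 3 (by norm_num), hF]
    decide
  have hidx : f.range.index = 2 := by
    have h1 := Subgroup.index_mul_card f.range
    rw [← Nat.card_congr (MonoidHom.ofInjective hinj).toEquiv, hcard, hcO] at h1
    omega
  have hcomm : commutator ↥(Cfsg.isometryGroup (ZMod 2) (Cfsg.quadFormPlus 3 (ZMod 2))) = f.range :=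
    PerfectIndex.commutator_eq_range f (Cfsg.Agent.Lib.Helper3.SLn.commutator_eq_top (by simp))
      (by rw [hidx]; norm_num) (by rw [hidx]; norm_num)
  have hΩ : Cfsg.Omega (ZMod 2) (Cfsg.quadFormPlus 3 (ZMod 2)) = f.range := hcomm
  refine ⟨by rw [hΩ, hidx], ?_⟩
  obtain ⟨e⟩ := Cfsg.Agent.S0256.result (F := ZMod 2) hF
  have hc : Subgroup.center (Matrix.SpecialLinearGroup (Fin 4) (ZMod 2)) = ⊥ := by
    rw [← Subgroup.card_eq_one, CardPSL.card_center_SL 4 (by norm_num), hF]
    rfl
  exact ⟨((MulEquiv.subgroupCongr hΩ).trans (MonoidHom.ofInjective hinj).symm).trans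
    (((QuotientGroup.quotientMulEquivOfEq hc).trans QuotientGroup.quotientBot).symm.trans e)⟩

end Cfsg.Agent.S2565
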