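import Cfsg.Statements.S2567
import Mathlib

set_option autoImplicit false
open Cfsg

namespace Cfsg.Agent.S2567



theorem unique_lift {G : Type*} [Group G] (m r : ℕ) (hr : r.Prime) (hcop : Nat.Coprime r m)
    (hZ : ∀ z ∈ Subgroup.center G, z ^ m = 1) (x : G ⧸ Subgroup.center G) (hx : orderOf x = r) :
    ∃! g : G, (QuotientGroup.mk g : G ⧸ Subgroup.center G) = x ∧ orderOf g = r := by
  obtain ⟨g₀, rfl⟩ := QuotientGroup.mk_surjective x
  have h1 : g₀ ^ r ∈ Subgroup.center G := by
    rw [← QuotientGroup.eq_one_iff, QuotientGroup.mk_pow, ← hx, pow_orderOf_eq_one]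
  have hb : (r : ℤ) * Nat.gcdA r m + m * Nat.gcdB r m = 1 := by
    have := Nat.gcd_eq_gcd_ab r m
    rw [hcop] at this
    exact_mod_cast this.symm
  set a := Nat.gcdA r m with ha
  set b := Nat.gcdB r m with hbdef
  have hroot : ∀ z ∈ Subgroup.center G, (z ^ a) ^ r = z := by
    intro z hz
    rw [← zpow_natCast, ← zpow_mul]
    have e : z ^ (a * r) = z ^ (a * r + m * b) := by
      rw [zpow_add, zpow_mul z m b, zpow_natCast, hZ z hz, one_zpow, mul_one]
    rw [e, (by linarith : a * r + m * b = 1), zpow_one]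
  set z₀ := ((g₀ ^ r)⁻¹) ^ a with hz₀def
  have hz₀ : z₀ ∈ Subgroup.center G := zpow_mem (inv_mem h1) a
  have hz₀r : z₀ ^ r = (g₀ ^ r)⁻¹ := hroot _ (inv_mem h1)
  have hcomm : Commute g₀ z₀ := (Subgroup.mem_center_iff.1 hz₀ g₀)
  have hg : (g₀ * z₀) ^ r = 1 := by rw [hcomm.mul_pow, hz₀r, mul_inv_cancel]
  have hmk : (QuotientGroup.mk (g₀ * z₀) : G ⧸ Subgroup.center G) = QuotientGroup.mk g₀ := by
    rw [QuotientGroup.mk_mul, (QuotientGroup.eq_one_iff z₀).2 hz₀, mul_one]
  refine ⟨g₀ * z₀, ⟨hmk, ?_⟩, ?_⟩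
  · have := orderOf_dvd_of_pow_eq_one hg
    rcases (Nat.dvd_prime hr).1 this with h | h
    · rw [orderOf_eq_one_iff] at h
      rw [h, QuotientGroup.mk_one] at hmk
      rw [← hmk, orderOf_one] at hx
      exact absurd hx.symm hr.one_lt.ne'
    · exact h
  · rintro g' ⟨hg'mk, hg'ord⟩
    have hz : (g₀ * z₀)⁻¹ * g' ∈ Subgroup.center G := by
      rw [← QuotientGroup.eq, hmk, hg'mk]
    set z := (g₀ * z₀)⁻¹ * g' with hzdef
    have e : g' = (g₀ * z₀) * z := by rw [hzdef]; group
    have hzr : z ^ r = 1 := by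
      have hc : Commute (g₀ * z₀) z := (Subgroup.mem_center_iff.1 hz (g₀ * z₀))
      have := pow_orderOf_eq_one g'
      rw [hg'ord, e, hc.mul_pow, hg, one_mul] at this
      exact this
    have hz1 : z = 1 := by
      rw [← hroot z hz, ← zpow_natCast, ← zpow_mul, mul_comm, zpow_mul, zpow_natCast, hzr,
        one_zpow]
    rw [e, hz1, mul_one]


/-- Lifting elements of prime order from PGL to GL: let F be a finite field with q elements, r a prime not dividing q − 1, and x an element of order r in GL_n(F) modulo its centre (the scalar matrices). Then x has exactly one preimage in GL_n(F) of order r. -/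
theorem result {F : Type*} [Field F] [Fintype F] {q n r : ℕ} (hF : Fintype.card F = q) (hr : r.Prime) (hdiv : ¬ r ∣ q - 1) (x : GL (Fin n) F ⧸ Subgroup.center (GL (Fin n) F)) (hx : orderOf x = r) : ∃! g : GL (Fin n) F, (QuotientGroup.mk g : GL (Fin n) F ⧸ Subgroup.center (GL (Fin n) F)) = x ∧ orderOf g = r := by
  classical
  apply unique_lift (q - 1) r hr ((Nat.Prime.coprime_iff_not_dvd hr).2 hdiv) _ x hx
  intro z hz
  rw [Matrix.GeneralLinearGroup.center_eq_range_scalar] at hz
  obtain ⟨c, rfl⟩ := hz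
  rw [← map_pow]
  have : c ^ (q - 1) = 1 := by
    rw [← hF, ← Fintype.card_units]
    exact pow_card_eq_one
  rw [this, map_one]
end Cfsg.Agent.S2567
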