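import Cfsg.Statements.S2571

set_option autoImplicit false
open Cfsg

namespace Cfsg.Agent.S2571

open Module in
theorem finrank_ker_pow_succ_le {F V : Type*} [Field F] [AddCommGroup V] [Module F V] [FiniteDimensional F V]
    (N : V →ₗ[F] V) (k : ℕ) :
    finrank F (LinearMap.ker (N ^ (k + 1))) ≤ finrank F (LinearMap.ker (N ^ k)) + finrank F (LinearMap.ker N) := by
  set K1 := LinearMap.ker (N ^ (k + 1)) with hK1
  let g : K1 →ₗ[F] V := N ∘ₗ K1.subtype
  have h1 := LinearMap.finrank_range_add_finrank_ker g
  have h2 : finrank F (LinearMap.range g) ≤ finrank F (LinearMap.ker (N ^ k)) := by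
    apply Submodule.finrank_mono
    rintro _ ⟨x, rfl⟩
    have hx : (N ^ (k + 1)) x.1 = 0 := x.2
    rw [LinearMap.mem_ker]
    show (N ^ k) (N x.1) = 0
    rw [pow_succ] at hx
    exact hx
  have h3 : finrank F (LinearMap.ker g) ≤ finrank F (LinearMap.ker N) := by
    let f : LinearMap.ker g →ₗ[F] LinearMap.ker N :=
      LinearMap.codRestrict (LinearMap.ker N) (K1.subtype ∘ₗ (LinearMap.ker g).subtype) (by
        intro x
        have : g x.1 = 0 := x.2
        exact this)
    apply LinearMap.finrank_le_finrank_of_injective (f := f)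
    intro x y hxy
    have := congrArg Subtype.val hxy
    exact Subtype.ext (Subtype.ext this)
  omega

open Module in
theorem finrank_ker_pow_le {F V : Type*} [Field F] [AddCommGroup V] [Module F V] [FiniteDimensional F V]
    (N : V →ₗ[F] V) (h : finrank F (LinearMap.ker N) ≤ 1) (k : ℕ) :
    finrank F (LinearMap.ker (N ^ k)) ≤ k := by
  induction k with
  | zero =>
    have : LinearMap.ker (N ^ 0) = ⊥ := by
      rw [pow_zero]; exact LinearMap.ker_id
    rw [this]; simp
  | succ k ih =>
    have := finrank_ker_pow_succ_le N k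
    omega

theorem mulVecLin_pow' {F ι : Type*} [Field F] [Fintype ι] [DecidableEq ι] (A : Matrix ι ι F) (k : ℕ) :
    Matrix.mulVecLin (A ^ k) = (Matrix.mulVecLin A) ^ k := by
  induction k with
  | zero => simp [Module.End.one_eq_id]
  | succ k ih => rw [pow_succ, pow_succ, Matrix.mulVecLin_mul, ih]; rfl

open Module in
theorem le_ker_pow_finrank {F V : Type*} [Field F] [AddCommGroup V] [Module F V] [FiniteDimensional F V]
    (N : V →ₗ[F] V) (n : ℕ) (hNn : N ^ n = 0) (W : Submodule F V) (hNW : ∀ v ∈ W, N v ∈ W)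
    (hdn : finrank F W ≤ n) : W ≤ LinearMap.ker (N ^ finrank F W) := by
  let NW : Module.End F W := N.restrict hNW
  have h1 : NW ^ n = 0 := by
    rw [Module.End.pow_restrict]
    ext x
    simp [hNn]
  have h2 : LinearMap.ker (NW ^ n) = LinearMap.ker (NW ^ finrank F W) :=
    Module.End.ker_pow_eq_ker_pow_finrank_of_le hdn
  rw [h1] at h2
  intro w hw
  have h3 : (⟨w, hw⟩ : W) ∈ LinearMap.ker (NW ^ finrank F W) := by
    rw [← h2]; simp
  rw [LinearMap.mem_ker, Module.End.pow_restrict] at h3
  have := congrArg Subtype.val h3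
  simpa using this

open Module in

open Polynomial in
theorem commute_aeval {F : Type*} [Field F] {n : ℕ} (g A : Matrix (Fin n) (Fin n) F) (h : g * A = A * g) (p : F[X]) :
    g * aeval A p = aeval A p * g := by
  have hc : Commute g A := h
  show Commute g (aeval A p)
  induction p using Polynomial.induction_on' with
  | add p q hp hq => rw [map_add]; exact hp.add_right hq
  | monomial k a =>
    rw [aeval_monomial]
    exact (Algebra.commute_algebraMap_right a g).mul_right (hc.pow_right k)

open Polynomial Module in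
theorem cyclic_of_pow_ne_zero {F : Type*} [Field F] {n : ℕ} (A : Matrix (Fin n) (Fin n) F) (hnil : A ^ n = 0)
    (v : Fin n → F) (hv : (A ^ (n - 1)).mulVec v ≠ 0) (w : Fin n → F) :
    ∃ p : F[X], (aeval A p).mulVec v = w := by
  let ev : F[X] →ₗ[F] (Fin n → F) :=
    { toFun := fun p => (aeval A p).mulVec v
      map_add' := by intro p q; simp [Matrix.add_mulVec]
      map_smul' := by intro c p; simp [Matrix.smul_mulVec] }
  set S := LinearMap.range ev with hS
  set N : (Fin n → F) →ₗ[F] (Fin n → F) := Matrix.mulVecLin A with hN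
  have hNn : N ^ n = 0 := by
    rw [hN, ← mulVecLin_pow', hnil]; simp
  have hNS : ∀ x ∈ S, N x ∈ S := by
    rintro _ ⟨p, rfl⟩
    refine ⟨X * p, ?_⟩
    show (aeval A (X * p)).mulVec v = A.mulVec ((aeval A p).mulVec v)
    rw [map_mul, aeval_X, Matrix.mulVec_mulVec]
  have hdn : finrank F S ≤ n := by
    have := Submodule.finrank_le S
    simpa using this
  have hle := le_ker_pow_finrank N n hNn S hNS hdn
  have hvS : v ∈ S := ⟨1, by show (aeval A 1).mulVec v = v; simp⟩
  have h0 : (N ^ finrank F S) v = 0 := hle hvS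
  have hge : n ≤ finrank F S := by
    by_contra hlt
    push Not at hlt
    apply hv
    have h1 : n - 1 = (n - 1 - finrank F S) + finrank F S := by omega
    have h2 : (N ^ (n - 1)) v = 0 := by
      rw [h1, pow_add, Module.End.mul_apply, h0, map_zero]
    rw [hN, ← mulVecLin_pow'] at h2
    exact h2
  have htop : S = ⊤ := Submodule.eq_top_of_finrank_eq (by simp; omega)
  have : w ∈ S := htop ▸ Submodule.mem_top
  exact this


/-- Centraliser of a regular unipotent element in GL_n(q): if u is an invertible n × n matrix over the field with q elements, n ≥ 1, with (u − 1)^n = 0 and rank(u − 1) = n − 1 (a single unipotent Jordan block), then its centraliser in GL_n(q) has order (q − 1) q^(n−1). -/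
theorem result {F : Type*} [Field F] [Fintype F] {q n : ℕ} (hF : Fintype.card F = q) (hn : 1 ≤ n) (u : GL (Fin n) F) (hnil : ((u : Matrix (Fin n) (Fin n) F) - 1) ^ n = 0) (hreg : ((u : Matrix (Fin n) (Fin n) F) - 1).rank = n - 1) : Nat.card ↥(Subgroup.centralizer ({u} : Set (GL (Fin n) F))) = (q - 1) * q ^ (n - 1) := by
  classical
  set U : Matrix (Fin n) (Fin n) F := (u : Matrix (Fin n) (Fin n) F) with hU
  set A : Matrix (Fin n) (Fin n) F := U - 1 with hA
  set N : (Fin n → F) →ₗ[F] (Fin n → F) := Matrix.mulVecLin A with hN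
  have hNn : N ^ n = 0 := by
    rw [hN, ← mulVecLin_pow', hnil]; simp
  have hfin : Module.finrank F (Fin n → F) = n := by simp
  have hker : Module.finrank F (LinearMap.ker N) ≤ 1 := by
    have h1 := LinearMap.finrank_range_add_finrank_ker N
    have h2 : Module.finrank F (LinearMap.range N) = n - 1 := hreg
    omega
  have hK : Module.finrank F (LinearMap.ker (N ^ (n - 1))) = n - 1 := by
    apply le_antisymm (finrank_ker_pow_le N hker (n - 1))
    have h1 := LinearMap.finrank_range_add_finrank_ker (N ^ (n - 1))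
    have h2 : Module.finrank F (LinearMap.range (N ^ (n - 1))) ≤ Module.finrank F (LinearMap.ker N) := by
      apply Submodule.finrank_mono
      rintro _ ⟨x, rfl⟩
      rw [LinearMap.mem_ker, ← Module.End.mul_apply, ← pow_succ', Nat.sub_add_cancel hn, hNn]
      rfl
    omega
  have hkermem : ∀ w : Fin n → F, w ∈ LinearMap.ker (N ^ (n - 1)) ↔ (A ^ (n - 1)).mulVec w = 0 := by
    intro w
    rw [hN, ← mulVecLin_pow', LinearMap.mem_ker, Matrix.mulVecLin_apply]
  obtain ⟨v, hv⟩ : ∃ v, (A ^ (n - 1)).mulVec v ≠ 0 := by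
    by_contra hcon
    push Not at hcon
    have : LinearMap.ker (N ^ (n - 1)) = ⊤ := by
      rw [eq_top_iff]; intro w _; exact (hkermem w).2 (hcon w)
    rw [this, finrank_top, hfin] at hK
    omega
  have hcomm : ∀ g : GL (Fin n) F, g ∈ Subgroup.centralizer ({u} : Set (GL (Fin n) F)) ↔
      (g : Matrix (Fin n) (Fin n) F) * A = A * (g : Matrix (Fin n) (Fin n) F) := by
    intro g
    rw [Subgroup.mem_centralizer_singleton_iff]
    constructor
    · intro h
      have h1 := congrArg (fun x : GL (Fin n) F => (x : Matrix (Fin n) (Fin n) F)) h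
      simp only [Units.val_mul] at h1
      rw [hA, Matrix.mul_sub, Matrix.sub_mul, hU, h1]; simp
    · intro h
      apply Units.ext
      simp only [Units.val_mul]
      rw [hA, Matrix.mul_sub, Matrix.sub_mul] at h
      simp only [Matrix.mul_one, Matrix.one_mul, sub_left_inj] at h
      exact h
  let T := {w : Fin n → F // ¬ (A ^ (n - 1)).mulVec w = 0}
  let f : Subgroup.centralizer ({u} : Set (GL (Fin n) F)) → T := fun g =>
    ⟨((g : GL (Fin n) F) : Matrix (Fin n) (Fin n) F).mulVec v, by
      intro h0
      apply hv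
      have hc := (hcomm g.1).1 g.2
      have hc2 : ((g : GL (Fin n) F) : Matrix (Fin n) (Fin n) F) * A ^ (n - 1) =
          A ^ (n - 1) * ((g : GL (Fin n) F) : Matrix (Fin n) (Fin n) F) :=
        (Commute.pow_right (show Commute _ _ from hc) (n - 1))
      rw [Matrix.mulVec_mulVec, ← hc2, ← Matrix.mulVec_mulVec] at h0
      have h3 := congrArg (fun x => (((g : GL (Fin n) F)⁻¹ : GL (Fin n) F) : Matrix (Fin n) (Fin n) F).mulVec x) h0
      simp only [Matrix.mulVec_mulVec, Matrix.mulVec_zero] at h3
      rw [← Matrix.mul_assoc, ← Units.val_mul, inv_mul_cancel] at h3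
      simpa using h3⟩
  have hbij : Function.Bijective f := by
    constructor
    · intro g g' hgg
      have h1 : ((g : GL (Fin n) F) : Matrix (Fin n) (Fin n) F).mulVec v =
          ((g' : GL (Fin n) F) : Matrix (Fin n) (Fin n) F).mulVec v := congrArg Subtype.val hgg
      apply Subtype.ext
      apply Units.ext
      rw [Matrix.ext_iff_mulVec]
      intro w
      obtain ⟨p, rfl⟩ := cyclic_of_pow_ne_zero A hnil v hv w
      rw [Matrix.mulVec_mulVec, Matrix.mulVec_mulVec, commute_aeval _ A ((hcomm g.1).1 g.2) p,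
        commute_aeval _ A ((hcomm g'.1).1 g'.2) p, ← Matrix.mulVec_mulVec, ← Matrix.mulVec_mulVec, h1]
    · rintro ⟨w, hw⟩
      obtain ⟨p, hp⟩ := cyclic_of_pow_ne_zero A hnil v hv w
      obtain ⟨r, hr⟩ := cyclic_of_pow_ne_zero A hnil w hw v
      have h1 : Polynomial.aeval A r * Polynomial.aeval A p = 1 := by
        rw [Matrix.ext_iff_mulVec]
        intro x
        obtain ⟨s, rfl⟩ := cyclic_of_pow_ne_zero A hnil v hv x
        rw [Matrix.mulVec_mulVec, ← map_mul, ← map_mul, mul_comm, map_mul, map_mul, ← Matrix.mulVec_mulVec,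
          ← Matrix.mulVec_mulVec, hp, hr]
        simp
      have h2 : Polynomial.aeval A p * Polynomial.aeval A r = 1 := by
        rw [← map_mul, mul_comm, map_mul, h1]
      let g : GL (Fin n) F := ⟨Polynomial.aeval A p, Polynomial.aeval A r, h2, h1⟩
      have hg : g ∈ Subgroup.centralizer ({u} : Set (GL (Fin n) F)) := by
        rw [hcomm]
        show Polynomial.aeval A p * A = A * Polynomial.aeval A p
        exact (commute_aeval A A rfl p).symm
      exact ⟨⟨g, hg⟩, Subtype.ext hp⟩
  rw [Nat.card_congr (Equiv.ofBijective f hbij)]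
  have hc1 : Nat.card T = Fintype.card (Fin n → F) - Fintype.card {w : Fin n → F // (A ^ (n - 1)).mulVec w = 0} := by
    rw [Nat.card_eq_fintype_card]
    exact Fintype.card_subtype_compl _
  have hc2 : Fintype.card {w : Fin n → F // (A ^ (n - 1)).mulVec w = 0} = q ^ (n - 1) := by
    have e : {w : Fin n → F // (A ^ (n - 1)).mulVec w = 0} ≃ LinearMap.ker (N ^ (n - 1)) :=
      Equiv.subtypeEquivRight (fun w => (hkermem w).symm)
    rw [← Nat.card_eq_fintype_card, Nat.card_congr e, Module.natCard_eq_pow_finrank (K := F), hK,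
      Nat.card_eq_fintype_card, hF]
  rw [hc1, hc2]
  simp only [Fintype.card_pi, Finset.prod_const, Finset.card_univ, Fintype.card_fin, hF]
  obtain ⟨k, rfl⟩ : ∃ k, n = k + 1 := ⟨n - 1, by omega⟩
  simp only [Nat.add_sub_cancel, pow_succ]
  rw [Nat.sub_mul, one_mul, mul_comm]
end Cfsg.Agent.S2571
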