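import Cfsg.Statements.S2573

set_option autoImplicit false
open Cfsg

namespace Cfsg.Agent.S2573

open Module in
theorem finrank_ker_pow_succ_le {F V : Type*} [Field F] [AddCommGroup V] [Module F V] [FiniteDimensional F V]
    (N : V →ₗ[F] V) (k : ℕ) :
    finrank F (LinearMap.ker (N ^ (k + 1))) ≤ finrank F (LinearMap.ker (N ^ k)) + finrank F (LinearMap.ker N) := by
  set K1 := LinearMap.ker (N ^ (k + 1)) with hK1
  let g : K1 →ₗ[F] V := N ∘ₗ K1.subtype
  have h1 := LinearMap.finrank_range_add_finrank_ker g
  have h2 : finrank F (LinearMap.range g) ≤ finrank F (LinearMap.ker (N ^ k)) := by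
    apply Submodule.finrank_mono
    rintro _ ⟨x, rfl⟩
    have hx : (N ^ (k + 1)) x.1 = 0 := x.2
    rw [LinearMap.mem_ker]
    show (N ^ k) (N x.1) = 0
    rw [pow_succ] at hx
    exact hx
  have h3 : finrank F (LinearMap.ker g) ≤ finrank F (LinearMap.ker N) := by
    let f : LinearMap.ker g →ₗ[F] LinearMap.ker N :=
      LinearMap.codRestrict (LinearMap.ker N) (K1.subtype ∘ₗ (LinearMap.ker g).subtype) (by
        intro x
        have : g x.1 = 0 := x.2
        exact this)
    apply LinearMap.finrank_le_finrank_of_injective (f := f)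
    intro x y hxy
    have := congrArg Subtype.val hxy
    exact Subtype.ext (Subtype.ext this)
  omega

open Module in
theorem finrank_ker_pow_le {F V : Type*} [Field F] [AddCommGroup V] [Module F V] [FiniteDimensional F V]
    (N : V →ₗ[F] V) (h : finrank F (LinearMap.ker N) ≤ 1) (k : ℕ) :
    finrank F (LinearMap.ker (N ^ k)) ≤ k := by
  induction k with
  | zero =>
    have : LinearMap.ker (N ^ 0) = ⊥ := by
      rw [pow_zero]; exact LinearMap.ker_id
    rw [this]; simp
  | succ k ih =>
    have := finrank_ker_pow_succ_le N k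
    omega

theorem mulVecLin_pow' {F : Type*} [Field F] {n : ℕ} (A : Matrix (Fin n) (Fin n) F) (k : ℕ) :
    Matrix.mulVecLin (A ^ k) = (Matrix.mulVecLin A) ^ k := by
  induction k with
  | zero => simp [Module.End.one_eq_id]
  | succ k ih => rw [pow_succ, pow_succ, Matrix.mulVecLin_mul, ih]; rfl


/-- The invariant subspaces of a regular unipotent matrix form a chain: over a finite field, if u is an n × n matrix with (u − 1)^n = 0 and rank(u − 1) = n − 1, then every subspace W of F^n with u W ⊆ W is the kernel of (u − 1)^(dim W); so u has at most one invariant subspace of each dimension. -/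
theorem result {F : Type*} [Field F] [Finite F] {n : ℕ} (u : Matrix (Fin n) (Fin n) F) (hnil : (u - 1) ^ n = 0) (hreg : (u - 1).rank = n - 1) (W : Submodule F (Fin n → F)) (hW : ∀ v ∈ W, u.mulVec v ∈ W) : W = LinearMap.ker (Matrix.mulVecLin ((u - 1) ^ Module.finrank F W)) := by
  set N : (Fin n → F) →ₗ[F] (Fin n → F) := Matrix.mulVecLin (u - 1) with hN
  rw [mulVecLin_pow']
  have hNW : ∀ v ∈ W, N v ∈ W := by
    intro v hv
    have : N v = u.mulVec v - v := by
      simp [hN]
    rw [this]; exact W.sub_mem (hW v hv) hv
  have hker : Module.finrank F (LinearMap.ker N) ≤ 1 := by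
    have h1 := LinearMap.finrank_range_add_finrank_ker N
    have h2 : Module.finrank F (LinearMap.range N) = n - 1 := hreg
    have h3 : Module.finrank F (Fin n → F) = n := by simp
    omega
  have hNn : N ^ n = 0 := by
    rw [hN, ← mulVecLin_pow', hnil]; simp
  set d := Module.finrank F W with hd
  have hdn : d ≤ n := by
    have := Submodule.finrank_le W
    simpa using this
  have hle : W ≤ LinearMap.ker (N ^ d) := by
    let NW : Module.End F W := N.restrict hNW
    have h1 : NW ^ n = 0 := by
      rw [Module.End.pow_restrict]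
      ext x
      simp [hNn]
    have h2 : LinearMap.ker (NW ^ n) = LinearMap.ker (NW ^ d) :=
      Module.End.ker_pow_eq_ker_pow_finrank_of_le hdn
    rw [h1] at h2
    intro w hw
    have h3 : (⟨w, hw⟩ : W) ∈ LinearMap.ker (NW ^ d) := by
      rw [← h2]; simp
    rw [LinearMap.mem_ker, Module.End.pow_restrict] at h3
    have := congrArg Subtype.val h3
    simpa using this
  exact Submodule.eq_of_le_of_finrank_le hle (finrank_ker_pow_le N hker d)
end Cfsg.Agent.S2573
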