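import Cfsg.Statements.S2574

set_option autoImplicit false
open Cfsg

namespace Cfsg.Agent.S2574

open Module in
theorem finrank_ker_pow_succ_le {F V : Type*} [Field F] [AddCommGroup V] [Module F V] [FiniteDimensional F V]
    (N : V →ₗ[F] V) (k : ℕ) :
    finrank F (LinearMap.ker (N ^ (k + 1))) ≤ finrank F (LinearMap.ker (N ^ k)) + finrank F (LinearMap.ker N) := by
  set K1 := LinearMap.ker (N ^ (k + 1)) with hK1
  let g : K1 →ₗ[F] V := N ∘ₗ K1.subtype
  have h1 := LinearMap.finrank_range_add_finrank_ker g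
  have h2 : finrank F (LinearMap.range g) ≤ finrank F (LinearMap.ker (N ^ k)) := by
    apply Submodule.finrank_mono
    rintro _ ⟨x, rfl⟩
    have hx : (N ^ (k + 1)) x.1 = 0 := x.2
    rw [LinearMap.mem_ker]
    show (N ^ k) (N x.1) = 0
    rw [pow_succ] at hx
    exact hx
  have h3 : finrank F (LinearMap.ker g) ≤ finrank F (LinearMap.ker N) := by
    let f : LinearMap.ker g →ₗ[F] LinearMap.ker N :=
      LinearMap.codRestrict (LinearMap.ker N) (K1.subtype ∘ₗ (LinearMap.ker g).subtype) (by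
        intro x
        have : g x.1 = 0 := x.2
        exact this)
    apply LinearMap.finrank_le_finrank_of_injective (f := f)
    intro x y hxy
    have := congrArg Subtype.val hxy
    exact Subtype.ext (Subtype.ext this)
  omega

open Module in
theorem finrank_ker_pow_le {F V : Type*} [Field F] [AddCommGroup V] [Module F V] [FiniteDimensional F V]
    (N : V →ₗ[F] V) (h : finrank F (LinearMap.ker N) ≤ 1) (k : ℕ) :
    finrank F (LinearMap.ker (N ^ k)) ≤ k := by
  induction k with
  | zero =>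
    have : LinearMap.ker (N ^ 0) = ⊥ := by
      rw [pow_zero]; exact LinearMap.ker_id
    rw [this]; simp
  | succ k ih =>
    have := finrank_ker_pow_succ_le N k
    omega

theorem mulVecLin_pow' {F ι : Type*} [Field F] [Fintype ι] [DecidableEq ι] (A : Matrix ι ι F) (k : ℕ) :
    Matrix.mulVecLin (A ^ k) = (Matrix.mulVecLin A) ^ k := by
  induction k with
  | zero => simp [Module.End.one_eq_id]
  | succ k ih => rw [pow_succ, pow_succ, Matrix.mulVecLin_mul, ih]; rfl

open Module in
theorem le_ker_pow_finrank {F V : Type*} [Field F] [AddCommGroup V] [Module F V] [FiniteDimensional F V]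
    (N : V →ₗ[F] V) (n : ℕ) (hNn : N ^ n = 0) (W : Submodule F V) (hNW : ∀ v ∈ W, N v ∈ W)
    (hdn : finrank F W ≤ n) : W ≤ LinearMap.ker (N ^ finrank F W) := by
  let NW : Module.End F W := N.restrict hNW
  have h1 : NW ^ n = 0 := by
    rw [Module.End.pow_restrict]
    ext x
    simp [hNn]
  have h2 : LinearMap.ker (NW ^ n) = LinearMap.ker (NW ^ finrank F W) :=
    Module.End.ker_pow_eq_ker_pow_finrank_of_le hdn
  rw [h1] at h2
  intro w hw
  have h3 : (⟨w, hw⟩ : W) ∈ LinearMap.ker (NW ^ finrank F W) := by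
    rw [← h2]; simp
  rw [LinearMap.mem_ker, Module.End.pow_restrict] at h3
  have := congrArg Subtype.val h3
  simpa using this

open Module in
theorem ker_pow_le_range_pow {F V : Type*} [Field F] [AddCommGroup V] [Module F V] [FiniteDimensional F V]
    (N : V →ₗ[F] V) (h : finrank F (LinearMap.ker N) ≤ 1) (n : ℕ) (hn : finrank F V = n) (hNn : N ^ n = 0)
    (d : ℕ) (hd : d ≤ n) : LinearMap.ker (N ^ d) ≤ LinearMap.range (N ^ (n - d)) := by
  have hle : LinearMap.range (N ^ (n - d)) ≤ LinearMap.ker (N ^ d) := by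
    rintro _ ⟨x, rfl⟩
    rw [LinearMap.mem_ker, ← Module.End.mul_apply, ← pow_add, Nat.add_sub_cancel' hd, hNn]
    rfl
  have h1 := LinearMap.finrank_range_add_finrank_ker (N ^ (n - d))
  have h2 := finrank_ker_pow_le N h (n - d)
  have h3 := finrank_ker_pow_le N h d
  have : LinearMap.range (N ^ (n - d)) = LinearMap.ker (N ^ d) :=
    Submodule.eq_of_le_of_finrank_le hle (by omega)
  exact this.ge

theorem adj_pow {F : Type*} [Field F] {m : ℕ} (U Ui : Matrix (Fin m ⊕ Fin m) (Fin m ⊕ Fin m) F)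
    (h : U.transpose * Matrix.J (Fin m) F = Matrix.J (Fin m) F * Ui) (k : ℕ) :
    ((U - 1) ^ k).transpose * Matrix.J (Fin m) F = Matrix.J (Fin m) F * (Ui - 1) ^ k := by
  induction k with
  | zero => simp
  | succ k ih =>
    rw [pow_succ', Matrix.transpose_mul, Matrix.mul_assoc]
    have h1 : (U - 1).transpose * Matrix.J (Fin m) F = Matrix.J (Fin m) F * (Ui - 1) := by
      rw [Matrix.transpose_sub, Matrix.transpose_one, Matrix.sub_mul, Matrix.mul_sub, h]; simp
    rw [h1, ← Matrix.mul_assoc, ih, Matrix.mul_assoc, ← pow_succ]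


/-- A regular unipotent element of the symplectic group has totally isotropic small invariant subspaces: over a finite field, if u ∈ Sp_2m(F) satisfies (u − 1)^(2m) = 0 and rank(u − 1) = 2m − 1, and W is a u-invariant subspace with 2 dim W ≤ 2m, then the alternating form vanishes identically on W. -/
theorem result {F : Type*} [Field F] [Finite F] {m : ℕ} (u : Matrix.symplecticGroup (Fin m) F) (hnil : ((u : Matrix (Fin m ⊕ Fin m) (Fin m ⊕ Fin m) F) - 1) ^ (2 * m) = 0) (hreg : ((u : Matrix (Fin m ⊕ Fin m) (Fin m ⊕ Fin m) F) - 1).rank = 2 * m - 1) (W : Submodule F (Fin m ⊕ Fin m → F)) (hW : ∀ v ∈ W, (u : Matrix (Fin m ⊕ Fin m) (Fin m ⊕ Fin m) F).mulVec v ∈ W) (hdim : 2 * Module.finrank F W ≤ 2 * m) : ∀ v ∈ W, ∀ w ∈ W, Cfsg.sympForm m F v w = 0 := by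
  intro v hv w hw
  set U : Matrix (Fin m ⊕ Fin m) (Fin m ⊕ Fin m) F := (u : Matrix (Fin m ⊕ Fin m) (Fin m ⊕ Fin m) F) with hU
  set Ui : Matrix (Fin m ⊕ Fin m) (Fin m ⊕ Fin m) F := ((u⁻¹ : Matrix.symplecticGroup (Fin m) F) : Matrix (Fin m ⊕ Fin m) (Fin m ⊕ Fin m) F) with hUi
  have hUUi : U * Ui = 1 := by
    have := congrArg Subtype.val (mul_inv_cancel u)
    exact this
  have hUiU : Ui * U = 1 := by
    have := congrArg Subtype.val (inv_mul_cancel u)
    exact this
  have hsymp : U.transpose * Matrix.J (Fin m) F * U = Matrix.J (Fin m) F := SymplecticGroup.mem_iff'.1 u.2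
  have hadj : U.transpose * Matrix.J (Fin m) F = Matrix.J (Fin m) F * Ui := by
    calc U.transpose * Matrix.J (Fin m) F = U.transpose * Matrix.J (Fin m) F * (U * Ui) := by rw [hUUi, Matrix.mul_one]
      _ = (U.transpose * Matrix.J (Fin m) F * U) * Ui := by simp only [Matrix.mul_assoc]
      _ = Matrix.J (Fin m) F * Ui := by rw [hsymp]
  set N : (Fin m ⊕ Fin m → F) →ₗ[F] (Fin m ⊕ Fin m → F) := Matrix.mulVecLin (U - 1) with hN
  have hNW : ∀ v ∈ W, N v ∈ W := by
    intro v hv
    have : N v = U.mulVec v - v := by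
      simp [hN]
    rw [this]; exact W.sub_mem (hW v hv) hv
  have hfin : Module.finrank F (Fin m ⊕ Fin m → F) = 2 * m := by simp; ring
  have hker : Module.finrank F (LinearMap.ker N) ≤ 1 := by
    have h1 := LinearMap.finrank_range_add_finrank_ker N
    have h2 : Module.finrank F (LinearMap.range N) = 2 * m - 1 := hreg
    omega
  have hNn : N ^ (2 * m) = 0 := by
    rw [hN, ← mulVecLin_pow', hnil]; simp
  set d := Module.finrank F W with hd
  have hdn : d ≤ 2 * m := by omega
  have hle := le_ker_pow_finrank N (2 * m) hNn W hNW hdn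
  have hle2 := ker_pow_le_range_pow N hker (2 * m) hfin hNn d hdn
  obtain ⟨x, hx⟩ := hle2 (hle hv)
  have hw0 : (N ^ d) w = 0 := hle hw
  have hw1 : (N ^ (2 * m - d)) w = 0 := by
    have : 2 * m - d = (2 * m - d - d) + d := by omega
    rw [this, pow_add, Module.End.mul_apply, hw0, map_zero]
  rw [hN, ← mulVecLin_pow'] at hx hw1
  simp only [Matrix.mulVecLin_apply] at hx hw1
  set k := 2 * m - d with hk
  have hcomm : Commute (-Ui) (U - 1) := by
    show (-Ui) * (U - 1) = (U - 1) * (-Ui)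
    rw [Matrix.mul_sub, Matrix.sub_mul, Matrix.neg_mul, Matrix.mul_neg, hUiU, hUUi]; simp
  have hUi1 : Ui - 1 = (-Ui) * (U - 1) := by
    rw [Matrix.mul_sub, Matrix.neg_mul, hUiU]; simp [sub_eq_add_neg, add_comm]
  have hz : ((Ui - 1) ^ k).mulVec w = 0 := by
    rw [hUi1, hcomm.mul_pow, ← Matrix.mulVec_mulVec, hw1, Matrix.mulVec_zero]
  unfold Cfsg.sympForm
  rw [← hx, dotProduct_comm, Matrix.dotProduct_mulVec, ← Matrix.mulVec_transpose, Matrix.mulVec_mulVec,
    adj_pow U Ui hadj k, ← Matrix.mulVec_mulVec, hz]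
  simp
end Cfsg.Agent.S2574
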