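import Mathlib
import Cfsg.Statements.S2575
import Mathlib

set_option autoImplicit false
open Cfsg

namespace Cfsg.Agent.S2575

/-- Which diagonal involutions of PGL_n(q) lie in PSL_n(q), q odd: for the diagonal matrix t with i entries −1 and n − i entries 1, some non-zero scalar multiple of t has determinant one if and only if i is even or the 2-part of q − 1 exceeds the 2-part of n (that is, −1 is an n-th power in the field exactly in the latter case). -/
theorem result {F : Type*} [Field F] [Fintype F] {q : ℕ} (hF : Fintype.card F = q) (hq : Odd q) {n : ℕ} (hn : 1 ≤ n) (i : ℕ) (hi : i ≤ n) : (∃ c : F, c ≠ 0 ∧ (c • Matrix.diagonal (fun j : Fin n => if (j : ℕ) < i then (-1 : F) else 1)).det = 1) ↔ (Even i ∨ padicValNat 2 n < padicValNat 2 (q - 1)) := by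
  classical
  have hdet : ∀ c : F, (c • Matrix.diagonal
      (fun j : Fin n => if (j : ℕ) < i then (-1 : F) else 1)).det = c ^ n * (-1) ^ i := by
    intro c
    rw [Matrix.det_smul, Matrix.det_diagonal, Fintype.card_fin]
    congr 1
    rw [Fin.prod_univ_eq_prod_range (fun j : ℕ => if j < i then (-1 : F) else 1) n,
      Finset.prod_ite, Finset.prod_const_one, mul_one, Finset.prod_const]
    congr 1
    have h1 : (Finset.range n).filter (fun j => j < i) = Finset.range i := by
      ext j
      simp only [Finset.mem_filter, Finset.mem_range]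
      omega
    rw [h1, Finset.card_range]
  have hchar : ringChar F ≠ 2 := by
    intro h
    have h1 := FiniteField.even_card_of_char_two h
    rw [hF] at h1
    have h2 := Nat.odd_iff.mp hq
    omega
  have hne : (-1 : F) ≠ 1 := Ring.neg_one_ne_one_of_char_ne_two hchar
  have hpow : ∀ c : F, c ≠ 0 → c ^ (q - 1) = 1 := by
    intro c hc
    rw [← hF]
    exact FiniteField.pow_card_sub_one_eq_one c hc
  have hq2 : 2 ≤ q := by rw [← hF]; exact Fintype.one_lt_card
  obtain ⟨a, n', hn'odd, hn'⟩ := Nat.exists_eq_two_pow_mul_odd (n := n) (by omega)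
  obtain ⟨b, m, hmodd, hm⟩ := Nat.exists_eq_two_pow_mul_odd (n := q - 1) (by omega)
  have hval : ∀ k r : ℕ, Odd r → padicValNat 2 (2 ^ k * r) = k := by
    intro k r hr
    rw [padicValNat.mul (by positivity) hr.pos.ne', padicValNat.prime_pow,
      padicValNat.eq_zero_of_not_dvd hr.not_two_dvd_nat, add_zero]
  have va : padicValNat 2 n = a := by rw [hn']; exact hval a n' hn'odd
  have vb : padicValNat 2 (q - 1) = b := by rw [hm]; exact hval b m hmodd
  rw [va, vb]
  constructor
  · rintro ⟨c, hc0, hc⟩
    rw [hdet] at hc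
    by_cases hi2 : Even i
    · exact Or.inl hi2
    · right
      rw [Nat.not_even_iff_odd] at hi2
      rw [hi2.neg_one_pow] at hc
      have hcn : c ^ n = -1 := by linear_combination -hc
      by_contra hlt
      obtain ⟨d, hd⟩ := Nat.exists_eq_add_of_le (not_lt.mp hlt)
      have h1 : (c ^ n) ^ m = 1 := by
        have h2 : n * m = (q - 1) * (2 ^ d * n') := by rw [hn', hm, hd, pow_add]; ring
        rw [← pow_mul, h2, pow_mul, hpow c hc0, one_pow]
      rw [hcn, hmodd.neg_one_pow] at h1
      exact hne h1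
  · intro hor
    by_cases hi2 : Even i
    · exact ⟨1, one_ne_zero, by rw [hdet, one_pow, hi2.neg_one_pow, mul_one]⟩
    · have hlt : a < b := hor.resolve_left hi2
      rw [Nat.not_even_iff_odd] at hi2
      obtain ⟨d, hd⟩ := Nat.exists_eq_add_of_lt hlt
      obtain ⟨γ, hγ⟩ := IsCyclic.exists_generator (α := Fˣ)
      have hord : orderOf γ = q - 1 := by
        rw [orderOf_eq_card_of_forall_mem_zpowers hγ, Nat.card_eq_fintype_card,
          Fintype.card_units, hF]
      obtain ⟨e, he⟩ : ∃ e : ℕ, e = 2 ^ d * m := ⟨_, rfl⟩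
      have hqe : q - 1 = (e * 2 ^ a) * 2 := by rw [hm, hd, he, pow_add, pow_add]; ring
      have hepos : 0 < e * 2 ^ a := by
        rw [he]; have := hmodd.pos; positivity
      have hs1 : γ ^ (e * 2 ^ a) ≠ 1 :=
        pow_ne_one_of_lt_orderOf hepos.ne' (by rw [hord, hqe]; omega)
      have hs2 : (γ ^ (e * 2 ^ a)) ^ 2 = 1 := by
        rw [← pow_mul, ← hqe, ← hord]; exact pow_orderOf_eq_one γ
      obtain ⟨s, hs⟩ : ∃ s : F, s = ((γ ^ (e * 2 ^ a) : Fˣ) : F) := ⟨_, rfl⟩
      have hs1' : s ≠ 1 := by
        intro h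
        apply hs1
        apply Units.ext
        rw [← hs, h]; rfl
      have hs2' : s ^ 2 = 1 := by
        rw [hs, ← Units.val_pow_eq_pow_val, hs2]; rfl
      have hs3 : s = -1 := by
        have h3 : (s - 1) * (s + 1) = 0 := by linear_combination hs2'
        rcases mul_eq_zero.mp h3 with h4 | h4
        · exact absurd (sub_eq_zero.mp h4) hs1'
        · exact eq_neg_of_add_eq_zero_left h4
      refine ⟨((γ ^ e : Fˣ) : F), Units.ne_zero _, ?_⟩
      rw [hdet, hi2.neg_one_pow]
      have h5 : (((γ ^ e : Fˣ) : F)) ^ n = s ^ n' := by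
        rw [hs, ← Units.val_pow_eq_pow_val, ← Units.val_pow_eq_pow_val, ← pow_mul, ← pow_mul, hn']
        congr 2
        ring
      rw [h5, hs3, hn'odd.neg_one_pow]
      ring

end Cfsg.Agent.S2575
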