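import Mathlib
import Cfsg.Statements.S2576
import Mathlib

set_option autoImplicit false
open Cfsg

namespace Cfsg.Agent.S2576

/-- Which involutions of PGL_2m(q) coming from a scalar of the quadratic extension field lie in PSL_2m(q), q odd: let μ generate the Sylow 2-subgroup of the multiplicative group of the field with q elements (μ has order the 2-part of q − 1) and let t be the block-diagonal matrix with m diagonal blocks [[0, 1], [μ, 0]] (so t² is the scalar μ and t is an involution modulo scalars). Then some non-zero scalar multiple of t has determinant one if and only if q ≡ 3 (mod 4) or the 2-part of q − 1 is less than the 2-part of 2m. -/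
theorem result {F : Type*} [Field F] [Fintype F] {q : ℕ} (hF : Fintype.card F = q) (hq : Odd q) {m : ℕ} (hm : 1 ≤ m) (μ : F) (hμ : orderOf μ = 2 ^ padicValNat 2 (q - 1)) : (∃ c : F, c ≠ 0 ∧ (c • Matrix.blockDiagonal (fun _ : Fin m => !![(0 : F), 1; μ, 0])).det = 1) ↔ (q % 4 = 3 ∨ padicValNat 2 (q - 1) < padicValNat 2 (2 * m)) := by
  classical
  have hdet : ∀ c : F, (c • Matrix.blockDiagonal
      (fun _ : Fin m => !![(0 : F), 1; μ, 0])).det = c ^ (2 * m) * (-μ) ^ m := by
    intro c
    rw [Matrix.det_smul, Matrix.det_blockDiagonal, Fintype.card_prod, Fintype.card_fin,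
      Fintype.card_fin, Finset.prod_const, Finset.card_univ, Fintype.card_fin,
      Matrix.det_fin_two_of]
    congr 2
    ring
  have hchar : ringChar F ≠ 2 := by
    intro h
    have h1 := FiniteField.even_card_of_char_two h
    rw [hF] at h1
    have h2 := Nat.odd_iff.mp hq
    omega
  have hne : (-1 : F) ≠ 1 := Ring.neg_one_ne_one_of_char_ne_two hchar
  have hpow : ∀ c : F, c ≠ 0 → c ^ (q - 1) = 1 := by
    intro c hc
    rw [← hF]
    exact FiniteField.pow_card_sub_one_eq_one c hc
  have hq2 : 2 ≤ q := by rw [← hF]; exact Fintype.one_lt_card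
  obtain ⟨k, m', hm'odd, hm'⟩ := Nat.exists_eq_two_pow_mul_odd (n := m) (by omega)
  obtain ⟨b, r, hrodd, hr⟩ := Nat.exists_eq_two_pow_mul_odd (n := q - 1) (by omega)
  have hval : ∀ k r : ℕ, Odd r → padicValNat 2 (2 ^ k * r) = k := by
    intro k r hr
    rw [padicValNat.mul (by positivity) hr.pos.ne', padicValNat.prime_pow,
      padicValNat.eq_zero_of_not_dvd hr.not_two_dvd_nat, add_zero]
  have va : padicValNat 2 (2 * m) = k + 1 := by
    have h1 : 2 * m = 2 ^ (k + 1) * m' := by rw [hm', pow_succ]; ring
    rw [h1]; exact hval (k + 1) m' hm'odd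
  have vb : padicValNat 2 (q - 1) = b := by rw [hr]; exact hval b r hrodd
  rw [va, vb]
  rw [vb] at hμ
  have hμpow : μ ^ (2 ^ b) = 1 := by rw [← hμ]; exact pow_orderOf_eq_one μ
  have hb1 : 1 ≤ b := by
    by_contra hb
    have hb0 : b = 0 := by omega
    rw [hb0, pow_zero, one_mul] at hr
    obtain ⟨x, hx⟩ := hq
    obtain ⟨y, hy⟩ := hrodd
    omega
  have hsq : ∀ s : F, s ^ 2 = 1 → s ≠ 1 → s = -1 := by
    intro s hs2 hs1
    have h3 : (s - 1) * (s + 1) = 0 := by linear_combination hs2
    rcases mul_eq_zero.mp h3 with h4 | h4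
    · exact absurd (sub_eq_zero.mp h4) hs1
    · exact eq_neg_of_add_eq_zero_left h4
  constructor
  · rintro ⟨c, hc0, hc⟩
    rw [hdet] at hc
    by_cases h3 : q % 4 = 3
    · exact Or.inl h3
    · right
      by_contra hlt
      obtain ⟨d, hd⟩ := Nat.exists_eq_add_of_le (not_lt.mp hlt)
      have hkd : 1 ≤ k + d := by
        by_contra hcon
        have hb' : b = 1 := by omega
        rw [hb', pow_one] at hr
        obtain ⟨y, hy⟩ := hrodd
        omega
      have h1 : (c ^ (2 * m)) ^ (2 ^ d * r) = 1 := by
        have h2 : 2 * m * (2 ^ d * r) = (q - 1) * m' := by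
          rw [hm', hr, hd, pow_add, pow_add]; ring
        rw [← pow_mul, h2, pow_mul, hpow c hc0, one_pow]
      have hs : μ ^ (2 ^ (k + d)) = -1 := by
        apply hsq
        · rw [← pow_mul, ← pow_succ]
          have h4 : k + d + 1 = b := by omega
          rw [h4]; exact hμpow
        · apply pow_ne_one_of_lt_orderOf (by positivity)
          rw [hμ]
          exact Nat.pow_lt_pow_right (by norm_num) (by omega)
      have h5 : ((-μ) ^ m) ^ (2 ^ d * r) = -1 := by
        have h6 : m * (2 ^ d * r) = 2 ^ (k + d) * (m' * r) := by rw [hm', pow_add]; ring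
        rw [← pow_mul, h6, pow_mul, neg_pow μ, hs,
          (Nat.even_pow.mpr ⟨even_two, by omega⟩ : Even (2 ^ (k + d))).neg_one_pow, one_mul,
          (hm'odd.mul hrodd).neg_one_pow]
      have h7 := congrArg (fun t => t ^ (2 ^ d * r)) hc
      simp only [mul_pow, one_pow] at h7
      rw [h1, h5, one_mul] at h7
      exact hne h7
  · intro hor
    refine ⟨1, one_ne_zero, ?_⟩
    rw [hdet, one_pow, one_mul]
    rcases hor with h3 | hlt
    · have hb' : b = 1 := by
        by_contra hcon
        obtain ⟨d, hd⟩ := Nat.exists_eq_add_of_le (show 2 ≤ b by omega)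
        have h4 : q - 1 = 4 * (2 ^ d * r) := by rw [hr, hd, pow_add]; ring
        omega
      rw [hb', pow_one] at hμpow hμ
      have h5 : μ = -1 := by
        apply hsq μ hμpow
        intro h
        rw [h, orderOf_one] at hμ
        omega
      rw [h5, neg_neg, one_pow]
    · obtain ⟨d, hd⟩ := Nat.exists_eq_add_of_le (show b ≤ k by omega)
      have h6 : m = 2 ^ b * (2 ^ d * m') := by rw [hm', hd, pow_add]; ring
      rw [h6, pow_mul, neg_pow μ, hμpow,
        (Nat.even_pow.mpr ⟨even_two, by omega⟩ : Even (2 ^ b)).neg_one_pow, one_mul, one_pow]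

end Cfsg.Agent.S2576
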