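import Cfsg.Statements.S2585
import Mathlib

set_option autoImplicit false
open Cfsg

namespace Cfsg.Agent.S2585

theorem symp_explicit {F : Type*} [Field F] {m : ℕ} (x y : Fin m ⊕ Fin m → F) :
    Cfsg.sympForm m F x y = ∑ i : Fin m, (x (Sum.inr i) * y (Sum.inl i) - x (Sum.inl i) * y (Sum.inr i)) := by
  unfold Cfsg.sympForm Matrix.J
  rw [dotProduct, Fintype.sum_sum_type, Finset.sum_sub_distrib]
  have h1 : ∀ i : Fin m, (Matrix.fromBlocks (0 : Matrix (Fin m) (Fin m) F) (-1 : Matrix (Fin m) (Fin m) F) (1 : Matrix (Fin m) (Fin m) F) (0 : Matrix (Fin m) (Fin m) F)).mulVec y (Sum.inl i) = - y (Sum.inr i) := by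
    intro i
    rw [Matrix.fromBlocks_mulVec]
    simp [Matrix.neg_mulVec]
  have h2 : ∀ i : Fin m, (Matrix.fromBlocks (0 : Matrix (Fin m) (Fin m) F) (-1 : Matrix (Fin m) (Fin m) F) (1 : Matrix (Fin m) (Fin m) F) (0 : Matrix (Fin m) (Fin m) F)).mulVec y (Sum.inr i) = y (Sum.inl i) := by
    intro i
    rw [Matrix.fromBlocks_mulVec]
    simp
  simp only [h1, h2, mul_neg, Finset.sum_neg_distrib]
  ring

noncomputable def Q0 (F : Type*) [Field F] (m : ℕ) : QuadraticForm F (Fin m ⊕ Fin m → F) :=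
  ∑ i : Fin m, QuadraticMap.linMulLin (LinearMap.proj (Sum.inl i)) (LinearMap.proj (Sum.inr i))

theorem Q0_apply {F : Type*} [Field F] {m : ℕ} (x : Fin m ⊕ Fin m → F) :
    Q0 F m x = ∑ i : Fin m, x (Sum.inl i) * x (Sum.inr i) := by
  simp [Q0]

theorem Q0_add {F : Type*} [Field F] [CharP F 2] {m : ℕ} (x y : Fin m ⊕ Fin m → F) :
    Q0 F m (x + y) = Q0 F m x + Q0 F m y + Cfsg.sympForm m F x y := by
  rw [Q0_apply, Q0_apply, Q0_apply, symp_explicit, ← Finset.sum_add_distrib, ← Finset.sum_add_distrib]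
  apply Finset.sum_congr rfl
  intro i _
  simp only [Pi.add_apply, CharTwo.sub_eq_add]
  ring

theorem symp_repr {F : Type*} [Field F] {m : ℕ} (φ : (Fin m ⊕ Fin m → F) →ₗ[F] F) :
    ∃ y, ∀ x, φ x = Cfsg.sympForm m F x y := by
  classical
  refine ⟨(-Matrix.J (Fin m) F).mulVec (fun i => φ (Pi.single i 1)), ?_⟩
  intro x
  unfold Cfsg.sympForm
  rw [Matrix.mulVec_mulVec, Matrix.mul_neg, Matrix.J_squared, neg_neg, Matrix.one_mulVec]
  conv_lhs => rw [pi_eq_sum_univ x]
  rw [map_sum, dotProduct]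
  apply Finset.sum_congr rfl
  intro i _
  rw [map_smul, smul_eq_mul]
  congr 2
  ext j
  simp [Pi.single_apply, eq_comm]


/-- Over a finite field of characteristic two every element of the symplectic group is orthogonal for a suitable quadratic form: for each A in Sp_2m(F) there is a quadratic form Q on F^(2m) whose polar form is the alternating form defining Sp_2m(F) (so Q is non-degenerate) and which A preserves. Equivalently, for m ≥ 1, Sp_2m(F) is the union of the conjugates of its two orthogonal subgroups O⁺_2m(F) and O⁻_2m(F). -/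
theorem result {F : Type*} [Field F] [Fintype F] [CharP F 2] {m : ℕ} (A : Matrix.symplecticGroup (Fin m) F) : ∃ Q : QuadraticForm F (Fin m ⊕ Fin m → F), (∀ u v : Fin m ⊕ Fin m → F, QuadraticMap.polar ⇑Q u v = Cfsg.sympForm m F u v) ∧ ∀ v : Fin m ⊕ Fin m → F, Q ((A : Matrix (Fin m ⊕ Fin m) (Fin m ⊕ Fin m) F).mulVec v) = Q v := by
  classical
  have : Fact (Nat.Prime 2) := ⟨Nat.prime_two⟩
  set U : Matrix (Fin m ⊕ Fin m) (Fin m ⊕ Fin m) F := (A : Matrix (Fin m ⊕ Fin m) (Fin m ⊕ Fin m) F) with hU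
  set Ui : Matrix (Fin m ⊕ Fin m) (Fin m ⊕ Fin m) F := ((A⁻¹ : Matrix.symplecticGroup (Fin m) F) : Matrix (Fin m ⊕ Fin m) (Fin m ⊕ Fin m) F) with hUi
  have hUUi : U * Ui = 1 := congrArg Subtype.val (mul_inv_cancel A)
  have hUiU : Ui * U = 1 := congrArg Subtype.val (inv_mul_cancel A)
  have hsymp : U.transpose * Matrix.J (Fin m) F * U = Matrix.J (Fin m) F := SymplecticGroup.mem_iff'.1 A.2
  -- the bilinear form
  let Bf : LinearMap.BilinForm F (Fin m ⊕ Fin m → F) := Matrix.toBilin' (Matrix.J (Fin m) F)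
  have hBf : ∀ x y, Bf x y = Cfsg.sympForm m F x y := fun x y => Matrix.toBilin'_apply' _ _ _
  have hinv : ∀ x y, Cfsg.sympForm m F (U.mulVec x) (U.mulVec y) = Cfsg.sympForm m F x y := by
    intro x y
    unfold Cfsg.sympForm
    rw [dotProduct_comm, Matrix.dotProduct_mulVec, ← Matrix.mulVec_transpose, Matrix.mulVec_mulVec, Matrix.mulVec_mulVec,
      hsymp, dotProduct_comm]
  have hinv2 : ∀ x c, Cfsg.sympForm m F (U.mulVec x) c = Cfsg.sympForm m F x (Ui.mulVec c) := by
    intro x c
    rw [← hinv x (Ui.mulVec c), Matrix.mulVec_mulVec, hUUi, Matrix.one_mulVec]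
  -- the defect
  let D : (Fin m ⊕ Fin m → F) → F := fun v => Q0 F m (U.mulVec v) + Q0 F m v
  have hDadd : ∀ x y, D (x + y) = D x + D y := by
    intro x y
    simp only [D, Matrix.mulVec_add, Q0_add, hinv]
    have : Cfsg.sympForm m F x y + Cfsg.sympForm m F x y = 0 := CharTwo.add_self_eq_zero _
    linear_combination this
  have hDsmul : ∀ (c : F) x, D (c • x) = c ^ 2 * D x := by
    intro c x
    simp only [D, Matrix.mulVec_smul, QuadraticMap.map_smul, smul_eq_mul]
    ring
  let μ : (Fin m ⊕ Fin m → F) →ₗ[F] F :=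
    { toFun := fun v => (frobeniusEquiv F 2).symm (D v)
      map_add' := by intro x y; rw [hDadd, map_add]
      map_smul' := by
        intro c x
        rw [hDsmul, map_mul, frobeniusEquiv_symm_pow]
        rfl }
  have hμ : ∀ v, μ v ^ 2 = D v := fun v => frobeniusEquiv_symm_pow_p F 2 (D v)
  obtain ⟨w, hw⟩ := symp_repr μ
  -- w lies in the range of Ui + 1
  have hrange : w ∈ LinearMap.range (Matrix.mulVecLin (Ui + 1)) := by
    rw [← Subspace.forall_mem_dualAnnihilator_apply_eq_zero_iff]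
    intro φ hφ
    obtain ⟨y, hy⟩ := symp_repr φ
    rw [Submodule.mem_dualAnnihilator] at hφ
    -- f((Ui+1) x, y) = 0 for all x
    have h1 : ∀ x, Cfsg.sympForm m F ((Ui + 1).mulVec x) y = 0 := by
      intro x
      rw [← hy]; exact hφ _ ⟨x, rfl⟩
    -- hence U y = y
    have h2 : ∀ x, Cfsg.sympForm m F x (U.mulVec y + y) = 0 := by
      intro x
      have h3 := h1 (U.mulVec x)
      rw [Matrix.add_mulVec, Matrix.mulVec_mulVec, hUiU, Matrix.one_mulVec, Matrix.one_mulVec] at h3
      rw [← hBf, map_add, hBf, hBf]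
      rw [← hBf, map_add, LinearMap.add_apply, hBf, hBf] at h3
      have h4 : Cfsg.sympForm m F (U.mulVec x) y = Cfsg.sympForm m F x (Ui.mulVec y) := hinv2 x y
      have h5 : Cfsg.sympForm m F x (U.mulVec y) = Cfsg.sympForm m F (Ui.mulVec x) y := by
        rw [← hinv (Ui.mulVec x) y, Matrix.mulVec_mulVec, hUUi, Matrix.one_mulVec]
      have h6 := h1 x
      rw [Matrix.add_mulVec, Matrix.one_mulVec, ← hBf, map_add, LinearMap.add_apply, hBf, hBf] at h6
      rw [h5]; exact h6
    have h7 : U.mulVec y + y = 0 := by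
      have h8 : (Matrix.J (Fin m) F).mulVec (U.mulVec y + y) = 0 := by
        apply dotProduct_eq_zero
        intro x
        rw [dotProduct_comm]
        exact h2 x
      have h9 := congrArg (fun z => (-Matrix.J (Fin m) F).mulVec z) h8
      simp only [Matrix.mulVec_mulVec, Matrix.neg_mul, Matrix.J_squared, neg_neg, Matrix.one_mulVec,
        Matrix.mulVec_zero] at h9
      exact h9
    have h10 : U.mulVec y = y := by
      funext i
      have := congrFun h7 i
      exact CharTwo.add_eq_zero.1 this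
    have h11 : D y = 0 := by
      simp only [D, h10]; exact CharTwo.add_self_eq_zero _
    have h12 : μ y = 0 := by
      have := hμ y
      rw [h11] at this
      exact pow_eq_zero_iff (two_ne_zero) |>.1 this
    -- φ w = f(w,y) = f(y,w) up to sign
    rw [hy]
    have h13 : Cfsg.sympForm m F w y = - Cfsg.sympForm m F y w := by
      rw [symp_explicit, symp_explicit, ← Finset.sum_neg_distrib]
      apply Finset.sum_congr rfl
      intro i _; ring
    rw [h13, ← hw, h12, neg_zero]
  obtain ⟨c, hc⟩ := hrange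
  have hc' : Ui.mulVec c + c = w := by
    rw [← hc]; simp [Matrix.add_mulVec]
  let lam : (Fin m ⊕ Fin m → F) →ₗ[F] F := Bf.flip c
  have hlam : ∀ v, lam v = Cfsg.sympForm m F v c := fun v => hBf v c
  refine ⟨Q0 F m + QuadraticMap.linMulLin lam lam, ?_, ?_⟩
  · intro x y
    unfold QuadraticMap.polar
    simp only [add_apply, QuadraticMap.linMulLin_apply, Q0_add, map_add]
    have : lam x * lam y + lam x * lam y = 0 := CharTwo.add_self_eq_zero _
    linear_combination this
  · intro v
    simp only [add_apply, QuadraticMap.linMulLin_apply, hlam]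
    have h1 : D v = (Cfsg.sympForm m F v w) ^ 2 := by rw [← hw, hμ]
    have h2 : Cfsg.sympForm m F v w = Cfsg.sympForm m F (U.mulVec v) c + Cfsg.sympForm m F v c := by
      rw [← hc', ← hBf, map_add, hBf, hBf, hinv2]
    rw [h2] at h1
    have h3 : Q0 F m (U.mulVec v) + Q0 F m v = (Cfsg.sympForm m F (U.mulVec v) c + Cfsg.sympForm m F v c) ^ 2 := h1
    have h4 : (2 : F) = 0 := CharTwo.two_eq_zero
    have h5 : Q0 F m v + Q0 F m v = 0 := CharTwo.add_self_eq_zero _
    have h6 : Cfsg.sympForm m F v c * Cfsg.sympForm m F v c + Cfsg.sympForm m F v c * Cfsg.sympForm m F v c = 0 :=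
      CharTwo.add_self_eq_zero _
    linear_combination h3 - h5 + (Cfsg.sympForm m F (U.mulVec v) c * Cfsg.sympForm m F v c) * h4 + (Cfsg.sympForm m F (U.mulVec v) c ^ 2) * h4
end Cfsg.Agent.S2585
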