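import Cfsg.Statements.S2594
import Cfsg.Agent.Lib.Helper4.PSpA
import Cfsg.Agent.Lib.Helper5.SympCard
import Cfsg.Agent.Lib.Helper5.SympTrans

set_option autoImplicit false
open Cfsg

namespace Cfsg.Agent.S2594

open Cfsg.Agent.Lib.Helper4 Cfsg.Agent.Lib.Helper4.PSp Matrix
open Cfsg.Agent.Lib.Helper5.Symp Cfsg.Agent.Lib.Helper5.SympGen Cfsg.Agent.Lib.Helper5.SympBridge
  Cfsg.Agent.Lib.Helper5.SympPerfect Cfsg.Agent.Lib.Helper5.SympCard Cfsg.Agent.Lib.Helper5.SympTrans

attribute [local instance] actV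

theorem cent_eq_stab {F : Type*} [Field F] [CharP F 2] {m : ℕ} (v : Fin m ⊕ Fin m → F) (hv : v ≠ 0) :
    Subgroup.centralizer ({tv v 1} : Set ↥(Matrix.symplecticGroup (Fin m) F)) =
      MulAction.stabilizer (Matrix.symplecticGroup (Fin m) F) v := by
  ext g
  rw [Subgroup.mem_centralizer_singleton_iff, MulAction.mem_stabilizer_iff]
  change _ ↔ act g v = v
  constructor
  · intro h
    have h1 : tv (act g v) 1 = tv v 1 := by
      rw [← conj_tv', h, mul_inv_cancel_right]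
    have hgv : act g v ≠ 0 := fun h0 => hv (act_eq_zero g h0)
    obtain ⟨c, hc⟩ := par_of_tv_eq' hgv one_ne_zero h1
    rw [hc, tv_smul, mul_one] at h1
    obtain ⟨x, hx⟩ := exists_one hv
    have h2 : act (tv v (c ^ 2)) x = act (tv v 1) x := by rw [h1]
    rw [act_tv, act_tv] at h2
    have h3 := add_left_cancel h2
    have hx' : sympB m F x v ≠ 0 := by rw [B_swap, hx]; simp
    have h4 : (c ^ 2 * sympB m F x v - 1 * sympB m F x v) • v = 0 := by rw [sub_smul, h3, sub_self]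
    have h5 : c ^ 2 * sympB m F x v - 1 * sympB m F x v = 0 := (smul_eq_zero.1 h4).resolve_right hv
    have h6 : (c ^ 2 - 1) * sympB m F x v = 0 := by linear_combination h5
    have h7 : c ^ 2 - 1 = 0 := (mul_eq_zero.1 h6).resolve_right hx'
    have h8 : (c - 1) ^ 2 = 0 := by
      have h2F : (2 : F) = 0 := CharTwo.two_eq_zero
      linear_combination h7 - c * h2F + h2F
    have h9 : c = 1 := by
      have := pow_eq_zero_iff (two_ne_zero) |>.1 h8
      linear_combination this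
    rw [hc, h9, one_smul]
  · intro h
    have h1 := conj_tv' g v (1 : F)
    rw [h] at h1
    calc g * tv v 1 = (g * tv v 1 * g⁻¹) * g := by group
      _ = _ := by rw [h1]

theorem card_stab {F : Type*} [Field F] [Fintype F] {m : ℕ} (v : Fin m ⊕ Fin m → F) (hv : v ≠ 0) :
    (Fintype.card F ^ (2 * m) - 1) * Nat.card (MulAction.stabilizer (Matrix.symplecticGroup (Fin m) F) v) =
      Nat.card (Matrix.symplecticGroup (Fin m) F) := by
  classical
  have h1 := Nat.card_congr (MulAction.orbitProdStabilizerEquivGroup (Matrix.symplecticGroup (Fin m) F) v)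
  rw [Nat.card_prod] at h1
  rw [← h1]
  congr 1
  have h3 : Nat.card {w : Fin m ⊕ Fin m → F | w ≠ 0} = Nat.card (Fin m ⊕ Fin m → F) - 1 := by
    have : ({w : Fin m ⊕ Fin m → F | w ≠ 0} : Set _) = ({0} : Set _)ᶜ := by ext w; simp
    rw [this, Nat.card_eq_fintype_card, Fintype.card_compl_set, Nat.card_eq_fintype_card]
    simp
  have h4 : Fintype.card F ^ (2 * m) - 1 = Nat.card {w : Fin m ⊕ Fin m → F | w ≠ 0} := by
    rw [h3, Nat.card_eq_fintype_card, Fintype.card_fun, Fintype.card_sum, Fintype.card_fin, two_mul]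
  rw [h4]
  apply Nat.card_congr
  apply Equiv.setCongr
  ext w
  constructor
  · intro hw
    obtain ⟨A, hA⟩ := exists_sp_vec v w hv hw
    exact ⟨A, hA⟩
  · rintro ⟨A, rfl⟩
    exact fun h0 => hv (act_eq_zero A h0)


/-- Over a finite field with q elements, q even, an element t of Sp_2m(F) with rank(t − 1) = 1 (a symplectic transvection) has centraliser in Sp_2m(F) of order q^(2m−1) · |Sp_(2m−2)(q)| = q^(2m−1) · q^((m−1)²) · Π_(i=1)^(m−1) (q^(2i) − 1). -/
theorem result {F : Type*} [Field F] [Fintype F] [CharP F 2] {q : ℕ} (hF : Fintype.card F = q) {m : ℕ} (hm : 1 ≤ m) (t : Matrix.symplecticGroup (Fin m) F) (ht : ((t : Matrix (Fin m ⊕ Fin m) (Fin m ⊕ Fin m) F) - 1).rank = 1) : Nat.card ↥(Subgroup.centralizer ({t} : Set ↥(Matrix.symplecticGroup (Fin m) F))) = q ^ (2 * m - 1) * (q ^ ((m - 1) ^ 2) * ∏ i : Fin (m - 1), (q ^ (2 * ((i : ℕ) + 1)) - 1)) := by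
  classical
  obtain ⟨w, c, hw, hc, rfl⟩ := eq_tv_of_rank t ht
  obtain ⟨a, ha⟩ : ∃ a : F, a ^ 2 = c := by
    have := (frobeniusEquiv F 2).surjective c
    obtain ⟨a, ha⟩ := this
    exact ⟨a, ha⟩
  have ha0 : a ≠ 0 := by
    rintro rfl
    apply hc
    rw [← ha]; simp
  have h1 : tv w c = tv (a • w) 1 := by rw [tv_smul, mul_one, ha]
  rw [h1, cent_eq_stab _ (smul_ne_zero ha0 hw)]
  have h2 := card_stab (a • w) (smul_ne_zero ha0 hw)
  rw [card_sp, hF] at h2
  obtain ⟨k, rfl⟩ : ∃ k, m = k + 1 := ⟨m - 1, by omega⟩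
  rw [Finset.prod_range_succ] at h2
  have hq : 2 ≤ q := by rw [← hF]; exact Fintype.one_lt_card
  have hpos : 0 < q ^ (2 * (k + 1)) - 1 := by
    have : 2 ≤ q ^ (2 * (k + 1)) := le_trans hq (Nat.le_self_pow (by omega) q)
    omega
  apply Nat.eq_of_mul_eq_mul_left hpos
  rw [h2, Nat.add_sub_cancel, ← Finset.prod_range (fun i => q ^ (2 * (i + 1)) - 1)]
  have e : (k + 1) ^ 2 = (2 * (k + 1) - 1) + k ^ 2 := by
    have : 2 * (k + 1) - 1 = 2 * k + 1 := by omega
    rw [this]; ring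
  rw [e, pow_add]
  ring
end Cfsg.Agent.S2594
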