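import Cfsg.Statements.S2599
import Mathlib

set_option autoImplicit false
open Cfsg

namespace Cfsg.Agent.S2599

open Matrix Module


/-- An irreducible invariant subspace of a semisimple isometry is non-degenerate or totally singular: let Q be a quadratic form on F^n (F finite of characteristic p) with non-degenerate polar form f, x an isometry of Q of order prime to p, and U a non-zero x-invariant subspace containing no x-invariant subspace other than 0 and U. Then U meets its f-orthogonal trivially, or Q vanishes on U, or p = 2, U is a line spanned by a non-singular vector and x fixes U pointwise. -/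
theorem result {F : Type*} [Field F] [Fintype F] {p : ℕ} [Fact p.Prime] [CharP F p] {n : ℕ} (Q : QuadraticForm F (Fin n → F)) (hQ : (QuadraticMap.polarBilin Q).Nondegenerate) (x : ↥(Cfsg.isometryGroup F ⇑Q)) (hx : (orderOf x).Coprime p) (U : Submodule F (Fin n → F)) (hU0 : U ≠ ⊥) (hUx : ∀ u ∈ U, ((x : Matrix.GeneralLinearGroup (Fin n) F) : Matrix (Fin n) (Fin n) F).mulVec u ∈ U) (hirr : ∀ W : Submodule F (Fin n → F), W ≤ U → (∀ w ∈ W, ((x : Matrix.GeneralLinearGroup (Fin n) F) : Matrix (Fin n) (Fin n) F).mulVec w ∈ W) → W = ⊥ ∨ W = U) : U ⊓ LinearMap.BilinForm.orthogonal (QuadraticMap.polarBilin Q) U = ⊥ ∨ (∀ u ∈ U, Q u = 0) ∨ (p = 2 ∧ Module.finrank F U = 1 ∧ (∃ u ∈ U, Q u ≠ 0) ∧ ∀ u ∈ U, ((x : Matrix.GeneralLinearGroup (Fin n) F) : Matrix (Fin n) (Fin n) F).mulVec u = u) := by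
  classical
  set X : Matrix (Fin n) (Fin n) F := ((x : Matrix.GeneralLinearGroup (Fin n) F) :
    Matrix (Fin n) (Fin n) F) with hX
  set f := QuadraticMap.polarBilin Q with hf
  have hfa : ∀ u v, f u v = Q (u + v) - Q u - Q v := fun u v => rfl
  have hQx : ∀ u, Q (X *ᵥ u) = Q u := fun u => x.2 u u
  have hfx : ∀ u v, f (X *ᵥ u) (X *ᵥ v) = f u v := by
    intro u v
    rw [hfa, hfa, ← mulVec_add, hQx, hQx, hQx]
  have hinjX : ∀ a b, X *ᵥ a = X *ᵥ b → a = b := by
    intro a b h
    have h2 := congr_arg (fun w => (x.1⁻¹).1 *ᵥ w) h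
    simp only [mulVec_mulVec] at h2
    rw [hX, ← Units.val_mul, inv_mul_cancel] at h2
    simpa using h2
  -- surjectivity on U
  have hUx' : ∀ u ∈ U, Matrix.toLin' X u ∈ U := fun u hu => by
    rw [toLin'_apply]; exact hUx u hu
  have hinj : Function.Injective ((Matrix.toLin' X).restrict hUx') := by
    intro a b hab
    have h1 := congr_arg Subtype.val hab
    simp only [LinearMap.coe_restrict_apply, toLin'_apply] at h1
    exact Subtype.ext (hinjX _ _ h1)
  have hsurj := LinearMap.injective_iff_surjective.1 hinj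
  have hsurjU : ∀ u ∈ U, ∃ u' ∈ U, X *ᵥ u' = u := by
    intro u hu
    obtain ⟨w, hw⟩ := hsurj ⟨u, hu⟩
    have h1 := congr_arg Subtype.val hw
    simp only [LinearMap.coe_restrict_apply, toLin'_apply] at h1
    exact ⟨w.1, w.2, h1⟩
  rcases hirr (U ⊓ LinearMap.BilinForm.orthogonal f U) inf_le_left (by
    rintro w ⟨hw1, hw2⟩
    refine ⟨hUx w hw1, ?_⟩
    intro u hu
    obtain ⟨u', hu', rfl⟩ := hsurjU u hu
    rw [hfx]
    exact hw2 u' hu') with hR | hR
  · exact Or.inl hR
  right
  have hperp : ∀ u ∈ U, ∀ v ∈ U, f u v = 0 := by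
    intro u hu v hv
    have : v ∈ U ⊓ LinearMap.BilinForm.orthogonal f U := by rw [hR]; exact hv
    exact this.2 u hu
  have hadd : ∀ u ∈ U, ∀ v ∈ U, Q (u + v) = Q u + Q v := by
    intro u hu v hv
    have := hperp u hu v hv
    rw [hfa] at this
    linear_combination this
  let U₀ : Submodule F (Fin n → F) :=
    { carrier := {u | u ∈ U ∧ Q u = 0}
      add_mem' := by
        rintro a b ⟨ha, ha'⟩ ⟨hb, hb'⟩
        exact ⟨U.add_mem ha hb, by rw [hadd a ha b hb, ha', hb', add_zero]⟩
      zero_mem' := ⟨U.zero_mem, map_zero Q⟩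
      smul_mem' := by
        rintro c a ⟨ha, ha'⟩
        exact ⟨U.smul_mem c ha, by rw [QuadraticMap.map_smul, ha', smul_zero]⟩ }
  rcases hirr U₀ (fun u hu => hu.1) (fun w hw => ⟨hUx w hw.1, by rw [hQx]; exact hw.2⟩)
    with h0 | h0
  · right
    have hne : ∀ u ∈ U, Q u = 0 → u = 0 := by
      intro u hu hq
      have : u ∈ U₀ := ⟨hu, hq⟩
      rw [h0] at this
      exact this
    obtain ⟨u₀, hu₀, hu₀ne⟩ := Submodule.exists_mem_ne_zero_of_ne_bot hU0
    have hQu₀ : Q u₀ ≠ 0 := fun h => hu₀ne (hne u₀ hu₀ h)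
    have hp2 : p = 2 := by
      by_contra hp
      apply hQu₀
      have h1 := hperp u₀ hu₀ u₀ hu₀
      rw [hfa, ← two_smul F u₀, QuadraticMap.map_smul, smul_eq_mul] at h1
      have h2 : (2 : F) * Q u₀ = 0 := by linear_combination h1
      have h3 : (2 : F) ≠ 0 := by
        intro h
        have : ((2 : ℕ) : F) = 0 := by exact_mod_cast h
        rw [CharP.cast_eq_zero_iff F p] at this
        have hp' : p.Prime := Fact.out
        exact hp ((Nat.prime_dvd_prime_iff_eq hp' Nat.prime_two).1 this)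
      exact (mul_eq_zero.1 h2).resolve_left h3
    subst hp2
    have h2F : (2 : F) = 0 := by
      have := CharP.cast_eq_zero F 2
      exact_mod_cast this
    have hkey : ∀ v ∈ U, ∃ c : F, c * c * Q u₀ = Q v ∧ v = c • u₀ := by
      intro v hv
      obtain ⟨c, hc⟩ := FiniteField.isSquare_of_char_two (ringChar.eq F 2) (Q v / Q u₀)
      have hc' : c * c * Q u₀ = Q v := by rw [← hc]; field_simp
      refine ⟨c, hc', ?_⟩
      have h1 : Q (v + c • u₀) = 0 := by
        rw [hadd v hv _ (U.smul_mem c hu₀), QuadraticMap.map_smul, smul_eq_mul, hc']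
        linear_combination (Q v) * h2F
      have h2 := hne _ (U.add_mem hv (U.smul_mem c hu₀)) h1
      have h3 : v = - (c • u₀) := eq_neg_of_add_eq_zero_left h2
      rw [h3, ← neg_smul]
      congr 1
      linear_combination (-c) * h2F
    refine ⟨rfl, ?_, ⟨u₀, hu₀, hQu₀⟩, ?_⟩
    · rw [finrank_eq_one_iff']
      refine ⟨⟨u₀, hu₀⟩, fun h => hu₀ne (congr_arg Subtype.val h), fun w => ?_⟩
      obtain ⟨c, -, hc⟩ := hkey w.1 w.2
      exact ⟨c, Subtype.ext hc.symm⟩
    · have hfix : X *ᵥ u₀ = u₀ := by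
        obtain ⟨c, hc1, hc2⟩ := hkey _ (hUx u₀ hu₀)
        rw [hQx] at hc1
        have h1 : c * c = 1 := mul_right_cancel₀ hQu₀ (by rw [hc1, one_mul])
        have h2 : (c - 1) * (c - 1) = 0 := by linear_combination h1 - c * h2F + h2F
        have h3 : c = 1 := by
          have := mul_self_eq_zero.1 h2
          linear_combination this
        rw [hc2, h3, one_smul]
      intro u hu
      obtain ⟨c, -, hc⟩ := hkey u hu
      rw [hc, mulVec_smul, hfix]
  · left
    intro u hu
    have : u ∈ U₀ := by rw [h0]; exact hu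
    exact this.2
end Cfsg.Agent.S2599
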