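import Cfsg.Statements.S2601
import Cfsg.Agent.Lib.Helper4.PSLnPhi
import Cfsg.Agent.S2602

set_option autoImplicit false
open Cfsg

namespace Cfsg.Agent.S2601

open Cfsg.Agent.Lib.Helper4.PSLn Matrix

/-- `diag(u, 1, …, 1)` -/
def Dfun {F : Type*} [Field F] {n : ℕ} (z : Fin n) (u : Fˣ) : GL (Fin n) F :=
  dgn (fun i => if i = z then (u : F) else 1) (by
    intro i
    by_cases h : i = z
    · simp [h]
    · simp [h])

def Dhom {F : Type*} [Field F] {n : ℕ} (z : Fin n) : Fˣ →* GL (Fin n) F :=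
  MonoidHom.mk' (Dfun z) (by
    intro u v
    apply Units.ext
    change diagonal _ = diagonal _ * diagonal _
    rw [diagonal_mul_diagonal]
    congr 1
    funext i
    by_cases h : i = z
    · simp [h]
    · simp [h])

theorem Dhom_val {F : Type*} [Field F] {n : ℕ} (z : Fin n) (u : Fˣ) :
    (Dhom z u).1 = diagonal (fun i => if i = z then (u : F) else 1) := rfl

theorem det_Dhom {F : Type*} [Field F] {n : ℕ} (z : Fin n) (u : Fˣ) : (Dhom z u).1.det = u := by
  rw [Dhom_val, det_diagonal]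
  simp [Finset.prod_ite_eq']

/-- conjugation by a matrix whose determinant is an `n`-th power is inner -/
theorem cbar_inner {F : Type*} [Field F] {n : ℕ} (P : GL (Fin n) F) (s : F) (hs : P.1.det = s ^ n) :
    ∃ x : ProjectiveSpecialLinearGroup (Fin n) F, cbar P = MulAut.conj x := by
  have hs0 : s ^ n ≠ 0 := by
    have : IsUnit P.1.det := (Matrix.isUnit_iff_isUnit_det _).1 P.isUnit
    rw [hs] at this
    exact this.ne_zero
  let P' : SpecialLinearGroup (Fin n) F := ⟨s⁻¹ • P.1, by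
    rw [Matrix.det_smul, hs, Fintype.card_fin, inv_pow]; exact inv_mul_cancel₀ hs0⟩
  refine ⟨QuotientGroup.mk P', ?_⟩
  rw [← cbar_toGL]
  ext x
  obtain ⟨g, rfl⟩ := QuotientGroup.mk_surjective x
  rw [cbar_mk, cbar_mk, conjSL_toGL]
  congr 1
  rw [eq_mul_inv_iff_mul_eq]
  apply Subtype.ext
  change P.1 * g.1 * (P⁻¹).1 * (s⁻¹ • P.1) = (s⁻¹ • P.1) * g.1
  rw [Matrix.mul_smul, mul_assoc _ _ P.1, Units.inv_mul, mul_one, Matrix.smul_mul]


/-- Structure of the outer automorphism group of PSL_n(q), n ≥ 3, q = p^f: it has a normal cyclic subgroup of order gcd(n, q − 1) (the diagonal automorphisms) whose quotient is the direct product of a cyclic group of order f (field automorphisms) and a group of order 2 (the inverse-transpose graph automorphism). -/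
theorem result {F : Type*} [Field F] [Fintype F] {p f n : ℕ} [Fact p.Prime] (hf : 1 ≤ f) (hF : Fintype.card F = p ^ f) (hn : 3 ≤ n) : ∃ φ : Cfsg.Out (Matrix.ProjectiveSpecialLinearGroup (Fin n) F) →* Multiplicative (ZMod f × ZMod 2), Function.Surjective φ ∧ IsCyclic φ.ker ∧ Nat.card φ.ker = Nat.gcd n (p ^ f - 1) := by
  classical
  obtain ⟨hcyc, hcard⟩ := Cfsg.Agent.S2602.ringAut_cyclic hF
  subst hcard
  let PSL := Matrix.ProjectiveSpecialLinearGroup (Fin n) F
  have hInn : ∀ x ∈ Cfsg.Inn PSL, Phi hn x = 1 := by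
    rintro _ ⟨y, rfl⟩
    obtain ⟨s, rfl⟩ := QuotientGroup.mk_surjective y
    rw [← cbar_toGL, ← MonoidHom.mem_ker, Phi_ker]
    exact ⟨_, rfl⟩
  let Φ : Cfsg.Out PSL →* RingAut F × Multiplicative (ZMod 2) := QuotientGroup.lift (Cfsg.Inn PSL) (Phi hn) hInn
  have hΦmk : ∀ α : MulAut PSL, Φ (QuotientGroup.mk α) = Phi hn α := fun α => rfl
  have hΦsurj : Function.Surjective Φ := by
    intro σ
    obtain ⟨α, hα⟩ := Phi_surjective hn σ
    exact ⟨QuotientGroup.mk α, hα⟩
  let e₁ : RingAut F ≃* Multiplicative (ZMod (Nat.card (RingAut F))) := (zmodCyclicMulEquiv hcyc).symm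
  let e : RingAut F × Multiplicative (ZMod 2) ≃* Multiplicative (ZMod (Nat.card (RingAut F)) × ZMod 2) :=
    (MulEquiv.prodCongr e₁ (MulEquiv.refl _)).trans (MulEquiv.prodMultiplicative _ _).symm
  have hker : (e.toMonoidHom.comp Φ).ker = Φ.ker := by
    ext x
    rw [MonoidHom.mem_ker, MonoidHom.mem_ker]
    exact map_eq_one_iff e e.injective
  refine ⟨e.toMonoidHom.comp Φ, e.surjective.comp hΦsurj, ?_⟩
  rw [hker]
  let z : Fin n := ⟨0, by omega⟩
  let θ : Fˣ →* Cfsg.Out PSL := (QuotientGroup.mk' (Cfsg.Inn PSL)).comp (cbar.comp (Dhom z))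
  have hθ : ∀ u, θ u = QuotientGroup.mk (cbar (Dhom z u)) := fun u => rfl
  have hA : Φ.ker = θ.range := by
    ext x
    rw [MonoidHom.mem_ker, MonoidHom.mem_range]
    constructor
    · intro hx
      obtain ⟨α, rfl⟩ := QuotientGroup.mk_surjective x
      rw [hΦmk, ← MonoidHom.mem_ker, Phi_ker] at hx
      obtain ⟨P, rfl⟩ := hx
      let u : Fˣ := Matrix.GeneralLinearGroup.det P
      refine ⟨u, ?_⟩
      rw [hθ, QuotientGroup.eq, ← map_inv, ← map_mul]
      obtain ⟨y, hy⟩ := cbar_inner ((Dhom z u)⁻¹ * P) 1 (by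
        rw [one_pow]
        have h1 : ((Dhom z u)⁻¹ * P).1.det = (Matrix.GeneralLinearGroup.det ((Dhom z u)⁻¹ * P) : Fˣ) := rfl
        have h2 : Matrix.GeneralLinearGroup.det (Dhom z u) = u := Units.ext (det_Dhom z u)
        rw [h1, map_mul, map_inv, h2]
        simp [u])
      rw [hy]
      exact ⟨y, rfl⟩
    · rintro ⟨u, rfl⟩
      rw [hθ, hΦmk, ← MonoidHom.mem_ker, Phi_ker]
      exact ⟨_, rfl⟩
  have hB : θ.ker = (powMonoidHom n : Fˣ →* Fˣ).range := by
    ext u
    rw [MonoidHom.mem_ker, MonoidHom.mem_range, hθ, QuotientGroup.eq_one_iff]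
    constructor
    · rintro ⟨y, hy⟩
      obtain ⟨s, rfl⟩ := QuotientGroup.mk_surjective y
      rw [← cbar_toGL] at hy
      have h1 : cbar ((SpecialLinearGroup.toGL s)⁻¹ * Dhom z u) = fbar (RingEquiv.refl F) := by
        rw [map_mul, map_inv, hy, inv_mul_cancel]
        exact fbar_one.symm
      obtain ⟨-, c, hc⟩ := cbar_eq_fbar (by omega) h1
      have h2 : ((SpecialLinearGroup.toGL s)⁻¹ * Dhom z u).1.det = u := by
        have h3 : ((SpecialLinearGroup.toGL s)⁻¹ * Dhom z u).1.det =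
          (Matrix.GeneralLinearGroup.det ((SpecialLinearGroup.toGL s)⁻¹ * Dhom z u) : Fˣ) := rfl
        have h4 : Matrix.GeneralLinearGroup.det (Dhom z u) = u := Units.ext (det_Dhom z u)
        have h5 : Matrix.GeneralLinearGroup.det (SpecialLinearGroup.toGL s) = 1 := Units.ext s.2
        rw [h3, map_mul, map_inv, h4, h5]
        simp
      rw [hc, Matrix.det_smul, Matrix.det_one, mul_one, Fintype.card_fin] at h2
      have hc0 : c ≠ 0 := by
        rintro rfl
        rw [zero_pow (by omega)] at h2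
        exact u.ne_zero h2.symm
      refine ⟨Units.mk0 c hc0, ?_⟩
      apply Units.ext
      rw [powMonoidHom_apply, Units.val_pow_eq_pow_val]
      exact h2
    · rintro ⟨c, rfl⟩
      obtain ⟨y, hy⟩ := cbar_inner (Dhom z (powMonoidHom n c)) (c : F) (by
        rw [det_Dhom, powMonoidHom_apply, Units.val_pow_eq_pow_val])
      exact ⟨y, hy.symm⟩
  rw [hA]
  refine ⟨isCyclic_of_surjective θ.rangeRestrict θ.rangeRestrict_surjective, ?_⟩
  rw [← Subgroup.index_ker, hB, IsCyclic.index_powMonoidHom_range, Nat.card_eq_fintype_card, Fintype.card_units, hF,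
    Nat.gcd_comm]
end Cfsg.Agent.S2601
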