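import Cfsg.Statements.S2603
import Cfsg.Agent.Lib.Helper4.PSUo
import Cfsg.Agent.S2602

set_option autoImplicit false
open Cfsg

namespace Cfsg.Agent.S2603

open Cfsg.Agent.Lib.Helper4.PSU Cfsg.Agent.Lib.Helper4.UniSU Matrix


/-- Structure of the outer automorphism group of PSU_n(q), n ≥ 3, (n, q) ≠ (3, 2), q = p^f, realised over the field with q² elements: it has a normal cyclic subgroup of order gcd(n, q + 1) (diagonal automorphisms) with cyclic quotient of order 2f (generated by the Frobenius field automorphism of the field with q² elements, whose f-th power is the graph automorphism). -/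
theorem result {K : Type*} [Field K] [Fintype K] {p f q n : ℕ} [Fact p.Prime] (hf : 1 ≤ f) (hq : q = p ^ f) (hK : Fintype.card K = q ^ 2) (hn : 3 ≤ n) (h32 : ¬ (n = 3 ∧ q = 2)) : ∃ φ : Cfsg.Out (Cfsg.PSU n K q) →* Multiplicative (ZMod (2 * f)), Function.Surjective φ ∧ IsCyclic φ.ker ∧ Nat.card φ.ker = Nat.gcd n (q + 1) := by
  classical
  obtain ⟨σ, hσ⟩ := Cfsg.Agent.Lib.Helper4.UniCount.exists_sig hK
  haveI : UC K q σ := ⟨hK, hσ⟩
  haveI : CharP K p := charP_of hq hK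
  have hK' : Fintype.card K = p ^ (2 * f) := by rw [hK, hq, ← pow_mul, mul_comm]
  obtain ⟨hcyc, hcard⟩ := Cfsg.Agent.S2602.ringAut_cyclic hK'
  obtain ⟨e⟩ : Nonempty (RingAut K ≃* Multiplicative (ZMod (2 * f))) := by
    rw [← hcard]; exact ⟨(zmodCyclicMulEquiv hcyc).symm⟩
  let PSU' := Cfsg.PSU n K q
  have hInn : ∀ x ∈ Cfsg.Inn PSU', Phi σ p hn h32 x = 1 := by
    rintro _ ⟨y, rfl⟩
    obtain ⟨s, rfl⟩ := QuotientGroup.mk_surjective y
    rw [← cbar_toGU (σ := σ), ← MonoidHom.mem_ker, Phi_ker]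
    exact ⟨_, rfl⟩
  let Φ : Cfsg.Out PSU' →* RingAut K := QuotientGroup.lift (Cfsg.Inn PSU') (Phi σ p hn h32) hInn
  have hΦmk : ∀ α : MulAut PSU', Φ (QuotientGroup.mk α) = Phi σ p hn h32 α := fun α => rfl
  have hΦsurj : Function.Surjective Φ := by
    intro τ
    obtain ⟨α, hα⟩ := Phi_surjective (σ := σ) (p := p) hn h32 τ
    exact ⟨QuotientGroup.mk α, hα⟩
  have hker : (e.toMonoidHom.comp Φ).ker = Φ.ker := by
    ext x
    rw [MonoidHom.mem_ker, MonoidHom.mem_ker]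
    exact map_eq_one_iff e e.injective
  refine ⟨e.toMonoidHom.comp Φ, e.surjective.comp hΦsurj, ?_⟩
  rw [hker]
  let z : Fin n := ⟨0, by omega⟩
  let θ : (powMonoidHom (q + 1) : Kˣ →* Kˣ).ker →* Cfsg.Out PSU' :=
    (QuotientGroup.mk' (Cfsg.Inn PSU')).comp ((cbar σ).comp (DGU σ z))
  have hθ : ∀ u, θ u = QuotientGroup.mk (cbar σ (DGU σ z u)) := fun u => rfl
  have hA : Φ.ker = θ.range := by
    ext x
    rw [MonoidHom.mem_ker, MonoidHom.mem_range]
    constructor
    · intro hx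
      obtain ⟨α, rfl⟩ := QuotientGroup.mk_surjective x
      rw [hΦmk, ← MonoidHom.mem_ker, Phi_ker] at hx
      obtain ⟨g, rfl⟩ := hx
      refine ⟨⟨detGU n K q g, det_mem (σ := σ) g⟩, ?_⟩
      rw [hθ, QuotientGroup.eq, ← map_inv, ← map_mul]
      obtain ⟨y, hy⟩ := cbar_inner (σ := σ) ((DGU σ z ⟨detGU n K q g, det_mem (σ := σ) g⟩)⁻¹ * g) 1 (by
        rw [map_mul, map_inv, det_DGU]
        simp)
      rw [hy]
      exact ⟨y, rfl⟩
    · rintro ⟨u, rfl⟩
      rw [hθ, hΦmk, ← MonoidHom.mem_ker, Phi_ker]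
      exact ⟨_, rfl⟩
  have hB : θ.ker = (powMonoidHom n : (powMonoidHom (q + 1) : Kˣ →* Kˣ).ker →* _).range := by
    ext u
    rw [MonoidHom.mem_ker, MonoidHom.mem_range, hθ, QuotientGroup.eq_one_iff]
    constructor
    · rintro ⟨y, hy⟩
      obtain ⟨s, rfl⟩ := QuotientGroup.mk_surjective y
      rw [← cbar_toGU (σ := σ)] at hy
      have h1 : (toGU σ s)⁻¹ * DGU σ z u ∈ (cbar σ : Cfsg.GU n K q →* MulAut PSU').ker := by
        rw [MonoidHom.mem_ker, map_mul, map_inv, hy, inv_mul_cancel]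
      rw [cbar_ker (p := p) hn] at h1
      obtain ⟨c, hc⟩ := h1
      refine ⟨c, ?_⟩
      have h2 := congrArg (detGU n K q) hc
      rw [det_scGU, map_mul, map_inv, det_DGU] at h2
      have h3 : detGU n K q (toGU σ s) = 1 := Units.ext s.1.2
      rw [h3, inv_one, one_mul] at h2
      exact Subtype.ext h2
    · rintro ⟨c, rfl⟩
      obtain ⟨y, hy⟩ := cbar_inner (σ := σ) (DGU σ z (powMonoidHom n c)) c (by
        rw [det_DGU]; rfl)
      exact ⟨y, hy.symm⟩
  rw [hA]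
  refine ⟨isCyclic_of_surjective θ.rangeRestrict θ.rangeRestrict_surjective, ?_⟩
  rw [← Subgroup.index_ker, hB, IsCyclic.index_powMonoidHom_range, card_norm_ker hK, Nat.gcd_comm]
end Cfsg.Agent.S2603
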