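import Mathlib
import Cfsg.Statements.S2610
import Cfsg.Agent.Lib.Helper5.SpinorDiag

set_option autoImplicit false
open Cfsg

namespace Cfsg.Agent.S2610


open Matrix Cfsg.Agent.Lib.Helper5.SpinorDiag Cfsg.Agent.Lib.Helper5.Spinor QuadraticMap
  Cfsg.Agent.Lib.Helper5.Orth

theorem isSquare_sq_mul {F : Type*} [Field F] (s x : F) (hs : s ≠ 0) :
    IsSquare (s ^ 2 * x) ↔ IsSquare x := by
  constructor
  · rintro ⟨r, hr⟩
    refine ⟨r / s, ?_⟩
    field_simp
    linear_combination hr
  · rintro ⟨r, rfl⟩
    exact ⟨s * r, by ring⟩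

/-- For a quadratic form Q on F^n with non-degenerate polar form, F finite of odd order and n ≥ 2 even, the isometry −1 lies in Ω (the commutator subgroup of the orthogonal group) if and only if the discriminant of Q (the determinant of the Gram matrix of its polar form) is a square. -/
theorem result {F : Type*} [Field F] [Fintype F] (h2 : (2 : F) ≠ 0) {n : ℕ} (hn : 2 ≤ n) (he : Even n) (Q : QuadraticForm F (Fin n → F)) (hQ : (QuadraticMap.polarBilin Q).Nondegenerate) : (∃ g : ↥(Cfsg.isometryGroup F ⇑Q), g ∈ Cfsg.Omega F ⇑Q ∧ ((g : Matrix.GeneralLinearGroup (Fin n) F) : Matrix (Fin n) (Fin n) F) = -1) ↔ IsSquare (Matrix.of (fun i j : Fin n => QuadraticMap.polar ⇑Q (Pi.single i 1) (Pi.single j 1))).det := by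
  classical
  have _inst : Invertible (2 : F) := invertibleOfNonzero h2
  have hsymm : LinearMap.IsSymm (QuadraticMap.polarBilin Q) :=
    ⟨fun x y => QuadraticMap.polar_comm _ _ _⟩
  obtain ⟨b0, hb0⟩ := LinearMap.BilinForm.exists_orthogonal_basis hsymm
  have hfr : Module.finrank F (Fin n → F) = n := by simp
  let b : Module.Basis (Fin n) F (Fin n → F) := b0.reindex (finCongr hfr)
  have hbo : ∀ i j, i ≠ j → QuadraticMap.polar ⇑Q (b i) (b j) = 0 := by
    intro i j hij
    simp only [b, Module.Basis.reindex_apply]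
    exact hb0 (fun h => hij ((finCongr hfr).symm.injective h))
  have hbne : ∀ i, Q (b i) ≠ 0 := by
    intro i h0
    simp only [b, Module.Basis.reindex_apply] at h0
    have := LinearMap.BilinForm.iIsOrtho.not_isOrtho_basis_self_of_nondegenerate hb0 hQ
      ((finCongr hfr).symm i)
    apply this
    show QuadraticMap.polar ⇑Q _ _ = 0
    rw [polar_self', h0, mul_zero]
  have key := neg_family Q h2 hQ (by simpa using hn) b hbne hbo (-1)
    (fun j => by rw [neg_mulVec, one_mulVec]) (by
      intro x hx
      have hx0 : x = 0 := by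
        apply hQ.2 x
        intro y
        have : (QuadraticMap.polarBilin Q).flip x = 0 := by
          apply b.ext
          intro j
          exact hx j
        exact LinearMap.congr_fun this y
      rw [hx0, mulVec_zero])
  rw [key, Fintype.card_fin]
  have hG : Matrix.of (fun i j : Fin n => QuadraticMap.polar ⇑Q (Pi.single i 1) (Pi.single j 1)) =
      LinearMap.BilinForm.toMatrix (Pi.basisFun F (Fin n)) (QuadraticMap.polarBilin Q) := by
    ext i j
    rw [LinearMap.BilinForm.toMatrix_apply]
    simp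
  have hD : LinearMap.BilinForm.toMatrix b (QuadraticMap.polarBilin Q) =
      Matrix.diagonal (fun j => 2 * Q (b j)) := by
    ext i j
    rw [LinearMap.BilinForm.toMatrix_apply]
    by_cases hij : i = j
    · subst hij
      rw [Matrix.diagonal_apply_eq]
      exact polar_self' Q _
    · rw [Matrix.diagonal_apply_ne _ hij]
      exact hbo i j hij
  have hmul := LinearMap.BilinForm.toMatrix_mul_basis_toMatrix (Pi.basisFun F (Fin n)) b
    (QuadraticMap.polarBilin Q)
  have hdet := congrArg Matrix.det hmul
  rw [hD, Matrix.det_mul, Matrix.det_mul, Matrix.det_transpose, Matrix.det_diagonal, ← hG,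
    Finset.prod_mul_distrib, Finset.prod_const, Finset.card_univ, Fintype.card_fin] at hdet
  have hP : ((Pi.basisFun F (Fin n)).toMatrix b).det ≠ 0 := by
    have := (Pi.basisFun F (Fin n)).isUnit_det b
    rw [Module.Basis.det_apply] at this
    exact this.ne_zero
  obtain ⟨k, hk⟩ := he
  have h2n : (2 : F) ^ n = ((2 : F) ^ k) ^ 2 := by
    rw [← pow_mul, hk]; congr 1; ring
  have e1 : IsSquare ((2 : F) ^ n * ∏ j, Q (b j)) ↔ IsSquare (∏ j, Q (b j)) := by
    rw [h2n]
    exact isSquare_sq_mul _ _ (pow_ne_zero _ h2)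
  have e2 : ((Pi.basisFun F (Fin n)).toMatrix b).det ^ 2 *
      (Matrix.of (fun i j : Fin n => QuadraticMap.polar ⇑Q (Pi.single i 1) (Pi.single j 1))).det =
      ((Pi.basisFun F (Fin n)).toMatrix b).det *
      (Matrix.of (fun i j : Fin n => QuadraticMap.polar ⇑Q (Pi.single i 1) (Pi.single j 1))).det *
      ((Pi.basisFun F (Fin n)).toMatrix b).det := by ring
  rw [← e1, ← hdet, ← e2, isSquare_sq_mul _ _ hP]
  exact ⟨fun h => h.2, fun h => ⟨⟨k, hk⟩, h⟩⟩

end Cfsg.Agent.S2610
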