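import Cfsg.Statements.S2616
import Mathlib
import Cfsg.Agent.Lib.Helper4.QuadFin

set_option autoImplicit false
open Cfsg

namespace Cfsg.Agent.S2616



/-- Standard bases of a non-degenerate quadratic space of even dimension 2m over a finite field: either there is a hyperbolic basis e_i, f_i (Q(e_i) = Q(f_i) = 0, B(e_i, f_j) = δ_ij, the e's pairwise orthogonal and the f's pairwise orthogonal, B the polar form), or there is an elliptic basis: hyperbolic pairs e_i, f_i for i < m − 1 together with x, y orthogonal to them with Q(x) = 1, B(x, y) = 1, Q(y) = ζ where t² + t + ζ has no root in the field. -/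
theorem result {F V : Type*} [Field F] [Finite F] [AddCommGroup V] [Module F V] [FiniteDimensional F V] {m : ℕ} (hm : 1 ≤ m) (hV : Module.finrank F V = 2 * m) (Q : QuadraticForm F V) (hQ : (QuadraticMap.polarBilin Q).Nondegenerate) : (∃ b : Module.Basis (Fin m ⊕ Fin m) F V, (∀ i, Q (b (Sum.inl i)) = 0 ∧ Q (b (Sum.inr i)) = 0) ∧ (∀ i j, QuadraticMap.polar ⇑Q (b (Sum.inl i)) (b (Sum.inr j)) = if i = j then 1 else 0) ∧ (∀ i j, QuadraticMap.polar ⇑Q (b (Sum.inl i)) (b (Sum.inl j)) = 0 ∧ QuadraticMap.polar ⇑Q (b (Sum.inr i)) (b (Sum.inr j)) = 0)) ∨ (∃ (b : Module.Basis ((Fin (m - 1) ⊕ Fin (m - 1)) ⊕ Fin 2) F V) (ζ : F), (∀ t : F, t ^ 2 + t + ζ ≠ 0) ∧ (∀ i, Q (b (Sum.inl (Sum.inl i))) = 0 ∧ Q (b (Sum.inl (Sum.inr i))) = 0) ∧ (∀ i j, QuadraticMap.polar ⇑Q (b (Sum.inl (Sum.inl i))) (b (Sum.inl (Sum.inr j))) = if i = j then 1 else 0) ∧ (∀ i j, QuadraticMap.polar ⇑Q (b (Sum.inl (Sum.inl i))) (b (Sum.inl (Sum.inl j)))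 = 0 ∧ QuadraticMap.polar ⇑Q (b (Sum.inl (Sum.inr i))) (b (Sum.inl (Sum.inr j))) = 0) ∧ (∀ i (k : Fin 2), QuadraticMap.polar ⇑Q (b (Sum.inl (Sum.inl i))) (b (Sum.inr k)) = 0 ∧ QuadraticMap.polar ⇑Q (b (Sum.inl (Sum.inr i))) (b (Sum.inr k)) = 0) ∧ Q (b (Sum.inr 0)) = 1 ∧ QuadraticMap.polar ⇑Q (b (Sum.inr 0)) (b (Sum.inr 1)) = 1 ∧ Q (b (Sum.inr 1)) = ζ) := by
  classical
  have hnd := Lib.Helper4.QuadFin.nd_of_nondegenerate hQ
  rcases Lib.Helper4.QuadFin.even_dim Q hnd hV with ⟨e, f, h⟩ | ⟨_, e, f, x, y, h, hx, hy, hli, hqx, hxy, ht⟩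
  · left
    have : Nonempty (Fin m ⊕ Fin m) := ⟨Sum.inl ⟨0, hm⟩⟩
    let b := basisOfLinearIndependentOfCardEqFinrank h.linearIndependent (by simp [hV]; ring)
    have hb : ⇑b = Sum.elim e f := coe_basisOfLinearIndependentOfCardEqFinrank _ _
    refine ⟨b, ?_, ?_, ?_⟩ <;> simp only [hb, Sum.elim_inl, Sum.elim_inr]
    · exact fun i => ⟨h.qe i, h.qf i⟩
    · exact h.ef
    · exact fun i j => ⟨h.ee i j, h.ff i j⟩
  · right
    have hli' := Lib.Helper4.QuadFin.li_total h ![x, y] hli (by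
      intro j i; fin_cases j
      · exact hx i
      · exact hy i)
    let b := basisOfLinearIndependentOfCardEqFinrank hli' (by simp [hV]; omega)
    have hb : ⇑b = Sum.elim (Sum.elim e f) ![x, y] := coe_basisOfLinearIndependentOfCardEqFinrank _ _
    refine ⟨b, Q y, ht, ?_, ?_, ?_, ?_, ?_, ?_, ?_⟩ <;> simp only [hb, Sum.elim_inl, Sum.elim_inr]
    · exact fun i => ⟨h.qe i, h.qf i⟩
    · exact h.ef
    · exact fun i j => ⟨h.ee i j, h.ff i j⟩
    · intro i k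
      fin_cases k
      · exact hx i
      · exact hy i
    · exact hqx
    · exact hxy
    · rfl
end Cfsg.Agent.S2616
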