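import Cfsg.Statements.S2618
import Mathlib
import Cfsg.Agent.Lib.Helper4.QuadFin

set_option autoImplicit false
open Cfsg

namespace Cfsg.Agent.S2618



/-- Standard (parabolic) basis of a non-degenerate quadratic space of odd dimension 2m + 1 over a finite field (the non-degeneracy of the polar form forces the characteristic to be odd): there is a basis e_i, f_i (i < m), x with Q(e_i) = Q(f_i) = 0, B(e_i, f_j) = δ_ij (B the polar form), the e's pairwise orthogonal and the f's pairwise orthogonal, x orthogonal to all of them and Q(x) ≠ 0. -/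
theorem result {F V : Type*} [Field F] [Finite F] [AddCommGroup V] [Module F V] [FiniteDimensional F V] {m : ℕ} (hV : Module.finrank F V = 2 * m + 1) (Q : QuadraticForm F V) (hQ : (QuadraticMap.polarBilin Q).Nondegenerate) : ∃ b : Module.Basis (Unit ⊕ (Fin m ⊕ Fin m)) F V, Q (b (Sum.inl ())) ≠ 0 ∧ (∀ i, QuadraticMap.polar ⇑Q (b (Sum.inl ())) (b (Sum.inr (Sum.inl i))) = 0 ∧ QuadraticMap.polar ⇑Q (b (Sum.inl ())) (b (Sum.inr (Sum.inr i))) = 0) ∧ (∀ i, Q (b (Sum.inr (Sum.inl i))) = 0 ∧ Q (b (Sum.inr (Sum.inr i))) = 0) ∧ (∀ i j, QuadraticMap.polar ⇑Q (b (Sum.inr (Sum.inl i))) (b (Sum.inr (Sum.inr j))) = if i = j then 1 else 0) ∧ (∀ i j, QuadraticMap.polar ⇑Q (b (Sum.inr (Sum.inl i))) (b (Sum.inr (Sum.inl j))) = 0 ∧ QuadraticMap.polar ⇑Q (b (Sum.inr (Sum.inr i))) (b (Sum.inr (Sum.inr j))) = 0) := by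
  classical
  have hnd := Lib.Helper4.QuadFin.nd_of_nondegenerate hQ
  obtain ⟨e, f, x, h, hx, hqx⟩ := Lib.Helper4.QuadFin.odd_dim Q hnd hV
  have hx0 : x ≠ 0 := by
    rintro rfl; simp at hqx
  have hli' := Lib.Helper4.QuadFin.li_total h (fun _ : Unit => x)
    (LinearIndependent.of_subsingleton () hx0) (fun _ i => hx i)
  have hli'' := hli'.comp (Equiv.sumComm Unit (Fin m ⊕ Fin m)) (Equiv.injective _)
  let b := basisOfLinearIndependentOfCardEqFinrank hli'' (by simp [hV]; omega)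
  have hb : ⇑b = (Sum.elim (Sum.elim e f) (fun _ : Unit => x)) ∘ (Equiv.sumComm Unit (Fin m ⊕ Fin m)) :=
    coe_basisOfLinearIndependentOfCardEqFinrank _ _
  refine ⟨b, ?_, ?_, ?_, ?_, ?_⟩ <;>
    simp only [hb, Function.comp, Equiv.sumComm_apply, Sum.swap_inl, Sum.swap_inr, Sum.elim_inl, Sum.elim_inr]
  · exact hqx
  · intro i
    rw [QuadraticMap.polar_comm _ x, QuadraticMap.polar_comm _ x]
    exact hx i
  · exact fun i => ⟨h.qe i, h.qf i⟩
  · exact h.ef
  · exact fun i j => ⟨h.ee i j, h.ff i j⟩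
end Cfsg.Agent.S2618
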