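import Cfsg.Statements.S2619
import Mathlib
import Cfsg.Agent.Lib.Helper4.QuadFin

set_option autoImplicit false
open Cfsg

namespace Cfsg.Agent.S2619



/-- Over a finite field of characteristic two, given an alternating bilinear form B on a finite-dimensional space, a basis (v_i) and scalars (λ_i), there is exactly one quadratic form whose polar form is B and whose value at each v_i is λ_i. -/
theorem result {F V ι : Type*} [Field F] [Finite F] [CharP F 2] [AddCommGroup V] [Module F V] [Fintype ι] (b : Module.Basis ι F V) (B : LinearMap.BilinForm F V) (hB : B.IsAlt) (c : ι → F) : ∃! Q : QuadraticForm F V, QuadraticMap.polarBilin Q = B ∧ ∀ i, Q (b i) = c i := by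
  classical
  let e := Fintype.equivFin ι
  let M : Matrix ι ι F := fun i j => if e i < e j then B (b i) (b j) else if i = j then c i else 0
  let B' : LinearMap.BilinForm F V := Matrix.toBilin b M
  have hB' : ∀ i j, B' (b i) (b j) = M i j := by
    intro i j
    rw [← LinearMap.BilinForm.toMatrix_apply b B' i j, LinearMap.BilinForm.toMatrix_toBilin]
  have h2 : (2 : F) = 0 := CharTwo.two_eq_zero
  have hpol : QuadraticMap.polarBilin (LinearMap.BilinMap.toQuadraticMap B') = B := by
    rw [LinearMap.BilinMap.polarBilin_toQuadraticMap]
    apply b.ext; intro i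
    apply b.ext; intro j
    rw [LinearMap.add_apply, LinearMap.add_apply, LinearMap.flip_apply, hB', hB']
    simp only [M]
    rcases lt_trichotomy (e i) (e j) with h | h | h
    · have hne : j ≠ i := by rintro rfl; exact lt_irrefl _ h
      rw [if_pos h, if_neg (not_lt.2 h.le), if_neg hne, add_zero]
    · have hij : i = j := e.injective h
      subst hij
      rw [if_neg (lt_irrefl _), if_pos rfl, hB (b i)]
      linear_combination (c i) * h2
    · have hne : i ≠ j := by rintro rfl; exact lt_irrefl _ h
      rw [if_neg (not_lt.2 h.le), if_neg hne, if_pos h, zero_add, ← hB.neg_eq, CharTwo.neg_eq]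
  refine ⟨LinearMap.BilinMap.toQuadraticMap B', ⟨hpol, ?_⟩, ?_⟩
  · intro i
    rw [LinearMap.BilinMap.toQuadraticMap_apply, hB']
    simp [M]
  · rintro Q' ⟨hQ1, hQ2⟩
    apply Lib.Helper4.QuadFin.ext_basis b
    · intro i
      rw [hQ2, LinearMap.BilinMap.toQuadraticMap_apply, hB']
      simp [M]
    · intro i j
      have e1 := congrArg (fun A => A (b i) (b j)) hQ1
      have e2 := congrArg (fun A => A (b i) (b j)) hpol
      simp only [QuadraticMap.polarBilin_apply_apply] at e1 e2
      rw [e1, e2]
end Cfsg.Agent.S2619
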