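import Cfsg.Statements.S2622
import Mathlib

set_option autoImplicit false
open Cfsg

namespace Cfsg.Agent.S2622

section
variable {F V : Type*} [Field F] [AddCommGroup V] [Module F V]

theorem finrank_ker_form [FiniteDimensional F V] (B : LinearMap.BilinForm F V) {u : V} (h : B u u ≠ 0) :
    Module.finrank F (LinearMap.ker (B u)) + 1 = Module.finrank F V := by
  have hsurj : LinearMap.range (B u) = ⊤ := by
    rw [LinearMap.range_eq_top]
    intro a
    refine ⟨(a / B u u) • u, ?_⟩
    rw [map_smul, smul_eq_mul]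
    field_simp
  have := LinearMap.finrank_range_add_finrank_ker (B u)
  rw [hsurj, finrank_top, Module.finrank_self] at this
  omega

theorem sep_ker_form (B : LinearMap.BilinForm F V) (hS : ∀ x y, B x y = B y x)
    (hB : ∀ v, (∀ w, B v w = 0) → v = 0) {u : V} (h : B u u ≠ 0)
    (w : V) (hw : B u w = 0) (hw' : ∀ w', B u w' = 0 → B w w' = 0) : w = 0 := by
  apply hB
  intro v
  have hmem : B u (v + (-(B u v / B u u)) • u) = 0 := by
    rw [map_add, map_smul, smul_eq_mul]
    field_simp
    ring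
  have h2 := hw' _ hmem
  rw [map_add, map_smul, smul_eq_mul, hS w u, hw] at h2
  simpa using h2

theorem choose_u [Finite F] [CharP F 2] [FiniteDimensional F V] (B : LinearMap.BilinForm F V)
    (hS : ∀ x y, B x y = B y x) (hB : ∀ v, (∀ w, B v w = 0) → v = 0) (hna : ∃ v : V, B v v ≠ 0)
    (hn : 2 ≤ Module.finrank F V) :
    ∃ u, B u u = 1 ∧ ∃ w, B u w = 0 ∧ B w w ≠ 0 := by
  have := Fintype.ofFinite F
  obtain ⟨v, hv⟩ := hna
  obtain ⟨s, hs⟩ := FiniteField.isSquare_of_char_two (ringChar.eq F 2) (B v v)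
  have hs0 : s ≠ 0 := by
    rintro rfl; simp at hs; exact hv hs
  obtain ⟨u₀, hu₀⟩ : ∃ u₀, B u₀ u₀ = 1 := by
    refine ⟨s⁻¹ • v, ?_⟩
    rw [map_smul, map_smul, LinearMap.smul_apply, smul_eq_mul, smul_eq_mul, hs]
    field_simp
  by_cases hex : ∃ w, B u₀ w = 0 ∧ B w w ≠ 0
  · exact ⟨u₀, hu₀, hex⟩
  · push Not at hex
    have hne : B u₀ u₀ ≠ 0 := by rw [hu₀]; exact one_ne_zero
    have hfr := finrank_ker_form B hne
    have : Nontrivial (LinearMap.ker (B u₀)) := Module.nontrivial_of_finrank_pos (R := F) (by omega)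
    obtain ⟨⟨e, he⟩, he0⟩ := exists_ne (0 : LinearMap.ker (B u₀))
    have he' : B u₀ e = 0 := he
    have he0' : e ≠ 0 := fun h => he0 (Subtype.ext h)
    have : ∃ f, B u₀ f = 0 ∧ B e f ≠ 0 := by
      by_contra hcon
      push Not at hcon
      exact he0' (sep_ker_form B hS hB hne e he' hcon)
    obtain ⟨f₀, hf₀, hef₀⟩ := this
    obtain ⟨f, hf, hef⟩ : ∃ f, B u₀ f = 0 ∧ B e f = 1 := by
      refine ⟨(B e f₀)⁻¹ • f₀, ?_, ?_⟩
      · rw [map_smul, hf₀, smul_zero]
      · rw [map_smul, smul_eq_mul, inv_mul_cancel₀ hef₀]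
    have h2 : (2 : F) = 0 := CharTwo.two_eq_zero
    refine ⟨u₀ + e, ?_, u₀ + f, ?_, ?_⟩
    · simp only [map_add, LinearMap.add_apply, hu₀, he', hS e u₀, hex e he']
      ring
    · simp only [map_add, LinearMap.add_apply, hu₀, hf, hS e u₀, he', hef]
      linear_combination h2
    · simp only [map_add, LinearMap.add_apply, hu₀, hf, hS f u₀, hex f hf]
      simp

theorem orthonormal_family [Finite F] [CharP F 2] (n : ℕ) :
    ∀ (V : Type _) [AddCommGroup V] [Module F V] [FiniteDimensional F V] (B : LinearMap.BilinForm F V)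
      (_ : ∀ x y, B x y = B y x) (_ : ∀ v, (∀ w, B v w = 0) → v = 0) (_ : n = 0 ∨ ∃ v : V, B v v ≠ 0)
      (_ : Module.finrank F V = n),
    ∃ v : Fin n → V, ∀ i j, B (v i) (v j) = if i = j then 1 else 0 := by
  induction n with
  | zero =>
    intro V _ _ _ B _ _ _ _
    exact ⟨Fin.elim0, fun i => i.elim0⟩
  | succ n ih =>
    intro V _ _ _ B hS hB hna hn
    have hna' : ∃ v : V, B v v ≠ 0 := hna.resolve_left (by omega)
    obtain ⟨u, hu, hw⟩ : ∃ u, B u u = 1 ∧ (n = 0 ∨ ∃ w, B u w = 0 ∧ B w w ≠ 0) := by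
      by_cases h0 : n = 0
      · have := Fintype.ofFinite F
        obtain ⟨v, hv⟩ := hna'
        obtain ⟨s, hs⟩ := FiniteField.isSquare_of_char_two (ringChar.eq F 2) (B v v)
        have hs0 : s ≠ 0 := by
          rintro rfl; simp at hs; exact hv hs
        refine ⟨s⁻¹ • v, ?_, Or.inl h0⟩
        rw [map_smul, map_smul, LinearMap.smul_apply, smul_eq_mul, smul_eq_mul, hs]
        field_simp
      · obtain ⟨u, hu, hw⟩ := choose_u B hS hB hna' (by omega)
        exact ⟨u, hu, Or.inr hw⟩
    have hne : B u u ≠ 0 := by rw [hu]; exact one_ne_zero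
    have hfr := finrank_ker_form B hne
    obtain ⟨v', hv'⟩ := ih (LinearMap.ker (B u)) (B.restrict (LinearMap.ker (B u)))
      (fun x y => hS x y)
      (fun w hw' => Subtype.ext (sep_ker_form B hS hB hne w w.2 (fun w' hw'' => hw' ⟨w', hw''⟩)))
      (hw.imp id (fun ⟨w, hw1, hw2⟩ => ⟨⟨w, hw1⟩, hw2⟩)) (by omega)
    refine ⟨Fin.cons u (fun i => (v' i : V)), ?_⟩
    intro i j
    refine Fin.cases ?_ (fun i => ?_) i <;> refine Fin.cases ?_ (fun j => ?_) j
    · simpa using hu
    · have : B u (v' j) = 0 := (v' j).2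
      simpa [(Fin.succ_ne_zero j).symm] using this
    · have : B u (v' i) = 0 := (v' i).2
      rw [hS]
      simpa [Fin.succ_ne_zero i] using this
    · simpa [Fin.succ_inj] using hv' i j

end


/-- Over a finite field of characteristic two, a non-degenerate symmetric bilinear form that is not alternating (some vector v has B(v, v) ≠ 0) admits an orthonormal basis. -/
theorem result {F V : Type*} [Field F] [Finite F] [CharP F 2] [AddCommGroup V] [Module F V] [FiniteDimensional F V] {n : ℕ} (hV : Module.finrank F V = n) (B : LinearMap.BilinForm F V) (hS : B.IsSymm) (hB : B.Nondegenerate) (hna : ∃ v : V, B v v ≠ 0) : ∃ b : Module.Basis (Fin n) F V, ∀ i j, B (b i) (b j) = if i = j then 1 else 0 := by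
  classical
  obtain ⟨v, hv⟩ := orthonormal_family n V B (fun x y => hS.eq x y) (fun v h => hB.1 v h) (Or.inr hna) hV
  have hli : LinearIndependent F v := by
    rw [Fintype.linearIndependent_iff]
    intro g hg j
    have := congrArg (fun w => B (v j) w) hg
    simp only [map_sum, map_smul, smul_eq_mul, map_zero, hv] at this
    simpa using this
  have hne : Nonempty (Fin n) := by
    obtain ⟨w, hw⟩ := hna
    have : 0 < n := by
      rw [← hV]
      apply Module.finrank_pos_iff_exists_ne_zero.2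
      exact ⟨w, by rintro rfl; simp at hw⟩
    exact ⟨⟨0, this⟩⟩
  let b := basisOfLinearIndependentOfCardEqFinrank hli (by simp [hV])
  have hb : ⇑b = v := coe_basisOfLinearIndependentOfCardEqFinrank _ _
  exact ⟨b, by rw [hb]; exact hv⟩
end Cfsg.Agent.S2622
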