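import Cfsg.Statements.S2623
import Mathlib
import Cfsg.Agent.Lib.Helper4.QuadDisc

set_option autoImplicit false
open Cfsg

namespace Cfsg.Agent.S2623



/-- Over a finite field of odd order, two quadratic forms on F^n with non-degenerate polar forms are isometric (related by an invertible linear change of variables) if and only if their discriminants (determinants of the Gram matrices of their polar forms) lie in the same square class. -/
theorem result {F : Type*} [Field F] [Fintype F] (h2 : (2 : F) ≠ 0) {n : ℕ} (Q₁ Q₂ : QuadraticForm F (Fin n → F)) (h₁ : (QuadraticMap.polarBilin Q₁).Nondegenerate) (h₂ : (QuadraticMap.polarBilin Q₂).Nondegenerate) : (∃ g : (Fin n → F) ≃ₗ[F] (Fin n → F), ∀ v, Q₂ (g v) = Q₁ v) ↔ IsSquare ((Matrix.of (fun i j : Fin n => QuadraticMap.polar ⇑Q₁ (Pi.single i 1) (Pi.single j 1))).det * (Matrix.of (fun i j : Fin n => QuadraticMap.polar ⇑Q₂ (Pi.single i 1) (Pi.single j 1))).det) := by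
  rw [Lib.Helper4.QuadFin.gram_eq, Lib.Helper4.QuadFin.gram_eq]
  constructor
  · rintro ⟨g, hg⟩
    have := Lib.Helper4.QuadFin.isSquare_of_isometric Q₁ Q₂ g.toLinearMap 1 (by intro v; rw [one_mul]; exact hg v)
    rw [one_pow, one_mul] at this
    rw [this]
    exact ⟨(LinearMap.toMatrix' g.toLinearMap).det * (LinearMap.BilinForm.toMatrix' (QuadraticMap.polarBilin Q₂)).det, by ring⟩
  · intro h
    exact Lib.Helper4.QuadFin.isometric_of_isSquare h2 Q₁ Q₂ (Lib.Helper4.QuadFin.nd_of_nondegenerate h₁)
      (Lib.Helper4.QuadFin.nd_of_nondegenerate h₂) h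
end Cfsg.Agent.S2623
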