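import Cfsg.Statements.S2624
import Mathlib
import Cfsg.Agent.Lib.Helper4.QuadSim

set_option autoImplicit false
open Cfsg

namespace Cfsg.Agent.S2624



/-- For a quadratic form Q on F^n with non-degenerate polar form, F finite and n ≥ 2 even, every non-zero scalar c is the multiplier of some similarity: there is an invertible linear map g with Q(g v) = c·Q(v) for all v. -/
theorem result {F : Type*} [Field F] [Fintype F] {n : ℕ} (hn : 2 ≤ n) (he : Even n) (Q : QuadraticForm F (Fin n → F)) (hQ : (QuadraticMap.polarBilin Q).Nondegenerate) (c : F) (hc : c ≠ 0) : ∃ g : (Fin n → F) ≃ₗ[F] (Fin n → F), ∀ v, Q (g v) = c * Q v := by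
  obtain ⟨r, hr⟩ := he
  exact Lib.Helper4.QuadFin.exists_similarity Q (Lib.Helper4.QuadFin.nd_of_nondegenerate hQ) (m := r)
    (by rw [Module.finrank_fin_fun, hr]; ring) hc
end Cfsg.Agent.S2624
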