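import Cfsg.Statements.S2626
import Mathlib

set_option autoImplicit false
open Cfsg

namespace Cfsg.Agent.S2626

theorem map_mem_commutator {G H : Type*} [Group G] [Group H] (f : G →* H) {g : G} (hg : g ∈ commutator G) :
    f g ∈ commutator H := by
  have h1 : f g ∈ (commutator G).map f := Subgroup.mem_map_of_mem f hg
  rw [commutator_def, Subgroup.map_commutator] at h1
  exact Subgroup.commutator_mono le_top le_top h1

/-- block diagonal embedding of matrices -/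
def blockHom (F : Type*) [Field F] (k l : ℕ) :
    Matrix (Fin k) (Fin k) F × Matrix (Fin l) (Fin l) F →* Matrix (Fin k ⊕ Fin l) (Fin k ⊕ Fin l) F where
  toFun p := Matrix.fromBlocks p.1 0 0 p.2
  map_one' := Matrix.fromBlocks_one
  map_mul' p q := by simp [Matrix.fromBlocks_multiply]

def blockGL (F : Type*) [Field F] (k l : ℕ) :
    Matrix.GeneralLinearGroup (Fin k) F × Matrix.GeneralLinearGroup (Fin l) F →*
      Matrix.GeneralLinearGroup (Fin k ⊕ Fin l) F :=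
  (Units.map (blockHom F k l)).comp MulEquiv.prodUnits.symm.toMonoidHom

theorem blockGL_coe (F : Type*) [Field F] (k l : ℕ) (p : Matrix.GeneralLinearGroup (Fin k) F × Matrix.GeneralLinearGroup (Fin l) F) :
    ((blockGL F k l p : Matrix.GeneralLinearGroup (Fin k ⊕ Fin l) F) : Matrix (Fin k ⊕ Fin l) (Fin k ⊕ Fin l) F)
      = Matrix.fromBlocks (p.1 : Matrix (Fin k) (Fin k) F) 0 0 (p.2 : Matrix (Fin l) (Fin l) F) := rfl


/-- Ω of an orthogonal direct sum contains the product of the Ω's: for quadratic forms Q₁ on F^k and Q₂ on F^l with non-degenerate polar forms (F finite) and Q = Q₁ ⊕ Q₂ on F^(k+l), if g₁ lies in Ω(Q₁) and g₂ in Ω(Q₂) (commutator subgroups of the orthogonal groups) then the block-diagonal isometry diag(g₁, g₂) lies in Ω(Q). -/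
theorem result {F : Type*} [Field F] [Fintype F] {k l : ℕ} (Q₁ : QuadraticForm F (Fin k → F)) (Q₂ : QuadraticForm F (Fin l → F)) (h₁ : (QuadraticMap.polarBilin Q₁).Nondegenerate) (h₂ : (QuadraticMap.polarBilin Q₂).Nondegenerate) (g₁ : ↥(Cfsg.isometryGroup F ⇑Q₁)) (g₂ : ↥(Cfsg.isometryGroup F ⇑Q₂)) (hg₁ : g₁ ∈ Cfsg.Omega F ⇑Q₁) (hg₂ : g₂ ∈ Cfsg.Omega F ⇑Q₂) : ∃ g : ↥(Cfsg.isometryGroup F (fun v : Fin k ⊕ Fin l → F => Q₁ (v ∘ Sum.inl) + Q₂ (v ∘ Sum.inr))), g ∈ Cfsg.Omega F (fun v : Fin k ⊕ Fin l → F => Q₁ (v ∘ Sum.inl) + Q₂ (v ∘ Sum.inr)) ∧ ((g : Matrix.GeneralLinearGroup (Fin k ⊕ Fin l) F) : Matrix (Fin k ⊕ Fin l) (Fin k ⊕ Fin l) F) = Matrix.fromBlocks ((g₁ : Matrix.GeneralLinearGroup (Fin k) F) : Matrix (Fin k) (Fin k) F) 0 0 ((g₂ : Matrix.GeneralLinearGroup (Fin l) F) : Matrix (Fin l) (Fin l) F) := by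
  let Q : (Fin k ⊕ Fin l → F) → F := fun v => Q₁ (v ∘ Sum.inl) + Q₂ (v ∘ Sum.inr)
  let Ψ : ↥(Cfsg.isometryGroup F ⇑Q₁) × ↥(Cfsg.isometryGroup F ⇑Q₂) →* ↥(Cfsg.isometryGroup F Q) :=
    ((blockGL F k l).comp (MonoidHom.prodMap (Subgroup.subtype _) (Subgroup.subtype _))).codRestrict _ (by
      rintro ⟨a, b⟩ u v
      change Q (Matrix.mulVec (Matrix.fromBlocks (a.1 : Matrix (Fin k) (Fin k) F) 0 0 (b.1 : Matrix (Fin l) (Fin l) F)) u) = Q u
      have ha := a.2 (u ∘ Sum.inl) (u ∘ Sum.inl)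
      have hb := b.2 (u ∘ Sum.inr) (u ∘ Sum.inr)
      simp only [Q, Matrix.fromBlocks_mulVec, Matrix.zero_mulVec, add_zero, zero_add, Sum.elim_comp_inl,
        Sum.elim_comp_inr]
      exact congrArg₂ (· + ·) ha hb)
  refine ⟨Ψ (g₁, g₂), ?_, rfl⟩
  have h1 : Ψ (g₁, 1) ∈ commutator _ := map_mem_commutator (Ψ.comp (MonoidHom.inl _ _)) hg₁
  have h2 : Ψ (1, g₂) ∈ commutator _ := map_mem_commutator (Ψ.comp (MonoidHom.inr _ _)) hg₂
  have h3 : Ψ (g₁, g₂) = Ψ (g₁, 1) * Ψ (1, g₂) := by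
    rw [← map_mul]; simp
  rw [h3]
  exact Subgroup.mul_mem _ h1 h2
end Cfsg.Agent.S2626
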