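import Mathlib
import Cfsg.Statements.S2631
import Cfsg.Agent.Lib.Helper5.OrthClass

set_option autoImplicit false
open Cfsg

namespace Cfsg.Agent.S2631


/-- For the hyperbolic form Σ x_i y_i on F^(2m) over a finite field (m ≥ 1, excluding m = 2 over the field of two elements), Ω (the commutator subgroup of the orthogonal group) acts transitively on each of the two classes of maximal totally singular subspaces: if U and W are m-dimensional totally singular subspaces with m − dim(U ∩ W) even, some element of Ω carries U to W. -/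
theorem result {F : Type*} [Field F] [Fintype F] {m : ℕ} (hm : 1 ≤ m) (h : Fintype.card F ≠ 2 ∨ m ≠ 2) (U W : Submodule F (Fin m ⊕ Fin m → F)) (hU : Module.finrank F U = m) (hW : Module.finrank F W = m) (hU0 : ∀ u ∈ U, Cfsg.quadFormPlus m F u = 0) (hW0 : ∀ w ∈ W, Cfsg.quadFormPlus m F w = 0) (he : Even (m - Module.finrank F ↥(U ⊓ W))) : ∃ g : ↥(Cfsg.isometryGroup F (Cfsg.quadFormPlus m F)), g ∈ Cfsg.Omega F (Cfsg.quadFormPlus m F) ∧ U.map (Matrix.mulVecLin ((g : Matrix.GeneralLinearGroup (Fin m ⊕ Fin m) F) : Matrix (Fin m ⊕ Fin m) (Fin m ⊕ Fin m) F)) = W := by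
  classical
  obtain ⟨Qf, hQf, hnd, _, _⟩ := Cfsg.Agent.Lib.Helper5.OrthPlus.good_plus (F := F) m
  have hex : Fintype.card F ≠ 2 ∨ Fintype.card (Fin m ⊕ Fin m) ≠ 4 := by
    rcases h with h | h
    · exact Or.inl h
    · right
      rw [Fintype.card_sum, Fintype.card_fin]
      omega
  have key : ∃ g : ↥(Cfsg.isometryGroup F ⇑Qf), g ∈ Cfsg.Omega F ⇑Qf ∧ U.map (Matrix.mulVecLin ((g : Matrix.GeneralLinearGroup (Fin m ⊕ Fin m) F) : Matrix (Fin m ⊕ Fin m) (Fin m ⊕ Fin m) F)) = W := by
    have hLU : Cfsg.Agent.Lib.Helper5.OrthClass.Lag Qf U := by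
      refine ⟨?_, ?_⟩
      · intro x hx
        rw [hQf]
        exact hU0 x hx
      · rw [hU, Fintype.card_sum, Fintype.card_fin]; ring
    have hLW : Cfsg.Agent.Lib.Helper5.OrthClass.Lag Qf W := by
      refine ⟨?_, ?_⟩
      · intro x hx
        rw [hQf]
        exact hW0 x hx
      · rw [hW, Fintype.card_sum, Fintype.card_fin]; ring
    exact Cfsg.Agent.Lib.Helper5.OrthClass.trans_lag Qf hnd hex
      (by rw [Fintype.card_sum, Fintype.card_fin]; omega) hLU hLW (by rw [hU]; exact he)
  rw [hQf] at key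
  exact key

end Cfsg.Agent.S2631
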