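import Cfsg.Statements.S2636
import Cfsg.Agent.Lib.Helper4.FixCount

set_option autoImplicit false
open Cfsg

namespace Cfsg.Agent.S2636

open Cfsg.Agent.Lib.Helper4 Cfsg.Agent.Lib.Helper4.FixCount Cfsg.Agent.Lib.Helper4.Fix


/-- Centraliser of a field automorphism in PGL_n: let F be the field with q = q₀^r elements, σ a field automorphism of F of prime order r (so its fixed field has q₀ elements) and n ≥ 1. The invertible matrices g whose entrywise image under σ is a scalar multiple of g — those whose coset modulo scalars is fixed by σ — number (q − 1)/(q₀ − 1) · |GL_n(q₀)|; equivalently the centraliser in PGL_n(q) of the induced automorphism has the order of PGL_n(q₀). -/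
theorem result {F : Type*} [Field F] [Fintype F] {q₀ r n : ℕ} (hr : r.Prime) (hn : 1 ≤ n) (hF : Fintype.card F = q₀ ^ r) (σ : F ≃+* F) (hσ : orderOf σ = r) : Nat.card {g : GL (Fin n) F // ∃ c : F, c ≠ 0 ∧ (g : Matrix (Fin n) (Fin n) F).map σ = c • (g : Matrix (Fin n) (Fin n) F)} = (q₀ ^ r - 1) / (q₀ - 1) * ∏ i : Fin n, (q₀ ^ n - q₀ ^ (i : ℕ)) := by
  classical
  obtain ⟨p, hch⟩ := CharP.exists F
  have hpp : Fact p.Prime := ⟨CharP.char_is_prime F p⟩
  obtain ⟨f, hp1, hf⟩ := FiniteField.card F p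
  obtain ⟨hdvd, hcard⟩ := card_fixF hf (σ : RingAut F) hσ
  have hq₀ : q₀ = p ^ ((f : ℕ) / r) := by
    apply Nat.pow_left_injective (n := r) hr.ne_zero
    change q₀ ^ r = (p ^ ((f : ℕ) / r)) ^ r
    rw [← pow_mul, Nat.div_mul_cancel hdvd, ← hF, hf]
  have hq2 : 2 ≤ q₀ := by
    by_contra hcon
    have h1 : q₀ ≤ 1 := by omega
    have h2 : q₀ ^ r ≤ 1 := Nat.pow_le_one_iff hr.ne_zero |>.2 h1
    have h3 := Fintype.one_lt_card (α := F)
    omega
  have : Fintype (fixF (σ : RingAut F)) := Fintype.ofFinite _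
  have hc0 : Fintype.card (fixF (σ : RingAut F)) = q₀ := by
    rw [← Nat.card_eq_fintype_card, hcard, hq₀]
  have key := card_eq hn (σ : RingAut F) hσ hr.pos
  rw [Matrix.card_GL_field, hc0, Nat.card_eq_fintype_card (α := fixF (σ : RingAut F)), Nat.card_eq_fintype_card (α := F), hc0, hF] at key
  obtain ⟨k, hk⟩ : q₀ - 1 ∣ q₀ ^ r - 1 := by
    have := Nat.sub_dvd_pow_sub_pow q₀ 1 r
    rwa [one_pow] at this
  rw [hk, Nat.mul_div_cancel_left k (by omega)]
  rw [hk, mul_assoc] at key
  exact Nat.eq_of_mul_eq_mul_left (by omega) key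
end Cfsg.Agent.S2636
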