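import Cfsg.Statements.S2639
import Cfsg.Agent.Lib.Helper4.QuadExt
import Cfsg.Agent.Lib.Helper5.SympAbstract
open Cfsg.Agent.Lib.Helper4.QuadExt Cfsg.Agent.Lib.Helper5.SympAbstract Cfsg.Agent.Lib.Helper4.UniCount Cfsg.Agent.Lib.Helper4.UniMat Cfsg.Agent.Lib.Helper4.UniLines

set_option autoImplicit false
open Cfsg

namespace Cfsg.Agent.S2639



/-- The unitary group embeds in the symplectic group of twice the dimension over the subfield: for a field K with q² elements and a field F with q elements (isomorphic to the subfield of K of order q), there is an injective homomorphism GU_m(q) → Sp_2m(F). -/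
theorem result {K F : Type*} [Field K] [Fintype K] [Field F] [Fintype F] {q : ℕ} (hK : Fintype.card K = q ^ 2) (hF : Fintype.card F = q) (m : ℕ) : ∃ φ : ↥(Cfsg.GU m K q) →* ↥(Matrix.symplecticGroup (Fin m) F), Function.Injective φ := by
  classical
  obtain ⟨ι, hι⟩ := exists_iota hK hF
  let _ : Algebra F K := ι.toAlgebra
  obtain ⟨l, hl, hl0⟩ := exists_functional (K := K) (F := F) hK hF
  obtain ⟨σ, hσ⟩ := exists_sig hK
  have h2 : ∀ a, σ (σ a) = a := by
    intro a
    rw [hσ, hσ, pow_q_q hK]
  have hσι : ∀ c : F, σ (algebraMap F K c) = algebraMap F K c := by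
    intro c
    rw [hσ]
    exact (hι _).2 ⟨c, rfl⟩
  let B : LinearMap.BilinForm F (Fin m → K) := LinearMap.mk₂ F (fun u v => l (stdB σ m v u))
    (fun u u' v => by simp only [map_add])
    (fun c u v => by
      rw [← algebraMap_smul K c u, map_smul, smul_eq_mul, ← Algebra.smul_def, map_smul])
    (fun u v v' => by simp only [map_add, LinearMap.add_apply])
    (fun c u v => by
      rw [← algebraMap_smul K c v, map_smulₛₗ, LinearMap.smul_apply, hσι, smul_eq_mul,
        ← Algebra.smul_def, map_smul])
  have hBdef : ∀ u v, B u v = l (stdB σ m v u) := fun u v => rfl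
  have hA : B.IsAlt := fun v => by
    rw [hBdef]
    have h1 : (stdB σ m v v) ^ q = stdB σ m v v := by
      rw [← hσ]; exact stdB_self_fixed h2 v
    obtain ⟨c, hc⟩ := (hι _).1 h1
    rw [← hc]
    exact hl0 c
  have hB : B.Nondegenerate := by
    have hright : ∀ v, (∀ u, B u v = 0) → v = 0 := by
      intro v hv
      apply (stdB_nondeg (σ := σ) (n := m)).1
      intro u
      apply eq_zero_of_functional hl
      intro c
      have := hv (c • u)
      rwa [hBdef, map_smul, smul_eq_mul] at this
    refine ⟨?_, hright⟩
    intro u hu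
    apply hright
    intro v
    rw [← neg_eq_zero, LinearMap.BilinForm.IsAlt.neg_eq hA]
    exact hu v
  have hfin : Module.finrank F (Fin m → K) = 2 * m := by
    rw [finrank_pi hK hF]
    simp
  refine exists_hom_of_rep B hB hA hfin
    (fun g => (Matrix.mulVecLin g.1.1).restrictScalars F) ?_ ?_ ?_
  · intro g h x
    simp [Matrix.mulVec_mulVec]
  · intro g x y
    rw [hBdef, hBdef]
    congr 1
    exact (preserves_iff g.1.1).2 ((mem_GU_iff hσ g.1).1 g.2) y x
  · intro g hg
    apply Subtype.ext
    apply Units.ext
    apply Matrix.ext_of_mulVec_single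
    intro i
    have := hg (Pi.single i 1)
    change g.1.1.mulVec (Pi.single i 1) = Pi.single i 1 at this
    rw [this]
    change _ = (1 : Matrix (Fin m) (Fin m) K).mulVec (Pi.single i 1)
    rw [Matrix.one_mulVec]
end Cfsg.Agent.S2639
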