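import Cfsg.Statements.S2640
import Cfsg.Agent.Lib.Helper4.QuadExt4
open Cfsg.Agent.Lib.Helper4.QuadExt Cfsg.Agent.Lib.Helper4.QuadExt3 Cfsg.Agent.Lib.Helper4.QuadExt4

set_option autoImplicit false
open Cfsg

namespace Cfsg.Agent.S2640



/-- For m even, the unitary group GU_m(q) (over the field with q² elements) embeds in the orthogonal group O⁺_2m(q) of the hyperbolic form Σ x_i y_i over the field with q elements (there is an injective homomorphism). -/
theorem result {K F : Type*} [Field K] [Fintype K] [Field F] [Fintype F] {q : ℕ} (hK : Fintype.card K = q ^ 2) (hF : Fintype.card F = q) (m : ℕ) (hm : Even m) : ∃ φ : ↥(Cfsg.GU m K q) →* ↥(Cfsg.isometryGroup F (Cfsg.quadFormPlus m F)), Function.Injective φ := by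
  classical
  obtain ⟨ι, hι⟩ := exists_iota hK hF
  let _ : Algebra F K := ι.toAlgebra
  have hι' : ∀ x : K, x ^ q = x ↔ x ∈ Set.range (algebraMap F K) := hι
  obtain ⟨Q, hQ, hND⟩ := exists_Qh hK hF hι' m
  rcases Nat.eq_zero_or_pos m with rfl | hm1
  · refine ⟨1, ?_⟩
    intro x y _
    apply Subtype.ext
    apply Units.ext
    exact Subsingleton.elim _ _
  obtain ⟨g, hg⟩ := herm_plus hK hF hm hm1 Q hQ hND
  exact gu_hom _ Q hQ g hg
end Cfsg.Agent.S2640
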