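import Cfsg.Statements.S2644
import Cfsg.Agent.Lib.Helper4.PSUtw

set_option autoImplicit false
open Cfsg

namespace Cfsg.Agent.S2644

open Cfsg.Agent.Lib.Helper4 Cfsg.Agent.Lib.Helper4.PSU


/-- In the special unitary group SU_n(q) with n ≥ 3 (isometries of Σ u_i v_i^q of determinant one over the field with q² elements), any two transvections (elements t with t − 1 of rank one and square zero) are conjugate. -/
theorem result {K : Type*} [Field K] [Fintype K] {q n : ℕ} (hK : Fintype.card K = q ^ 2) (hn : 3 ≤ n) (s t : ↥(Cfsg.SU n K q)) (hs : Cfsg.IsTransvection (((s : GL (Fin n) K) : Matrix (Fin n) (Fin n) K))) (ht : Cfsg.IsTransvection (((t : GL (Fin n) K) : Matrix (Fin n) (Fin n) K))) : IsConj s t := by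
  classical
  obtain ⟨σ, hσ⟩ := Cfsg.Agent.Lib.Helper4.UniCount.exists_sig hK
  haveI : UC K q σ := ⟨hK, hσ⟩
  obtain ⟨v, c, hv, hv0, hc0, hcs, rfl⟩ := exists_sg_of_transvection (σ := σ) s hs
  obtain ⟨v', c', hv', hv0', hc0', hcs', rfl⟩ := exists_sg_of_transvection (σ := σ) t ht
  exact tv_conj hn hv hv0 hv' hv0' hc0 hcs hc0' hcs'
end Cfsg.Agent.S2644
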