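import Cfsg.Statements.S2668

set_option autoImplicit false
open Cfsg

namespace Cfsg.Agent.S2668

theorem pow_fix {X : Type*} [Group X] (σ : MulAut X) (h : X) (hh : σ h = h) (e : ℕ) : (σ ^ e) h = h := by
  induction e with
  | zero => simp
  | succ n ih => rw [pow_succ, MulAut.mul_apply, hh, ih]

theorem pow_comm_apply {X : Type*} [Group X] (σ : MulAut X) (e : ℕ) (y : X) : (σ ^ e) (σ y) = σ ((σ ^ e) y) := by
  rw [← MulAut.mul_apply, ← MulAut.mul_apply, ← pow_succ, ← pow_succ']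

theorem norm_eq {X : Type*} [Group X] (σ : MulAut X) (a : X) (d : ℕ) :
    ((List.range d).map (fun i => (σ ^ i) (a * (σ a)⁻¹))).prod = a * ((σ ^ d) a)⁻¹ := by
  induction d with
  | zero => simp
  | succ n ih =>
    rw [List.range_succ, List.map_append, List.prod_append, ih]
    simp only [List.map_cons, List.map_nil, List.prod_cons, List.prod_nil, mul_one, map_mul, map_inv]
    rw [pow_comm_apply, pow_succ', MulAut.mul_apply]
    group

theorem x_fixed {X : Type*} [Group X] (σ : MulAut X) (e : ℕ) (a : X)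
    (hg : (σ ^ e) (a * (σ a)⁻¹) = a * (σ a)⁻¹) : σ (((σ ^ e) a)⁻¹ * a) = ((σ ^ e) a)⁻¹ * a := by
  simp only [map_mul, map_inv] at hg ⊢
  rw [pow_comm_apply] at hg
  calc (σ ((σ ^ e) a))⁻¹ * σ a = ((σ ^ e) a)⁻¹ * ((σ ^ e) a * (σ ((σ ^ e) a))⁻¹) * σ a := by group
    _ = ((σ ^ e) a)⁻¹ * (a * (σ a)⁻¹) * σ a := by rw [hg]
    _ = ((σ ^ e) a)⁻¹ * a := by group


/-- Shintani descent and powers (abstract form). Let `σ` be an automorphism of a group `X`, `e ≥ 1` and `d ≥ 1`, let `g` be fixed by `σᵉ` and let `a` satisfy `g = a σ(a)⁻¹`, so that the Shintani map of `(X, σ, e)` sends the class of `g σ` to the class of `x = σᵉ(a)⁻¹ a`. Put `h = g σ(g) ⋯ σ^(d-1)(g)`, the part in `X` of the `d`-th power `(g σ)^d = h σ^d`. Then `h = a σ^d(a)⁻¹` (so `a` also serves for `h` with respect to `σ^d`), `h` is fixed by `(σ^d)ᵉ`, and `(σ^d)ᵉ(a)⁻¹ a = x^d`: the Shintani map of `(X, σ^d, e)` sends the class of `(g σ)^d` to the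 class of `x^d`. (When `d` divides `e`, the Shintani map of `(X, σ^d, e/d)` sends it to the class of `x` itself, since `(σ^d)^(e/d) = σᵉ`.) -/
theorem result {X : Type*} [Group X] (σ : MulAut X) (e d : ℕ) (he : 1 ≤ e) (hd : 1 ≤ d)
    (g : X) (hg : g ∈ (MulEquiv.toMonoidHom (σ ^ e)).eqLocus (MonoidHom.id X)) (a : X) (ha : g = a * (σ a)⁻¹) :
    ((List.range d).map (fun i => (σ ^ i) g)).prod = a * ((σ ^ d) a)⁻¹ ∧
      ((List.range d).map (fun i => (σ ^ i) g)).prod ∈ (MulEquiv.toMonoidHom ((σ ^ d) ^ e)).eqLocus (MonoidHom.id X) ∧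
      (((σ ^ d) ^ e) a)⁻¹ * a = (((σ ^ e) a)⁻¹ * a) ^ d := by
  have mem1 : ∀ (τ : MulAut X) (y : X), y ∈ (MulEquiv.toMonoidHom τ).eqLocus (MonoidHom.id X) ↔ τ y = y := by
    intro τ y; exact Iff.rfl
  rw [mem1] at hg
  subst ha
  have hx := x_fixed σ e a hg
  have hxe : (σ ^ e) (((σ ^ e) a)⁻¹ * a) = ((σ ^ e) a)⁻¹ * a := pow_fix σ _ hx e
  have h3 : ∀ d : ℕ, (((σ ^ e) ^ d) a)⁻¹ * a = (((σ ^ e) a)⁻¹ * a) ^ d := by
    intro d
    induction d with
    | zero => simp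
    | succ n ih =>
      rw [pow_succ' (σ ^ e) n, MulAut.mul_apply, pow_succ, ← ih]
      have : (σ ^ e) ((((σ ^ e) ^ n) a)⁻¹ * a) = (((σ ^ e) ^ n) a)⁻¹ * a := by
        rw [ih, map_pow, hxe]
      simp only [map_mul, map_inv] at this
      calc ((σ ^ e) (((σ ^ e) ^ n) a))⁻¹ * a = (((σ ^ e) (((σ ^ e) ^ n) a))⁻¹ * (σ ^ e) a) * (((σ ^ e) a)⁻¹ * a) := by group
        _ = _ := by rw [this]
  have hcomm : (σ ^ d) ^ e = (σ ^ e) ^ d := by rw [← pow_mul, ← pow_mul, mul_comm]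
  refine ⟨norm_eq σ a d, ?_, ?_⟩
  · rw [mem1, hcomm]
    have hmem : ((List.range d).map (fun i => (σ ^ i) (a * (σ a)⁻¹))).prod ∈
        (MulEquiv.toMonoidHom ((σ ^ e) ^ d)).eqLocus (MonoidHom.id X) := by
      apply Subgroup.list_prod_mem
      intro y hy
      rw [List.mem_map] at hy
      obtain ⟨i, _, rfl⟩ := hy
      rw [mem1]
      have h1 : ((σ ^ e) ^ d) (a * (σ a)⁻¹) = a * (σ a)⁻¹ := pow_fix (σ ^ e) _ hg d
      rw [← MulAut.mul_apply, ← pow_mul, ← pow_add, add_comm, pow_add, MulAut.mul_apply, pow_mul, h1]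
    exact (mem1 _ _).1 hmem
  · rw [hcomm]; exact h3 d
end Cfsg.Agent.S2668
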