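import Cfsg.Statements.S2669

set_option autoImplicit false
open Cfsg

namespace Cfsg.Agent.S2669

theorem pow_fix {X : Type*} [Group X] (σ : MulAut X) (h : X) (hh : σ h = h) (e : ℕ) : (σ ^ e) h = h := by
  induction e with
  | zero => simp
  | succ n ih => rw [pow_succ, MulAut.mul_apply, hh, ih]

theorem card_fiber {α β : Type*} [Finite α] [Finite β] (T : α → β → Prop) (P : α → Prop) (n : ℕ)
    (h1 : ∀ a, P a → Nat.card {b // T a b} = n) (h2 : ∀ a b, T a b → P a) :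
    Nat.card {p : α × β // T p.1 p.2} = Nat.card {a // P a} * n := by
  classical
  have e : {p : α × β // T p.1 p.2} ≃ Σ a : {a // P a}, {b // T a.1 b} :=
    { toFun := fun p => ⟨⟨p.1.1, h2 _ _ p.2⟩, ⟨p.1.2, p.2⟩⟩
      invFun := fun s => ⟨(s.1.1, s.2.1), s.2.2⟩
      left_inv := fun p => rfl
      right_inv := fun s => rfl }
  haveI : Fintype {a // P a} := Fintype.ofFinite _
  rw [Nat.card_congr e, Nat.card_sigma]
  rw [Finset.sum_congr rfl (fun a _ => h1 a.1 a.2)]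
  simp [Nat.card_eq_fintype_card]

theorem card_coset_fiber {X : Type*} [Group X] (H Y : Subgroup X) (c : X) (h0 : H) (hh0 : c * h0 ∈ Y) :
    Nat.card {h : H // c * h ∈ Y} = Nat.card ↥(Y ⊓ H) := by
  apply Nat.card_congr
  refine
    { toFun := fun h => ⟨(h0 : X)⁻¹ * h.1, ?_, ?_⟩
      invFun := fun z => ⟨⟨h0 * z.1, H.mul_mem h0.2 z.2.2⟩, ?_⟩
      left_inv := ?_
      right_inv := ?_ }
  · have : (h0 : X)⁻¹ * h.1 = (c * h0)⁻¹ * (c * h.1) := by group
    rw [this]; exact Y.mul_mem (Y.inv_mem hh0) h.2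
  · exact H.mul_mem (H.inv_mem h0.2) h.1.2
  · have : c * ((h0 : X) * z.1) = (c * h0) * z.1 := by group
    show c * ((h0 : X) * z.1) ∈ Y
    rw [this]; exact Y.mul_mem hh0 z.2.1
  · intro h; ext; simp
  · intro z; ext; simp


/-- Shintani descent preserves numbers of fixed points on coset spaces (abstract form). Let `σ` be an automorphism of a group `X` and `e ≥ 1`; write `G` for the fixed points of `σᵉ` and `H` for the fixed points of `σ`, and assume `G` is finite. Let `Y` be a `σ`-stable subgroup of `X` on which the maps `a ↦ a σ(a)⁻¹` and `a ↦ a σᵉ(a)⁻¹` are surjective (as for a closed connected `σ`-stable subgroup of an algebraic group). Let `g ∈ G`, let `a ∈ X` satisfy `g = a σ(a)⁻¹` and put `x = σᵉ(a)⁻¹ a` (the Shintani image, an element of `H`). The element `g σ` of the semidirect product acts on the cosets of `Y ∩ G` in `G` by `k (Y ∩ G) ↦ g σ(k) (Y ∩ G)`, fixing that coset exactly when `k⁻¹ g σ(k) ∈ Y`; and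 `x` fixes the coset `h (Y ∩ H)` of `H` exactly when `h⁻¹ x h ∈ Y`. Then the two numbers of fixed cosets agree; in cross-multiplied form, `#{k ∈ G : k⁻¹ g σ(k) ∈ Y} · |Y ∩ H| = #{h ∈ H : h⁻¹ x h ∈ Y} · |Y ∩ G|`. -/
theorem result {X : Type*} [Group X] (σ : MulAut X) (e : ℕ) (he : 1 ≤ e)
    [Finite ↥((MulEquiv.toMonoidHom (σ ^ e)).eqLocus (MonoidHom.id X))]
    (Y : Subgroup X) (hY : ∀ y : X, y ∈ Y ↔ σ y ∈ Y)
    (hYL : ∀ y ∈ Y, ∃ a ∈ Y, y = a * (σ a)⁻¹) (hYLe : ∀ y ∈ Y, ∃ a ∈ Y, y = a * ((σ ^ e) a)⁻¹)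
    (g : X) (hg : g ∈ (MulEquiv.toMonoidHom (σ ^ e)).eqLocus (MonoidHom.id X)) (a : X) (ha : g = a * (σ a)⁻¹) :
    Nat.card {k : ↥((MulEquiv.toMonoidHom (σ ^ e)).eqLocus (MonoidHom.id X)) // (k : X)⁻¹ * g * σ k ∈ Y} *
        Nat.card ↥(Y ⊓ (MulEquiv.toMonoidHom σ).eqLocus (MonoidHom.id X)) =
      Nat.card {h : ↥((MulEquiv.toMonoidHom σ).eqLocus (MonoidHom.id X)) // (h : X)⁻¹ * (((σ ^ e) a)⁻¹ * a) * h ∈ Y} *
        Nat.card ↥(Y ⊓ (MulEquiv.toMonoidHom (σ ^ e)).eqLocus (MonoidHom.id X)) := by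
  have mem1 : ∀ (τ : MulAut X) (y : X), y ∈ (MulEquiv.toMonoidHom τ).eqLocus (MonoidHom.id X) ↔ τ y = y := by
    intro τ y; exact Iff.rfl
  set G := (MulEquiv.toMonoidHom (σ ^ e)).eqLocus (MonoidHom.id X) with hGdef
  set H := (MulEquiv.toMonoidHom σ).eqLocus (MonoidHom.id X) with hHdef
  have hHG : H ≤ G := by
    intro y hy
    exact (mem1 _ _).2 (pow_fix σ y ((mem1 _ _).1 hy) e)
  haveI : Finite H := Finite.of_injective (Subgroup.inclusion hHG) (Subgroup.inclusion_injective hHG)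
  have hYe : ∀ (n : ℕ) (y : X), y ∈ Y → (σ ^ n) y ∈ Y := by
    intro n
    induction n with
    | zero => intro y hy; simpa using hy
    | succ n ih => intro y hy; rw [pow_succ, MulAut.mul_apply]; exact ih _ ((hY y).1 hy)
  subst ha
  -- the incidence relation
  let T : G → H → Prop := fun k h => (k : X)⁻¹ * a * h ∈ Y
  have c1 : Nat.card {p : G × H // T p.1 p.2} =
      Nat.card {k : G // (k : X)⁻¹ * (a * (σ a)⁻¹) * σ k ∈ Y} * Nat.card ↥(Y ⊓ H) := by
    apply card_fiber T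
    · intro k hk
      obtain ⟨y, hy, hyk⟩ := hYL _ hk
      have hfix : σ (a⁻¹ * k * y) = a⁻¹ * k * y := by
        simp only [map_mul, map_inv]
        calc (σ a)⁻¹ * σ k * σ y = a⁻¹ * k * ((k : X)⁻¹ * (a * (σ a)⁻¹) * σ k) * σ y := by group
          _ = a⁻¹ * k * (y * (σ y)⁻¹) * σ y := by rw [hyk]
          _ = a⁻¹ * k * y := by group
      apply card_coset_fiber H Y ((k : X)⁻¹ * a) ⟨a⁻¹ * k * y, (mem1 _ _).2 hfix⟩
      have : (k : X)⁻¹ * a * (a⁻¹ * k * y) = y := by group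
      show (k : X)⁻¹ * a * (a⁻¹ * k * y) ∈ Y
      rw [this]; exact hy
    · intro k h hT
      have hh : σ (h : X) = h := (mem1 _ _).1 h.2
      have h2 : σ ((k : X)⁻¹ * a * h) ∈ Y := (hY _).1 hT
      have : (k : X)⁻¹ * (a * (σ a)⁻¹) * σ k = ((k : X)⁻¹ * a * h) * (σ ((k : X)⁻¹ * a * h))⁻¹ := by
        simp only [map_mul, map_inv, hh]; group
      rw [this]; exact Y.mul_mem hT (Y.inv_mem h2)
  have c2 : Nat.card {p : H × G // T p.2 p.1} =
      Nat.card {h : H // (h : X)⁻¹ * (((σ ^ e) a)⁻¹ * a) * h ∈ Y} * Nat.card ↥(Y ⊓ G) := by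
    apply card_fiber (fun (h : H) (k : G) => T k h)
    · intro h hh
      have hhe : (σ ^ e) (h : X) = h := (mem1 _ _).1 (hHG h.2)
      obtain ⟨c, hc, hck⟩ := hYLe _ (Y.inv_mem hh)
      -- k0 = a h c
      have hk0 : (σ ^ e) (a * h * c) = a * h * c := by
        simp only [map_mul, hhe]
        have h3 : (σ ^ e) c = ((h : X)⁻¹ * (((σ ^ e) a)⁻¹ * a) * h) * c := by
          have : ((h : X)⁻¹ * (((σ ^ e) a)⁻¹ * a) * h) = (c * ((σ ^ e) c)⁻¹)⁻¹ := by rw [← hck, inv_inv]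
          rw [this]; group
        rw [h3]; group
      -- fiber over h is in bijection with Y ⊓ G
      have e1 : {k : G // T k h} ≃ {k : G // ((a * h : X))⁻¹ * k ∈ Y} :=
        Equiv.subtypeEquivRight (fun k => by
          show (k : X)⁻¹ * a * h ∈ Y ↔ ((a * h : X))⁻¹ * k ∈ Y
          have : ((a * h : X))⁻¹ * k = ((k : X)⁻¹ * a * h)⁻¹ := by group
          rw [this, Y.inv_mem_iff])
      rw [Nat.card_congr e1]
      apply card_coset_fiber G Y ((a * h : X))⁻¹ ⟨a * h * c, (mem1 _ _).2 hk0⟩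
      have : ((a * h : X))⁻¹ * (a * h * c) = c := by group
      show ((a * h : X))⁻¹ * (a * h * c) ∈ Y
      rw [this]; exact hc
    · intro h k hT
      have hhe : (σ ^ e) (h : X) = h := (mem1 _ _).1 (hHG h.2)
      have hke : (σ ^ e) (k : X) = k := (mem1 _ _).1 k.2
      have h2 : (σ ^ e) ((k : X)⁻¹ * a * h) ∈ Y := hYe e _ hT
      have : (h : X)⁻¹ * (((σ ^ e) a)⁻¹ * a) * h = ((σ ^ e) ((k : X)⁻¹ * a * h))⁻¹ * ((k : X)⁻¹ * a * h) := by
        simp only [map_mul, map_inv, hhe, hke]; group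
      rw [this]; exact Y.mul_mem (Y.inv_mem h2) hT
  have c3 : Nat.card {p : G × H // T p.1 p.2} = Nat.card {p : H × G // T p.2 p.1} :=
    Nat.card_congr ((Equiv.prodComm G H).subtypeEquiv (fun _ => Iff.rfl))
  rw [← c1, c3, c2]
end Cfsg.Agent.S2669
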