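import Cfsg.Statements.S2677
import Cfsg.Agent.Lib.Helper4.FixCountU

set_option autoImplicit false
open Cfsg

namespace Cfsg.Agent.S2677

open Cfsg.Agent.Lib.Helper4 Cfsg.Agent.Lib.Helper4.FixCountU Cfsg.Agent.Lib.Helper4.Fix Cfsg.Agent.Lib.Helper4.PSU


/-- Centraliser of a field automorphism of odd prime order in PGU_n(q): let q = q₀^r with r an odd prime, K the field with q² elements and σ a field automorphism of K of order r (fixed field of order q₀²). The elements g of GU_n(q) whose entrywise image under σ is a scalar multiple of g — those whose coset modulo the q + 1 unitary scalars is fixed by σ — number (q + 1)/(q₀ + 1) · |GU_n(q₀)|; equivalently the centraliser in PGU_n(q) of the induced automorphism has the order of PGU_n(q₀). -/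
theorem result {K : Type*} [Field K] [Fintype K] {q₀ q r n : ℕ} (hr : r.Prime) (hr2 : r ≠ 2) (hn : 1 ≤ n) (hq : q = q₀ ^ r) (hK : Fintype.card K = q ^ 2) (σ : K ≃+* K) (hσ : orderOf σ = r) : (Nat.card {g : ↥(Cfsg.GU n K q) // ∃ c : K, c ≠ 0 ∧ ((g : GL (Fin n) K) : Matrix (Fin n) (Fin n) K).map σ = c • ((g : GL (Fin n) K) : Matrix (Fin n) (Fin n) K)} : ℤ) = ((q + 1) / (q₀ + 1) : ℕ) * ((q₀ : ℤ) ^ (n * (n - 1) / 2) * ∏ i : Fin n, ((q₀ : ℤ) ^ ((i : ℕ) + 1) - (-1) ^ ((i : ℕ) + 1))) := by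
  classical
  obtain ⟨p, hch⟩ := CharP.exists K
  have hpp : Fact p.Prime := ⟨CharP.char_is_prime K p⟩
  obtain ⟨e, hp1, he⟩ := FiniteField.card K p
  obtain ⟨f, -, hqf⟩ : ∃ f, f ≤ (e : ℕ) ∧ q = p ^ f := by
    apply (Nat.dvd_prime_pow hp1).1
    rw [← he, hK]
    exact dvd_pow_self q (by norm_num)
  obtain ⟨sig, hsig⟩ := Cfsg.Agent.Lib.Helper4.UniCount.exists_sig hK
  haveI : UC K q sig := ⟨hK, hsig⟩
  have hodd : Odd r := hr.odd_of_ne_two hr2
  have hF2 : Fintype.card K = p ^ (2 * f) := by rw [hK, hqf, ← pow_mul, mul_comm]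
  obtain ⟨hdvd, hcard⟩ := card_fixF hF2 (σ : RingAut K) hσ
  have : Fintype (fixF (σ : RingAut K)) := Fintype.ofFinite _
  have hrf : r ∣ f := (Nat.Coprime.dvd_of_dvd_mul_left (Nat.coprime_two_right.2 hodd)) hdvd
  have hF₀ : Fintype.card (fixF (σ : RingAut K)) = p ^ (2 * (f / r)) := by
    rw [← Nat.mul_div_assoc 2 hrf, ← hcard, Nat.card_eq_fintype_card]
  obtain ⟨-, σ₀, hUC, ⟨S⟩⟩ := exists_subF (σ := sig) (p := p) hqf (σ : RingAut K) hσ hodd (fixF (σ : RingAut K)) hF₀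
  have hq₀ : q₀ = p ^ (f / r) := by
    apply Nat.pow_left_injective (n := r) hr.ne_zero
    change q₀ ^ r = (p ^ (f / r)) ^ r
    rw [← pow_mul, Nat.div_mul_cancel hrf, ← hq, hqf]
  rw [← hq₀] at hUC
  haveI := hUC
  have key := card_eqU (n := n) S hn hσ hr.pos
  rw [Cfsg.Agent.Lib.Helper4.UniMat.card_GU (UC.hF (σ := σ₀)), Cfsg.Agent.Lib.Helper4.UniMat.prod_u] at key
  obtain ⟨k, hk⟩ : q₀ + 1 ∣ q + 1 := by
    have := Odd.nat_add_dvd_pow_add_pow q₀ 1 hodd
    rwa [one_pow, ← hq] at this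
  rw [hk, Nat.mul_div_cancel_left k (by omega)]
  rw [hk, mul_assoc] at key
  have key2 := Nat.eq_of_mul_eq_mul_left (by omega) key
  have hq1 : 1 ≤ q₀ := by
    rw [hq₀]; exact Nat.one_le_pow _ _ hp1.pos
  have key3 : Nat.card {g : ↥(Cfsg.GU n K q) // ∃ c : K, c ≠ 0 ∧ ((g : GL (Fin n) K) : Matrix (Fin n) (Fin n) K).map σ = c • ((g : GL (Fin n) K) : Matrix (Fin n) (Fin n) K)} = k * (q₀ ^ (n * (n - 1) / 2) * ∏ i ∈ Finset.range n, (if Even i then q₀ ^ (i + 1) + 1 else q₀ ^ (i + 1) - 1)) := key2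
  rw [key3, Finset.prod_range]
  push_cast
  congr 2
  apply Finset.prod_congr rfl
  intro i _
  have h1 : 1 ≤ q₀ ^ ((i : ℕ) + 1) := Nat.one_le_pow _ _ hq1
  split_ifs with hi
  · rw [Odd.neg_one_pow hi.add_one]
    push_cast
    ring
  · rw [Nat.not_even_iff_odd] at hi
    rw [Even.neg_one_pow hi.add_one]
    push_cast [Nat.cast_sub h1]
    ring
end Cfsg.Agent.S2677
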