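import Cfsg.Statements.S2678
import Cfsg.Agent.Lib.Helper4.QuadExt
import Cfsg.Agent.Lib.Helper5.SympAbstract
open Cfsg.Agent.Lib.Helper4.QuadExt Cfsg.Agent.Lib.Helper5.SympAbstract Cfsg.Agent.Lib.Helper5.Symp Cfsg.Agent.Lib.Helper5.SympBridge

set_option autoImplicit false
open Cfsg

namespace Cfsg.Agent.S2678



/-- Field-extension embedding of symplectic groups: for a field K with q² elements and a field F with q elements there is an injective homomorphism Sp_2a(K) → Sp_4a(F). -/
theorem result {K F : Type*} [Field K] [Fintype K] [Field F] [Fintype F] {q : ℕ} (hK : Fintype.card K = q ^ 2) (hF : Fintype.card F = q) (a : ℕ) : ∃ φ : ↥(Matrix.symplecticGroup (Fin a) K) →* ↥(Matrix.symplecticGroup (Fin (2 * a)) F), Function.Injective φ := by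
  classical
  obtain ⟨ι, hι⟩ := exists_iota hK hF
  let _ : Algebra F K := ι.toAlgebra
  obtain ⟨l, hl, -⟩ := exists_functional (K := K) (F := F) hK hF
  let B : LinearMap.BilinForm F (Fin a ⊕ Fin a → K) := ((sympB a K).restrictScalars₁₂ F F).compr₂ l
  have hBdef : ∀ u v, B u v = l (Cfsg.sympForm a K u v) := fun u v => rfl
  have hA : B.IsAlt := fun v => by rw [hBdef, sympForm_self, map_zero]
  have hB : B.Nondegenerate := by
    have hleft : ∀ u, (∀ v, B u v = 0) → u = 0 := by
      intro u hu
      apply eq_zero_of_forall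
      intro v
      apply eq_zero_of_functional hl
      intro c
      have := hu (c • v)
      rwa [hBdef, sympForm_smul_right] at this
    refine ⟨hleft, ?_⟩
    intro v hv
    apply hleft
    intro u
    have := hv u
    rw [hBdef] at this ⊢
    rw [sympForm_swap, map_neg, this, neg_zero]
  have hfin : Module.finrank F (Fin a ⊕ Fin a → K) = 2 * (2 * a) := by
    rw [finrank_pi hK hF]
    simp
    ring
  refine exists_hom_of_rep B hB hA hfin
    (fun g => (Matrix.mulVecLin g.1).restrictScalars F) ?_ ?_ ?_
  · intro g h x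
    simp [Matrix.mulVec_mulVec]
  · intro g x y
    rw [hBdef, hBdef]
    congr 1
    exact (mem_symplecticGroup_iff_preserves g.1).1 g.2 x y
  · intro g hg
    apply Subtype.ext
    apply Matrix.ext_of_mulVec_single
    intro i
    have := hg (Pi.single i 1)
    change g.1.mulVec (Pi.single i 1) = Pi.single i 1 at this
    rw [this]
    change _ = (1 : Matrix (Fin a ⊕ Fin a) (Fin a ⊕ Fin a) K).mulVec (Pi.single i 1)
    rw [Matrix.one_mulVec]
end Cfsg.Agent.S2678
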