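import Cfsg.Statements.S2679
import Cfsg.Agent.Lib.Helper4.QuadExt4
open Cfsg.Agent.Lib.Helper4.QuadExt Cfsg.Agent.Lib.Helper4.QuadExt2 Cfsg.Agent.Lib.Helper4.QuadExt3 Cfsg.Agent.Lib.Helper4.QuadExt4 Cfsg.Agent.Lib.Helper4.QuadFin Cfsg.Agent.Lib.Helper4.QuadTS

set_option autoImplicit false
open Cfsg

namespace Cfsg.Agent.S2679

open Module QuadraticMap Matrix

theorem QM_map {F K : Type*} [Field F] [Field K] (ι : F →+* K) (k : ℕ) (a c : F)
    (v : (Fin k ⊕ Fin k) ⊕ Fin 2 → F) :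
    Cfsg.quadFormMinus k K (ι a) (ι c) (ι ∘ v) = ι (Cfsg.quadFormMinus k F a c v) := by
  simp [Cfsg.quadFormMinus]

/-- base change of an isometry is an isometry -/
theorem base_change {F K : Type*} [Field F] [Field K] (ι : F →+* K) (k : ℕ) (a c : F)
    (M : Matrix ((Fin k ⊕ Fin k) ⊕ Fin 2) ((Fin k ⊕ Fin k) ⊕ Fin 2) F)
    (hM : ∀ v, Cfsg.quadFormMinus k F a c (M *ᵥ v) = Cfsg.quadFormMinus k F a c v)
    (x : (Fin k ⊕ Fin k) ⊕ Fin 2 → K) :
    Cfsg.quadFormMinus k K (ι a) (ι c) ((M.map ι) *ᵥ x) = Cfsg.quadFormMinus k K (ι a) (ι c) x := by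
  classical
  have key : ∀ v : (Fin k ⊕ Fin k) ⊕ Fin 2 → F,
      QM K k (ι a) (ι c) ((M.map ι) *ᵥ (ι ∘ v)) = QM K k (ι a) (ι c) (ι ∘ v) := by
    intro v
    have h1 : (M.map ι) *ᵥ (ι ∘ v) = ι ∘ (M *ᵥ v) := by
      funext i
      exact (RingHom.map_mulVec ι M v i).symm
    rw [h1, QM_apply, QM_apply, QM_map, QM_map, hM]
  have hs : ∀ i, (Pi.single i 1 : (Fin k ⊕ Fin k) ⊕ Fin 2 → K) = ι ∘ (Pi.single i 1) := by
    intro i
    funext j
    by_cases h : j = i
    · subst h; simp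
    · simp [h]
  have hs2 : ∀ i j, (Pi.single i 1 + Pi.single j 1 : (Fin k ⊕ Fin k) ⊕ Fin 2 → K)
      = ι ∘ (Pi.single i 1 + Pi.single j 1) := by
    intro i j
    rw [hs, hs]
    funext l
    simp
  have hQ : (QM K k (ι a) (ι c)).comp (Matrix.mulVecLin (M.map ι)) = QM K k (ι a) (ι c) := by
    apply ext_basis (Pi.basisFun K _)
    · intro i
      rw [Pi.basisFun_apply, QuadraticMap.comp_apply, Matrix.mulVecLin_apply, hs, key]
    · intro i j
      unfold polar
      rw [Pi.basisFun_apply, Pi.basisFun_apply, QuadraticMap.comp_apply, QuadraticMap.comp_apply,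
        QuadraticMap.comp_apply, Matrix.mulVecLin_apply, Matrix.mulVecLin_apply, Matrix.mulVecLin_apply,
        hs2, key, hs, hs, key, key]
  have := congrArg (fun q => q x) hQ
  simpa only [QuadraticMap.comp_apply, Matrix.mulVecLin_apply, QM_apply] using this

/-- a split "minus" form is of plus type -/
theorem split_plus {K : Type*} [Field K] [Finite K] {m : ℕ} (hm : 1 ≤ m) (a c θ θ' : K) (hne : θ' ≠ θ)
    (hs : θ + θ' = -a) (hp : θ * θ' = c) :
    ∃ g : ((Fin (m - 1) ⊕ Fin (m - 1)) ⊕ Fin 2 → K) ≃ₗ[K] (Fin m ⊕ Fin m → K),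
      ∀ v, Cfsg.quadFormMinus (m - 1) K a c v = Cfsg.quadFormPlus m K (g v) := by
  classical
  have hdisc : a ^ 2 - 4 * c ≠ 0 := by
    have h1 : a ^ 2 - 4 * c = (θ' - θ) ^ 2 := by
      have : a = -(θ + θ') := by rw [hs, neg_neg]
      rw [this, ← hp]; ring
    rw [h1]
    exact pow_ne_zero 2 (sub_ne_zero.2 hne)
  have hND := nd_QM (m - 1) a c hdisc
  have hfin : finrank K ((Fin (m - 1) ⊕ Fin (m - 1)) ⊕ Fin 2 → K) = 2 * m := by
    rw [Module.finrank_fintype_fun_eq_card]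
    simp
    omega
  rcases classify_even (QM K (m - 1) a c) hND hm hfin with ⟨g, hg⟩ | ⟨ζ, hζ, g, hg⟩
  · exact ⟨g, fun v => by rw [← QM_apply, hg]⟩
  · exfalso
    let ℓ : ((Fin (m - 1) ⊕ Fin (m - 1)) ⊕ Fin 2 → K) →ₗ[K] K :=
      LinearMap.proj (Sum.inr 0) - θ • LinearMap.proj (Sum.inr 1)
    let L := ((pY K (m - 1)).comp (qH K (m - 1))).prod ℓ
    have hdim : m ≤ finrank K (LinearMap.ker L) := by
      have h1 := LinearMap.finrank_range_add_finrank_ker L
      have h2 : finrank K (LinearMap.range L) ≤ finrank K ((Fin (m - 1) → K) × K) := Submodule.finrank_le _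
      rw [Module.finrank_prod, Module.finrank_fin_fun, Module.finrank_self] at h2
      omega
    have hts : ∀ v ∈ LinearMap.ker L, Cfsg.quadFormMinus (m - 1) K a c v = 0 := by
      intro v hv
      have h := LinearMap.mem_ker.1 hv
      have h1 : pY K (m - 1) (qH K (m - 1) v) = 0 := congrArg Prod.fst h
      have h2 : v (Sum.inr 0) - θ * v (Sum.inr 1) = 0 := congrArg Prod.snd h
      rw [minus_eq, plus_eq, h1, dotProduct_zero, zero_add]
      change v (Sum.inr 0) ^ 2 + a * v (Sum.inr 0) * v (Sum.inr 1) + c * v (Sum.inr 1) ^ 2 = 0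
      have ha : a = -(θ + θ') := by rw [hs, neg_neg]
      rw [ha, ← hp]
      linear_combination (v (Sum.inr 0) - θ' * v (Sum.inr 1)) * h2
    have hle := ts_minus_le (m - 1) 1 ζ (aniso_of_noroot hζ) ((LinearMap.ker L).map (g : _ →ₗ[K] _)) (by
      rintro _ ⟨v, hv, rfl⟩
      have := hg v
      rw [QM_apply, hts v hv] at this
      exact this.symm)
    rw [LinearEquiv.finrank_map_eq] at hle
    omega


/-- An elliptic orthogonal group embeds in the hyperbolic orthogonal group of the same dimension over the quadratic extension: for a field F with q elements and a field K with q² elements there is an injective homomorphism from O⁻_2m(F) (isometries of Σ_(j<m−1) x_j y_j + z₁² + a z₁z₂ + c z₂², binary part anisotropic) to O⁺_2m(K) (isometries of Σ_(j<m) x_j y_j over K). -/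
theorem result {F K : Type*} [Field F] [Fintype F] [Field K] [Fintype K] {q : ℕ} (hF : Fintype.card F = q) (hK : Fintype.card K = q ^ 2) {m : ℕ} (hm : 1 ≤ m) (a c : F) (hac : ∀ z₁ z₂ : F, z₁ ^ 2 + a * z₁ * z₂ + c * z₂ ^ 2 = 0 → z₁ = 0 ∧ z₂ = 0) : ∃ φ : ↥(Cfsg.isometryGroup F (Cfsg.quadFormMinus (m - 1) F a c)) →* ↥(Cfsg.isometryGroup K (Cfsg.quadFormPlus m K)), Function.Injective φ := by
  classical
  obtain ⟨ι, hι⟩ := exists_iota hK hF
  let _ : Algebra F K := ι.toAlgebra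
  have hι' : ∀ x : K, x ^ q = x ↔ x ∈ Set.range (algebraMap F K) := hι
  obtain ⟨θ, hne, hs, hp⟩ := exists_root hK hF hι' a c hac
  obtain ⟨g, hg⟩ := split_plus hm (ι a) (ι c) θ (θ ^ q) hne hs hp
  let ρ : Cfsg.isometryGroup F (Cfsg.quadFormMinus (m - 1) F a c) →*
      (((Fin (m - 1) ⊕ Fin (m - 1)) ⊕ Fin 2 → K) →ₗ[K] ((Fin (m - 1) ⊕ Fin (m - 1)) ⊕ Fin 2 → K)) :=
    { toFun := fun A => Matrix.mulVecLin (A.1.1.map ι)
      map_one' := by
        ext x
        simp
      map_mul' := by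
        intro A B
        ext x
        simp [Matrix.map_mul] }
  have hρ : ∀ A x, ρ A x = (A.1.1.map ι) *ᵥ x := fun A x => rfl
  refine exists_hom_of_equiv _ (Cfsg.quadFormMinus (m - 1) K (ι a) (ι c)) g hg ρ ?_ ?_
  · intro A x
    rw [hρ]
    exact base_change ι (m - 1) a c A.1.1 (fun v => A.2 v v) x
  · intro A hA
    apply Subtype.ext
    apply Units.ext
    apply Matrix.map_injective ι.injective
    apply Matrix.ext_of_mulVec_single
    intro i
    have := hA (Pi.single i 1)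
    rw [hρ] at this
    rw [this]
    have h1 : ((1 : (Matrix ((Fin (m - 1) ⊕ Fin (m - 1)) ⊕ Fin 2) ((Fin (m - 1) ⊕ Fin (m - 1)) ⊕ Fin 2) F)ˣ).1).map ι
        = 1 := by simp
    change _ = Matrix.mulVec (((1 : (Matrix ((Fin (m - 1) ⊕ Fin (m - 1)) ⊕ Fin 2) ((Fin (m - 1) ⊕ Fin (m - 1)) ⊕ Fin 2) F)ˣ).1).map ι) _
    rw [h1, Matrix.one_mulVec]
end Cfsg.Agent.S2679
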