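import Cfsg.Statements.S2689
import Cfsg.Agent.Lib.Helper4.PSLnAut

set_option autoImplicit false
open Cfsg

namespace Cfsg.Agent.S2689

open Cfsg.Agent.Lib.Helper4.PSLn


/-- The automorphism group of a simple projective special linear group PSL_n(F) over a finite field (n ≥ 2; |F| ≥ 4 when n = 2) is generated by the automorphisms induced by invertible semilinear maps of F^n (the image of the projective semilinear group) together with the inverse-transpose automorphism. -/
theorem result {F : Type*} [Field F] [Fintype F] {p f : ℕ} [Fact p.Prime] (hF : Fintype.card F = p ^ f) (hf : 1 ≤ f) {n : ℕ} (hn : 2 ≤ n) (hs : n = 2 → 4 ≤ Fintype.card F) :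
    Cfsg.gammaPSL n F ⊔ Cfsg.autSubgroupOf (fun β : Matrix.ProjectiveSpecialLinearGroup (Fin n) F ≃* Matrix.ProjectiveSpecialLinearGroup (Fin n) F => Cfsg.IsInverseTransposeAutPSL β) = ⊤ := by
  rw [eq_top_iff]
  intro β _
  obtain ⟨P, σ, h⟩ := aut_eq_all hn β
  have h1 : (cbar P * fbar σ : MulAut (Matrix.ProjectiveSpecialLinearGroup (Fin n) F)) ∈ Cfsg.gammaPSL n F := by
    apply Subgroup.subset_closure
    refine ⟨P, σ, fun s s' hs' => ?_⟩
    rw [MulAut.mul_apply, fbar_mk, cbar_mk]
    congr 1
    apply Subtype.ext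
    rw [hs']; rfl
  have h3 : (gbar : MulAut (Matrix.ProjectiveSpecialLinearGroup (Fin n) F)) ∈
      Cfsg.autSubgroupOf (fun β : Matrix.ProjectiveSpecialLinearGroup (Fin n) F ≃* Matrix.ProjectiveSpecialLinearGroup (Fin n) F => Cfsg.IsInverseTransposeAutPSL β) := by
    apply Subgroup.subset_closure
    intro s s' hs'
    rw [gbar_mk]
    congr 1
    apply Subtype.ext
    rw [hs']; rfl
  rcases h with h | h
  · rw [h]
    exact Subgroup.mem_sup_left h1
  · rw [h]
    exact Subgroup.mul_mem_sup h1 h3
end Cfsg.Agent.S2689
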