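import Cfsg.Statements.S2690
import Cfsg.Agent.Lib.Helper4.PSLnAut

set_option autoImplicit false
open Cfsg

namespace Cfsg.Agent.S2690

open Cfsg.Agent.Lib.Helper4.PSLn


/-- Every automorphism of a simple projective special linear group PSL_n(F) over a finite field (n ≥ 2; |F| ≥ 4 when n = 2) is a product δ φ γ of an inner-diagonal automorphism δ (induced by an invertible matrix), a standard field automorphism φ (one automorphism of F applied to every entry, possibly the identity) and γ either the identity or the inverse-transpose automorphism. -/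
theorem result {F : Type*} [Field F] [Fintype F] {p f : ℕ} [Fact p.Prime] (hF : Fintype.card F = p ^ f) (hf : 1 ≤ f) {n : ℕ} (hn : 2 ≤ n) (hs : n = 2 → 4 ≤ Fintype.card F) (β : MulAut (Matrix.ProjectiveSpecialLinearGroup (Fin n) F)) :
    ∃ (δ φ γ : MulAut (Matrix.ProjectiveSpecialLinearGroup (Fin n) F)) (σ : F ≃+* F), Cfsg.IsInnerDiagonalAutPSL δ ∧ Cfsg.IsStdFieldAutPSL σ φ ∧ (γ = 1 ∨ Cfsg.IsInverseTransposeAutPSL γ) ∧ β = δ * φ * γ := by
  obtain ⟨P, σ, h⟩ := aut_eq_all hn β
  have h1 : Cfsg.IsInnerDiagonalAutPSL (cbar P : MulAut (Matrix.ProjectiveSpecialLinearGroup (Fin n) F)) := by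
    refine ⟨P, fun s s' hs' => ?_⟩
    rw [cbar_mk]
    congr 1
    apply Subtype.ext
    rw [hs']; rfl
  have h2 : Cfsg.IsStdFieldAutPSL σ (fbar σ : MulAut (Matrix.ProjectiveSpecialLinearGroup (Fin n) F)) := by
    intro s s' hs'
    rw [fbar_mk]
    congr 1
    apply Subtype.ext
    rw [hs']; rfl
  have h3 : Cfsg.IsInverseTransposeAutPSL (gbar : MulAut (Matrix.ProjectiveSpecialLinearGroup (Fin n) F)) := by
    intro s s' hs'
    rw [gbar_mk]
    congr 1
    apply Subtype.ext
    rw [hs']; rfl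
  rcases h with h | h
  · exact ⟨cbar P, fbar σ, 1, σ, h1, h2, Or.inl rfl, by rw [mul_one]; exact h⟩
  · exact ⟨cbar P, fbar σ, gbar, σ, h1, h2, Or.inr h3, h⟩
end Cfsg.Agent.S2690
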