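import Cfsg.Statements.S2698
import Cfsg.Agent.Lib.Helper4.PSLnCent2

set_option autoImplicit false
open Cfsg

namespace Cfsg.Agent.S2698

open Cfsg.Agent.Lib.Helper4.PSLn Cfsg.Agent.Lib.Helper4.Fix


/-- Let T = PSL_n(F) be simple over the field F with p^f elements (n ≥ 2; p^f ≥ 4 when n = 2), G = Inndiag(T) the image of PGL_n(F) in Aut(T), and x a field automorphism of T of prime order r. Then r divides f; the centralizer C_G(x) is isomorphic to PGL_n(F₀) for the subfield size |F₀| = p^(f/r); and the G-class of x is the union of exactly gcd(n, (p^f − 1)/(p^(f/r) − 1)) classes under conjugation by T (the inner automorphism group). -/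
theorem result {F : Type*} [Field F] [Fintype F] {p f : ℕ} [Fact p.Prime] (hF : Fintype.card F = p ^ f) (hf : 1 ≤ f) {n : ℕ} (hn : 2 ≤ n) (hs : n = 2 → 4 ≤ Fintype.card F) (x : MulAut (Matrix.ProjectiveSpecialLinearGroup (Fin n) F)) (hx : Cfsg.IsFieldAutClassPSL x) {r : ℕ} (hr : r.Prime) (hxr : orderOf x = r) (F₀ : Type*) [Field F₀] [Fintype F₀] (hF₀ : Fintype.card F₀ = p ^ (f / r)) :
    r ∣ f ∧ Nonempty (↥(Cfsg.inndiagPSL n F ⊓ Subgroup.centralizer {x}) ≃* Matrix.ProjGenLinGroup (Fin n) F₀) ∧ Cfsg.splitClassCount (Cfsg.inndiagPSL n F) (Cfsg.Inn (Matrix.ProjectiveSpecialLinearGroup (Fin n) F)) x = Nat.gcd n ((p ^ f - 1) / (p ^ (f / r) - 1)) := by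
  classical
  obtain ⟨α, σ, hσ, h1⟩ := hx
  have h2 : α * x * α⁻¹ = x0 (σ : RingAut F) 0 := by
    rw [x0_zero]
    exact (isStdField_iff σ _).1 h1
  obtain ⟨c, hc⟩ := conj_x0 hn α x σ 0 h2
  rw [x0_zero] at hc
  subst hc
  have hord : orderOf (σ : RingAut F) = r := by
    rw [← hxr, orderOf_conj', orderOf_fbar hn]
  obtain ⟨hdvd, hcard⟩ := card_fixF hF σ hord
  have : Fintype (fixF (σ : RingAut F)) := Fintype.ofFinite _
  have hcc : Fintype.card F₀ = Fintype.card (fixF (σ : RingAut F)) := by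
    rw [hF₀, ← hcard, Nat.card_eq_fintype_card]
  let e : F₀ ≃+* fixF (σ : RingAut F) := FiniteField.ringEquivOfCardEq hcc
  let ι : F₀ →+* F := (fixF (σ : RingAut F)).subtype.comp (e : F₀ →+* fixF (σ : RingAut F))
  have hι : ∀ y : F, (σ : RingAut F) y = y ↔ ∃ t, ι t = y := by
    intro y
    constructor
    · intro hy
      refine ⟨e.symm ⟨y, (mem_fixF _ _).2 hy⟩, ?_⟩
      change ((e (e.symm ⟨y, _⟩) : fixF (σ : RingAut F)) : F) = y
      rw [RingEquiv.apply_symm_apply]
    · rintro ⟨t, rfl⟩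
      exact (mem_fixF _ _).1 (e t).2
  exact ⟨hdvd, cent_field hn σ hord hr.pos ι hι c, split_field hF hn σ hord c⟩
end Cfsg.Agent.S2698
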