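import Cfsg.Statements.S2704
import Cfsg.Agent.Lib.Helper4.PSLnCentU2

set_option autoImplicit false
open Cfsg

namespace Cfsg.Agent.S2704

open Cfsg.Agent.Lib.Helper4.PSLn Cfsg.Agent.Lib.Helper4.Fix

theorem std_form {F : Type*} [Field F] [Fintype F] {n : ℕ} (hn : 3 ≤ n)
    (x : MulAut (Matrix.ProjectiveSpecialLinearGroup (Fin n) F)) (hx : Cfsg.IsGraphFieldAutClassPSL x)
    (hx2 : orderOf x = 2) :
    ∃ (σ : RingAut F) (c : GL (Fin n) F), orderOf σ = 2 ∧ x = cbar c * (fbar σ * gbar) * (cbar c)⁻¹ := by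
  obtain ⟨-, α, φ, γ, σ, hσ, h1, h2, h3⟩ := hx
  have h4 : α * x * α⁻¹ = x0 (σ : RingAut F) 1 := by
    rw [x0_one, h3, (isStdField_iff σ _).1 h1, (isInvTranspose_iff _).1 h2]
  obtain ⟨c, hc⟩ := conj_x0 (by omega) α x σ 1 h4
  have hord : orderOf (x0 (σ : RingAut F) 1 : MulAut (Matrix.ProjectiveSpecialLinearGroup (Fin n) F)) = 2 := by
    have h6 := hx2
    rw [hc, orderOf_conj'] at h6
    exact h6
  obtain ⟨-, h5⟩ := gf_order hn σ hσ Nat.prime_two hord
  rw [x0_one] at hc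
  exact ⟨σ, c, h5, hc⟩


/-- Let T = PSL_n(F) over the field F with p^f elements, n ≥ 3, and G = Inndiag(T) the image of PGL_n(F). If x is an involutory graph-field automorphism of T then f is even; x is G-conjugate to every other involutory graph-field automorphism; C_G(x) is isomorphic to the projective general unitary group PGU_n(q₀) with q₀² = p^f, realised over F itself through the Hermitian form Σ uᵢ vᵢ^{q₀}; and the G-class of x is the union of exactly gcd(n, q₀ − 1) T-classes. -/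
theorem result {F : Type*} [Field F] [Fintype F] {p f : ℕ} [Fact p.Prime] (hF : Fintype.card F = p ^ f) (hf : 1 ≤ f) {n : ℕ} (hn : 3 ≤ n) (x : MulAut (Matrix.ProjectiveSpecialLinearGroup (Fin n) F)) (hx : Cfsg.IsGraphFieldAutClassPSL x) (hx2 : orderOf x = 2) :
    Even f ∧ (∀ y : MulAut (Matrix.ProjectiveSpecialLinearGroup (Fin n) F), Cfsg.IsGraphFieldAutClassPSL y → orderOf y = 2 → Cfsg.IsConjUnder (Cfsg.inndiagPSL n F) x y) ∧ Nonempty (↥(Cfsg.inndiagPSL n F ⊓ Subgroup.centralizer {x}) ≃* Cfsg.PGU n F (p ^ (f / 2))) ∧ Cfsg.splitClassCount (Cfsg.inndiagPSL n F) (Cfsg.Inn (Matrix.ProjectiveSpecialLinearGroup (Fin n) F)) x = Nat.gcd n (p ^ (f / 2) - 1) := by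
  classical
  obtain ⟨σ, c, hσ, rfl⟩ := std_form hn x hx hx2
  obtain ⟨hdvd, -⟩ := card_fixF hF σ hσ
  have hF2 : Fintype.card F = (p ^ (f / 2)) ^ 2 := by
    rw [hF, ← pow_mul, Nat.div_mul_cancel hdvd]
  refine ⟨even_iff_two_dvd.2 hdvd, ?_, cent_gf (by omega) hF2 σ hσ c, split_gf hF (by omega) σ hσ c⟩
  intro y hy hy2
  obtain ⟨τ, c', hτ, rfl⟩ := std_form hn y hy hy2
  rw [involution_unique hτ hσ, inndiag_eq]
  refine ⟨cbar (c' * c⁻¹), ⟨_, rfl⟩, ?_⟩
  rw [map_mul, map_inv]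
  group
end Cfsg.Agent.S2704
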