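import Cfsg.Statements.S2711
import Cfsg.Agent.Lib.Helper4.PSUp

set_option autoImplicit false
open Cfsg

namespace Cfsg.Agent.S2711

open Cfsg.Agent.Lib.Helper4 Cfsg.Agent.Lib.Helper4.PSU Cfsg.Agent.Lib.Helper4.Fix


/-- Let T = PSU_n(q) be simple (n ≥ 3, (n,q) ≠ (3,2)), realised over the field F with q² elements, and let x be a field automorphism of T (conjugate to a standard field automorphism of odd order) of prime order r. Then an element y of the coset Inndiag(T)·x (y = δ x with δ in the image of PGU_n(q)) has order r if and only if y is conjugate to x by an element of Inndiag(T). (T has no graph-field automorphisms.) -/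
theorem result {F : Type*} [Field F] [Fintype F] {p f q : ℕ} [Fact p.Prime] (hq : q = p ^ f) (hf : 1 ≤ f) (hF : Fintype.card F = q ^ 2) {n : ℕ} (hn : 3 ≤ n) (hs : ¬ (n = 3 ∧ q = 2)) (x δ : MulAut (Cfsg.PSU n F q)) (hx : Cfsg.IsFieldAutClassPSU x) {r : ℕ} (hr : r.Prime) (hxr : orderOf x = r) (hδ : δ ∈ Cfsg.inndiagPSU n F q) :
    orderOf (δ * x) = r ↔ Cfsg.IsConjUnder (Cfsg.inndiagPSU n F q) x (δ * x) := by
  classical
  obtain ⟨σ, hσ⟩ := Cfsg.Agent.Lib.Helper4.UniCount.exists_sig hF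
  haveI : UC F q σ := ⟨hF, hσ⟩
  haveI : CharP F p := charP_of hq hF
  rw [inndiag_eq (σ := σ)] at hδ ⊢
  obtain ⟨D, rfl⟩ := hδ
  constructor
  · intro h
    obtain ⟨α, φ, τ, hτ1, hτodd, hφ, hα⟩ := hx
    rw [eq_fbar_of (σ := σ) hφ] at hα
    obtain ⟨c, hc⟩ := conj_fbar (σ := σ) (p := p) hn hs α x τ hα
    have hord : orderOf (τ : RingAut F) = r := by
      rw [← hxr, hc, PSLn.orderOf_conj', orderOf_fbar (p := p) hn]
    have hodd : Odd r := hord ▸ hτodd
    have hF2 : Fintype.card F = p ^ (2 * f) := by rw [hF, hq, ← pow_mul, mul_comm]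
    obtain ⟨hdvd, hcard⟩ := card_fixF hF2 τ hord
    have : Fintype (fixF (τ : RingAut F)) := Fintype.ofFinite _
    have hrf : r ∣ f := (Nat.Coprime.dvd_of_dvd_mul_left (Nat.coprime_two_right.2 hodd)) hdvd
    have hF₀ : Fintype.card (fixF (τ : RingAut F)) = p ^ (2 * (f / r)) := by
      rw [← Nat.mul_div_assoc 2 hrf, ← hcard, Nat.card_eq_fintype_card]
    obtain ⟨-, σ₀, hUC, ⟨S⟩⟩ := exists_subF (σ := σ) (p := p) hq τ hord hodd (fixF (τ : RingAut F)) hF₀
    haveI := hUC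
    obtain ⟨B, hB⟩ := coset_conj_gen_U (σ := σ) (p := p) S (ss (σ := σ₀)) (exists_not_fixed (σ := σ₀)) hn hord hodd
      x c hc D h
    exact ⟨cbar σ B, ⟨B, rfl⟩, hB⟩
  · rintro ⟨h, -, e⟩
    rw [e, PSLn.orderOf_conj', hxr]
end Cfsg.Agent.S2711
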