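import Cfsg.Statements.S2712
import Cfsg.Agent.Lib.Helper4.PSpJ

set_option autoImplicit false
open Cfsg

namespace Cfsg.Agent.S2712

open Cfsg.Agent.Lib.Helper4 Cfsg.Agent.Lib.Helper4.PSp


/-- Let T = PSp_{2m}(F) be simple over the field F with p^f elements (m ≥ 2, (2m, |F|) ≠ (4, 2)), G = Inndiag(T) the image of the projective conformal symplectic group PGSp_{2m}(F), and x a field automorphism of T of prime order r. Then r divides f; C_G(x) is isomorphic to PGSp_{2m}(F₀) for a field F₀ with p^(f/r) elements; and the G-class of x is the union of exactly gcd(gcd(2, p^f − 1), r) T-classes. -/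
theorem result {F : Type*} [Field F] [Fintype F] {p f : ℕ} [Fact p.Prime] (hF : Fintype.card F = p ^ f) (hf : 1 ≤ f) {m : ℕ} (hm : 2 ≤ m) (hs : m = 2 → 3 ≤ Fintype.card F) (x : MulAut (Cfsg.PSp m F)) (hx : Cfsg.IsFieldAutClassPSp x) {r : ℕ} (hr : r.Prime) (hxr : orderOf x = r) (F₀ : Type*) [Field F₀] [Fintype F₀] (hF₀ : Fintype.card F₀ = p ^ (f / r)) :
    r ∣ f ∧ Nonempty (↥(Cfsg.inndiagPSp m F ⊓ Subgroup.centralizer {x}) ≃* Cfsg.PGSp m F₀) ∧ Cfsg.splitClassCount (Cfsg.inndiagPSp m F) (Cfsg.Inn (Cfsg.PSp m F)) x = Nat.gcd (Nat.gcd 2 (p ^ f - 1)) r := by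
  classical
  have hch : CharP F p := by
    obtain ⟨p', hp'⟩ := CharP.exists F
    have hp'prime : Fact p'.Prime := ⟨CharP.char_is_prime F p'⟩
    obtain ⟨n, hn1, hn2⟩ := FiniteField.card F p'
    rw [hF] at hn2
    have h1 : p ∣ p' ^ (n : ℕ) := by rw [← hn2]; exact dvd_pow_self p (by omega)
    have h2 : p ∣ p' := (Fact.out : p.Prime).dvd_of_dvd_pow h1
    have h3 : p = p' := (Nat.prime_dvd_prime_iff_eq Fact.out hn1).1 h2
    rw [h3]; exact hp'
  obtain ⟨α, τ, -, hα⟩ := hx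
  rw [isStdField_iff] at hα
  exact field_main (p := p) hF hf hm τ hr.pos α x hα hxr F₀ hF₀
end Cfsg.Agent.S2712
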