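import Cfsg.Statements.S2760
import Mathlib
import Cfsg.Agent.Lib.Helper6.Ores

set_option autoImplicit false
open Cfsg

namespace Cfsg.Agent.S2760

open Cfsg.Agent.Lib.Helper6.Basic Cfsg.Agent.Lib.Helper6.Subn Cfsg.Agent.Lib.Helper6.Quasi Cfsg.Agent.Lib.Helper6.Comp Cfsg.Agent.Lib.Helper6.Rad Cfsg.Agent.Lib.Helper6.Nil Cfsg.Agent.Lib.Helper6.FStar Cfsg.Agent.Lib.Helper6.FStar2 Cfsg.Agent.Lib.Helper6.PAct Cfsg.Agent.Lib.Helper6.CharP Cfsg.Agent.Lib.Helper6.Ores
open scoped commutatorElement Pointwise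

/-- Let G be a finite group with C_G(O₂(G)) ≤ O₂(G) and H a subgroup of G such that H is normal in G, or the subgroup O²(H) generated by the elements of H of odd order is normal in G. Then C_H(O₂(H)) ≤ O₂(H). -/
theorem result {G : Type*} [Group G] [Finite G] (hchar : Subgroup.centralizer (Cfsg.pCore 2 G : Set G) ≤ Cfsg.pCore 2 G) (H : Subgroup G) (hH : H.Normal ∨ ((Cfsg.pResidual 2 ↥H).map H.subtype).Normal) : Subgroup.centralizer (Cfsg.pCore 2 ↥H : Set ↥H) ≤ Cfsg.pCore 2 ↥H := by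
  rw [chP_top_bridge] at hchar
  rw [chP_bridge]
  rcases hH with hH | hH
  · exact hchar.sn (SN.of_normal_top hH)
  · rw [map_pResidual] at hH
    have h1 : ChP 2 (Ores 2 H) := hchar.sn (SN.of_normal_top hH)
    exact ChP.of_pquot (Ores_le 2 H) (le_Nz_Ores 2 H) h1 fun _ hx => exists_pow_mem_Ores 2 hx

end Cfsg.Agent.S2760
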