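import Cfsg.Statements.S2791
import Mathlib
import Cfsg.Agent.Lib.Helper1.AlperinTame
import Cfsg.Agent.Lib.Helper1.Transfer1
import Cfsg.Agent.Lib.Helper1.Frat
import Cfsg.Agent.Lib.Helper1.Frobenius
import Cfsg.Agent.Lib.Helper1.HallRel

set_option autoImplicit false
open Cfsg

namespace Cfsg.Agent.S2791

open Cfsg
open Cfsg.Agent.Lib.Helper1
open scoped Pointwise

theorem mem_sup_of_le_nz' {G : Type*} [Group G] {A C : Subgroup G} (h : A ≤ Subgroup.normalizer (C : Set G)) {x : G}
    (hx : x ∈ A ⊔ C) : ∃ a ∈ A, ∃ c ∈ C, x = a * c := by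
  let T : Subgroup G :=
    { carrier := {x | ∃ a ∈ A, ∃ c ∈ C, x = a * c}
      one_mem' := ⟨1, A.one_mem, 1, C.one_mem, by simp⟩
      mul_mem' := by
        rintro _ _ ⟨a, ha, c, hc, rfl⟩ ⟨a', ha', c', hc', rfl⟩
        refine ⟨a * a', A.mul_mem ha ha', (a'⁻¹ * c * a') * c', C.mul_mem ?_ hc', by group⟩
        have := (Subgroup.mem_normalizer_iff.mp (h (A.inv_mem ha')) c).mp hc
        rwa [inv_inv] at this
      inv_mem' := by
        rintro _ ⟨a, ha, c, hc, rfl⟩
        refine ⟨a⁻¹, A.inv_mem ha, a * c⁻¹ * a⁻¹, ?_, by group⟩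
        exact (Subgroup.mem_normalizer_iff.mp (h ha) c⁻¹).mp (C.inv_mem hc) }
  have hle : A ⊔ C ≤ T := sup_le (fun a ha => ⟨a, ha, 1, C.one_mem, by simp⟩)
    (fun c hc => ⟨1, A.one_mem, c, hc, by simp⟩)
  exact hle hx

def GoodN {G : Type*} [Group G] (N T : Subgroup G) : Prop :=
  ∀ y ∈ Subgroup.normalizer (T : Set G), ∃ n ∈ N, ∀ t ∈ T, y⁻¹ * t * y = n⁻¹ * t * n

theorem fusN_elim {G : Type*} [Group G] [Finite G] (N : Subgroup G) (𝓕 : Set (Subgroup G)) (c : ℕ)
    (hgood : ∀ T ∈ 𝓕, c ≤ Nat.card T → GoodN N T) (X : Set G) (g : G) (h : Fus 𝓕 X g) :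
    c ≤ X.ncard → ∃ n ∈ N, ∀ a ∈ X, g⁻¹ * a * g = n⁻¹ * a * n := by
  induction h with
  | nil A => intro _; exact ⟨1, N.one_mem, fun a _ => rfl⟩
  | cons A T x g hT hx hA h ih =>
    intro hc
    have h1 : c ≤ Nat.card T := by
      have := Set.ncard_le_ncard hA (Set.toFinite _)
      have h2 : ((T : Set G)).ncard = Nat.card T := (Nat.card_coe_set_eq _).symm
      omega
    have h2 : (cj x A).ncard = A.ncard := by
      apply Set.ncard_image_of_injective
      intro u v huv
      simpa using huv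
    obtain ⟨n1, hn1, e1⟩ := hgood T hT h1 x hx
    obtain ⟨n2, hn2, e2⟩ := ih (by rw [h2]; exact hc)
    refine ⟨n1 * n2, N.mul_mem hn1 hn2, fun a ha => ?_⟩
    have h3 := e2 (x⁻¹ * a * x) ⟨a, ha, rfl⟩
    calc (x * g)⁻¹ * a * (x * g) = g⁻¹ * (x⁻¹ * a * x) * g := by group
      _ = n2⁻¹ * (x⁻¹ * a * x) * n2 := h3
      _ = n2⁻¹ * (n1⁻¹ * a * n1) * n2 := by rw [e1 a (hA ha)]
      _ = (n1 * n2)⁻¹ * a * (n1 * n2) := by group

/-- the stabilizer of the chain `T ≥ T0 ≥ 1` in `L` -/
def chainStab {G : Type*} [Group G] (L T T0 : Subgroup G) : Subgroup G where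
  carrier := {k | k ∈ L ∧ (∀ t ∈ T, t⁻¹ * (k⁻¹ * t * k) ∈ T0) ∧ ∀ t ∈ T0, k⁻¹ * t * k = t}
  one_mem' := ⟨L.one_mem, fun t _ => by simp [T0.one_mem], fun t _ => by simp⟩
  mul_mem' := by
    rintro a b ⟨ha1, ha2, ha3⟩ ⟨hb1, hb2, hb3⟩
    refine ⟨L.mul_mem ha1 hb1, fun t ht => ?_, fun t ht => ?_⟩
    · have h1 := ha2 t ht
      have h2 := hb2 t ht
      have h3 := hb3 _ h1
      have e : t⁻¹ * ((a * b)⁻¹ * t * (a * b)) = (t⁻¹ * (b⁻¹ * t * b)) * (b⁻¹ * (t⁻¹ * (a⁻¹ * t * a)) * b) := by group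
      rw [e, h3]
      exact T0.mul_mem h2 h1
    · have e : (a * b)⁻¹ * t * (a * b) = b⁻¹ * (a⁻¹ * t * a) * b := by group
      rw [e, ha3 t ht, hb3 t ht]
  inv_mem' := by
    rintro a ⟨ha1, ha2, ha3⟩
    have hfix : ∀ t ∈ T0, a⁻¹⁻¹ * t * a⁻¹ = t := by
      intro t ht
      have := ha3 t ht
      calc a⁻¹⁻¹ * t * a⁻¹ = a * (a⁻¹ * t * a) * a⁻¹ := by rw [this, inv_inv]
        _ = t := by group
    refine ⟨L.inv_mem ha1, fun t ht => ?_, hfix⟩
    have h1 := ha2 t ht
    have h2 := hfix _ h1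
    have e : t⁻¹ * (a⁻¹⁻¹ * t * a⁻¹) = (a⁻¹⁻¹ * (t⁻¹ * (a⁻¹ * t * a)) * a⁻¹)⁻¹ := by group
    rw [e, h2]
    exact T0.inv_mem h1

/-- Let S be a Sylow p-subgroup of the finite group G and A an abelian subgroup of S that is strongly closed in S with respect to G. Then A controls strong fusion in G: for some Sylow p-subgroup T containing A, whenever a subset of T is conjugated into T by an element of G, the same elementwise conjugation is induced by an element of N_G(A). -/
theorem result {G : Type*} [Group G] [Finite G] {p : ℕ} [Fact p.Prime] (S : Sylow p G) (A : Subgroup G) (hA : IsMulCommutative ↥A) (hsc : Cfsg.IsStronglyClosed A (S : Subgroup G)) : Cfsg.ControlsStrongFusion p A := by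
  have hp : p.Prime := Fact.out
  obtain ⟨hAS, hcl⟩ := hsc
  have hcl' : ∀ x ∈ A, ∀ g : G, g⁻¹ * x * g ∈ (S : Subgroup G) → g⁻¹ * x * g ∈ A := by
    intro x hx g h
    have := hcl x hx g⁻¹ (by rwa [inv_inv])
    rwa [inv_inv] at this
  have hAab : ∀ a ∈ A, ∀ b ∈ A, a * b = b * a := fun a ha b hb =>
    congrArg Subtype.val (hA.is_comm.comm ⟨a, ha⟩ ⟨b, hb⟩)
  set NA := Subgroup.normalizer (A : Set G) with hNA
  have hSNA : (S : Subgroup G) ≤ NA := by
    intro s hs
    apply mem_normalizer_of_conj_smul_eq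
    apply Subgroup.eq_of_le_of_card_ge
    · intro x hx
      rw [mem_conj_smul] at hx
      have h1 : s * (s⁻¹ * x * s) * s⁻¹ ∈ (S : Subgroup G) :=
        (S : Subgroup G).mul_mem ((S : Subgroup G).mul_mem hs (hAS hx)) ((S : Subgroup G).inv_mem hs)
      have h2 := hcl _ hx s h1
      have e : s * (s⁻¹ * x * s) * s⁻¹ = x := by group
      rwa [e] at h2
    · rw [card_conj_smul]
  have hmain : ∀ n : ℕ, ∀ T ∈ tameFamily S, Nat.card (S : Subgroup G) - Nat.card T = n → GoodN NA T := by
    intro n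
    induction n using Nat.strong_induction_on with
    | _ n ih =>
    intro T hT hn
    have hT' := hT
    obtain ⟨Q, hTQ, htame1, -⟩ := hT'
    have hTS : T ≤ (S : Subgroup G) := hTQ ▸ inf_le_left
    set L := Subgroup.normalizer (T : Set G) with hL
    have hconjT : ∀ y ∈ L, ∀ t ∈ T, y⁻¹ * t * y ∈ T := by
      intro y hy t ht
      have := (Subgroup.mem_normalizer_iff.mp (L.inv_mem hy) t).mp ht
      rwa [inv_inv] at this
    by_cases hAT : A ≤ T
    · intro y hy
      refine ⟨y, ?_, fun t _ => rfl⟩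
      have : y⁻¹ ∈ NA := by
        apply mem_normalizer_of_conj_smul_eq
        apply Subgroup.eq_of_le_of_card_ge
        · intro x hx
          rw [mem_conj_smul, inv_inv] at hx
          have h1 := hconjT y hy _ (hAT hx)
          have h2 := hcl' _ hx y (hTS h1)
          have e : y⁻¹ * (y * x * y⁻¹) * y = x := by group
          rwa [e] at h2
        · rw [card_conj_smul]
      have := NA.inv_mem this
      rwa [inv_inv] at this
    set SL := (S : Subgroup G) ⊓ L with hSL
    have hSLL : SL ≤ L := inf_le_right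
    have hSLp : IsPGroup p SL := S.2.to_le inf_le_left
    have hSLc : Nat.card SL = p ^ (Nat.card L).factorization p := card_eq_of_not_dvd_relIndex hSLp hSLL htame1
    set T0 := T ⊓ A with hT0
    have hT0inv : ∀ y ∈ L, ∀ t ∈ T0, y⁻¹ * t * y ∈ T0 := by
      intro y hy t ht
      have h1 := hconjT y hy t ht.1
      exact ⟨h1, hcl' t ht.2 y (hTS h1)⟩
    set K := chainStab L T T0 with hK
    have hKL : K ≤ L := fun k hk => hk.1
    set C := Subgroup.centralizer (T : Set G) with hC
    have hCK : C ≤ K := by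
      intro c hc
      have hc' : ∀ t ∈ T, c⁻¹ * t * c = t := by
        intro t ht
        have := Subgroup.mem_centralizer_iff.mp hc t ht
        rw [mul_assoc, this]; group
      refine ⟨Subgroup.centralizer_le_normalizer _ hc, fun t ht => ?_, fun t ht => hc' t ht.1⟩
      rw [hc' t ht, inv_mul_cancel]; exact T0.one_mem
    -- L normalizes K
    have hLK : ∀ l ∈ L, ∀ k ∈ K, l⁻¹ * k * l ∈ K := by
      intro l hl k hk
      obtain ⟨hk1, hk2, hk3⟩ := hk
      refine ⟨L.mul_mem (L.mul_mem (L.inv_mem hl) hk1) hl, fun t ht => ?_, fun t ht => ?_⟩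
      · have h1 : l * t * l⁻¹ ∈ T := by
          have := hconjT l⁻¹ (L.inv_mem hl) t ht
          rwa [inv_inv] at this
        have h2 := hT0inv l hl _ (hk2 _ h1)
        have e : t⁻¹ * ((l⁻¹ * k * l)⁻¹ * t * (l⁻¹ * k * l)) =
            l⁻¹ * ((l * t * l⁻¹)⁻¹ * (k⁻¹ * (l * t * l⁻¹) * k)) * l := by group
        rw [e]; exact h2
      · have h1 : l * t * l⁻¹ ∈ T0 := by
          have := hT0inv l⁻¹ (L.inv_mem hl) t ht
          rwa [inv_inv] at this
        have h2 := hk3 _ h1
        calc (l⁻¹ * k * l)⁻¹ * t * (l⁻¹ * k * l) = l⁻¹ * (k⁻¹ * (l * t * l⁻¹) * k) * l := by group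
          _ = l⁻¹ * (l * t * l⁻¹) * l := by rw [h2]
          _ = t := by group
    -- K / C is a p-group
    have hT0p : IsPGroup p T0 := S.2.to_le (inf_le_left.trans hTS)
    obtain ⟨j0, hj0⟩ := IsPGroup.iff_card.mp hT0p
    have hKpow : ∀ k ∈ K, k ^ (p ^ j0) ∈ C := by
      intro k hk
      obtain ⟨hk1, hk2, hk3⟩ := hk
      have hpw : ∀ (i : ℕ), ∀ t ∈ T, (k ^ i)⁻¹ * t * k ^ i = t * (t⁻¹ * (k⁻¹ * t * k)) ^ i := by
        intro i
        induction i with
        | zero => intro t _; simp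
        | succ i ihi =>
          intro t ht
          have h1 := ihi t ht
          have h2 := hk3 _ (T0.pow_mem (hk2 t ht) i)
          calc (k ^ (i + 1))⁻¹ * t * k ^ (i + 1) = k⁻¹ * ((k ^ i)⁻¹ * t * k ^ i) * k := by
                rw [pow_succ]; group
            _ = k⁻¹ * (t * (t⁻¹ * (k⁻¹ * t * k)) ^ i) * k := by rw [h1]
            _ = (k⁻¹ * t * k) * (k⁻¹ * (t⁻¹ * (k⁻¹ * t * k)) ^ i * k) := by group
            _ = (k⁻¹ * t * k) * (t⁻¹ * (k⁻¹ * t * k)) ^ i := by rw [h2]
            _ = t * (t⁻¹ * (k⁻¹ * t * k)) ^ (i + 1) := by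
                rw [pow_succ', ← mul_assoc t, mul_inv_cancel_left]
      rw [hC, Subgroup.mem_centralizer_iff]
      intro t ht
      have h1 := hpw (p ^ j0) t ht
      have h2 : (t⁻¹ * (k⁻¹ * t * k)) ^ (p ^ j0) = 1 := by
        have := pow_card_eq_one' (G := T0) (x := ⟨_, hk2 t ht⟩)
        rw [hj0] at this
        exact congrArg Subtype.val this
      rw [h2, mul_one] at h1
      calc t * k ^ p ^ j0 = k ^ p ^ j0 * ((k ^ p ^ j0)⁻¹ * t * k ^ p ^ j0) := by group
        _ = k ^ p ^ j0 * t := by rw [h1]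
    -- KS is Sylow in K
    set KS := (S : Subgroup G) ⊓ K with hKS
    have hKSK : KS ≤ K := inf_le_right
    have hKSp : IsPGroup p KS := S.2.to_le inf_le_left
    have hKSc : Nat.card KS = p ^ (Nat.card K).factorization p := by
      have h1 : IsPGroup p (KS.subgroupOf K) := hKSp.comap_subtype
      obtain ⟨R', hR'⟩ := h1.exists_le_sylow
      set R := (R' : Subgroup K).map K.subtype with hR
      have hRK : R ≤ K := Subgroup.map_subtype_le _
      have hRc : Nat.card R = p ^ (Nat.card K).factorization p := by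
        rw [hR, Subgroup.card_map_of_injective K.subtype_injective]
        exact R'.card_eq_multiplicity
      have hRp : IsPGroup p R := IsPGroup.of_card hRc
      have hKSR : KS ≤ R := by
        intro x hx
        exact ⟨⟨x, hKSK hx⟩, hR' (by rw [Subgroup.mem_subgroupOf]; exact hx), rfl⟩
      obtain ⟨l, hl, hRl⟩ := sylow_dominance_in L SL R hSLL (hRK.trans hKL) hSLc hRp
      have h2 : MulAut.conj l⁻¹ • R ≤ KS := by
        intro x hx
        rw [mem_conj_smul, inv_inv] at hx
        have h3 := hRl hx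
        rw [mem_conj_smul] at h3
        have e : l⁻¹ * (l * x * l⁻¹) * l = x := by group
        rw [e] at h3
        have h4 := hLK l hl _ (hRK hx)
        rw [e] at h4
        exact ⟨h3.1, h4⟩
      have h3 := Subgroup.card_le_of_le h2
      rw [card_conj_smul] at h3
      rw [← hRc]
      exact le_antisymm (Subgroup.card_le_of_le hKSR) h3
    -- K = KS * C
    have hKSnC : KS ≤ Subgroup.normalizer (C : Set G) := by
      intro s hs
      have hsL : s ∈ L := hKL (hKSK hs)
      have key : ∀ l ∈ L, ∀ c ∈ C, l * c * l⁻¹ ∈ C := by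
        intro l hl c hc
        rw [hC, Subgroup.mem_centralizer_iff]
        intro t ht
        have h1 := hconjT l hl t ht
        have h2 := Subgroup.mem_centralizer_iff.mp hc _ h1
        calc t * (l * c * l⁻¹) = l * ((l⁻¹ * t * l) * c) * l⁻¹ := by group
          _ = l * (c * (l⁻¹ * t * l)) * l⁻¹ := by rw [h2]
          _ = l * c * l⁻¹ * t := by group
      rw [Subgroup.mem_normalizer_iff]
      intro c
      constructor
      · exact key s hsL c
      · intro h
        have := key s⁻¹ (L.inv_mem hsL) _ h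
        have e : s⁻¹ * (s * c * s⁻¹) * s⁻¹⁻¹ = c := by group
        rwa [e] at this
    have hsup : KS ⊔ C = K := by
      have hle : KS ⊔ C ≤ K := sup_le hKSK hCK
      have h1 : (KS ⊔ C).relIndex K ∣ KS.relIndex K := Subgroup.relIndex_dvd_of_le_left _ le_sup_left
      have h2 : (KS ⊔ C).relIndex K ∣ C.relIndex K := Subgroup.relIndex_dvd_of_le_left _ le_sup_right
      have h3 : ¬ p ∣ KS.relIndex K := not_dvd_relIndex_of_card_eq hKSK hKSc
      haveI hCn : (C.subgroupOf K).Normal := by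
        constructor
        intro c hc k
        rw [Subgroup.mem_subgroupOf] at hc ⊢
        have hkL : (k : G) ∈ L := hKL k.2
        rw [hC, Subgroup.mem_centralizer_iff]
        intro t ht
        have h1 := hconjT k hkL t ht
        have h2 := Subgroup.mem_centralizer_iff.mp hc _ h1
        simp only [Subgroup.coe_mul, Subgroup.coe_inv]
        calc t * ((k : G) * c * (k : G)⁻¹) = k * (((k : G)⁻¹ * t * k) * c) * (k : G)⁻¹ := by group
          _ = k * (c * ((k : G)⁻¹ * t * k)) * (k : G)⁻¹ := by rw [h2]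
          _ = (k : G) * c * (k : G)⁻¹ * t := by group
      have hq : IsPGroup p (K ⧸ C.subgroupOf K) := by
        intro x
        obtain ⟨x, rfl⟩ := QuotientGroup.mk_surjective x
        refine ⟨j0, ?_⟩
        rw [← QuotientGroup.mk_pow, QuotientGroup.eq_one_iff, Subgroup.mem_subgroupOf]
        exact hKpow x x.2
      obtain ⟨k, hk⟩ := IsPGroup.iff_card.mp hq
      have h4 : C.relIndex K = p ^ k := by
        rw [Subgroup.relIndex, Subgroup.index_eq_card, hk]
      rw [h4] at h2
      have h5 : (KS ⊔ C).relIndex K = 1 :=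
        Nat.eq_one_of_dvd_coprimes (Nat.Coprime.pow_right k ((Nat.Prime.coprime_iff_not_dvd hp).mpr h3).symm) h1 h2
      exact le_antisymm hle (Subgroup.relIndex_eq_one.mp h5)
    -- an element of A in KS outside T
    have hTA : T < T ⊔ A := by
      refine lt_of_le_of_ne le_sup_left ?_
      intro h
      exact hAT (h ▸ le_sup_right)
    have hTAp : IsPGroup p (T ⊔ A : Subgroup G) := S.2.to_le (sup_le hTS hAS)
    obtain ⟨w, hw, hwT⟩ := SetLike.exists_of_lt (lt_inf_normalizer_of_lt hTAp hTA)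
    obtain ⟨t0, ht0, a, ha, rfl⟩ := mem_sup_of_le_nz' (hTS.trans hSNA) hw.1
    have haL : a ∈ L := by
      have := L.mul_mem (L.inv_mem (Subgroup.le_normalizer ht0)) hw.2
      rwa [inv_mul_cancel_left] at this
    have haT : a ∉ T := fun h => hwT (T.mul_mem ht0 h)
    have haK : a ∈ K := by
      refine ⟨haL, fun t ht => ⟨T.mul_mem (T.inv_mem ht) (hconjT a haL t ht), ?_⟩, fun t ht => ?_⟩
      · have h1 : t⁻¹ * a⁻¹ * t ∈ A := by
          have := (Subgroup.mem_normalizer_iff.mp (NA.inv_mem (hSNA (hTS ht))) a⁻¹).mp (A.inv_mem ha)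
          rwa [inv_inv] at this
        have e : t⁻¹ * (a⁻¹ * t * a) = (t⁻¹ * a⁻¹ * t) * a := by group
        rw [e]; exact A.mul_mem h1 ha
      · rw [mul_assoc, hAab t ht.2 a ha]; group
    have haKS : a ∈ KS := ⟨hAS ha, haK⟩
    set T1 := T ⊔ KS with hT1
    have hTT1 : T < T1 := by
      refine lt_of_le_of_ne le_sup_left ?_
      intro h
      exact haT (h ▸ Subgroup.mem_sup_right haKS)
    have hT1S : T1 ≤ (S : Subgroup G) := sup_le hTS inf_le_left
    have hcardlt : Nat.card T < Nat.card T1 := by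
      by_contra hge
      push Not at hge
      exact hTT1.ne (Subgroup.eq_of_le_of_card_ge hTT1.le hge)
    intro y hy
    -- Frattini
    have hyKS : MulAut.conj y⁻¹ • KS ≤ K := by
      intro x hx
      rw [mem_conj_smul, inv_inv] at hx
      have := hLK y hy _ (hKSK hx)
      have e : y⁻¹ * (y * x * y⁻¹) * y = x := by group
      rwa [e] at this
    obtain ⟨k, hk, hk2⟩ := sylow_conj_in K KS (MulAut.conj y⁻¹ • KS) hKSK hyKS hKSc (by rw [card_conj_smul]; exact hKSc)
    have hm : y * k ∈ Subgroup.normalizer (KS : Set G) := by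
      apply mem_normalizer_of_conj_smul_eq
      rw [← conj_smul_smul, hk2, conj_smul_smul, mul_inv_cancel, map_one, one_smul]
    have hk' : k⁻¹ ∈ KS ⊔ C := by rw [hsup]; exact K.inv_mem hk
    obtain ⟨s, hs, c, hc, hsc'⟩ := mem_sup_of_le_nz' hKSnC hk'
    set m := y * k * s with hmdef
    have hmKS : m ∈ Subgroup.normalizer (KS : Set G) := Subgroup.mul_mem _ hm (Subgroup.le_normalizer hs)
    have hmL : m ∈ L := L.mul_mem (L.mul_mem hy (hKL hk)) (hKL (hKSK hs))
    have hym : y = m * c := by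
      rw [hmdef, mul_assoc, ← hsc']; group
    have hmT1 : ∀ x ∈ T1, m⁻¹ * x * m ∈ T1 := by
      have hle : T1 ≤ MulAut.conj m • T1 := by
        rw [hT1]
        apply sup_le
        · intro x hx
          rw [mem_conj_smul]
          exact Subgroup.mem_sup_left (hconjT m hmL x hx)
        · intro x hx
          rw [mem_conj_smul]
          have := (Subgroup.mem_normalizer_iff.mp (Subgroup.inv_mem _ hmKS) x).mp hx
          rw [inv_inv] at this
          exact Subgroup.mem_sup_right this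
      intro x hx
      have := hle hx
      rwa [mem_conj_smul] at this
    have hfus : Fus (tameFamily S) (T1 : Set G) m := by
      apply alperin_tame S
      · intro x hx; exact hT1S hx
      · rintro _ ⟨x, hx, rfl⟩
        exact hT1S (hmT1 x hx)
    obtain ⟨n', hn', hn'e⟩ := fusN_elim NA (tameFamily S) (Nat.card T1) (by
      intro T' hT' hc
      have hT'S : T' ≤ (S : Subgroup G) := by
        obtain ⟨Q', hQ', -⟩ := hT'
        exact hQ' ▸ inf_le_left
      have h1 := Subgroup.card_le_of_le hT'S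
      have h2 := Subgroup.card_le_of_le hTS
      exact ih (Nat.card (S : Subgroup G) - Nat.card T') (by omega) T' hT' rfl) (T1 : Set G) m hfus
      (le_of_eq (Nat.card_coe_set_eq _))
    refine ⟨n', hn', fun t ht => ?_⟩
    rw [← hn'e t (hTT1.le ht), hym]
    have h1 := hconjT m hmL t ht
    have h2 := Subgroup.mem_centralizer_iff.mp hc _ h1
    calc (m * c)⁻¹ * t * (m * c) = c⁻¹ * ((m⁻¹ * t * m) * c) := by group
      _ = c⁻¹ * (c * (m⁻¹ * t * m)) := by rw [h2]
      _ = m⁻¹ * t * m := by group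
  refine ⟨S, hAS, fun X hX => ⟨hX, fun g hg => ?_⟩⟩
  have hfus : Fus (tameFamily S) X g⁻¹ := by
    apply alperin_tame S X g⁻¹ hX
    rintro _ ⟨a, ha, rfl⟩
    have := hg ⟨a, ha, rfl⟩
    simpa using this
  obtain ⟨n, hn, hne⟩ := fusN_elim NA (tameFamily S) 0 (fun T hT _ => hmain _ T hT rfl) X g⁻¹ hfus (Nat.zero_le _)
  refine ⟨n⁻¹, NA.inv_mem hn, fun a ha => ?_⟩
  have := hne a ha
  rw [inv_inv] at this
  rw [this, inv_inv]

end Cfsg.Agent.S2791
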