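import Cfsg.Statements.S3375

set_option autoImplicit false
open Cfsg

namespace Cfsg.Agent.S3375

/-- on an invariant subgroup of index two, an involutory automorphism with two fixed points inverts. -/
theorem main {H : Type*} [Group H] [Finite H] (γ : MulAut H) (hγ2 : ∀ h, γ (γ h) = h)
    (hfix : Nat.card {h : H // γ h = h} = 2) (M : Subgroup H) (hM : M.index = 2)
    (hinv : ∀ h, h ∈ M ↔ γ h ∈ M) : ∀ m ∈ M, γ m = m⁻¹ := by
  classical
  haveI : Fintype H := Fintype.ofFinite H
  let f : H → H := fun h => h⁻¹ * γ h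
  have hfM : ∀ h, f h ∈ M := by
    intro h
    show h⁻¹ * γ h ∈ M
    rw [Subgroup.mul_mem_iff_of_index_two hM, inv_mem_iff]
    exact hinv h
  have hfib : ∀ b ∈ (Finset.univ : Finset H).image f,
      ((Finset.univ : Finset H).filter (fun a => f a = b)).card ≤ 2 := by
    intro b hb
    obtain ⟨h₀, -, rfl⟩ := Finset.mem_image.1 hb
    have h2 : ((Finset.univ : Finset H).filter (fun c => γ c = c)).card = 2 := by
      rw [← hfix, Nat.card_eq_fintype_card, Fintype.card_subtype]
    rw [← h2]
    apply Finset.card_le_card_of_injOn (fun x => x * h₀⁻¹)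
    · intro x hx
      have hx' : x⁻¹ * γ x = h₀⁻¹ * γ h₀ := (Finset.mem_filter.1 hx).2
      simp only [Finset.coe_filter, Finset.mem_univ, true_and, Set.mem_setOf_eq]
      rw [map_mul, map_inv]
      have h3 : γ x = x * (h₀⁻¹ * γ h₀) := by rw [← hx', mul_inv_cancel_left]
      rw [h3]
      group
    · intro x _ y _ hxy
      exact mul_right_cancel hxy
  have h1 := Finset.card_le_mul_card_image (f := f) (Finset.univ : Finset H) 2 hfib
  have hMc : Nat.card H = 2 * Nat.card M := by
    rw [← hM, mul_comm, Subgroup.card_mul_index]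
  have hsub : (Finset.univ : Finset H).image f ⊆ (Finset.univ : Finset H).filter (fun x => x ∈ M) := by
    intro x hx
    obtain ⟨h, -, rfl⟩ := Finset.mem_image.1 hx
    exact Finset.mem_filter.2 ⟨Finset.mem_univ _, hfM h⟩
  have hMc' : ((Finset.univ : Finset H).filter (fun x => x ∈ M)).card = Nat.card M := by
    rw [Nat.card_eq_fintype_card, Fintype.card_subtype]
  have heq : (Finset.univ : Finset H).image f = (Finset.univ : Finset H).filter (fun x => x ∈ M) := by
    apply Finset.eq_of_subset_of_card_le hsub
    rw [hMc']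
    rw [Finset.card_univ, ← Nat.card_eq_fintype_card, hMc] at h1
    omega
  intro m hm
  have : m ∈ (Finset.univ : Finset H).image f := by
    rw [heq]
    exact Finset.mem_filter.2 ⟨Finset.mem_univ _, hm⟩
  obtain ⟨h, -, rfl⟩ := Finset.mem_image.1 this
  show γ (h⁻¹ * γ h) = (h⁻¹ * γ h)⁻¹
  rw [map_mul, map_inv, hγ2, mul_inv_rev, inv_inv]

/-- Let γ be an automorphism of order 2 of a finite group H. (i) If γ fixes only the identity, then H is abelian and γ inverts every element. (ii) If γ has exactly two fixed points and H has a subgroup of index 2, then H has a γ-invariant abelian subgroup of index 2 on which γ acts by inversion. -/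
theorem result {H : Type*} [Group H] [Finite H] (γ : MulAut H) (hγ : orderOf γ = 2) :
    ((∀ h : H, γ h = h → h = 1) → (∀ a b : H, a * b = b * a) ∧ ∀ h : H, γ h = h⁻¹) ∧
    ((Nat.card {h : H // γ h = h} = 2 ∧ ∃ M : Subgroup H, M.index = 2) →
      ∃ A : Subgroup H, A.index = 2 ∧ IsMulCommutative A ∧ (∀ a ∈ A, γ a ∈ A) ∧ ∀ a ∈ A, γ a = a⁻¹) := by
  have hγ2 : ∀ h, γ (γ h) = h := by
    intro h
    have : γ ^ 2 = 1 := by rw [← hγ]; exact pow_orderOf_eq_one γ
    have h2 := congrArg (fun e : MulAut H => e h) this
    simpa [pow_two] using h2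
  constructor
  · intro hf
    have hfpf : MonoidHom.FixedPointFree γ := hf
    have hinvol : Function.Involutive γ := hγ2
    refine ⟨fun a b => (hfpf.commute_all_of_involutive hinvol a b), fun h => ?_⟩
    exact congrFun (hfpf.coe_eq_inv_of_involutive hinvol) h
  · rintro ⟨hfix, M, hM⟩
    obtain ⟨M₁, hM₁, hinv⟩ : ∃ M₁ : Subgroup H, M₁.index = 2 ∧ ∀ h, h ∈ M₁ ↔ γ h ∈ M₁ := by
      by_cases hc : ∀ h, h ∈ M ↔ γ h ∈ M
      · exact ⟨M, hM, hc⟩
      · rw [not_forall] at hc
        obtain ⟨a, ha⟩ := hc
        let K : Subgroup H :=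
          { carrier := {h | h ∈ M ↔ γ h ∈ M}
            one_mem' := by simp [M.one_mem]
            mul_mem' := by
              intro x y hx hy
              simp only [Set.mem_setOf_eq] at hx hy ⊢
              rw [map_mul, Subgroup.mul_mem_iff_of_index_two hM,
                Subgroup.mul_mem_iff_of_index_two hM, hx, hy]
            inv_mem' := by
              intro x hx
              simp only [Set.mem_setOf_eq] at hx ⊢
              rw [map_inv, inv_mem_iff, inv_mem_iff]
              exact hx }
        have hK : ∀ h, h ∈ K ↔ (h ∈ M ↔ γ h ∈ M) := fun h => Iff.rfl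
        refine ⟨K, ?_, ?_⟩
        · rw [Subgroup.index_eq_two_iff]
          refine ⟨a, fun b => ?_⟩
          rw [hK, hK, map_mul, Subgroup.mul_mem_iff_of_index_two hM,
            Subgroup.mul_mem_iff_of_index_two hM]
          unfold Xor
          tauto
        · intro h
          rw [hK, hK, hγ2]
          tauto
    have hmain := main γ hγ2 hfix M₁ hM₁ hinv
    refine ⟨M₁, hM₁, ?_, fun a ha => (hinv a).1 ha, hmain⟩
    constructor
    constructor
    rintro ⟨a, ha⟩ ⟨b, hb⟩
    apply Subtype.ext
    show a * b = b * a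
    have h1 := hmain (a * b) (M₁.mul_mem ha hb)
    rw [map_mul, hmain a ha, hmain b hb, mul_inv_rev] at h1
    have h2 := congrArg (fun z => z⁻¹) h1
    simp only [mul_inv_rev, inv_inv] at h2
    exact h2.symm

end Cfsg.Agent.S3375
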