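import Cfsg.Statements.S3379
import Mathlib

set_option autoImplicit false
open Cfsg

namespace Cfsg.Agent.S3379

open scoped IsMulCommutative in
theorem cyclic_of_comm_z {B : Type*} [Group B] [Finite B] [IsZGroup B] [IsMulCommutative B] :
    IsCyclic B := inferInstance

/-- Let G be a finite group all of whose Sylow subgroups are cyclic. Then G is generated by two elements x and y of coprime orders n and m with x⁻¹yx = y^r, where gcd(r − 1, m) = 1 and r^n ≡ 1 (mod m). -/
theorem result {G : Type*} [Group G] [Finite G]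
    (hZ : ∀ (p : ℕ) [Fact p.Prime] (P : Sylow p G), IsCyclic (P : Subgroup G)) :
    ∃ (x y : G) (n m r : ℕ), Subgroup.closure {x, y} = ⊤ ∧ orderOf x = n ∧ orderOf y = m ∧
      x⁻¹ * y * x = y ^ r ∧ Nat.Coprime (r - 1) m ∧ Nat.Coprime n m ∧ 1 ≤ r ∧ r ^ n % m = 1 % m := by
  haveI : IsZGroup G := ⟨fun p hp P => by haveI := Fact.mk hp; exact hZ p P⟩
  haveI hDc := IsZGroup.isCyclic_commutator G
  have hcop := IsZGroup.coprime_commutator_index (G := G)
  have hDn : (commutator G).Normal := inferInstance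
  obtain ⟨⟨y, hyD⟩, hgen⟩ := IsCyclic.exists_generator (α := commutator G)
  have hyo : orderOf y = Nat.card (commutator G) := by
    rw [← orderOf_eq_card_of_forall_mem_zpowers hgen, Subgroup.orderOf_mk]
  have hgen' : ∀ d ∈ commutator G, ∃ i : ℤ, y ^ i = d := by
    intro d hd
    obtain ⟨i, hi⟩ := Subgroup.mem_zpowers_iff.1 (hgen ⟨d, hd⟩)
    exact ⟨i, congrArg Subtype.val hi⟩
  obtain ⟨B, hB⟩ := Subgroup.exists_right_complement'_of_coprime hcop
  have hBcard : (commutator G).index = Nat.card B := hB.symm.index_eq_card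
  haveI : IsMulCommutative B := by
    refine ⟨⟨fun a b => ?_⟩⟩
    have h3 : (a : G) * b * (a : G)⁻¹ * (b : G)⁻¹ ∈ commutator G := by
      rw [commutator_def]
      exact Subgroup.commutator_mem_commutator (Subgroup.mem_top _) (Subgroup.mem_top _)
    have h4 : (a : G) * b * (a : G)⁻¹ * (b : G)⁻¹ ∈ B :=
      mul_mem (mul_mem (mul_mem a.2 b.2) (inv_mem a.2)) (inv_mem b.2)
    have h5 : (a : G) * b * (a : G)⁻¹ * (b : G)⁻¹ ∈ (commutator G ⊓ B : Subgroup G) := ⟨h3, h4⟩
    rw [hB.disjoint.eq_bot, Subgroup.mem_bot] at h5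
    have : (a : G) * b = ((a : G) * b * (a : G)⁻¹ * (b : G)⁻¹) * (b * a) := by group
    rw [h5, one_mul] at this
    exact Subtype.ext this
  haveI hBc : IsCyclic B := cyclic_of_comm_z
  obtain ⟨⟨x, hxB⟩, hgenB⟩ := IsCyclic.exists_generator (α := B)
  have hxo : orderOf x = Nat.card B := by
    rw [← orderOf_eq_card_of_forall_mem_zpowers hgenB, Subgroup.orderOf_mk]
  have hgenB' : ∀ b ∈ B, ∃ i : ℤ, x ^ i = b := by
    intro b hb
    obtain ⟨i, hi⟩ := Subgroup.mem_zpowers_iff.1 (hgenB ⟨b, hb⟩)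
    exact ⟨i, congrArg Subtype.val hi⟩
  have hdecomp : ∀ g : G, ∃ i j : ℤ, g = y ^ i * x ^ j := by
    intro g
    have hmem : g ∈ ((commutator G ⊔ B : Subgroup G) : Set G) := by
      rw [hB.sup_eq_top]; trivial
    rw [Subgroup.normal_mul] at hmem
    obtain ⟨d, hd, b, hb, rfl⟩ := hmem
    obtain ⟨i, rfl⟩ := hgen' d hd
    obtain ⟨j, rfl⟩ := hgenB' b hb
    exact ⟨i, j, rfl⟩
  have hconj : x⁻¹ * y * x ∈ Subgroup.zpowers y := by
    have h1 := hDn.conj_mem y hyD x⁻¹
    rw [inv_inv] at h1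
    obtain ⟨i, hi⟩ := hgen' _ h1
    exact Subgroup.mem_zpowers_iff.2 ⟨i, hi⟩
  rw [← mem_powers_iff_mem_zpowers] at hconj
  obtain ⟨r0, hr0⟩ := hconj
  have hr0 : y ^ r0 = x⁻¹ * y * x := hr0
  have hmpos : 0 < orderOf y := orderOf_pos y
  have hr : x⁻¹ * y * x = y ^ (r0 + orderOf y) := by
    rw [pow_add, pow_orderOf_eq_one, mul_one, hr0]
  refine ⟨x, y, orderOf x, orderOf y, r0 + orderOf y, ?_, rfl, rfl, hr, ?_, ?_, by omega, ?_⟩
  · rw [eq_top_iff]
    intro g _
    obtain ⟨i, j, rfl⟩ := hdecomp g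
    exact mul_mem (Subgroup.zpow_mem _ (Subgroup.subset_closure (by simp)) i)
      (Subgroup.zpow_mem _ (Subgroup.subset_closure (by simp)) j)
  · set r := r0 + orderOf y with hrdef
    haveI hTn : (Subgroup.zpowers (y ^ (r - 1))).Normal := by
      constructor
      intro u hu h
      obtain ⟨j, rfl⟩ := Subgroup.mem_zpowers_iff.1 hu
      obtain ⟨k, hk⟩ := hgen' _ (hDn.conj_mem y hyD h)
      have e1 : h * (y ^ (r - 1)) ^ j * h⁻¹ = (y ^ (r - 1)) ^ (k * j) := by
        rw [← conj_zpow, ← conj_pow, ← hk, ← zpow_natCast, ← zpow_natCast, ← zpow_mul, ← zpow_mul,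
          ← zpow_mul]
        congr 1; ring
      rw [e1]
      exact Subgroup.zpow_mem _ (Subgroup.mem_zpowers _) _
    have hcomm : IsMulCommutative (G ⧸ Subgroup.zpowers (y ^ (r - 1))) := by
      have hXY : Commute (QuotientGroup.mk x : G ⧸ Subgroup.zpowers (y ^ (r - 1)))
          (QuotientGroup.mk y) := by
        have h1 : (QuotientGroup.mk (y ^ (r - 1)) : G ⧸ Subgroup.zpowers (y ^ (r - 1))) = 1 :=
          (QuotientGroup.eq_one_iff _).2 (Subgroup.mem_zpowers _)
        have h2 : y ^ r = y * y ^ (r - 1) := by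
          rw [← pow_succ']; congr 1; omega
        have h3 : (QuotientGroup.mk (x⁻¹ * y * x) : G ⧸ Subgroup.zpowers (y ^ (r - 1))) =
            QuotientGroup.mk y := by
          rw [hr, h2, QuotientGroup.mk_mul, h1, mul_one]
        rw [QuotientGroup.mk_mul, QuotientGroup.mk_mul, QuotientGroup.mk_inv] at h3
        have h4 : (QuotientGroup.mk x : G ⧸ Subgroup.zpowers (y ^ (r - 1))) * QuotientGroup.mk y =
            QuotientGroup.mk y * QuotientGroup.mk x := by
          nth_rewrite 1 [← h3]; group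
        exact h4
      refine ⟨⟨fun a b => ?_⟩⟩
      obtain ⟨a, rfl⟩ := QuotientGroup.mk_surjective a
      obtain ⟨b, rfl⟩ := QuotientGroup.mk_surjective b
      obtain ⟨i, j, rfl⟩ := hdecomp a
      obtain ⟨k, l, rfl⟩ := hdecomp b
      rw [QuotientGroup.mk_mul, QuotientGroup.mk_mul, QuotientGroup.mk_zpow, QuotientGroup.mk_zpow,
        QuotientGroup.mk_zpow, QuotientGroup.mk_zpow]
      have c1 := (Commute.refl (QuotientGroup.mk y : G ⧸ Subgroup.zpowers (y ^ (r - 1)))).zpow_zpow i k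
      have c2 := (hXY.symm).zpow_zpow i l
      have c3 := hXY.zpow_zpow j k
      have c4 := (Commute.refl (QuotientGroup.mk x : G ⧸ Subgroup.zpowers (y ^ (r - 1)))).zpow_zpow j l
      exact (c1.mul_right c2).mul_left (c3.mul_right c4)
    have hle := Subgroup.Normal.quotient_commutative_iff_commutator_le.1 hcomm
    obtain ⟨k, hk⟩ := Subgroup.mem_zpowers_iff.1 (hle hyD)
    have h1 : y ^ (((r - 1 : ℕ) : ℤ) * k - 1) = 1 := by
      rw [zpow_sub, zpow_mul, zpow_natCast, hk, zpow_one, mul_inv_cancel]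
    obtain ⟨c, hc⟩ := orderOf_dvd_iff_zpow_eq_one.2 h1
    apply Nat.isCoprime_iff_coprime.1
    exact ⟨k, -c, by linear_combination hc⟩
  · rw [hxo, hyo, ← hBcard]
    exact hcop.symm
  · have hpow : ∀ i : ℕ, (x ^ i)⁻¹ * y * x ^ i = y ^ ((r0 + orderOf y) ^ i) := by
      intro i
      induction i with
      | zero => simp
      | succ i ih =>
        have e1 : (x ^ (i + 1))⁻¹ * y * x ^ (i + 1) = x⁻¹ * ((x ^ i)⁻¹ * y * x ^ i) * x := by
          rw [pow_succ]; group
        have e2 : x⁻¹ * y ^ ((r0 + orderOf y) ^ i) * x = (x⁻¹ * y * x) ^ ((r0 + orderOf y) ^ i) := by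
          have := conj_pow (a := x⁻¹) (b := y) (i := (r0 + orderOf y) ^ i)
          rw [inv_inv] at this
          exact this.symm
        rw [e1, ih, e2, hr, ← pow_mul, pow_succ']
    have h1 := hpow (orderOf x)
    rw [pow_orderOf_eq_one] at h1
    have h2 : y ^ ((r0 + orderOf y) ^ orderOf x) = y ^ 1 := by
      rw [← h1]; simp
    exact pow_eq_pow_iff_modEq.1 h2

end Cfsg.Agent.S3379
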