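import Cfsg.Statements.S3733
import Cfsg.Agent.Lib.Helper3.Avg
open Cfsg.Agent.Lib.Helper3

set_option autoImplicit false
open Cfsg

namespace Cfsg.Agent.S3733

/-- Let A and V be subgroups of a finite group with V abelian and nontrivial and A normalizing V. Suppose a nonempty finite family of proper subgroups of A partitions A: every non-identity element of A lies in exactly one member. If the number of members minus one is coprime to the order of V, then some member B of the family has a non-identity fixed point on V, that is V ∩ C(B) ≠ 1. -/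
theorem result {G : Type*} [Group G] [Finite G] (A V : Subgroup G) (hVab : IsMulCommutative V) (hV : V ≠ ⊥) (hAV : A ≤ Subgroup.normalizer (V : Set G)) (𝒜 : Finset (Subgroup G)) (hne : 𝒜.Nonempty) (hprop : ∀ B ∈ 𝒜, B < A) (hpart : ∀ a ∈ A, a ≠ 1 → ∃! B, B ∈ 𝒜 ∧ a ∈ B) (hk : (𝒜.card - 1).Coprime (Nat.card V)) : ∃ B ∈ 𝒜, V ⊓ Subgroup.centralizer (B : Set G) ≠ ⊥ := by
  classical
  letI : CommGroup V := Avg.cg V hVab
  letI : MulDistribMulAction A V := Avg.act A V hAV
  haveI : Nontrivial V := (Subgroup.nontrivial_iff_ne_bot V).2 hV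
  have hinj : Set.InjOn (fun B : Subgroup G => B.subgroupOf A) (𝒜 : Set (Subgroup G)) := by
    intro B hB C hC h
    have h1 : B ≤ A := (hprop B hB).le
    have h2 : C ≤ A := (hprop C hC).le
    have := congrArg (Subgroup.map A.subtype) h
    simpa [Subgroup.subgroupOf_map_subtype, inf_eq_left.2 h1, inf_eq_left.2 h2] using this
  obtain ⟨B', hB', m, hm, hfix⟩ := Avg.exists_fixed_of_partition (L := A) (M := V)
    (𝒜.image (fun B : Subgroup G => B.subgroupOf A)) (hne.image _) (by
      intro a ha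
      obtain ⟨B, ⟨hB, haB⟩, huniq⟩ := hpart a a.2 (by simpa using ha)
      refine ⟨B.subgroupOf A, ⟨Finset.mem_image_of_mem _ hB, Subgroup.mem_subgroupOf.2 haB⟩, ?_⟩
      rintro C' ⟨hC', haC'⟩
      obtain ⟨C, hC, rfl⟩ := Finset.mem_image.1 hC'
      rw [huniq C ⟨hC, Subgroup.mem_subgroupOf.1 haC'⟩])
    (by rw [Finset.card_image_of_injOn hinj]; exact hk)
  obtain ⟨B, hB, rfl⟩ := Finset.mem_image.1 hB'
  refine ⟨B, hB, ?_⟩
  intro hbot
  have h1 := Avg.mem_centralizer_of_fixed A V hAV (B.subgroupOf A) m hfix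
  rw [Subgroup.subgroupOf_map_subtype, inf_eq_left.2 (hprop B hB).le] at h1
  have h2 : (m : G) ∈ V ⊓ Subgroup.centralizer (B : Set G) := ⟨m.2, h1⟩
  rw [hbot, Subgroup.mem_bot] at h2
  exact hm (Subtype.ext h2)

end Cfsg.Agent.S3733
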