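import Cfsg.Statements.S3735
import Mathlib
import Cfsg.Agent.Lib.Helper6.Subn

set_option autoImplicit false
open Cfsg

namespace Cfsg.Agent.S3735

open Cfsg.Agent.Lib.Helper6.Basic Cfsg.Agent.Lib.Helper6.Subn

/-- Clifford's Theorem for actions on finite abelian groups, first part. Let H and V be subgroups of a finite group with V abelian and H normalizing V, and let A be a normal subgroup of H. If every H-invariant subgroup of V has an H-invariant complement in V, then every A-invariant subgroup of V has an A-invariant complement in V. -/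
theorem result {G : Type*} [Group G] [Finite G] (H A V : Subgroup G) (hVab : IsMulCommutative V) (hHV : H ≤ Subgroup.normalizer (V : Set G)) (hAH : A ≤ H) (hAn : H ≤ Subgroup.normalizer (A : Set G)) (hss : ∀ U : Subgroup G, U ≤ V → H ≤ Subgroup.normalizer (U : Set G) → ∃ W : Subgroup G, W ≤ V ∧ H ≤ Subgroup.normalizer (W : Set G) ∧ U ⊓ W = ⊥ ∧ U ⊔ W = V) (U : Subgroup G) (hUV : U ≤ V) (hAU : A ≤ Subgroup.normalizer (U : Set G)) : ∃ W : Subgroup G, W ≤ V ∧ A ≤ Subgroup.normalizer (W : Set G) ∧ U ⊓ W = ⊥ ∧ U ⊔ W = V := by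
  -- invariance
  have hInvcj : ∀ h ∈ H, ∀ W : Subgroup G, W ≤ V → A ≤ Nz W → cj h W ≤ V ∧ A ≤ Nz (cj h W) := by
    intro h hh W hWV hAW
    refine ⟨?_, ?_⟩
    · have := cj_mono (g := h) hWV
      rwa [cj_eq_self_iff.mpr (hHV hh)] at this
    · have h1 := cj_mono (g := h) hAW
      rw [cj_eq_self_iff.mpr (hAn hh), cj_normalizer] at h1
      exact h1
  let MinInv : Subgroup G → Prop := fun M => M ≤ V ∧ A ≤ Nz M ∧ M ≠ ⊥ ∧
    ∀ M' : Subgroup G, M' ≤ M → A ≤ Nz M' → M' = ⊥ ∨ M' = M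
  have hMincj : ∀ h ∈ H, ∀ M, MinInv M → MinInv (cj h M) := by
    intro h hh M hM
    obtain ⟨a, b⟩ := hInvcj h hh M hM.1 hM.2.1
    refine ⟨a, b, ?_, ?_⟩
    · rw [Ne, cj_eq_bot_iff]; exact hM.2.2.1
    · intro M' hM' hAM'
      have h1 : cj h⁻¹ M' ≤ M := by rw [cj_le_iff, inv_inv]; exact hM'
      have h2 := (hInvcj h⁻¹ (H.inv_mem hh) M' (hM'.trans a) hAM').2
      rcases hM.2.2.2 _ h1 h2 with h3 | h3
      · left; exact cj_eq_bot_iff.mp h3
      · right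
        rw [← h3, cj_cj_inv]
  have hexmin : ∀ T : Subgroup G, T ≤ V → A ≤ Nz T → T ≠ ⊥ → ∃ M, MinInv M ∧ M ≤ T := by
    intro T hTV hAT hT
    obtain ⟨M, hM, hmin⟩ := WellFounded.has_min (wellFounded_lt (α := Subgroup G))
      {M : Subgroup G | M ≤ T ∧ A ≤ Nz M ∧ M ≠ ⊥} ⟨T, le_rfl, hAT, hT⟩
    refine ⟨M, ⟨hM.1.trans hTV, hM.2.1, hM.2.2, ?_⟩, hM.1⟩
    intro M' hM' hAM'
    by_cases hb : M' = ⊥
    · left; exact hb
    · right
      by_contra hne
      exact hmin M' ⟨hM'.trans hM.1, hAM', hb⟩ (lt_of_le_of_ne hM' hne)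
  -- the socle
  have hSV : sSup {M | MinInv M} ≤ V := sSup_le fun M hM => hM.1
  have hHS : H ≤ Nz (sSup {M | MinInv M}) := by
    have key : ∀ h ∈ H, cj h (sSup {M | MinInv M}) ≤ sSup {M | MinInv M} := by
      intro h hh
      rw [cj_le_iff]
      apply sSup_le
      intro M hM
      rw [← cj_le_iff]
      exact le_sSup (hMincj h hh M hM)
    intro h hh
    apply cj_eq_self_iff.mp
    apply le_antisymm (key h hh)
    have := key h⁻¹ (H.inv_mem hh)
    rwa [cj_le_iff, inv_inv] at this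
  obtain ⟨T, hTV, hHT, hST, hST'⟩ := hss _ hSV hHS
  have hTbot : T = ⊥ := by
    by_contra hT
    obtain ⟨M, hM, hMT⟩ := hexmin T hTV (hAH.trans hHT) hT
    apply hM.2.2.1
    rw [eq_bot_iff, ← hST]
    exact le_inf (le_sSup hM) hMT
  rw [hTbot, sup_bot_eq] at hST'
  -- a maximal invariant subgroup meeting `U` trivially
  obtain ⟨W, hW, hmax⟩ := WellFounded.has_min (wellFounded_gt (α := Subgroup G))
    {W : Subgroup G | W ≤ V ∧ A ≤ Nz W ∧ U ⊓ W = ⊥} ⟨⊥, bot_le, (by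
      intro a _
      apply cj_eq_self_iff.mp
      exact cj_bot a), inf_bot_eq _⟩
  refine ⟨W, hW.1, hW.2.1, hW.2.2, ?_⟩
  by_contra hne
  have hUW : U ⊔ W ≤ V := sup_le hUV hW.1
  obtain ⟨M, hM, hMX⟩ : ∃ M, MinInv M ∧ ¬ M ≤ U ⊔ W := by
    by_contra hcon
    push Not at hcon
    apply hne
    apply le_antisymm hUW
    rw [← hST']
    exact sSup_le fun M hM => hcon M hM
  have hsupN : ∀ X Y : Subgroup G, A ≤ Nz X → A ≤ Nz Y → A ≤ Nz (X ⊔ Y) := by
    intro X Y hX hY a ha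
    apply cj_eq_self_iff.mp
    rw [cj_sup, cj_eq_self_iff.mpr (hX ha), cj_eq_self_iff.mpr (hY ha)]
  have hinfN : ∀ X Y : Subgroup G, A ≤ Nz X → A ≤ Nz Y → A ≤ Nz (X ⊓ Y) := by
    intro X Y hX hY a ha
    apply cj_eq_self_iff.mp
    rw [cj_inf, cj_eq_self_iff.mpr (hX ha), cj_eq_self_iff.mpr (hY ha)]
  have hMX0 : M ⊓ (U ⊔ W) = ⊥ := by
    rcases hM.2.2.2 _ inf_le_left (hinfN _ _ hM.2.1 (hsupN _ _ hAU hW.2.1)) with h1 | h1
    · exact h1
    · exact absurd (inf_eq_left.mp h1) hMX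
  have hcomm : ∀ x ∈ V, ∀ y ∈ V, x * y = y * x := by
    intro x hx y hy
    have := hVab.is_comm.comm (⟨x, hx⟩ : V) ⟨y, hy⟩
    exact congrArg Subtype.val this
  have hMW : M ≤ Nz W := by
    refine le_trans ?_ (Subgroup.centralizer_le_normalizer _)
    intro m hm
    rw [Subgroup.mem_centralizer_iff]
    intro w hw
    exact hcomm w (hW.1 hw) m (hM.1 hm)
  have hnew : U ⊓ (W ⊔ M) = ⊥ := by
    rw [eq_bot_iff]
    rintro x ⟨hxU, hxWM⟩
    have hx' : x ∈ ((W ⊔ M : Subgroup G) : Set G) := hxWM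
    rw [Subgroup.coe_mul_of_right_le_normalizer_left W M hMW] at hx'
    obtain ⟨w, hw, m, hm, rfl⟩ := Set.mem_mul.mp hx'
    have hm1 : m ∈ M ⊓ (U ⊔ W) := by
      refine ⟨hm, ?_⟩
      have h1 : m = w⁻¹ * (w * m) := by group
      rw [h1]
      exact (U ⊔ W).mul_mem ((U ⊔ W).inv_mem (Subgroup.mem_sup_right hw)) (Subgroup.mem_sup_left hxU)
    rw [hMX0, Subgroup.mem_bot] at hm1
    subst hm1
    rw [mul_one] at hxU ⊢
    rw [← hW.2.2]
    exact ⟨hxU, hw⟩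
  apply hmax (W ⊔ M) ⟨sup_le hW.1 hM.1, hsupN _ _ hW.2.1 hM.2.1, hnew⟩
  show W < W ⊔ M
  apply lt_of_le_of_ne le_sup_left
  intro e
  apply hMX
  have : M ≤ W := by rw [e]; exact le_sup_right
  exact this.trans le_sup_right

end Cfsg.Agent.S3735
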