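import Cfsg.Statements.S3743
import Cfsg.Agent.Lib.Helper1.Subn1
open Cfsg.Agent.Lib.Helper1
open Cfsg.Agent.Lib.Helper6.Basic Cfsg.Agent.Lib.Helper6.Subn Cfsg.Agent.Lib.Helper6.Rad Cfsg.Agent.Lib.Helper6.Nil
open scoped Pointwise

set_option autoImplicit false
open Cfsg

namespace Cfsg.Agent.S3743

/-- In a finite group G, every subnormal nilpotent subgroup lies in the Fitting subgroup F(G), and, for a set of primes π, every subnormal subgroup all of whose prime divisors lie in π lies in O_π(G). -/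
theorem result {G : Type*} [Group G] [Finite G] (A : Subgroup G) (hA : A.IsSubnormal) : (Group.IsNilpotent A → A ≤ Cfsg.fittingSubgroup G) ∧ ∀ π : Set ℕ, (∀ p : ℕ, p.Prime → p ∣ Nat.card A → p ∈ π) → A ≤ Cfsg.piCore π G := by
  rw [isSubnormal_iff] at hA
  refine ⟨le_fitting_of_SN hA, ?_⟩
  intro π hπ
  unfold Cfsg.piCore
  rw [sSup_normal_eq]
  refine le_Rd_of_sn ?_ hA hπ
  refine ⟨?_, ?_, ?_⟩
  · intro p hp hd
    rw [Subgroup.card_bot] at hd
    exact absurd (Nat.dvd_one.mp hd) hp.one_lt.ne'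
  · intro g N hN p hp hd
    rw [card_cj] at hd
    exact hN p hp hd
  · intro M N hM hN h1 _ p hp hd
    have h2 := card_sup_mul h1
    have h3 : p ∣ Nat.card M * Nat.card N := h2 ▸ Dvd.dvd.mul_right hd _
    rcases hp.dvd_mul.mp h3 with h | h
    · exact hM p hp h
    · exact hN p hp h

end Cfsg.Agent.S3743
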