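import Cfsg.Statements.S3746
import Cfsg.Agent.Lib.Helper6.Comp

set_option autoImplicit false
open Cfsg

namespace Cfsg.Agent.S3746

open Cfsg.Agent.Lib.Helper6.Basic Cfsg.Agent.Lib.Helper6.Subn Cfsg.Agent.Lib.Helper6.Quasi Cfsg.Agent.Lib.Helper6.Comp

/-- Let Z ≤ Z(G) be a central subgroup of a finite group G and E a subgroup of G containing Z whose image E/Z is a component of G/Z (subnormal and quasisimple). Then the derived subgroup [E, E] is a component of G. -/
theorem result {G : Type*} [Group G] [Finite G] (Z : Subgroup G) (hZ : Z ≤ Subgroup.center G) [Z.Normal] (E : Subgroup G) (hZE : Z ≤ E) (hE : Cfsg.IsComponent (E.map (QuotientGroup.mk' Z))) : Cfsg.IsComponent ⁅E, E⁆ := by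
  rw [isComponent_iff] at hE ⊢
  obtain ⟨hsn, hqs⟩ := hE
  set f := QuotientGroup.mk' Z with hf
  have hker : f.ker = Z := QuotientGroup.ker_mk' Z
  have hcm : ∀ H : Subgroup G, (H.map f).comap f = H ⊔ Z := by
    intro H
    rw [Subgroup.comap_map_eq, hker]
  have hEc : (E.map f).comap f = E := by rw [hcm, sup_eq_left.2 hZE]
  have hZc : ∀ H : Subgroup G, Z ≤ Cz H := fun H => hZ.trans (Subgroup.center_le_centralizer _)
  have hDE : ⁅E, E⁆ ≤ E := comm_le_of_Nz Subgroup.le_normalizer le_rfl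
  have hEnD : E ≤ Nz ⁅E, E⁆ := Subgroup.normalizer_commutator_ge_left E E
  have hsnE : SN E ⊤ := by
    have := hsn.comap f
    rwa [hEc, Subgroup.comap_top] at this
  have hsnD : SN ⁅E, E⁆ ⊤ := (SN.of_normal hDE hEnD).trans hsnE
  have hDZ : ⁅E, E⁆ ⊔ Z = E := by
    rw [← hcm, Subgroup.map_commutator, hqs.perfect, hEc]
  have hperf : ⁅⁅E, E⁆, ⁅E, E⁆⁆ = ⁅E, E⁆ := by
    have := comm_sup_central (A := ⁅E, E⁆) (Z := Z) (hZc _) (hZc _)
    rw [hDZ] at this
    exact this.symm
  refine ⟨hsnD, hperf, ?_, ?_⟩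
  · intro hb
    rw [hb, bot_sup_eq] at hDZ
    apply hqs.ne_bot
    rw [← hDZ]
    exact (Subgroup.map_eq_bot_iff _).2 (le_of_eq hker.symm)
  · intro N hN hn
    have hNE : N ≤ E := hN.trans hDE
    have hEN : E ≤ Nz N := by
      rw [← hDZ]
      exact sup_le hn ((hZc N).trans (Cz_le_Nz N))
    have h1 : N.map f ≤ E.map f := Subgroup.map_mono hNE
    have h2 : E.map f ≤ Nz (N.map f) := (Subgroup.map_mono hEN).trans (Subgroup.le_normalizer_map f)
    rcases hqs.normal h1 h2 with h | h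
    · left
      apply le_antisymm hN
      have h3 : N ⊔ Z = E := by rw [← hcm, h, hEc]
      have := comm_sup_central (A := N) (Z := Z) (hZc _) (hZc _)
      rw [h3] at this
      rw [this]
      exact comm_le_of_Nz Subgroup.le_normalizer le_rfl
    · right
      have h3 : ⁅N, E⁆ ≤ Z := by
        have : (⁅N, E⁆).map f = ⊥ := by
          rw [Subgroup.map_commutator]
          exact comm_eq_bot_iff.2 h
        rw [← hker]
        exact (Subgroup.map_eq_bot_iff _).1 this
      have h4 : ⁅⁅N, ⁅E, E⁆⁆, ⁅E, E⁆⁆ = ⊥ := by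
        rw [comm_eq_bot_iff]
        exact ((Subgroup.commutator_mono le_rfl hDE).trans h3).trans (hZc _)
      have h5 := perfect_comm hperf h4
      exact comm_eq_bot_iff'.1 h5

end Cfsg.Agent.S3746
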