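import Cfsg.Statements.S3747
import Cfsg.Agent.Lib.Helper6.Ores

set_option autoImplicit false
open Cfsg

namespace Cfsg.Agent.S3747

open scoped Pointwise

open Cfsg.Agent.Lib.Helper6.Basic Cfsg.Agent.Lib.Helper6.Subn Cfsg.Agent.Lib.Helper6.Quasi Cfsg.Agent.Lib.Helper6.Comp Cfsg.Agent.Lib.Helper6.Rad Cfsg.Agent.Lib.Helper6.Nil Cfsg.Agent.Lib.Helper6.FStar Cfsg.Agent.Lib.Helper6.Ores

theorem center_trivial {G : Type*} [Group G] [DecidableEq (Subgroup G)] (S : Finset (Subgroup G)) :
    (∀ L ∈ S, L ⊓ Cz L = ⊥) → (∀ L ∈ S, ∀ L' ∈ S, L ≠ L' → L' ≤ Cz L) →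
    (S.sup id) ⊓ Cz (S.sup id) = ⊥ := by
  induction S using Finset.induction_on with
  | empty =>
    intro _ _
    simp
  | insert L S hL ih =>
    intro h1 h2
    have ih' := ih (fun L' hL' => h1 L' (Finset.mem_insert_of_mem hL'))
      (fun A hA B hB hne => h2 A (Finset.mem_insert_of_mem hA) B (Finset.mem_insert_of_mem hB) hne)
    have hJL : S.sup id ≤ Cz L := by
      apply Finset.sup_le
      intro L' hL'
      exact h2 L (Finset.mem_insert_self _ _) L' (Finset.mem_insert_of_mem hL')
        (fun e => hL (e ▸ hL'))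
    have hLJ : L ≤ Cz (S.sup id) := le_Cz_comm.1 hJL
    rw [Finset.sup_insert, id, eq_bot_iff]
    rintro x ⟨hx1, hx2⟩
    have hset : ((L ⊔ S.sup id : Subgroup G) : Set G) = (L : Set G) * ((S.sup id : Subgroup G) : Set G) :=
      Subgroup.coe_mul_of_right_le_normalizer_left L (S.sup id) (hJL.trans (Cz_le_Nz L))
    have hx1' : x ∈ (L : Set G) * ((S.sup id : Subgroup G) : Set G) := by rw [← hset]; exact hx1
    obtain ⟨l, hl, j, hj, rfl⟩ := Set.mem_mul.1 hx1'
    have hx2' : l * j ∈ Cz L ⊓ Cz (S.sup id) := by rw [← Cz_sup]; exact hx2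
    have hl1 : l = 1 := by
      have : l ∈ L ⊓ Cz L := by
        refine ⟨hl, ?_⟩
        have h3 : l = (l * j) * j⁻¹ := by group
        rw [h3]
        exact (Cz L).mul_mem hx2'.1 ((Cz L).inv_mem (hJL hj))
      rw [h1 L (Finset.mem_insert_self _ _)] at this
      exact this
    have hj1 : j = 1 := by
      have : j ∈ S.sup id ⊓ Cz (S.sup id) := by
        refine ⟨hj, ?_⟩
        have h3 : j = l⁻¹ * (l * j) := by group
        rw [h3]
        exact (Cz (S.sup id)).mul_mem ((Cz (S.sup id)).inv_mem (hLJ hl)) hx2'.2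
      rw [ih'] at this
      exact this
    rw [hl1, hj1, one_mul]
    exact Subgroup.one_mem _

theorem partA {G : Type*} [Group G] [Finite G] (K : Subgroup G) (hK : CompIn K ⊤)
    (hZ : K ⊓ Cz K = ⊥) :
    Subgroup.normalClosure (K : Set G) ≠ ⊥ ∧ ∀ N : Subgroup G, N.Normal →
      N ≤ Subgroup.normalClosure (K : Set G) → N = ⊥ ∨ N = Subgroup.normalClosure (K : Set G) := by
  classical
  haveI : Fintype G := Fintype.ofFinite G
  have hKM : K ≤ Subgroup.normalClosure (K : Set G) := Subgroup.le_normalClosure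
  constructor
  · intro h
    exact hK.2.ne_bot (eq_bot_iff.2 (h ▸ hKM))
  · intro N hN hNM
    rcases hK.sn' (SN.of_normal le_top (le_Nz_of_normal hN _)) with h | h
    · right
      exact le_antisymm hNM (Subgroup.normalClosure_le_normal h)
    · left
      let S : Finset (Subgroup G) := Finset.univ.image (fun g : G => cj g K)
      have hcomp : ∀ g : G, CompIn (cj g K) ⊤ := by
        intro g
        have := hK.cj g
        rwa [cj_top] at this
      have h1 : ∀ L ∈ S, L ⊓ Cz L = ⊥ := by
        intro L hL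
        obtain ⟨g, -, rfl⟩ := Finset.mem_image.1 hL
        have e : Cz (cj g K) = cj g (Cz K) := (cj_centralizer g K).symm
        rw [e, ← cj_inf, hZ, cj_bot]
      have h2 : ∀ L ∈ S, ∀ L' ∈ S, L ≠ L' → L' ≤ Cz L := by
        intro L hL L' hL' hne
        obtain ⟨g, -, rfl⟩ := Finset.mem_image.1 hL
        obtain ⟨g', -, rfl⟩ := Finset.mem_image.1 hL'
        exact (hcomp g).comm (hcomp g') hne
      have h3 := center_trivial S h1 h2
      have hMS : Subgroup.normalClosure (K : Set G) ≤ S.sup id := by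
        rw [Subgroup.normalClosure, Subgroup.closure_le]
        intro x hx
        obtain ⟨k, hk, hconj⟩ := Group.mem_conjugatesOfSet_iff.1 hx
        obtain ⟨g, hg⟩ := isConj_iff.1 hconj
        have : cj g K ≤ S.sup id :=
          Finset.le_sup (f := id) (Finset.mem_image.2 ⟨g, Finset.mem_univ _, rfl⟩)
        apply this
        exact ⟨k, hk, hg⟩
      have hSN : S.sup id ≤ Cz N := by
        apply Finset.sup_le
        intro L hL
        obtain ⟨g, -, rfl⟩ := Finset.mem_image.1 hL
        have h4 : K ≤ Cz N := le_Cz_comm.1 h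
        have h5 := cj_mono (g := g) h4
        have e : cj g (Cz N) = Cz (cj g N) := cj_centralizer g N
        rwa [e, cj_normal (H := N) g] at h5
      rw [eq_bot_iff, ← h3]
      exact le_inf (hNM.trans hMS) (le_Cz_comm.1 hSN)

/-- Let G be a finite group. (a) If K is a component of G with trivial centre, then the normal closure of K in G is a minimal normal subgroup of G. (b) If the Fitting subgroup of G is trivial, then the layer E(G) is generated by the minimal normal subgroups of G. -/
theorem result {G : Type*} [Group G] [Finite G] : (∀ K : Subgroup G, Cfsg.IsComponent K → Subgroup.center ↥K = ⊥ → (Subgroup.normalClosure (K : Set G) ≠ ⊥ ∧ ∀ N : Subgroup G, N.Normal → N ≤ Subgroup.normalClosure (K : Set G) → N = ⊥ ∨ N = Subgroup.normalClosure (K : Set G))) ∧ (Cfsg.fittingSubgroup G = ⊥ → sSup {N : Subgroup G | N ≠ ⊥ ∧ N.Normal ∧ ∀ N' : Subgroup G, N'.Normal → N' ≤ N → N' = ⊥ ∨ N' = N} = Cfsg.layer G) := by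
  have hA : ∀ K : Subgroup G, Cfsg.IsComponent K → Subgroup.center ↥K = ⊥ →
      (Subgroup.normalClosure (K : Set G) ≠ ⊥ ∧ ∀ N : Subgroup G, N.Normal →
        N ≤ Subgroup.normalClosure (K : Set G) →
        N = ⊥ ∨ N = Subgroup.normalClosure (K : Set G)) := by
    intro K hK hZ
    apply partA K (isComponent_iff.1 hK)
    rw [← map_center_subtype, hZ, Subgroup.map_bot]
  refine ⟨hA, ?_⟩
  intro hF
  have hF' : F (⊤ : Subgroup G) = ⊥ := by rw [← fitting_eq]; exact hF
  rw [layer_eq]
  apply le_antisymm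
  · apply sSup_le
    rintro N ⟨hN1, hNn, hNmin⟩
    haveI hEn : (E (⊤ : Subgroup G)).Normal := normal_of_top_le_Nz (le_Nz_E ⊤)
    have hinf : (N ⊓ E (⊤ : Subgroup G)).Normal := inferInstance
    rcases hNmin (N ⊓ E ⊤) hinf inf_le_left with h | h
    · exfalso
      have h1 : ⁅N, E (⊤ : Subgroup G)⁆ = ⊥ := by
        rw [eq_bot_iff, ← h]
        exact le_inf (Subgroup.commutator_le_left N _) (Subgroup.commutator_le_right N _)
      have h2 : N ≤ Cz (E (⊤ : Subgroup G)) := comm_eq_bot_iff.1 h1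
      have h3 := bender (⊤ : Subgroup G)
      have h4 : Fs (⊤ : Subgroup G) = E ⊤ := by unfold Fs; rw [hF', sup_bot_eq]
      rw [h4, top_inf_eq] at h3
      have h5 : N ≤ N ⊓ E (⊤ : Subgroup G) := le_inf le_rfl (h2.trans h3)
      rw [h] at h5
      exact hN1 (eq_bot_iff.2 h5)
    · exact inf_eq_left.1 h
  · apply sSup_le
    intro K hK
    have hK' : CompIn K ⊤ := hK
    have hZ : K ⊓ Cz K = ⊥ := by
      rw [eq_bot_iff, ← hF']
      apply le_F_of_sn
      · exact (SN.of_normal inf_le_left (le_Nz_inf Subgroup.le_normalizer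
          ((Subgroup.le_normalizer).trans (Nz_le_Nz_Cz K)))).trans hK'.1
      · apply nilpotent_of_class_two
        have : ⁅K ⊓ Cz K, K ⊓ Cz K⁆ = ⊥ :=
          comm_eq_bot_iff.2 (inf_le_right.trans (Cz_anti inf_le_left))
        rw [this]
        exact bot_le
    obtain ⟨h1, h2⟩ := partA K hK' hZ
    exact (Subgroup.le_normalClosure).trans (le_sSup ⟨h1, Subgroup.normalClosure_normal, h2⟩)

end Cfsg.Agent.S3747
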