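import Cfsg.Statements.S3748
import Cfsg.Agent.Lib.Helper2.Subnormal
import Cfsg.Agent.Lib.Helper1.Cores

set_option autoImplicit false
open Cfsg

namespace Cfsg.Agent.S3748

theorem exists_lt_normal {G : Type*} [Group G] {H : Subgroup G} (h : H.IsSubnormal) (hne : H ≠ ⊤) :
    ∃ K : Subgroup G, K.IsSubnormal ∧ H < K ∧ K ≤ Subgroup.normalizer (H : Set G) := by
  induction h with
  | top => exact absurd rfl hne
  | step H K hle hK hN ih =>
    by_cases hHK : H = K
    · subst hHK; exact ih hne
    · exact ⟨K, hK, lt_of_le_of_ne hle hHK, (Subgroup.normal_subgroupOf_iff_le_normalizer hle).1 hN⟩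

/-- Call a proper subgroup M of G primitive when M = N_G(N) for every non-trivial normal subgroup N of M. If M is a primitive subgroup of the finite group G, then no non-trivial subnormal subgroup of G is contained in M; in particular M ∩ F(G) = 1. -/
theorem result {G : Type*} [Group G] [Finite G] (M : Subgroup G) (hM : M ≠ ⊤) (hprim : ∀ N : Subgroup G, N ≤ M → M ≤ Subgroup.normalizer (N : Set G) → N ≠ ⊥ → Subgroup.normalizer (N : Set G) = M) : (∀ L : Subgroup G, L.IsSubnormal → L ≤ M → L = ⊥) ∧ M ⊓ Cfsg.fittingSubgroup G = ⊥ := by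
  constructor
  · set J := sSup {L : Subgroup G | L.IsSubnormal ∧ L ≤ M} with hJ
    have hJs : J.IsSubnormal := Cfsg.Agent.Lib.Helper2.Subnormal.isSubnormal_sSup _ (fun U hU => hU.1)
    have hJM : J ≤ M := sSup_le (fun U hU => hU.2)
    have hmap : ∀ m ∈ M, J.map (MulAut.conj m).toMonoidHom ≤ J := by
      intro m hm
      rw [Subgroup.map_le_iff_le_comap]
      apply sSup_le
      rintro L ⟨hL1, hL2⟩
      rw [← Subgroup.map_le_iff_le_comap]
      apply le_sSup
      refine ⟨hL1.map (MulAut.conj m).surjective, ?_⟩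
      rintro _ ⟨x, hx, rfl⟩
      exact M.mul_mem (M.mul_mem hm (hL2 hx)) (M.inv_mem hm)
    have hMJ : M ≤ Subgroup.normalizer (J : Set G) := by
      intro m hm
      rw [Subgroup.mem_normalizer_iff]
      intro x
      constructor
      · intro hx
        exact hmap m hm ⟨x, hx, rfl⟩
      · intro hx
        have := hmap m⁻¹ (M.inv_mem hm) ⟨_, hx, rfl⟩
        simpa [mul_assoc] using this
    have hJb : J = ⊥ := by
      by_contra hne
      have hN := hprim J hJM hMJ hne
      have hJt : J ≠ ⊤ := fun h => hM (top_le_iff.1 (h ▸ hJM))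
      obtain ⟨K, hK, hlt, hKN⟩ := exists_lt_normal hJs hJt
      rw [hN] at hKN
      have hKJ : K ≤ J := le_sSup ⟨hK, hKN⟩
      exact absurd hKJ (not_le_of_gt hlt)
    intro L hL hLM
    rw [eq_bot_iff, ← hJb]
    exact le_sSup ⟨hL, hLM⟩
  · have hFn : (Cfsg.fittingSubgroup G).Normal := Cfsg.Agent.Lib.Helper1.fitting_normal
    have hFnil : Group.IsNilpotent (Cfsg.fittingSubgroup G) :=
      Cfsg.Agent.Lib.Helper1.fitting_isNilpotent
    set F := Cfsg.fittingSubgroup G with hF
    by_contra hne
    have hMD : M ≤ Subgroup.normalizer ((M ⊓ F : Subgroup G) : Set G) := by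
      intro m hm
      rw [Subgroup.mem_normalizer_iff]
      intro x
      constructor
      · rintro ⟨h1, h2⟩
        exact ⟨M.mul_mem (M.mul_mem hm h1) (M.inv_mem hm), hFn.conj_mem x h2 m⟩
      · rintro ⟨h1, h2⟩
        constructor
        · have := M.mul_mem (M.mul_mem (M.inv_mem hm) h1) hm
          simpa [mul_assoc] using this
        · have := hFn.conj_mem _ h2 m⁻¹
          simpa [mul_assoc] using this
    have hN := hprim (M ⊓ F) inf_le_left hMD hne
    have hnc : NormalizerCondition F := Group.normalizerCondition_of_isNilpotent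
    by_cases htop : (M ⊓ F).subgroupOf F = ⊤
    · rw [Subgroup.subgroupOf_eq_top] at htop
      have hFM : F ≤ M := htop.trans inf_le_left
      have e : M ⊓ F = F := inf_eq_right.2 hFM
      rw [e, Subgroup.normalizer_eq_top] at hN
      exact hM hN.symm
    · have hlt := hnc _ (lt_top_iff_ne_top.2 htop)
      obtain ⟨x, hx1, hx2⟩ := SetLike.exists_of_lt hlt
      apply hx2
      have hxN : (x : G) ∈ Subgroup.normalizer ((M ⊓ F : Subgroup G) : Set G) := by
        rw [Subgroup.mem_normalizer_iff]
        intro y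
        rw [Subgroup.mem_normalizer_iff] at hx1
        constructor
        · intro hy
          exact (hx1 ⟨y, hy.2⟩).1 hy
        · intro hy
          have hyF : y ∈ F := by
            have := hFn.conj_mem _ hy.2 (x : G)⁻¹
            simpa [mul_assoc] using this
          exact (hx1 ⟨y, hyF⟩).2 hy
      rw [hN] at hxN
      exact ⟨hxN, x.2⟩

end Cfsg.Agent.S3748
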