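import Cfsg.Statements.S3749
import Cfsg.Agent.Lib.Helper2.Subnormal
import Cfsg.Agent.Lib.Helper1.Cores
import Cfsg.Agent.Lib.Helper1.CoprimeSylow
import Cfsg.Agent.Lib.Helper1.Frobenius
import Cfsg.Agent.Lib.Helper9.SylowIn

set_option autoImplicit false
open Cfsg

namespace Cfsg.Agent.S3749

open Cfsg.Agent.Lib.Helper1 Cfsg.Agent.Lib.Helper9.SylowIn
open Pointwise

/-- Call a proper subgroup M of G primitive when M = N_G(N) for every non-trivial normal subgroup N of M. Let M be a primitive subgroup of the finite group G, p a prime with O_p(M) ≠ 1, and N a normal subgroup of G with M ∩ N = 1. Then p does not divide the order of N; for every prime q there is exactly one Sylow q-subgroup of N normalized by M; and if the order of N has at least two prime divisors then M is not a maximal subgroup of G. -/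
theorem result {G : Type*} [Group G] [Finite G] (M : Subgroup G) (hM : M ≠ ⊤) (hprim : ∀ N : Subgroup G, N ≤ M → M ≤ Subgroup.normalizer (N : Set G) → N ≠ ⊥ → Subgroup.normalizer (N : Set G) = M) {p : ℕ} [Fact p.Prime] (hOp : Cfsg.pCore p ↥M ≠ ⊥) (N : Subgroup G) [N.Normal] (hMN : M ⊓ N = ⊥) : ¬ p ∣ Nat.card N ∧ (∀ q : ℕ, [Fact q.Prime] → ∃! Q : Sylow q ↥N, M ≤ Subgroup.normalizer ((Q : Subgroup ↥N).map N.subtype : Set G)) ∧ ((∃ q r : ℕ, q.Prime ∧ r.Prime ∧ q ≠ r ∧ q ∣ Nat.card N ∧ r ∣ Nat.card N) → ¬ IsCoatom M) := by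
  have hp : p.Prime := Fact.out
  have hNn : N.Normal := inferInstance
  set R := (Cfsg.pCore p ↥M).map M.subtype with hR
  have hRM : R ≤ M := Subgroup.map_subtype_le _
  have hRp : IsPGroup p R := (pCore_isPGroup p).map _
  have hRne : R ≠ ⊥ := by
    rw [hR, Ne, Subgroup.map_eq_bot_iff_of_injective _ (Subgroup.subtype_injective _)]
    exact hOp
  have hMR : M ≤ Subgroup.normalizer (R : Set G) := by
    have hn : (Cfsg.pCore p ↥M).Normal := Cfsg.Agent.Lib.Helper1.pCore_normal p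
    intro m hm
    rw [Subgroup.mem_normalizer_iff]
    intro x
    constructor
    · rintro ⟨y, hy, rfl⟩
      exact ⟨⟨m, hm⟩ * y * ⟨m, hm⟩⁻¹, hn.conj_mem y hy _, rfl⟩
    · rintro ⟨y, hy, hyx⟩
      refine ⟨⟨m, hm⟩⁻¹ * y * ⟨m, hm⟩, ?_, ?_⟩
      · have := hn.conj_mem y hy ⟨m, hm⟩⁻¹
        simpa using this
      · simp only [Subgroup.subtype_apply, Subgroup.coe_mul, Subgroup.coe_inv] at hyx ⊢
        rw [hyx]; group
  have hNR : Subgroup.normalizer (R : Set G) = M := hprim R hRM hMR hRne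
  have hdisj : ∀ x, x ∈ M → x ∈ N → x = 1 := by
    intro x h1 h2
    have : x ∈ M ⊓ N := ⟨h1, h2⟩
    rwa [hMN, Subgroup.mem_bot] at this
  -- (1)
  have h1 : ¬ p ∣ Nat.card N := by
    intro hdvd
    obtain ⟨T, hT, hRT⟩ := IsSylowIn.exists_ge (D := R ⊔ N) hRp le_sup_left
    have hTR : T = R := by
      by_contra hne
      have hlt : R < T := lt_of_le_of_ne hRT (Ne.symm hne)
      have h2 := lt_inf_normalizer_of_lt hT.pgroup hlt
      obtain ⟨x, hx1, hx2⟩ := SetLike.exists_of_lt h2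
      apply hx2
      have hxM : x ∈ M := hNR ▸ hx1.2
      obtain ⟨r, hr, n, hn, rfl⟩ := Subgroup.mem_sup_of_normal_right.1 (hT.le hx1.1)
      have hnM : n ∈ M := by
        have := M.mul_mem (M.inv_mem (hRM hr)) hxM
        simpa using this
      rw [hdisj n hnM hn, mul_one]; exact hr
    rw [hTR] at hT
    obtain ⟨a, ha, hao⟩ := exists_order_p hdvd
    obtain ⟨d, _, hd⟩ := hT.exists_conj_mem (Subgroup.mem_sup_right ha) hao
    have h3 := hdisj _ (hRM hd) (hNn.conj_mem a ha d)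
    have h4 : a = 1 := by
      have : d * a * d⁻¹ = d * 1 * d⁻¹ := by rw [h3]; group
      exact mul_left_cancel (mul_right_cancel this)
    rw [h4, orderOf_one] at hao
    exact hp.one_lt.ne hao
  have hcop : (Nat.card R).Coprime (Nat.card N) := by
    obtain ⟨k, hk⟩ := IsPGroup.iff_card.1 hRp
    rw [hk]
    exact Nat.Coprime.pow_left k ((Nat.Prime.coprime_iff_not_dvd hp).2 h1)
  have hRs : Group.IsSolvable R := by
    have := hRp.isNilpotent
    infer_instance
  have hRN : R ≤ Subgroup.normalizer (N : Set G) := by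
    rw [Subgroup.normalizer_eq_top]; exact le_top
  -- key: unique invariant Sylow
  have key : ∀ q : ℕ, [Fact q.Prime] → ∃ Q₀ : Subgroup G, Q₀ ≤ N ∧
      Nat.card Q₀ = q ^ (Nat.card N).factorization q ∧ M ≤ Subgroup.normalizer (Q₀ : Set G) ∧
      ∀ Q₁ : Subgroup G, Q₁ ≤ N → Nat.card Q₁ = q ^ (Nat.card N).factorization q →
        R ≤ Subgroup.normalizer (Q₁ : Set G) → Q₁ = Q₀ := by
    intro q _
    obtain ⟨Q₀, hQ₀N, hQ₀c, hRQ₀⟩ := exists_invariant_sylow R N hRN hcop (Or.inl hRs) q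
    have huniq : ∀ Q₁ : Subgroup G, Q₁ ≤ N → Nat.card Q₁ = q ^ (Nat.card N).factorization q →
        R ≤ Subgroup.normalizer (Q₁ : Set G) → Q₁ = Q₀ := by
      intro Q₁ h2 h3 h4
      obtain ⟨c, hc, hconj⟩ := invariant_sylow_conj R N hRN hcop (Or.inl hRs) q Q₀ Q₁ hQ₀N h2 hQ₀c
        h3 hRQ₀ h4
      have hcM : c ∈ M := hNR ▸ (Subgroup.centralizer_le_normalizer _ hc.2)
      rw [hdisj c hcM hc.1] at hconj
      simpa using hconj.symm
    refine ⟨Q₀, hQ₀N, hQ₀c, ?_, huniq⟩
    intro m hm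
    apply mem_normalizer_of_conj_smul_eq
    apply huniq
    · intro x hx
      rw [mem_conj_smul] at hx
      have := hNn.conj_mem _ (hQ₀N hx) m
      simpa [mul_assoc] using this
    · rw [card_conj_smul, hQ₀c]
    · exact Cfsg.Agent.Lib.Helper2.Subnormal.le_normalizer_conj_smul (hMR hm) hRQ₀
  refine ⟨h1, ?_, ?_⟩
  · intro q _
    obtain ⟨Q₀, hQ₀N, hQ₀c, hMQ₀, huniq⟩ := key q
    have hmap : (Q₀.subgroupOf N).map N.subtype = Q₀ := Subgroup.map_subgroupOf_eq_of_le hQ₀N
    have hc : Nat.card (Q₀.subgroupOf N) = q ^ (Nat.card N).factorization q := by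
      rw [← hQ₀c, ← Subgroup.card_map_of_injective (Subgroup.subtype_injective N), hmap]
    refine ⟨Sylow.ofCard (Q₀.subgroupOf N) hc, ?_, ?_⟩
    · show M ≤ Subgroup.normalizer (((Q₀.subgroupOf N).map N.subtype : Subgroup G) : Set G)
      rw [hmap]; exact hMQ₀
    · intro Q' hQ'
      have h2 := huniq ((Q' : Subgroup ↥N).map N.subtype) (Subgroup.map_subtype_le _)
        (by rw [Subgroup.card_map_of_injective (Subgroup.subtype_injective N)]
            exact Q'.card_eq_multiplicity) (hRM.trans hQ')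
      apply Sylow.ext
      apply Subgroup.map_injective (Subgroup.subtype_injective N)
      rw [h2]
      exact hmap.symm
  · rintro ⟨q, r, hq, hr, hqr, hqN, hrN⟩ hco
    have : Fact q.Prime := ⟨hq⟩
    obtain ⟨Q₀, hQ₀N, hQ₀c, hMQ₀, -⟩ := key q
    have hv : (Nat.card N).factorization q ≠ 0 := by
      have := (Nat.Prime.dvd_iff_one_le_factorization hq Nat.card_pos.ne').1 hqN
      omega
    have hQ₀ne : Q₀ ≠ ⊥ := by
      intro h
      rw [h, Subgroup.card_bot] at hQ₀c
      rcases pow_eq_one_iff.1 hQ₀c.symm with h' | h'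
      · exact hq.one_lt.ne' h'
      · exact hv h'
    have hlt : M < M ⊔ Q₀ := by
      apply lt_of_le_of_ne le_sup_left
      intro h
      have hQM : Q₀ ≤ M := by rw [h]; exact le_sup_right
      apply hQ₀ne
      rw [eq_bot_iff, ← hMN]
      exact le_inf hQM hQ₀N
    have htop := hco.2 _ hlt
    have e1 := card_sup_mul_card_inf' M Q₀ hMQ₀
    have e2 := card_sup_mul_card_inf' M N (by rw [Subgroup.normalizer_eq_top]; exact le_top)
    have htop2 : M ⊔ N = ⊤ := top_le_iff.1 (htop ▸ sup_le_sup_left hQ₀N M)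
    have hb : M ⊓ Q₀ = ⊥ := by
      rw [eq_bot_iff, ← hMN]; exact inf_le_inf_left M hQ₀N
    rw [htop, hb] at e1
    rw [htop2, hMN] at e2
    have e3 : Nat.card Q₀ = Nat.card N :=
      Nat.eq_of_mul_eq_mul_left Nat.card_pos (e1.symm.trans e2)
    rw [← e3, hQ₀c] at hrN
    exact hqr ((Nat.prime_dvd_prime_iff_eq hr hq).1 (hr.dvd_of_dvd_pow hrN)).symm

end Cfsg.Agent.S3749
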