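import Cfsg.Statements.S3750
import Cfsg.Agent.Lib.Helper6.FStar
import Cfsg.Agent.S3748

set_option autoImplicit false
open Cfsg

namespace Cfsg.Agent.S3750

open Cfsg.Agent.Lib.Helper6.Basic Cfsg.Agent.Lib.Helper6.Subn Cfsg.Agent.Lib.Helper6.Quasi
  Cfsg.Agent.Lib.Helper6.Comp Cfsg.Agent.Lib.Helper6.FStar

/-- Call a proper subgroup M of G primitive when M = N_G(N) for every non-trivial normal subgroup N of M. Let M be a primitive subgroup of the finite group G and N a normal subgroup of G with M ∩ F*(N) ≠ 1. Then F(G) = 1 and F*(N) = F*(G) = E(G); in particular every minimal normal subgroup of G is contained in N. -/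
theorem result {G : Type*} [Group G] [Finite G] (M : Subgroup G) (hM : M ≠ ⊤) (hprim : ∀ N : Subgroup G, N ≤ M → M ≤ Subgroup.normalizer (N : Set G) → N ≠ ⊥ → Subgroup.normalizer (N : Set G) = M) (N : Subgroup G) [N.Normal] (hMF : M ⊓ (Cfsg.generalizedFittingSubgroup ↥N).map N.subtype ≠ ⊥) : Cfsg.fittingSubgroup G = ⊥ ∧ (Cfsg.generalizedFittingSubgroup ↥N).map N.subtype = Cfsg.generalizedFittingSubgroup G ∧ Cfsg.generalizedFittingSubgroup G = Cfsg.layer G ∧ ∀ K : Subgroup G, K.Normal → K ≠ ⊥ → (∀ K' : Subgroup G, K'.Normal → K' ≤ K → K' = ⊥ ∨ K' = K) → K ≤ N := by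
  obtain ⟨hsub, hMFit⟩ := Cfsg.Agent.S3748.result M hM hprim
  rw [map_gfit] at hMF ⊢
  rw [fitting_eq] at hMFit ⊢
  rw [gfit_eq, layer_eq]
  have hNzN : Nz N = ⊤ := Subgroup.normalizer_eq_top N
  have hNsn : SN N ⊤ := SN.of_normal le_top (by rw [hNzN])
  set D := M ⊓ Fs N with hD
  have hMD : M ≤ Nz D := by
    apply le_Nz_inf Subgroup.le_normalizer
    have := Nz_le_Nz_Fs N
    rw [hNzN] at this
    exact le_top.trans this
  have hND : Nz D = M := hprim D inf_le_left hMD hMF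
  have hCzD : ∀ X : Subgroup G, X ≤ Cz (Fs N) → X ≤ M := by
    intro X hX
    rw [← hND]
    exact (hX.trans (Cz_anti inf_le_right)).trans (Cz_le_Nz D)
  -- F(G) = 1
  have hF : F (⊤ : Subgroup G) = ⊥ := by
    have hZ : F (⊤ : Subgroup G) ⊓ Cz (F (⊤ : Subgroup G)) ≤ Cz (Fs N) := by
      rw [le_Cz_comm]
      apply sup_le
      · -- E N ≤ Cz (Z(F))
        exact ((E_sn hNsn).trans (E_le_Cz_F ⊤)).trans (Cz_anti inf_le_left)
      · rw [le_Cz_comm]
        exact inf_le_right.trans (Cz_anti (F_sn hNsn))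
    have hZb : F (⊤ : Subgroup G) ⊓ Cz (F (⊤ : Subgroup G)) = ⊥ := by
      rw [eq_bot_iff, ← hMFit]
      exact le_inf (hCzD _ hZ) inf_le_left
    by_contra hne
    have hnil : Group.IsNilpotent ↥(F (⊤ : Subgroup G)) := F_nilpotent ⊤
    have hnt : Nontrivial ↥(F (⊤ : Subgroup G)) := (Subgroup.nontrivial_iff_ne_bot _).2 hne
    apply Group.IsNilpotent.center_ne_bot (G := ↥(F (⊤ : Subgroup G)))
    have := map_center_subtype (F (⊤ : Subgroup G))
    rw [hZb, Subgroup.map_eq_bot_iff_of_injective _ (Subgroup.subtype_injective _)] at this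
    exact this
  have hFsE : Fs (⊤ : Subgroup G) = E ⊤ := by
    unfold Fs; rw [hF, sup_bot_eq]
  have hEN : E (⊤ : Subgroup G) ≤ Fs N := by
    apply sSup_le
    intro L hL
    have hL' : CompIn L ⊤ := hL
    rcases hL'.sn' hNsn with h | h
    · exact (comp_le_E (hL'.of_le h le_top)).trans le_sup_left
    · exfalso
      have h1 : L ≤ Cz (Fs N) := (le_Cz_comm.1 h).trans (Cz_anti (Fs_le N))
      have h2 : L = ⊥ := hsub L (isSubnormal_iff.2 hL'.1) (hCzD L h1)
      exact hL'.2.ne_bot h2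
  have hFsN : Fs N = Fs ⊤ := le_antisymm (Fs_sn hNsn) (hFsE ▸ hEN)
  refine ⟨hF, hFsN, hFsE, ?_⟩
  intro K hK hKne hmin
  have hFsn : (Fs (⊤ : Subgroup G)).Normal := by
    rw [← Subgroup.normalizer_eq_top_iff]
    exact top_le_iff.1 (le_Nz_Fs ⊤)
  have hinf : (K ⊓ Fs (⊤ : Subgroup G)).Normal := inferInstance
  rcases hmin _ hinf inf_le_left with h | h
  · exfalso
    have h1 : ⁅K, Fs (⊤ : Subgroup G)⁆ = ⊥ := by
      rw [eq_bot_iff, ← h]
      exact Subgroup.commutator_le_inf K _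
    have h2 : K ≤ Cz (Fs (⊤ : Subgroup G)) := comm_eq_bot_iff.1 h1
    have h3 : K ≤ Fs ⊤ := (le_inf le_top h2).trans (bender ⊤)
    exact hKne (eq_bot_iff.2 (h ▸ le_inf le_rfl h3))
  · have : K ≤ Fs ⊤ := h ▸ inf_le_right
    exact (this.trans hFsN.ge).trans (Fs_le N)

end Cfsg.Agent.S3750
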