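import Cfsg.Statements.S3755
import Mathlib
import Cfsg.Agent.Lib.Helper6.Off
import Cfsg.Agent.S1324

set_option autoImplicit false
open Cfsg

namespace Cfsg.Agent.S3755

open Cfsg.Agent.Lib.Helper6.Basic Cfsg.Agent.Lib.Helper6.Subn Cfsg.Agent.Lib.Helper6.Quasi Cfsg.Agent.Lib.Helper6.Rad Cfsg.Agent.Lib.Helper6.FStar Cfsg.Agent.Lib.Helper6.Off

/-- Let M and V be subgroups of a finite group with V an elementary abelian 2-group, M normalizing V and acting faithfully on it (M ∩ C(V) = 1), and C_M(O_{2'}(M)) ≤ O_{2'}(M). If some elementary abelian 2-subgroup A of M satisfies |V : C_V(A)| < |A|², then M has a section isomorphic to the symmetric group of degree 3. -/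
theorem result {X : Type*} [Group X] [Finite X] (M V : Subgroup X) (hV : Cfsg.IsElementaryAbelian 2 V) (hMV : M ≤ Subgroup.normalizer (V : Set X)) (hfaith : M ⊓ Subgroup.centralizer (V : Set X) = ⊥) (hcon : Subgroup.centralizer (Cfsg.pPrimeCore 2 ↥M : Set ↥M) ≤ Cfsg.pPrimeCore 2 ↥M) (A : Subgroup X) (hAM : A ≤ M) (hA : Cfsg.IsElementaryAbelian 2 A) (hsmall : (V ⊓ Subgroup.centralizer (A : Set X)).relIndex V < Nat.card A ^ 2) : Cfsg.Involves (Equiv.Perm (Fin 3)) ↥M := by
  have : Fact (Nat.Prime 2) := ⟨Nat.prime_two⟩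
  have hVc : ∀ a ∈ V, ∀ b ∈ V, a * b = b * a := fun a ha b hb =>
    congrArg Subtype.val (hV.1.is_comm.comm ⟨a, ha⟩ ⟨b, hb⟩)
  have hV2 : ∀ a ∈ V, a * a = 1 := fun a ha => by rw [← pow_two]; exact hV.2 a ha
  have hAc : ∀ a ∈ A, ∀ b ∈ A, a * b = b * a := fun a ha b hb =>
    congrArg Subtype.val (hA.1.is_comm.comm ⟨a, ha⟩ ⟨b, hb⟩)
  have hA2 : ∀ a ∈ A, a * a = 1 := fun a ha => by rw [← pow_two]; exact hA.2 a ha
  have hAp : IsPGroup 2 ↥A := by
    intro v
    refine ⟨1, ?_⟩
    apply Subtype.ext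
    have := hA.2 v.1 v.2
    simpa using this
  set Q := Op' 2 M with hQ
  have hQM : Q ≤ M := Op'_le 2 M
  have hQo : (Nat.card Q).Coprime 2 := Op'_coprime 2 M
  have hMQ : M ≤ Nz Q := le_Nz_Op' 2 M
  have hcon' : M ⊓ Cz Q ≤ Q := by
    intro x hx
    obtain ⟨hxM, hxQ⟩ := Subgroup.mem_inf.mp hx
    have h1 : (⟨x, hxM⟩ : ↥M) ∈ Subgroup.centralizer (Cfsg.pPrimeCore 2 ↥M : Set ↥M) := by
      rw [Subgroup.mem_centralizer_iff]
      intro z hz
      apply Subtype.ext
      have hzQ : (z : X) ∈ Q := by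
        rw [hQ, ← map_pPrimeCore]
        exact ⟨z, hz, rfl⟩
      exact (Subgroup.mem_centralizer_iff.mp hxQ) z hzQ
    have h2 := hcon h1
    rw [hQ, ← map_pPrimeCore]
    exact ⟨_, h2, rfl⟩
  have hAQ : A ⊓ Q = ⊥ := by
    apply (Subgroup.disjoint_of_coprime_natCard _).eq_bot
    obtain ⟨k, hk⟩ := IsPGroup.iff_card.mp hAp
    rw [hk]
    exact Nat.Coprime.pow_left k hQo.symm
  have hA0 : A ⊓ Cz V = ⊥ := by
    rw [eq_bot_iff, ← hfaith]
    exact inf_le_inf_right _ hAM
  have hACQ : A ⊓ Cz Q = ⊥ := by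
    rw [eq_bot_iff, ← hAQ]
    exact le_inf inf_le_left ((inf_le_inf_right _ hAM).trans hcon')
  by_contra hno
  have hbad : ¬ Good V Q A := fun h => hno (good_S3 hQM hAM hA2 h)
  have hmain := chain hVc hV2 hQo (hQM.trans hMV) (hAM.trans hMV) (hAM.trans hMQ) hAp
    (by rw [eq_bot_iff, ← hfaith]; exact inf_le_inf_right _ hQM)
    (by
      intro a ha b hb
      rw [hAc a ha b hb]
      have : b * a * a⁻¹ * b⁻¹ = 1 := by group
      rw [this]; exact Subgroup.one_mem _)
    (by intro a ha; rw [hA2 a ha]; exact Subgroup.one_mem _)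
    (by rw [hACQ]; exact bot_le)
    (by
      intro F _ hFA hFQ
      have hFea : Cfsg.IsElementaryAbelian 2 F :=
        ⟨⟨⟨fun a b => Subtype.ext (hAc a.1 (hFA a.2) b.1 (hFA b.2))⟩⟩, fun a ha => hA.2 a (hFA ha)⟩
      by_contra hcon2
      push Not at hcon2
      apply hFQ
      rw [Subgroup.le_centralizer_iff]
      obtain ⟨k, hk⟩ := IsPGroup.iff_card.mp (hAp.to_le hFA)
      rcases k with _ | _ | k
      · have : F = ⊥ := Subgroup.card_eq_one.mp (by simpa using hk)
        rw [this]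
        intro x _
        rw [Subgroup.mem_centralizer_iff]
        intro z hz
        have hz1 : z = 1 := by simpa using hz
        rw [hz1]; simp
      · have := hcon2 ⊥ (by rw [hA0]) bot_le (by rw [hk]; simp)
        refine le_trans ?_ this
        refine le_inf le_rfl ?_
        intro x _
        rw [Subgroup.mem_centralizer_iff]
        intro z hz
        have hz1 : z = 1 := by simpa using hz
        rw [hz1]; simp
      · have h4 : 2 ^ 2 ≤ Nat.card ↥F := by
          rw [hk]; exact Nat.pow_le_pow_right (by norm_num) (by omega)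
        have hgen := Cfsg.Agent.S1324.result 2 F Q hFea h4
          (by
            intro hd
            have := Nat.Coprime.eq_one_of_dvd hQo.symm hd
            omega)
          ((hFA.trans hAM).trans hMQ)
        rw [hgen]
        apply iSup_le
        rintro ⟨B, hBF, hBi⟩
        show Q ⊓ Cz B ≤ Cz F
        have h5 := Cfsg.Agent.Lib.Helper6.Card.card_mul_relIndex hBF
        have h6 : B.relIndex F ≠ 0 := by
          intro h0
          rw [h0, mul_zero] at h5
          have : 0 < Nat.card ↥F := Nat.card_pos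
          omega
        have h7 : B.relIndex F = 1 ∨ B.relIndex F = 2 := by omega
        rcases h7 with h7 | h7
        · rw [h7, mul_one] at h5
          have : B = F := Subgroup.eq_of_le_of_card_ge hBF h5.ge
          rw [this]; exact inf_le_right
        · exact hcon2 B (by rw [hA0]; exact bot_le) hBF (by rw [← h5, h7]; ring))
    hbad (Nat.card A) A rfl inf_le_left le_rfl
  rw [hA0] at hmain
  have h5 := Cfsg.Agent.Lib.Helper6.Card.card_mul_relIndex (inf_le_left : V ⊓ Cz A ≤ V)
  have h6 : 0 < Nat.card ↥(V ⊓ Cz A) := Nat.card_pos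
  have h7 : Nat.card ↥(⊥ : Subgroup X) = 1 := by simp
  rw [h7] at hmain
  have h8 : Nat.card ↥(V ⊓ Cz A) * (V ⊓ Cz A).relIndex V < Nat.card ↥(V ⊓ Cz A) * Nat.card A ^ 2 :=
    Nat.mul_lt_mul_of_pos_left hsmall h6
  rw [h5] at h8
  nlinarith

end Cfsg.Agent.S3755
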