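import Cfsg.Statements.S3760


set_option autoImplicit false
open Cfsg

namespace Cfsg.Agent.S3760

/-- Let the group G act transitively on a set X, let x ∈ X with stabilizer H = G_x, and let K ≤ H. Then N_G(K) acts transitively on the set of fixed points of K if and only if every G-conjugate of K contained in H is already an H-conjugate of K. -/
theorem result {G : Type*} [Group G] {X : Type*} [MulAction G X] (htrans : ∀ a b : X, ∃ g : G, g • a = b) (x : X) (K : Subgroup G) (hK : K ≤ MulAction.stabilizer G x) : (∀ a b : X, (∀ k ∈ K, k • a = a) → (∀ k ∈ K, k • b = b) → ∃ g ∈ Subgroup.normalizer (K : Set G), g • a = b) ↔ ∀ g : G, K.map (MulAut.conj g).toMonoidHom ≤ MulAction.stabilizer G x → ∃ h ∈ MulAction.stabilizer G x, K.map (MulAut.conj g).toMonoidHom = K.map (MulAut.conj h).toMonoidHom := by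
  have hmem : ∀ (g y : G), y ∈ K.map (MulAut.conj g).toMonoidHom ↔ g⁻¹ * y * g ∈ K := by
    intro g y
    constructor
    · rintro ⟨k, hk, rfl⟩
      have : g⁻¹ * ((MulAut.conj g).toMonoidHom k) * g = k := by
        simp [MulAut.conj_apply, mul_assoc]
      rw [this]; exact hk
    · intro h
      exact ⟨_, h, by simp [MulAut.conj_apply, mul_assoc]⟩
  have hxfix : ∀ k ∈ K, k • x = x := fun k hk => MulAction.mem_stabilizer_iff.mp (hK hk)
  constructor
  · intro h g hg
    have h1 : ∀ k ∈ K, k • (g⁻¹ • x) = g⁻¹ • x := by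
      intro k hk
      have h2 : g * k * g⁻¹ ∈ K.map (MulAut.conj g).toMonoidHom := by
        rw [hmem]
        have : g⁻¹ * (g * k * g⁻¹) * g = k := by group
        rw [this]; exact hk
      have h3 := MulAction.mem_stabilizer_iff.mp (hg h2)
      rw [mul_smul, mul_smul] at h3
      rw [eq_inv_smul_iff]
      exact h3
    obtain ⟨n, hn, hnx⟩ := h x (g⁻¹ • x) hxfix h1
    refine ⟨g * n, ?_, ?_⟩
    · rw [MulAction.mem_stabilizer_iff, mul_smul, hnx, smul_inv_smul]
    · ext y
      rw [hmem, hmem]
      have h4 := Subgroup.mem_normalizer_iff.mp hn ((g * n)⁻¹ * y * (g * n))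
      have : n * ((g * n)⁻¹ * y * (g * n)) * n⁻¹ = g⁻¹ * y * g := by group
      rw [this] at h4
      exact h4.symm
  · intro h
    have key : ∀ a : X, (∀ k ∈ K, k • a = a) → ∃ g ∈ Subgroup.normalizer (K : Set G), g • x = a := by
      intro a ha
      obtain ⟨g, hg⟩ := htrans x a
      have h1 : K.map (MulAut.conj g⁻¹).toMonoidHom ≤ MulAction.stabilizer G x := by
        intro y hy
        rw [hmem, inv_inv] at hy
        have h2 := ha _ hy
        rw [← hg, mul_smul, mul_smul, inv_smul_smul] at h2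
        rw [MulAction.mem_stabilizer_iff]
        exact smul_left_cancel g h2
      obtain ⟨s, hs, hs2⟩ := h g⁻¹ h1
      refine ⟨g * s, ?_, ?_⟩
      · rw [Subgroup.mem_normalizer_iff]
        intro y
        have h3 : (s * y * s⁻¹ ∈ K.map (MulAut.conj g⁻¹).toMonoidHom) ↔ (s * y * s⁻¹ ∈ K.map (MulAut.conj s).toMonoidHom) := by
          rw [hs2]
        rw [hmem, hmem, inv_inv] at h3
        have e1 : s⁻¹ * (s * y * s⁻¹) * s = y := by group
        have e2 : g * (s * y * s⁻¹) * g⁻¹ = g * s * y * (g * s)⁻¹ := by group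
        rw [e1, e2] at h3
        exact h3.symm
      · rw [mul_smul, MulAction.mem_stabilizer_iff.mp hs, hg]
    intro a b ha hb
    obtain ⟨g1, hg1, e1⟩ := key a ha
    obtain ⟨g2, hg2, e2⟩ := key b hb
    refine ⟨g2 * g1⁻¹, Subgroup.mul_mem _ hg2 (Subgroup.inv_mem _ hg1), ?_⟩
    rw [mul_smul, ← e1, inv_smul_smul, e2]

end Cfsg.Agent.S3760
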