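import Cfsg.Statements.S3771
import Cfsg.Agent.Lib.Helper6.Quasi
import Cfsg.Agent.S0015

set_option autoImplicit false
open Cfsg

namespace Cfsg.Agent.S3771

open Cfsg.Agent.Lib.Helper6.Quasi

/-- Let p be a prime and R a finite p-group of p-rank at most 2 (no elementary abelian subgroup of order p³) in which every element has order dividing p. Then R has order at most p³. -/
theorem result {R : Type*} [Group R] [Finite R] {p : ℕ} [Fact p.Prime] (hR : IsPGroup p R) (hrank : Cfsg.PRankLE p 2 R) (hexp : ∀ x : R, x ^ p = 1) : Nat.card R ≤ p ^ 3 := by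
  classical
  have hp := (Fact.out : p.Prime)
  haveI : Group.IsNilpotent R := hR.isNilpotent
  obtain ⟨A, hAmax⟩ := (Set.toFinite {A : Subgroup R | A.Normal ∧ IsMulCommutative A}).exists_maximal
    ⟨⊥, inferInstance, inferInstance⟩
  obtain ⟨hAn, hAc⟩ := hAmax.prop
  haveI := hAn
  haveI := hAc
  have hCA : Subgroup.centralizer (A : Set R) = A := S0015.result A
    (fun M hM hMc hAM => le_antisymm (hAmax.le_of_ge ⟨hM, hMc⟩ hAM) hAM)
  have hAcard : Nat.card A ≤ p ^ 2 := hrank A hAc (fun a _ => hexp a)
  by_cases hAZ : A ≤ Subgroup.center R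
  · have : A = ⊤ := by
      rw [← hCA, Subgroup.centralizer_eq_top_iff_subset]
      exact hAZ
    calc Nat.card R = Nat.card A := by rw [this, Subgroup.card_top]
      _ ≤ p ^ 2 := hAcard
      _ ≤ p ^ 3 := Nat.pow_le_pow_right hp.pos (by norm_num)
  · obtain ⟨a, haA, haZ⟩ := SetLike.not_le_iff_exists.1 hAZ
    have hZA : Subgroup.center R ≤ A := by
      rw [← hCA]
      exact Subgroup.center_le_centralizer _
    haveI : Nontrivial R := ⟨⟨a, 1, fun h => haZ (h ▸ Subgroup.one_mem _)⟩⟩
    haveI hcn := hR.center_nontrivial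
    obtain ⟨i, hi0, hZc⟩ := (hR.to_subgroup (Subgroup.center R)).nontrivial_iff_card.1 hcn
    have hCa : Subgroup.centralizer ({a} : Set R) = A := by
      apply le_antisymm
      · intro t ht
        rw [← hCA, Subgroup.mem_centralizer_iff]
        have hZB : Subgroup.center R ≤ A ⊓ Subgroup.centralizer ({t} : Set R) :=
          le_inf hZA (Subgroup.center_le_centralizer _)
        have haB : a ∈ A ⊓ Subgroup.centralizer ({t} : Set R) :=
          ⟨haA, by
            show a ∈ Subgroup.centralizer ({t} : Set R)
            rw [Subgroup.mem_centralizer_singleton_iff]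
            exact (Subgroup.mem_centralizer_singleton_iff.1 ht).symm⟩
        have hlt : Subgroup.center R < A ⊓ Subgroup.centralizer ({t} : Set R) :=
          lt_of_le_of_ne hZB (fun e => haZ (by rw [e]; exact haB))
        obtain ⟨j, hj⟩ := IsPGroup.iff_card.1
          (hR.to_subgroup (A ⊓ Subgroup.centralizer ({t} : Set R)))
        have h1 := card_lt_of_lt hlt
        rw [hZc, hj] at h1
        have h2 : i < j := (Nat.pow_lt_pow_iff_right hp.one_lt).1 h1
        have h3 : A ⊓ Subgroup.centralizer ({t} : Set R) = A :=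
          Subgroup.eq_of_le_of_card_ge inf_le_left (by
            rw [hj]
            exact hAcard.trans (Nat.pow_le_pow_right hp.pos (by omega)))
        intro b hb
        have hb' : b ∈ A ⊓ Subgroup.centralizer ({t} : Set R) := by rw [h3]; exact hb
        exact Subgroup.mem_centralizer_singleton_iff.1 hb'.2
      · intro b hb
        rw [Subgroup.mem_centralizer_singleton_iff]
        exact congrArg Subtype.val (hAc.is_comm.comm ⟨b, hb⟩ ⟨a, haA⟩)
    haveI : Fintype R := Fintype.ofFinite R
    let g : R → R := fun r => r * a * r⁻¹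
    have hAc' : ((Finset.univ : Finset R).filter (fun x => x ∈ A)).card = Nat.card A := by
      rw [Nat.card_eq_fintype_card, Fintype.card_subtype]
    have hfib : ∀ b ∈ (Finset.univ : Finset R).image g,
        ((Finset.univ : Finset R).filter (fun r => g r = b)).card ≤ Nat.card A := by
      intro b hb
      obtain ⟨r₀, -, rfl⟩ := Finset.mem_image.1 hb
      rw [← hAc']
      apply Finset.card_le_card_of_injOn (fun r => r₀⁻¹ * r)
      · intro r hr
        have hr' : r * a * r⁻¹ = r₀ * a * r₀⁻¹ := (Finset.mem_filter.1 hr).2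
        simp only [Finset.coe_filter, Finset.mem_univ, true_and, Set.mem_setOf_eq]
        rw [← hCa, Subgroup.mem_centralizer_singleton_iff]
        calc r₀⁻¹ * r * a = r₀⁻¹ * (r * a * r⁻¹) * r := by group
          _ = r₀⁻¹ * (r₀ * a * r₀⁻¹) * r := by rw [hr']
          _ = a * (r₀⁻¹ * r) := by group
      · intro x _ y _ hxy
        exact mul_left_cancel hxy
    have h1 := Finset.card_le_mul_card_image (f := g) (Finset.univ : Finset R) (Nat.card A) hfib
    have himg : ((Finset.univ : Finset R).image g).card ≤ Nat.card A - 1 := by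
      have hsub : (Finset.univ : Finset R).image g ⊆
          ((Finset.univ : Finset R).filter (fun x => x ∈ A)).erase 1 := by
        intro x hx
        obtain ⟨r, -, rfl⟩ := Finset.mem_image.1 hx
        rw [Finset.mem_erase]
        refine ⟨?_, Finset.mem_filter.2 ⟨Finset.mem_univ _, hAn.conj_mem a haA r⟩⟩
        intro h
        apply haZ
        have : a = 1 := conj_eq_one_iff.1 h
        rw [this]
        exact Subgroup.one_mem _
      calc ((Finset.univ : Finset R).image g).card
          ≤ (((Finset.univ : Finset R).filter (fun x => x ∈ A)).erase 1).card :=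
            Finset.card_le_card hsub
        _ = Nat.card A - 1 := by
          rw [Finset.card_erase_of_mem (Finset.mem_filter.2 ⟨Finset.mem_univ _, A.one_mem⟩), hAc']
    obtain ⟨n, hn⟩ := IsPGroup.iff_card.1 hR
    rw [Finset.card_univ, ← Nat.card_eq_fintype_card] at h1
    have hpp : 0 < p ^ 2 := Nat.pow_pos hp.pos
    have h2 : Nat.card R < p ^ 4 := by
      calc Nat.card R ≤ Nat.card A * ((Finset.univ : Finset R).image g).card := h1
        _ ≤ Nat.card A * (Nat.card A - 1) := Nat.mul_le_mul_left _ himg
        _ ≤ p ^ 2 * (p ^ 2 - 1) := Nat.mul_le_mul hAcard (Nat.sub_le_sub_right hAcard 1)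
        _ < p ^ 2 * p ^ 2 := Nat.mul_lt_mul_of_pos_left (Nat.sub_lt hpp one_pos) hpp
        _ = p ^ 4 := by ring
    rw [hn] at h2 ⊢
    have : n < 4 := (Nat.pow_lt_pow_iff_right hp.one_lt).1 h2
    exact Nat.pow_le_pow_right hp.pos (by omega)

end Cfsg.Agent.S3771
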