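import Cfsg.Statements.S3784
import Mathlib

set_option autoImplicit false
open Cfsg

namespace Cfsg.Agent.S3784

open Cfsg

theorem not_two_pow_succ_dvd (c : ℕ) : ¬ 2 ^ (c + 1) ∣ 2 ^ c := by
  intro h
  have := Nat.le_of_dvd (by positivity) h
  rw [pow_succ] at this
  have : 0 < 2 ^ c := by positivity
  omega

theorem pow_odd_modEq (x M k : ℕ) (h : x ^ 2 ≡ 1 [MOD M]) : x ^ (2 * k + 1) ≡ x [MOD M] := by
  rw [pow_succ, pow_mul]
  have := (h.pow k).mul_right x
  simpa using this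

/-- x odd > 1, n odd, x^n + 1 = 2^a ⇒ n = 1 -/
theorem auxA (x n a : ℕ) (hx : Odd x) (hx1 : 1 < x) (hn : Odd n) (h : x ^ n + 1 = 2 ^ a) : n = 1 := by
  have h1 : x + 1 ∣ x ^ n + 1 := by
    have := hn.nat_add_dvd_pow_add_pow x 1
    simpa using this
  rw [h] at h1
  obtain ⟨c, hc, hc2⟩ := (Nat.dvd_prime_pow Nat.prime_two).mp h1
  rcases Nat.eq_or_lt_of_le hc with hca | hca
  · subst hca
    have : x ^ n = x := by omega
    exact (Nat.pow_eq_self_iff hx1).mp this
  · exfalso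
    obtain ⟨m, hm⟩ := hx
    obtain ⟨k, hk⟩ := hn
    have hsq : x ^ 2 ≡ 1 [MOD 2 ^ (c + 1)] := by
      have e : x ^ 2 = 1 + 2 ^ (c + 1) * m := by
        rw [pow_succ 2 c, ← hc2, hm]; ring
      rw [e]
      exact (Nat.modEq_iff_dvd' (by omega)).mpr (by simp) |>.symm
    have h2 := pow_odd_modEq x _ k hsq
    rw [← hk] at h2
    have h3 : 2 ^ (c + 1) ∣ x ^ n + 1 := by
      rw [h]; exact pow_dvd_pow 2 hca
    have h4 : x ^ n + 1 ≡ x + 1 [MOD 2 ^ (c + 1)] := h2.add_right 1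
    have h5 : 2 ^ (c + 1) ∣ x + 1 := (h4.dvd_iff (dvd_refl _)).mp h3
    rw [hc2] at h5
    exact not_two_pow_succ_dvd c h5

/-- x odd > 1, n odd, x^n = 2^b + 1 ⇒ n = 1 -/
theorem auxB (x n b : ℕ) (hx : Odd x) (hx1 : 1 < x) (hn : Odd n) (h : x ^ n = 2 ^ b + 1) : n = 1 := by
  have h1 : x - 1 ∣ x ^ n - 1 := by
    have := Nat.sub_dvd_pow_sub_pow x 1 n
    simpa using this
  have h0 : x ^ n - 1 = 2 ^ b := by rw [h]; simp
  rw [h0] at h1
  obtain ⟨c, hc, hc2⟩ := (Nat.dvd_prime_pow Nat.prime_two).mp h1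
  have hc3 : x = 2 ^ c + 1 := by omega
  rcases Nat.eq_or_lt_of_le hc with hca | hca
  · subst hca
    have : x ^ n = x := by omega
    exact (Nat.pow_eq_self_iff hx1).mp this
  · exfalso
    obtain ⟨m, hm⟩ := hx
    obtain ⟨k, hk⟩ := hn
    have hc4 : 2 ^ c = 2 * m := by omega
    have hsq : x ^ 2 ≡ 1 [MOD 2 ^ (c + 1)] := by
      have e : x ^ 2 = 1 + 2 ^ (c + 1) * (m + 1) := by
        rw [pow_succ 2 c, hc4, hm]; ring
      rw [e]
      exact (Nat.modEq_iff_dvd' (by omega)).mpr (by simp) |>.symm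
    have h2 := pow_odd_modEq x _ k hsq
    rw [← hk, h, hc3] at h2
    have h3 : 2 ^ (c + 1) ∣ 2 ^ b := pow_dvd_pow 2 hca
    have h4 : 2 ^ b ≡ 2 ^ c [MOD 2 ^ (c + 1)] := Nat.ModEq.add_right_cancel' 1 h2
    have h5 : 2 ^ (c + 1) ∣ 2 ^ c := (h4.dvd_iff (dvd_refl _)).mp h3
    exact not_two_pow_succ_dvd c h5

/-- x^2 = 2^b + 1 ⇒ x = 3 -/
theorem auxC (x b : ℕ) (h : x ^ 2 = 2 ^ b + 1) : x = 3 := by
  have hx1 : 1 ≤ x := by
    rcases Nat.eq_zero_or_pos x with h0 | h0
    · rw [h0] at h; simp at h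
    · exact h0
  obtain ⟨y, rfl⟩ : ∃ y, x = y + 1 := ⟨x - 1, by omega⟩
  have e : y * (y + 2) = 2 ^ b := by nlinarith
  have h1 : y ∣ 2 ^ b := Dvd.intro _ e
  have h2 : y + 2 ∣ 2 ^ b := Dvd.intro_left _ e
  obtain ⟨i, _, hi⟩ := (Nat.dvd_prime_pow Nat.prime_two).mp h1
  obtain ⟨j, _, hj⟩ := (Nat.dvd_prime_pow Nat.prime_two).mp h2
  rw [hi] at hj
  -- 2^i + 2 = 2^j
  rcases i with _ | _ | i
  · exfalso
    rcases j with _ | j
    · simp at hj
    · rw [pow_succ] at hj; omega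
  · rw [hi]; norm_num
  · exfalso
    rcases j with _ | _ | j
    · simp at hj
    · have : 0 < 2 ^ (i + 1 + 1) := by positivity
      omega
    · rw [pow_succ, pow_succ, pow_succ 2 (j+1), pow_succ 2 j] at hj; omega

/-- Let p, q be primes and a, b positive integers with p^a = q^b + 1. Then either p = 2, b = 1, a is prime and q = 2^a − 1; or q = 2, a = 1, b is a power of 2 and p = 2^b + 1; or p^a = 9 and q^b = 8. -/
theorem result (p q a b : ℕ) (hp : p.Prime) (hq : q.Prime) (ha : 1 ≤ a) (hb : 1 ≤ b) (h : p ^ a = q ^ b + 1) : (p = 2 ∧ b = 1 ∧ a.Prime ∧ q + 1 = 2 ^ a) ∨ (q = 2 ∧ a = 1 ∧ (∃ m : ℕ, b = 2 ^ m) ∧ p = 2 ^ b + 1) ∨ (p ^ a = 9 ∧ q ^ b = 8) := by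
  rcases hp.eq_two_or_odd' with hp2 | hpo
  · subst hp2
    rcases hq.eq_two_or_odd' with hq2 | hqo
    · exfalso
      subst hq2
      obtain ⟨a, rfl⟩ : ∃ a', a = a' + 1 := ⟨a - 1, by omega⟩
      obtain ⟨b, rfl⟩ : ∃ a', b = a' + 1 := ⟨b - 1, by omega⟩
      rw [pow_succ, pow_succ] at h; omega
    · left
      have hb1 : b = 1 := by
        rcases Nat.even_or_odd b with hbe | hbo
        · exfalso
          obtain ⟨k, hk⟩ := hbe
          obtain ⟨m, hm⟩ := hqo
          have h4 : q ^ 2 ≡ 1 [MOD 4] := by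
            have e : q ^ 2 = 1 + 4 * (m * m + m) := by rw [hm]; ring
            rw [e]
            exact (Nat.modEq_iff_dvd' (by omega)).mpr (by simp) |>.symm
          have h5 : q ^ b ≡ 1 [MOD 4] := by
            have := h4.pow k
            rw [← pow_mul, one_pow] at this
            rw [hk, ← two_mul]; exact this
          have h6 : 2 ^ a ≡ 2 [MOD 4] := by rw [h]; exact h5.add_right 1
          rcases a with _ | _ | a
          · omega
          · have : q ^ b = 1 := by omega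
            have h7 : 1 < q ^ b := Nat.one_lt_pow (by omega) hq.one_lt
            omega
          · have h8 : 2 ^ (a + 1 + 1) = 4 * 2 ^ a := by ring
            rw [h8] at h6
            have h9 : (4 * 2 ^ a) % 4 = 2 % 4 := h6
            omega
        · exact auxA q b a hqo hq.one_lt hbo h.symm
      subst hb1
      rw [pow_one] at h
      refine ⟨rfl, rfl, ?_, h.symm⟩
      have hq' : (2 ^ a - 1).Prime := by
        have : 2 ^ a - 1 = q := by omega
        rw [this]; exact hq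
      refine (Nat.prime_of_pow_sub_one_prime ?_ hq').2
      rintro rfl
      norm_num at hq'
  · right
    have hq2 : q = 2 := by
      rcases hq.eq_two_or_odd' with hq2 | hqo
      · exact hq2
      · exfalso
        have h1 : Odd (p ^ a) := hpo.pow
        have h2 : Odd (q ^ b) := hqo.pow
        rw [h] at h1
        have h3 : Even (q ^ b + 1) := h2.add_one
        exact (Nat.not_even_iff_odd.mpr h1) h3
    subst hq2
    rcases Nat.even_or_odd a with hae | hao
    · right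
      obtain ⟨k, hk⟩ := hae
      have h1 : (p ^ k) ^ 2 = 2 ^ b + 1 := by
        rw [← pow_mul, mul_two, ← hk]; exact h
      have h2 := auxC _ _ h1
      have h3 : p ^ a = 9 := by
        rw [hk, ← mul_two, pow_mul, h2]; norm_num
      exact ⟨h3, by omega⟩
    · left
      have ha1 := auxB p a b hpo hp.one_lt hao h
      subst ha1
      rw [pow_one] at h
      refine ⟨rfl, rfl, ?_, h⟩
      apply Nat.pow_of_pow_add_prime (a := 2) (by norm_num) (by omega)
      rw [← h]; exact hp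

end Cfsg.Agent.S3784
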