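import Cfsg.Statements.S3785
import Cfsg.Agent.Lib.Helper1.Cores
import Cfsg.Agent.Lib.Helper1.FittingSolv
import Cfsg.Agent.Lib.Helper1.Bridge
import Cfsg.Agent.Lib.Helper9.PSolv

set_option autoImplicit false
open Cfsg

namespace Cfsg.Agent.S3785

open Cfsg.Agent.Lib.Helper1

section aux
variable {G : Type*} [Group G] [Finite G]

/-- prime-power decomposition principle -/
theorem mem_of_prime_parts (H : Subgroup G) (x : G)
    (h : ∀ (p : ℕ) [Fact p.Prime] (y : G), y ∈ Subgroup.zpowers x →
      IsPGroup p (Subgroup.zpowers y) → y ∈ H) : x ∈ H := by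
  have h1 : H.subgroupOf (Subgroup.zpowers x) = ⊤ := by
    apply eq_top_of_sylow_le
    intro p hp
    obtain ⟨P⟩ : Nonempty (Sylow p (Subgroup.zpowers x)) := inferInstance
    refine ⟨P, ?_⟩
    intro y hy
    rw [Subgroup.mem_subgroupOf]
    apply h p y.1 y.2
    have h3 : IsPGroup p (Subgroup.zpowers y) :=
      P.isPGroup'.to_le (by rwa [Subgroup.zpowers_le])
    have h2 := h3.map (Subgroup.zpowers x).subtype
    rwa [MonoidHom.map_zpowers] at h2
  have h2 : Subgroup.zpowers x ≤ H := Subgroup.subgroupOf_eq_top.mp h1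
  exact h2 (Subgroup.mem_zpowers x)

theorem mem_pCore_of_mem_fitting {p : ℕ} [hp : Fact p.Prime] {x : G}
    (hx : x ∈ fittingSubgroup G) (hxp : IsPGroup p (Subgroup.zpowers x)) : x ∈ pCore p G := by
  have hn := pCore_normal (G := G) p
  have hn' := pPrimeCore_normal (G := G) p
  have hle : pCore p G ≤ fittingSubgroup G := pCore_le_fitting p
  have hc : Nat.card (pCore p G) = p ^ (Nat.card (fittingSubgroup G)).factorization p := by
    apply card_eq_of_le_sup (R := pPrimeCore p G) (pCore_isPGroup p) (pPrimeCore_coprime p) hle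
    rw [fitting_eq_iSup_pCore]
    apply iSup_le
    intro q
    by_cases hq : (q : ℕ) = p
    · rw [hq]; exact le_sup_left
    · exact (pCore_le_pPrimeCore hp.out q.2 hq).trans le_sup_right
  have hrel : ((pCore p G).relIndex (fittingSubgroup G)).Coprime p := by
    have h1 := card_mul_relIndex_of_le hle
    have h2 := Nat.coprime_ordCompl hp.out (Nat.card_pos (α := fittingSubgroup G)).ne'
    have h3 : (pCore p G).relIndex (fittingSubgroup G) =
        Nat.card (fittingSubgroup G) / p ^ (Nat.card (fittingSubgroup G)).factorization p := by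
      rw [← hc, ← h1, Nat.mul_div_cancel_left _ Nat.card_pos]
    rw [h3]
    exact h2.symm
  have := Cfsg.Agent.Lib.Helper9.PSolv.le_of_pgroup_of_coprime (N := pCore p G)
    (M := fittingSubgroup G) (D := Subgroup.zpowers x) (by rwa [Subgroup.zpowers_le]) hxp hrel
  exact this (Subgroup.mem_zpowers x)

theorem cent_pCore (hodd : Odd (Nat.card (fittingSubgroup G))) {p : ℕ} [hp : Fact p.Prime] {d : G}
    (hd : ∀ x ∈ fittingSubgroup G, (orderOf x).Prime → d * x = x * d)
    (hcop : (orderOf d).Coprime p) :
    d ∈ Subgroup.centralizer (pCore p G : Set G) := by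
  have hn := pCore_normal (G := G) p
  have hle : pCore p G ≤ fittingSubgroup G := pCore_le_fitting p
  by_cases hp2 : p = 2
  · subst hp2
    have h1 : Nat.card (pCore 2 G) ∣ Nat.card (fittingSubgroup G) := Subgroup.card_dvd_of_le hle
    obtain ⟨k, hk⟩ := IsPGroup.iff_card.mp (pCore_isPGroup (G := G) 2)
    have h2 : pCore 2 G = ⊥ := by
      rw [← Subgroup.card_eq_one]
      rcases Nat.eq_zero_or_pos k with rfl | hk0
      · simpa using hk
      · exfalso
        have : 2 ∣ Nat.card (fittingSubgroup G) := (dvd_pow_self 2 hk0.ne').trans (hk ▸ h1)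
        exact (Nat.not_even_iff_odd.mpr hodd) (even_iff_two_dvd.mpr this)
    rw [h2, Subgroup.mem_centralizer_iff]
    intro x hx
    have hx1 : x = 1 := by simpa using hx
    rw [hx1]; simp
  · apply mem_centralizer_of_small_order (p := p) (e := p) (pCore p G) (pCore_isPGroup p) d
      (by rw [Subgroup.normalizer_eq_top_iff.mpr hn]; trivial) hcop dvd_rfl
      (hp.out.dvd_choose_self (by norm_num) (lt_of_le_of_ne hp.out.two_le (Ne.symm hp2)))
    intro x hx hxp
    by_cases hx1 : x = 1
    · rw [hx1]; simp
    · exact hd x (hle hx) (by rw [orderOf_eq_prime hxp hx1]; exact hp.out)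

theorem centralizer_normal_of_conj_inv (S : Set G) (hS : ∀ g x, x ∈ S → g * x * g⁻¹ ∈ S) :
    (Subgroup.centralizer S).Normal := by
  refine ⟨fun n hn g => ?_⟩
  rw [Subgroup.mem_centralizer_iff] at *
  intro x hx
  have h1 := hn (g⁻¹ * x * g) (by simpa using hS g⁻¹ x hx)
  calc x * (g * n * g⁻¹) = g * ((g⁻¹ * x * g) * n) * g⁻¹ := by group
    _ = g * (n * (g⁻¹ * x * g)) * g⁻¹ := by rw [h1]
    _ = g * n * g⁻¹ * x := by group

end aux

/-- Let G be a finite solvable group whose Fitting subgroup F(G) has odd order. If an element g of G commutes with every element of prime order of F(G), then g ∈ F(G). -/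
theorem result {G : Type*} [Group G] [Finite G] (hG : Group.IsSolvable G) (hodd : Odd (Nat.card (Cfsg.fittingSubgroup G))) (g : G) (hg : ∀ x ∈ Cfsg.fittingSubgroup G, (orderOf x).Prime → g * x = x * g) : g ∈ Cfsg.fittingSubgroup G := by
  have hFn := fitting_normal (G := G)
  apply mem_of_prime_parts
  intro q hq y hy hyq
  -- the set
  let S : Set G := {x | x ∈ fittingSubgroup G ∧ (orderOf x).Prime} ∪
    {x | ∃ p : ℕ, p.Prime ∧ p ≠ q ∧ x ∈ pCore p G}
  have hSinv : ∀ g x, x ∈ S → g * x * g⁻¹ ∈ S := by
    intro g x hx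
    rcases hx with ⟨h1, h2⟩ | ⟨p, hp, hpq, h1⟩
    · left
      refine ⟨hFn.conj_mem x h1 g, ?_⟩
      have : orderOf (g * x * g⁻¹) = orderOf x := by
        have := orderOf_injective (MulAut.conj g).toMonoidHom (MulAut.conj g).injective x
        simpa using this
      rwa [this]
    · right
      exact ⟨p, hp, hpq, (pCore_normal (G := G) p).conj_mem x h1 g⟩
  let R : Subgroup G := Subgroup.centralizer S
  have hRn : R.Normal := centralizer_normal_of_conj_inv S hSinv
  have hR1 : ∀ r ∈ R, ∀ x ∈ fittingSubgroup G, (orderOf x).Prime → r * x = x * r := by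
    intro r hr x hx hxo
    exact ((Subgroup.mem_centralizer_iff.mp hr) x (Or.inl ⟨hx, hxo⟩)).symm
  have hR2 : ∀ r ∈ R, ∀ p : ℕ, p.Prime → p ≠ q → ∀ x ∈ pCore p G, r * x = x * r := by
    intro r hr p hp hpq x hx
    exact ((Subgroup.mem_centralizer_iff.mp hr) x (Or.inr ⟨p, hp, hpq, hx⟩)).symm
  -- q'-elements of R lie in F
  have hi : ∀ z ∈ R, (orderOf z).Coprime q → z ∈ fittingSubgroup G := by
    intro z hz hzo
    apply centralizer_fitting_le
    have h1 : fittingSubgroup G ≤ Subgroup.centralizer {z} := by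
      rw [fitting_eq_iSup_pCore]
      apply iSup_le
      intro p
      intro x hx
      rw [Subgroup.mem_centralizer_singleton_iff]
      by_cases hpq : (p : ℕ) = q
      · have h2 := cent_pCore hodd (p := q) (hR1 z hz) hzo
        rw [hpq] at hx
        exact ((Subgroup.mem_centralizer_iff.mp h2) x hx)
      · exact (hR2 z hz p p.2 hpq x hx).symm
    rw [Subgroup.mem_centralizer_iff]
    intro x hx
    have := h1 hx
    rw [Subgroup.mem_centralizer_singleton_iff] at this
    exact this
  -- q'-elements of R are central in R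
  have hii : ∀ z ∈ R, (orderOf z).Coprime q → z ∈ Subgroup.centralizer (R : Set G) := by
    intro z hz hzo
    apply mem_of_prime_parts
    intro p hp w hw hwp
    have hwF : w ∈ fittingSubgroup G :=
      (Subgroup.zpowers_le.mpr (hi z hz hzo)) hw
    have hwO : w ∈ pCore p G := mem_pCore_of_mem_fitting hwF hwp
    by_cases hpq : p = q
    · subst hpq
      obtain ⟨j, hj⟩ := IsPGroup.iff_card.mp hwp
      rw [Nat.card_zpowers] at hj
      have h1 : orderOf w ∣ orderOf z := orderOf_dvd_of_mem_zpowers hw
      have h2 : (orderOf w).Coprime p := Nat.Coprime.coprime_dvd_left h1 hzo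
      have h3 : orderOf w = 1 := by
        apply Nat.Coprime.eq_one_of_dvd (m := p ^ j) (Nat.Coprime.pow_right j h2)
        rw [hj]
      rw [orderOf_eq_one_iff] at h3
      rw [h3]
      exact Subgroup.one_mem _
    · rw [Subgroup.mem_centralizer_iff]
      intro r hr
      exact hR2 r hr p hp.out hpq w hwO
  -- R is nilpotent
  have hRnil : Group.IsNilpotent R := by
    apply Group.of_quotient_center_nilpotent
    have hP : IsPGroup q (R ⧸ Subgroup.center R) := by
      intro x
      induction x using QuotientGroup.induction_on with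
      | H r =>
        obtain ⟨k, m, hm, hkm⟩ := Nat.exists_eq_pow_mul_and_not_dvd (orderOf_pos (r : G)).ne' q
          hq.out.ne_one
        refine ⟨k, ?_⟩
        rw [← QuotientGroup.mk_pow, QuotientGroup.eq_one_iff]
        have h1 : (orderOf ((r : G) ^ q ^ k)).Coprime q := by
          have h2 : orderOf ((r : G) ^ q ^ k) ∣ m := by
            apply orderOf_dvd_of_pow_eq_one
            rw [← pow_mul, ← hkm, pow_orderOf_eq_one]
          exact Nat.Coprime.coprime_dvd_left h2
            ((Nat.Prime.coprime_iff_not_dvd hq.out).mpr hm).symm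
        have h3 := hii _ (R.pow_mem r.2 (q ^ k)) h1
        rw [Subgroup.mem_center_iff]
        intro s
        apply Subtype.ext
        exact (Subgroup.mem_centralizer_iff.mp h3) s s.2
    exact hP.isNilpotent
  have hRF : R ≤ fittingSubgroup G := le_fitting hRn hRnil
  apply hRF
  -- y ∈ R
  have hyc : ∀ x ∈ fittingSubgroup G, (orderOf x).Prime → y * x = x * y := by
    intro x hx hxo
    have h1 : Subgroup.zpowers g ≤ Subgroup.centralizer {x} := by
      rw [Subgroup.zpowers_le, Subgroup.mem_centralizer_singleton_iff]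
      exact hg x hx hxo
    have := h1 hy
    rwa [Subgroup.mem_centralizer_singleton_iff] at this
  rw [Subgroup.mem_centralizer_iff]
  intro x hx
  rcases hx with ⟨h1, h2⟩ | ⟨p, hp, hpq, h1⟩
  · exact (hyc x h1 h2).symm
  · have := Fact.mk hp
    obtain ⟨j, hj⟩ := IsPGroup.iff_card.mp hyq
    rw [Nat.card_zpowers] at hj
    have h2 : (orderOf y).Coprime p := by
      rw [hj]
      exact Nat.Coprime.pow_left j ((Nat.coprime_primes hq.out hp).mpr (Ne.symm hpq))
    exact (Subgroup.mem_centralizer_iff.mp (cent_pCore hodd hyc h2)) x h1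

end Cfsg.Agent.S3785
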