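import Cfsg.Statements.S3962


set_option autoImplicit false
open Cfsg

namespace Cfsg.Agent.S3962

/-- Let `G` be a perfect group and `π : G →* Q` a surjective homomorphism whose kernel is central. Then `π` maps the centre of `G` onto the centre of `Q`. Taking `π` to be the map to `G ⧸ Z(G)` shows that the central quotient of a perfect group has trivial centre. -/
theorem result {G Q : Type*} [Group G] [Group Q] (hG : Group.IsPerfect G) (π : G →* Q) (hπ : Function.Surjective π) (hker : π.ker ≤ Subgroup.center G) : (Subgroup.center G).map π = Subgroup.center Q := by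
  apply le_antisymm
  · rintro _ ⟨z, hz, rfl⟩
    rw [Subgroup.mem_center_iff]
    intro q
    obtain ⟨g, rfl⟩ := hπ q
    rw [← map_mul, ← map_mul, Subgroup.mem_center_iff.mp hz g]
  · intro q hq
    obtain ⟨g, rfl⟩ := hπ q
    refine ⟨g, ?_, rfl⟩
    have hc : ∀ h : G, g * h * g⁻¹ * h⁻¹ ∈ Subgroup.center G := by
      intro h
      apply hker
      rw [MonoidHom.mem_ker]
      have := Subgroup.mem_center_iff.mp hq (π h)
      simp only [map_mul, map_inv]
      rw [← this]
      group
    let f : G →* Subgroup.center G :=
      { toFun := fun h => ⟨g * h * g⁻¹ * h⁻¹, hc h⟩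
        map_one' := by apply Subtype.ext; simp
        map_mul' := by
          intro a b
          apply Subtype.ext
          have h1 := Subgroup.mem_center_iff.mp (hc b) a⁻¹
          show g * (a * b) * g⁻¹ * (a * b)⁻¹ = g * a * g⁻¹ * a⁻¹ * (g * b * g⁻¹ * b⁻¹)
          rw [mul_assoc (g * a * g⁻¹), h1]
          group }
    have hf : ∀ h, f h = 1 := by
      intro h
      have h1 : commutator G ≤ f.ker := by
        rw [commutator_def, Subgroup.commutator_le]
        intro a _ b _
        rw [MonoidHom.mem_ker, map_commutatorElement, commutatorElement_eq_one_iff_mul_comm]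
        apply Subtype.ext
        exact Subgroup.mem_center_iff.mp (f b).2 (f a)
      rw [hG.commutator_eq_top] at h1
      exact h1 (Subgroup.mem_top h)
    rw [SetLike.mem_coe, Subgroup.mem_center_iff]
    intro h
    have h2 : g * h * g⁻¹ * h⁻¹ = 1 := congrArg Subtype.val (hf h)
    rw [mul_inv_eq_one, mul_inv_eq_iff_eq_mul] at h2
    exact h2.symm

end Cfsg.Agent.S3962
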