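import Cfsg.Statements.S3964
import Cfsg.Agent.Lib.Helper1.Schur1
open Cfsg.Agent.Lib.Helper1

set_option autoImplicit false
open Cfsg

namespace Cfsg.Agent.S3964

/-- For odd `n` the dihedral group of order `2 n` has trivial Schur multiplier. -/
theorem result (n : ℕ) (hn : Odd n) : Cfsg.HasCyclicSchurMultiplier (DihedralGroup n) 1 := by
  haveI : NeZero n := ⟨by rintro rfl; simp at hn⟩
  apply hasCyclicSchurMultiplier_one
  intro Γ _ _ σ hσ
  refine stem_ker_eq_bot_of_cyclic_sylow ?_ σ hσ
  intro p hp H hH
  by_cases hp2 : p = 2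
  · subst hp2
    obtain ⟨k, hk⟩ := IsPGroup.iff_card.mp hH
    have h1 : 2 ^ k ∣ 2 * n := by
      rw [← hk, ← DihedralGroup.nat_card]; exact Subgroup.card_subgroup_dvd_card H
    have hk1 : k ≤ 1 := by
      by_contra hk2
      have h2 : 2 ^ 2 ∣ 2 * n := (pow_dvd_pow 2 (by omega)).trans h1
      have h3 : 2 ∣ n := by
        have : 2 * 2 ∣ 2 * n := by simpa using h2
        exact Nat.dvd_of_mul_dvd_mul_left two_pos this
      exact (Nat.not_even_iff_odd.mpr hn) (even_iff_two_dvd.mpr h3)
    interval_cases k
    · have : Subsingleton H := (Nat.card_eq_one_iff_unique.mp (by simpa using hk)).1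
      infer_instance
    · exact isCyclic_of_prime_card (p := 2) (by simpa using hk)
  · have hle : H ≤ Subgroup.zpowers (DihedralGroup.r 1 : DihedralGroup n) := by
      intro x hx
      cases x with
      | r i =>
        rw [Subgroup.mem_zpowers_iff]
        refine ⟨(i.val : ℤ), ?_⟩
        rw [zpow_natCast, DihedralGroup.r_one_pow]
        simp
      | sr i =>
        exfalso
        obtain ⟨k, hk⟩ := hH ⟨DihedralGroup.sr i, hx⟩
        have hk' : (DihedralGroup.sr i : DihedralGroup n) ^ p ^ k = 1 := by simpa using congrArg Subtype.val hk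
        have h2 := orderOf_dvd_of_pow_eq_one hk'
        rw [DihedralGroup.orderOf_sr] at h2
        exact hp2 ((Nat.prime_dvd_prime_iff_eq Nat.prime_two hp.out).mp (Nat.prime_two.dvd_of_dvd_pow h2)).symm
    exact isCyclic_of_injective (Subgroup.inclusion hle) (Subgroup.inclusion_injective _)

end Cfsg.Agent.S3964
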