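import Cfsg.Statements.S3966
import Mathlib

set_option autoImplicit false
open Cfsg

namespace Cfsg.Agent.S3966

/-- For even `n ≥ 2` the dicyclic group of order `4 n` is a stem extension of the dihedral group of order `2 n` with kernel of order `2`: there is a surjective homomorphism `QuaternionGroup n →* DihedralGroup n` whose kernel is central, lies in the commutator subgroup and has two elements. Together with the order of the multiplier this exhibits the dicyclic group as a Schur covering group of the dihedral group. -/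
theorem result (n : ℕ) [NeZero n] (hn : Even n) : ∃ σ : QuaternionGroup n →* DihedralGroup n, Cfsg.IsStemExtension σ ∧ Nat.card σ.ker = 2 := by
  classical
  have hn0 : n ≠ 0 := NeZero.ne n
  haveI : NeZero (2 * n) := ⟨by omega⟩
  have hdvd : n ∣ 2 * n := Dvd.intro_left 2 rfl
  let c : ZMod (2 * n) →+* ZMod n := ZMod.castHom hdvd (ZMod n)
  have hcn : c (n : ZMod (2 * n)) = 0 := by
    rw [map_natCast]; exact ZMod.natCast_self n
  have h2n : (n : ZMod (2 * n)) + (n : ZMod (2 * n)) = 0 := by
    have h1 : ((2 * n : ℕ) : ZMod (2 * n)) = 0 := ZMod.natCast_self (2 * n)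
    have h2 : ((2 * n : ℕ) : ZMod (2 * n)) = (n : ZMod (2 * n)) + (n : ZMod (2 * n)) := by
      push_cast; ring
    rw [← h2]; exact h1
  have hnne : (n : ZMod (2 * n)) ≠ 0 := by
    intro h
    have h1 := (ZMod.natCast_eq_zero_iff n (2 * n)).mp h
    have h2 := Nat.le_of_dvd (Nat.pos_of_ne_zero hn0) h1
    omega
  have hc0 : ∀ i : ZMod (2 * n), c i = 0 ↔ i = 0 ∨ i = (n : ZMod (2 * n)) := by
    intro i
    constructor
    · intro h
      have h1 : ((i.val : ℕ) : ZMod n) = 0 := by
        rw [ZMod.natCast_val]; exact h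
      obtain ⟨k, hk⟩ := (ZMod.natCast_eq_zero_iff _ _).mp h1
      have hlt := ZMod.val_lt i
      have hi : i = ((i.val : ℕ) : ZMod (2 * n)) := (ZMod.natCast_zmod_val i).symm
      have hk2 : k < 2 := by
        by_contra hcon
        have : n * 2 ≤ n * k := Nat.mul_le_mul_left n (by omega)
        omega
      interval_cases k
      · left; rw [hi, hk]; simp
      · right; rw [hi, hk]; simp
    · rintro (rfl | rfl)
      · exact map_zero c
      · exact hcn
  let f : QuaternionGroup n → DihedralGroup n := fun g => match g with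
    | QuaternionGroup.a i => DihedralGroup.r (c i)
    | QuaternionGroup.xa i => DihedralGroup.sr (c i)
  let σ : QuaternionGroup n →* DihedralGroup n := MonoidHom.mk' f (by
    rintro (i | i) (j | j)
    · show DihedralGroup.r (c (i + j)) = DihedralGroup.r (c i + c j)
      rw [map_add]
    · show DihedralGroup.sr (c (j - i)) = DihedralGroup.sr (c j - c i)
      rw [map_sub]
    · show DihedralGroup.sr (c (i + j)) = DihedralGroup.sr (c i + c j)
      rw [map_add]
    · show DihedralGroup.r (c (n + j - i)) = DihedralGroup.r (c j - c i)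
      rw [map_sub, map_add, hcn, zero_add])
  have hker : ∀ g, g ∈ σ.ker ↔ g = 1 ∨ g = QuaternionGroup.a (n : ZMod (2 * n)) := by
    intro g
    rw [MonoidHom.mem_ker]
    rcases g with i | i
    · show DihedralGroup.r (c i) = DihedralGroup.r 0 ↔
        QuaternionGroup.a i = QuaternionGroup.a 0 ∨ QuaternionGroup.a i = QuaternionGroup.a (n : ZMod (2 * n))
      rw [DihedralGroup.r.injEq, QuaternionGroup.a.injEq, QuaternionGroup.a.injEq]
      exact hc0 i
    · show DihedralGroup.sr (c i) = DihedralGroup.r 0 ↔
        QuaternionGroup.xa i = QuaternionGroup.a 0 ∨ QuaternionGroup.xa i = QuaternionGroup.a (n : ZMod (2 * n))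
      constructor
      · intro h; cases h
      · rintro (h | h) <;> cases h
  refine ⟨σ, ⟨?_, ?_, ?_⟩, ?_⟩
  · rintro (i | i)
    · obtain ⟨j, hj⟩ := ZMod.castHom_surjective hdvd i
      exact ⟨QuaternionGroup.a j, congrArg DihedralGroup.r hj⟩
    · obtain ⟨j, hj⟩ := ZMod.castHom_surjective hdvd i
      exact ⟨QuaternionGroup.xa j, congrArg DihedralGroup.sr hj⟩
  · intro g hg
    rcases (hker g).mp hg with rfl | rfl
    · exact Subgroup.one_mem _
    · rw [Subgroup.mem_center_iff]
      rintro (j | j)
      · show QuaternionGroup.a (j + (n : ZMod (2 * n))) = QuaternionGroup.a ((n : ZMod (2 * n)) + j)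
        rw [add_comm]
      · show QuaternionGroup.xa (j + (n : ZMod (2 * n))) = QuaternionGroup.xa (j - (n : ZMod (2 * n)))
        congr 1
        have h5 : (n : ZMod (2 * n)) = -(n : ZMod (2 * n)) := eq_neg_of_add_eq_zero_left h2n
        rw [sub_eq_add_neg, ← h5]
  · intro g hg
    rcases (hker g).mp hg with rfl | rfl
    · exact Subgroup.one_mem _
    · obtain ⟨k, hk⟩ := hn
      have h1 : QuaternionGroup.a (k : ZMod (2 * n)) * QuaternionGroup.xa (0 : ZMod (2 * n)) *
          (QuaternionGroup.a (k : ZMod (2 * n)))⁻¹ * (QuaternionGroup.xa (0 : ZMod (2 * n)))⁻¹ =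
          QuaternionGroup.a (n : ZMod (2 * n)) := by
        show QuaternionGroup.a ((n : ZMod (2 * n)) + ((n : ZMod (2 * n)) + 0) - (0 - (k : ZMod (2 * n)) + -(k : ZMod (2 * n)))) = _
        congr 1
        have h3 : (n : ZMod (2 * n)) = (k : ZMod (2 * n)) + (k : ZMod (2 * n)) := by
          rw [← Nat.cast_add, ← hk]
        have h4 : (n : ZMod (2 * n)) + ((n : ZMod (2 * n)) + 0) - (0 - (k : ZMod (2 * n)) + -(k : ZMod (2 * n)))
            = ((n : ZMod (2 * n)) + (n : ZMod (2 * n))) + ((k : ZMod (2 * n)) + (k : ZMod (2 * n))) := by ring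
        rw [h4, h2n, zero_add, ← h3]
      rw [← h1, ← commutatorElement_def, commutator_def]
      exact Subgroup.commutator_mem_commutator (Subgroup.mem_top _) (Subgroup.mem_top _)
  · rw [Nat.card_eq_two_iff]
    refine ⟨⟨1, Subgroup.one_mem _⟩, ⟨QuaternionGroup.a (n : ZMod (2 * n)), (hker _).mpr (Or.inr rfl)⟩, ?_, ?_⟩
    · intro h
      have h1 : (1 : QuaternionGroup n) = QuaternionGroup.a (n : ZMod (2 * n)) := congrArg Subtype.val h
      have h2 : QuaternionGroup.a (0 : ZMod (2 * n)) = QuaternionGroup.a (n : ZMod (2 * n)) := h1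
      rw [QuaternionGroup.a.injEq] at h2
      exact hnne h2.symm
    · ext ⟨g, hg⟩
      simp only [Set.mem_insert_iff, Set.mem_singleton_iff, Set.mem_univ, iff_true]
      rcases (hker g).mp hg with h | h
      · left; exact Subtype.ext h
      · right; exact Subtype.ext h

end Cfsg.Agent.S3966
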