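import Cfsg.Statements.S3968
import Cfsg.Agent.Lib.Helper7.All1
-- import your own Cfsg.Agent.* helpers here

set_option autoImplicit false
open Cfsg
open Cfsg.Agent.Lib.Helper7.CharBasic Cfsg.Agent.Lib.Helper7.CharIrr Cfsg.Agent.Lib.Helper7.CharDecomp Cfsg.Agent.Lib.Helper7.CharComplete Cfsg.Agent.Lib.Helper7.CharOrth Cfsg.Agent.Lib.Helper7.CharInd Cfsg.Agent.Lib.Helper7.CharIntegral Cfsg.Agent.Lib.Helper7.CharBurnside Cfsg.Agent.Lib.Helper7.CharLinear Cfsg.Agent.Lib.Helper7.CharEquiv Cfsg.Agent.Lib.Helper7.CharMore Cfsg.Agent.Lib.Helper7.CharCount Cfsg.Agent.Lib.Helper7.CharMisc Cfsg.Agent.Lib.Helper7.CharMisc2 Cfsg.Agent.Lib.Helper7.CharNormal Cfsg.Agent.Lib.Helper7.CharOdd Cfsg.Agent.Lib.Helper7.CharClifford Cfsg.Agent.Lib.Helper7.CharProd Cfsg.Agent.Lib.Helper7.CharPerm Cfsg.Agent.Lib.Helper7.CharClassAlg Cfsg.Agent.Lib.Helper7.CharClassAlg2 Cfsg.Agent.Lib.Helper7.CharCentral Cfsg.Agent.Lib.Helper7.CharNormal2 Cfsg.Agent.Lib.Helper7.CharCliffordCorr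
open scoped ComplexConjugate

namespace Cfsg.Agent.S3968

/-- Let `p` be a prime and `G` a finite group with a faithful irreducible complex character of degree `p` (so `G` is an irreducible linear group in `p` variables). If `p ^ 2` divides the order of `G`, then the centre of `G` is nontrivial. -/
theorem result {G : Type*} [Group G] [Finite G] (p : ℕ) (hp : p.Prime) (χ : Cfsg.IrrCharacter G) (hdeg : χ.1 1 = p) (hfaith : ∀ g : G, χ.1 g = χ.1 1 → g = 1) (hdiv : p ^ 2 ∣ Nat.card G) : Subgroup.center G ≠ ⊥ := by
  classical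
  haveI : Fact p.Prime := ⟨hp⟩
  haveI := Fintype.ofFinite G
  obtain ⟨P⟩ : Nonempty (Sylow p G) := inferInstance
  haveI := Fintype.ofFinite (P : Subgroup G)
  haveI := Fintype.ofFinite (IrrCharacter (P : Subgroup G))
  obtain ⟨m, ρ, hirr, hρ⟩ := χ.2
  haveI := hirr
  have hm : m = p := by
    have h1 : (χ : G → ℂ) 1 = m := by rw [← hρ, Representation.char_one]; simp
    rw [hdeg] at h1
    exact_mod_cast h1.symm
  subst hm
  have hfin : Module.finrank ℂ (Fin m → ℂ) = m := by simp
  have hχc := IsIrrCharacter.isCharacter χ.2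
  have hres : IsCharacter (P : Subgroup G) (fun x : (P : Subgroup G) => χ.1 x) :=
    isCharacter_restrict _ hχc
  have hinj : Function.Injective ρ := by
    rw [injective_iff_map_eq_one]
    intro x hx
    apply hfaith
    rw [← hρ, Representation.char_one]
    exact (char_eq_finrank_iff ρ x).mpr hx
  have hPcard : m ^ 2 ∣ Nat.card (P : Subgroup G) := by
    rw [P.card_eq_multiplicity]
    exact pow_dvd_pow m ((hp.pow_dvd_iff_le_factorization Nat.card_pos.ne').mp hdiv)
  -- Step A
  have stepA : ∀ z ∈ (P : Subgroup G), (∀ y ∈ (P : Subgroup G), y * z = z * y) → χ.1 z ≠ 0 →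
      z ∈ Subgroup.center G := by
    intro z hz hzc hz0
    have hle : (P : Subgroup G) ≤ Subgroup.centralizer ({z} : Set G) := by
      intro y hy
      rw [Subgroup.mem_centralizer_singleton_iff]
      exact hzc y hy
    have hcop : Nat.Coprime (Module.finrank ℂ (Fin m → ℂ))
        (Subgroup.centralizer ({z} : Set G)).index := by
      rw [hfin, Nat.Prime.coprime_iff_not_dvd hp]
      exact fun h => P.not_dvd_index (h.trans (Subgroup.index_dvd_of_le hle))
    rcases char_eq_zero_or_norm_eq ρ z hcop with h0 | h0
    · exact absurd (by rw [← hρ]; exact h0) hz0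
    · obtain ⟨ω, hω⟩ := (norm_char_eq_finrank_iff ρ z).mp h0
      have hgZ := mem_repCenter_of_scalar ρ hω
      rw [Subgroup.mem_center_iff]
      intro g
      apply hinj
      rw [map_mul, map_mul]
      exact (hgZ g).symm
  -- existence of a good element
  have hex : ∃ z ∈ (P : Subgroup G), z ≠ 1 ∧ (∀ y ∈ (P : Subgroup G), y * z = z * y) ∧
      χ.1 z ≠ 0 := by
    haveI : Nontrivial (P : Subgroup G) := by
      rw [← Finite.one_lt_card_iff_nontrivial]
      have h1 := Nat.le_of_dvd Nat.card_pos hPcard
      have h2 := hp.two_le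
      nlinarith
    by_cases hirrP : IsIrrCharacter (P : Subgroup G) (fun x : (P : Subgroup G) => χ.1 x)
    · haveI := P.isPGroup'.center_nontrivial
      obtain ⟨z, hz⟩ := exists_ne (1 : Subgroup.center (P : Subgroup G))
      refine ⟨((z : (P : Subgroup G)) : G), (z : (P : Subgroup G)).2,
        fun hh => hz (Subtype.ext (Subtype.ext hh)), ?_, ?_⟩
      · intro y hy
        have := Subgroup.mem_center_iff.mp z.2 ⟨y, hy⟩
        exact congrArg Subtype.val this
      · obtain ⟨k, τ, hτ, hτχ⟩ := hirrP
        haveI := hτ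
        have hzc : (z : (P : Subgroup G)) ∈ repCenter τ := by
          intro y
          rw [← map_mul, ← map_mul, Subgroup.mem_center_iff.mp z.2 y]
        obtain ⟨ω, hω⟩ := exists_scalar_of_mem_repCenter τ hzc
        have h1 : χ.1 ((z : (P : Subgroup G)) : G) = ω * (k : ℂ) := by
          have := congrFun hτχ (z : (P : Subgroup G))
          rw [← this]
          simp [Representation.character, hω]
        rw [h1]
        have hk : (k : ℂ) ≠ 0 := by
          have := finrank_pos_of_irr τ
          simp only [Module.finrank_fin_fun] at this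
          exact_mod_cast this.ne'
        have hω0 : ω ≠ 0 := by
          rintro rfl
          have h2 : τ (z : (P : Subgroup G)) * τ (z : (P : Subgroup G))⁻¹ = 1 := by
            rw [← map_mul, mul_inv_cancel, map_one]
          rw [hω, zero_smul, zero_mul] at h2
          have h3 : (0 : Module.End ℂ (Fin k → ℂ)) ≠ 1 := by
            haveI : Nontrivial (Fin k → ℂ) := Module.finrank_pos_iff.mp (finrank_pos_of_irr τ)
            exact zero_ne_one
          exact h3 h2
        exact mul_ne_zero hω0 hk
    · -- all constituents are linear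
      have hlin : ∀ ψ : IrrCharacter (P : Subgroup G),
          classInner (fun x : (P : Subgroup G) => χ.1 x) ψ.1 ≠ 0 → ψ.1 1 = 1 := by
        intro ψ hψ
        obtain ⟨n, hnpos, hn⟩ := irr_one_pos ψ.2
        have hle : n ≤ m := degree_le_of_constituent hres ψ.2 hψ hdeg hn
        have hdvd := irr_degree_dvd_card ψ.2 hn
        by_contra hne
        have hn1 : n ≠ 1 := by
          rintro rfl
          exact hne (by rw [hn, Nat.cast_one])
        obtain ⟨a, ha⟩ := IsPGroup.iff_card.mp P.isPGroup'
        rw [ha] at hdvd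
        obtain ⟨j, _, hj⟩ := (Nat.dvd_prime_pow hp).mp hdvd
        have hj0 : j ≠ 0 := by
          rintro rfl
          exact hn1 (by rw [hj, pow_zero])
        have hmn : m ∣ n := by rw [hj]; exact dvd_pow_self m hj0
        have hnm : n = m := le_antisymm hle (Nat.le_of_dvd hnpos hmn)
        have h5 := isCharacter_sub_of_constituent hres ψ.2 hψ
        have h6 : ((fun x : (P : Subgroup G) => χ.1 x) - ψ.1) 1 = 0 := by
          change χ.1 1 - ψ.1 1 = 0
          rw [hdeg, hn, hnm, sub_self]
        have h7 := eq_zero_of_isCharacter_of_degree_zero h5 h6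
        apply hirrP
        rw [sub_eq_zero.mp h7]
        exact ψ.2
      have hcomm : ∀ a b : (P : Subgroup G), a * b = b * a := by
        intro a b
        obtain ⟨mu, hmu, hsum⟩ := exists_mult hres
        have key : ∀ ψ : IrrCharacter (P : Subgroup G),
            (mu ψ : ℂ) * ψ.1 (a * b * a⁻¹ * b⁻¹) = (mu ψ : ℂ) * ψ.1 1 := by
          intro ψ
          by_cases h0 : mu ψ = 0
          · simp [h0]
          · congr 1
            obtain ⟨l, hl⟩ := exists_hom_of_irr_of_one (IsIrrCharacter.isCharacter ψ.2)
              (hlin ψ (by rw [hmu]; exact_mod_cast h0))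
            rw [hl]
            simp
        have h1 : χ.1 ((a * b * a⁻¹ * b⁻¹ : (P : Subgroup G)) : G) = χ.1 1 := by
          have e1 := congrFun hsum (a * b * a⁻¹ * b⁻¹)
          have e2 := congrFun hsum 1
          simp only [Finset.sum_apply, Pi.smul_apply, smul_eq_mul] at e1 e2
          rw [e1]
          simp only [OneMemClass.coe_one] at e2
          rw [e2]
          exact Finset.sum_congr rfl (fun ψ _ => key ψ)
        have h3 : a * b * a⁻¹ * b⁻¹ = 1 := Subtype.ext (hfaith _ h1)
        calc a * b = (a * b * a⁻¹ * b⁻¹) * (b * a) := by group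
          _ = b * a := by rw [h3, one_mul]
      by_contra hcon
      push Not at hcon
      have hvan : ∀ z : (P : Subgroup G), z ≠ 1 → χ.1 z = 0 := by
        intro z hz
        exact hcon z z.2 (fun hh => hz (Subtype.ext hh))
          (fun y hy => congrArg Subtype.val (hcomm ⟨y, hy⟩ z))
      obtain ⟨c, hc⟩ := classInner_isCharacter_nat hres
        (IsIrrCharacter.isCharacter (isIrrCharacter_one (G := (P : Subgroup G))))
      unfold classInner at hc
      simp only [map_one, mul_one] at hc
      rw [Finset.sum_eq_single (1 : (P : Subgroup G))] at hc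
      · have hQ0 : (Nat.card (P : Subgroup G) : ℂ) ≠ 0 := card_ne_zero
        have h1 : χ.1 1 = (Nat.card (P : Subgroup G) : ℂ) * c := by
          field_simp at hc
          exact hc
        rw [hdeg] at h1
        have h2 : m = Nat.card (P : Subgroup G) * c := by exact_mod_cast h1
        have h3 : m ^ 2 ∣ m := hPcard.trans ⟨c, h2⟩
        have h4 := Nat.le_of_dvd hp.pos h3
        have h5 := hp.two_le
        nlinarith
      · intro b _ hb
        exact hvan b hb
      · intro hh; exact absurd (Finset.mem_univ _) hh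
  obtain ⟨z, hz, hz1, hzc, hz0⟩ := hex
  intro hbot
  have := stepA z hz hzc hz0
  rw [hbot, Subgroup.mem_bot] at this
  exact hz1 this

end Cfsg.Agent.S3968
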