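import Cfsg.Statements.S3969
import Cfsg.Agent.Lib.Helper1.RankFrattini
open Cfsg.Agent.Lib.Helper1

set_option autoImplicit false
open Cfsg

namespace Cfsg.Agent.S3969

/-- Let `P` be an abelian Sylow `p`-subgroup of the finite group `G`, generated by `d` elements (`d` its minimal number of generators). If the order of `G` is coprime to `(p - 1)(p ^ 2 - 1) ⋯ (p ^ d - 1)`, then `G` has a normal `p`-complement. (The classical statement needs only the largest number of cyclic factors of `P` of equal order in place of `d`; the form here follows from it.) -/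
theorem result {G : Type*} [Group G] [Finite G] (p : ℕ) [Fact p.Prime] (P : Sylow p G) (hab : IsMulCommutative (P : Subgroup G)) (hcop : Nat.Coprime (Nat.card G) (∏ i ∈ Finset.Icc 1 (Group.rank (P : Subgroup G)), (p ^ i - 1))) : Cfsg.HasNormalPComplement p G := by
  have hNC : Subgroup.normalizer ((P : Subgroup G) : Set G) ≤ Subgroup.centralizer ((P : Subgroup G) : Set G) := by
    intro g hg
    apply mem_centralizer_of_forall_prime_power (P : Subgroup G) g hg
    intro q hq hqG A hA hAN
    by_cases hqp : q = p
    · subst hqp
      exact (pgroup_le_sylow_of_le_normalizer P hA hAN).trans (le_centralizer_of_isMulCommutative le_rfl)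
    · apply centralizes_of_frattini_index (P : Subgroup G) A P.2 hA hAN (Ne.symm hqp)
        (frattini_index_dvd_pow_rank P.2)
      intro i hi1 hi2 hdvd
      have h1 : q ∣ ∏ i ∈ Finset.Icc 1 (Group.rank (P : Subgroup G)), (p ^ i - 1) :=
        hdvd.trans (Finset.dvd_prod_of_mem _ (Finset.mem_Icc.mpr ⟨hi1, hi2⟩))
      exact hq.out.one_lt.ne' (Nat.eq_one_of_dvd_coprimes hcop hqG h1)
  exact ⟨P, _, inferInstance, MonoidHom.ker_transferSylow_isComplement' P hNC⟩

end Cfsg.Agent.S3969
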