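import Cfsg.Statements.S3970
import Cfsg.Agent.Lib.Helper1.RankFrattini
import Cfsg.Agent.Lib.Helper1.Wielandt
open Cfsg.Agent.Lib.Helper1

set_option autoImplicit false
open Cfsg

namespace Cfsg.Agent.S3970

universe u

theorem aux3970 : ∀ (n : ℕ) (G : Type u) [Group G] [Finite G], Nat.card G = n → (∀ p : ℕ, p.Prime → p ∣ Nat.card G → (∃ q : ℕ, q.Prime ∧ q ∣ Nat.card G ∧ p < q) → ∀ P : Sylow p G, IsMulCommutative (P : Subgroup G) ∧ Group.rank (P : Subgroup G) ≤ 2) → ¬ 12 ∣ Nat.card G → Group.IsSolvable G := by
  intro n
  induction n using Nat.strong_induction_on with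
  | _ n ih =>
  intro G _ _ hn h h12
  by_cases h1 : Nat.card G = 1
  · have := (Nat.card_eq_one_iff_unique.mp h1).1
    infer_instance
  set p := (Nat.card G).minFac with hpdef
  have hp : p.Prime := Nat.minFac_prime h1
  have hpG : p ∣ Nat.card G := Nat.minFac_dvd _
  haveI := Fact.mk hp
  by_cases hlarge : ∃ q : ℕ, q.Prime ∧ q ∣ Nat.card G ∧ p < q
  · obtain ⟨P⟩ : Nonempty (Sylow p G) := inferInstance
    obtain ⟨hab, hrank⟩ := h p hp hpG hlarge P
    have hNC : Subgroup.normalizer ((P : Subgroup G) : Set G) ≤ Subgroup.centralizer ((P : Subgroup G) : Set G) := by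
      intro g hg
      apply mem_centralizer_of_forall_prime_power (P : Subgroup G) g hg
      intro q hq hqG A hA hAN
      by_cases hqp : q = p
      · have hA' : IsPGroup p A := hqp ▸ hA
        exact (pgroup_le_sylow_of_le_normalizer P hA' hAN).trans (le_centralizer_of_isMulCommutative le_rfl)
      · have hlt : p < q := lt_of_le_of_ne (Nat.minFac_le_of_dvd hq.out.two_le hqG) (Ne.symm hqp)
        by_cases h23 : q = p + 1
        · have hp2 : p = 2 := by
            rcases hp.eq_two_or_odd' with h2 | hodd
            · exact h2
            · exfalso
              have heven : Even q := by rw [h23]; exact hodd.add_one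
              have := (hq.out.even_iff).mp heven
              have := hp.two_le
              omega
          have hq3 : q = 3 := by omega
          have h4 : ¬ 4 ∣ Nat.card G := by
            intro h4
            apply h12
            have : (3 * 4) ∣ Nat.card G := Nat.Coprime.mul_dvd_of_dvd_of_dvd (by norm_num) (hq3 ▸ hqG) h4
            simpa using this
          obtain ⟨k, hk⟩ := IsPGroup.iff_card.mp P.2
          have hk1 : k ≤ 1 := by
            by_contra hk2
            apply h4
            have h5 : p ^ 2 ∣ p ^ k := pow_dvd_pow p (by omega)
            rw [← hk] at h5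
            have h6 : (4 : ℕ) = p ^ 2 := by rw [hp2]; norm_num
            rw [h6]
            exact h5.trans (Subgroup.card_subgroup_dvd_card _)
          apply centralizes_of_frattini_index (d := 1) (P : Subgroup G) A P.2 hA hAN (Ne.symm hqp)
            ((hk ▸ (frattini (P : Subgroup G)).index_dvd_card).trans (pow_dvd_pow p hk1))
          intro i hi1 hi2 hdvd
          have hi : i = 1 := by omega
          rw [hi, hp2, hq3] at hdvd
          norm_num at hdvd
        · apply centralizes_of_frattini_index (d := 2) (P : Subgroup G) A P.2 hA hAN (Ne.symm hqp)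
            ((frattini_index_dvd_pow_rank P.2).trans (pow_dvd_pow p hrank))
          intro i hi1 hi2 hdvd
          have hp2 := hp.two_le
          have hcase : q ∣ p - 1 ∨ q ∣ p + 1 := by
            interval_cases i
            · left; simpa using hdvd
            · have : p ^ 2 - 1 = (p - 1) * (p + 1) := by
                obtain ⟨m, hm⟩ : ∃ m, p = m + 1 := ⟨p - 1, by omega⟩
                rw [hm]
                simp only [Nat.add_sub_cancel]
                have : (m + 1) ^ 2 = m * (m + 1 + 1) + 1 := by ring
                omega
              rw [this] at hdvd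
              exact (hq.out.dvd_mul).mp hdvd
          rcases hcase with hc | hc
          · have := Nat.le_of_dvd (by omega) hc
            omega
          · have := Nat.le_of_dvd (by omega) hc
            omega
    set N := (MonoidHom.transferSylow P hNC).ker with hN
    have hc : N.IsComplement' (P : Subgroup G) := MonoidHom.ker_transferSylow_isComplement' P hNC
    have hcard := hc.card_mul_card
    have hPcard := P.card_eq_multiplicity
    have hfpos : 0 < (Nat.card G).factorization p := hp.factorization_pos_of_dvd Nat.card_pos.ne' hpG
    have hP1 : 1 < Nat.card (P : Subgroup G) := by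
      rw [hPcard]; exact Nat.one_lt_pow hfpos.ne' hp.one_lt
    have hNlt : Nat.card N < n := by
      rw [← hn, ← hcard]
      exact (Nat.lt_mul_iff_one_lt_right Nat.card_pos).mpr hP1
    have hNsol : Group.IsSolvable N := by
      apply ih _ hNlt N rfl
      · intro r hr hrN hex R
        haveI := Fact.mk hr
        have hrG : r ∣ Nat.card G := hrN.trans (Subgroup.card_subgroup_dvd_card N)
        have hrp : r ≠ p := by
          intro hrp
          rw [hrp] at hrN
          have h5 : p ^ ((Nat.card G).factorization p + 1) ∣ Nat.card G := by
            conv_rhs => rw [← hcard, hPcard]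
            rw [pow_succ, mul_comm]
            exact Nat.mul_dvd_mul hrN dvd_rfl
          exact Nat.pow_succ_factorization_not_dvd Nat.card_pos.ne' hp h5
        have hfac : (Nat.card G).factorization r = (Nat.card N).factorization r := by
          rw [← hcard, Nat.factorization_mul Nat.card_pos.ne' Nat.card_pos.ne', hPcard, hp.factorization_pow]
          simp [Finsupp.single_apply, Ne.symm hrp]
        let R' : Sylow r G := Sylow.ofCard ((R : Subgroup N).map N.subtype) (by
          rw [Subgroup.card_map_of_injective N.subtype_injective, R.card_eq_multiplicity, hfac])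
        obtain ⟨q, hq, hqN, hrq⟩ := hex
        obtain ⟨h6, h7⟩ := h r hr hrG ⟨q, hq, hqN.trans (Subgroup.card_subgroup_dvd_card N), hrq⟩ R'
        let e : (R : Subgroup N) ≃* (R' : Subgroup G) := (R : Subgroup N).equivMapOfInjective N.subtype N.subtype_injective
        refine ⟨?_, ?_⟩
        · exact ⟨⟨fun a b => e.injective (by rw [map_mul, map_mul]; exact h6.is_comm.comm _ _)⟩⟩
        · rw [Group.rank_congr e]; exact h7
      · exact fun h => h12 (h.trans (Subgroup.card_subgroup_dvd_card N))
    have hQ : IsPGroup p (G ⧸ N) := by
      apply IsPGroup.of_card (n := (Nat.card G).factorization p)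
      rw [← Subgroup.index_eq_card, ← hPcard]
      exact Nat.eq_of_mul_eq_mul_left Nat.card_pos (N.card_mul_index.trans hcard.symm)
    haveI := hQ.isNilpotent
    exact isSolvable_of_normal_of_quotient N hNsol inferInstance
  · have hpow : Nat.card G = p ^ (Nat.card G).primeFactorsList.length := by
      apply Nat.eq_prime_pow_of_unique_prime_dvd Nat.card_pos.ne'
      intro d hd hdG
      by_contra hne
      exact hlarge ⟨d, hd, hdG, lt_of_le_of_ne (Nat.minFac_le_of_dvd hd.two_le hdG) (Ne.symm hne)⟩
    haveI := (IsPGroup.of_card hpow).isNilpotent
    infer_instance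

/-- Let `G` be a finite group such that for every prime `p` dividing its order, other than the largest such prime, the Sylow `p`-subgroups are abelian and generated by at most two elements, and suppose `12` does not divide the order of `G`. Then `G` is solvable. In particular a group of cube-free order not divisible by `12` is solvable. -/
theorem result {G : Type*} [Group G] [Finite G] (h : ∀ p : ℕ, p.Prime → p ∣ Nat.card G → (∃ q : ℕ, q.Prime ∧ q ∣ Nat.card G ∧ p < q) → ∀ P : Sylow p G, IsMulCommutative (P : Subgroup G) ∧ Group.rank (P : Subgroup G) ≤ 2) (h12 : ¬ 12 ∣ Nat.card G) : Group.IsSolvable G := by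
  exact aux3970 _ G rfl h h12

end Cfsg.Agent.S3970
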