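import Cfsg.Statements.S3971
import Cfsg.Agent.Lib.Helper1.FrobPrime
open Cfsg.Agent.Lib.Helper1

set_option autoImplicit false
open Cfsg

namespace Cfsg.Agent.S3971

/-- Let `G` be a finite group of order `2 ^ a * n` with `n` odd and not divisible by `3`, and suppose `G` has an element of order `2 ^ (a - 1)` (so a Sylow `2`-subgroup has a cyclic subgroup of index at most `2`). Then `G` has a normal subgroup of order `n`. -/
theorem result {G : Type*} [Group G] [Finite G] (a n : ℕ) (hG : Nat.card G = 2 ^ a * n) (hn : Odd n) (h3 : ¬ 3 ∣ n) (hx : ∃ x : G, orderOf x = 2 ^ (a - 1)) : ∃ N : Subgroup G, N.Normal ∧ Nat.card N = n := by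
  have hn2 : ¬ 2 ∣ n := fun h => (Nat.not_even_iff_odd.mpr hn) (even_iff_two_dvd.mpr h)
  have hn0 : n ≠ 0 := by rintro rfl; exact hn2 (dvd_zero 2)
  refine exists_normal_card_of_hasNormalPComplement (p := 2) ?_ hG hn2
  apply hasNormalPComplement_of_frobHyp
  obtain ⟨x, hx⟩ := hx
  have hZp : IsPGroup 2 (Subgroup.zpowers x) := IsPGroup.of_card (n := a - 1) (by rw [Nat.card_zpowers, hx])
  obtain ⟨S, hS⟩ := hZp.exists_le_sylow
  have hScard : Nat.card (S : Subgroup G) = 2 ^ a := by
    rw [S.card_eq_multiplicity, hG, Nat.factorization_mul (pow_ne_zero _ two_ne_zero) hn0,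
      Nat.prime_two.factorization_pow]
    simp [Nat.factorization_eq_zero_of_not_dvd hn2]
  apply frobHyp_of_prime_power S
  intro Q hQS q hq hq2 hqG A hA hAQ
  have hQ : IsPGroup 2 Q := S.2.to_le hQS
  have hq3 : q ≠ 3 := by
    rintro rfl
    rw [hG] at hqG
    exact h3 ((Nat.Coprime.dvd_of_dvd_mul_left (Nat.Coprime.pow_right a (by norm_num)) hqG))
  apply centralizes_of_frattini_index (p := 2) (q := q) (d := 2) Q A hQ hA hAQ (Ne.symm hq2)
  · -- index of the Frattini subgroup
    set Z := Subgroup.zpowers x with hZ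
    set C := Z ⊓ Q with hC
    have hcyc : IsCyclic C := isCyclic_of_injective (Subgroup.inclusion (inf_le_left : C ≤ Z)) (Subgroup.inclusion_injective _)
    obtain ⟨⟨c, hc⟩, hgen⟩ := IsCyclic.exists_generator (α := C)
    have hcQ : c ∈ Q := (Subgroup.mem_inf.mp hc).2
    have hCcard : Nat.card C = orderOf c := by
      have h1 := orderOf_eq_card_of_forall_mem_zpowers hgen
      rw [← h1]; exact (Subgroup.orderOf_mk c hc)
    have h1 : Nat.card Q ≤ 2 * Nat.card C := by
      have h2 : Z.relIndex S ≤ 2 := by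
        have h3 := card_mul_relIndex_of_le hS
        rw [hScard, Nat.card_zpowers, hx] at h3
        rcases Nat.eq_zero_or_pos a with h0 | h0
        · subst h0
          simp only [Nat.zero_sub, pow_zero, one_mul] at h3
          omega
        · have h4 : 2 ^ a = 2 ^ (a - 1) * 2 := by rw [← pow_succ]; congr 1; omega
          rw [h4] at h3
          exact (Nat.eq_of_mul_eq_mul_left (pow_pos two_pos _) h3).le
      have h5 : C.relIndex Q ≤ 2 := by
        rw [hC, Subgroup.inf_relIndex_right]
        exact (Subgroup.relIndex_le_of_le_right hQS (Subgroup.index_ne_zero_of_finite)).trans h2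
      have h6 := card_mul_relIndex_of_le (inf_le_right : C ≤ Q)
      rw [← h6, mul_comm]
      exact Nat.mul_le_mul_right _ h5
    have h2 : (⟨c, hcQ⟩ : Q) ^ 2 ∈ frattini Q := (Cfsg.Agent.S0012.result 2 hQ).2 _
    have h3 : orderOf c ≤ 2 * Nat.card (frattini Q) := by
      have h4 : orderOf ((⟨c, hcQ⟩ : Q) ^ 2) ≤ Nat.card (frattini Q) := by
        rw [← Nat.card_zpowers]
        exact Subgroup.card_le_of_le ((Subgroup.zpowers_le).mpr h2)
      have h5 : orderOf c ∣ 2 * orderOf ((⟨c, hcQ⟩ : Q) ^ 2) := by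
        apply orderOf_dvd_of_pow_eq_one
        have h6 := pow_orderOf_eq_one ((⟨c, hcQ⟩ : Q) ^ 2)
        rw [← pow_mul] at h6
        have := congrArg Subtype.val h6
        simpa using this
      exact (Nat.le_of_dvd (Nat.mul_pos two_pos (orderOf_pos _)) h5).trans (Nat.mul_le_mul_left 2 h4)
    have h4 : (frattini Q).index ≤ 4 := by
      have h5 := (frattini Q).card_mul_index
      have h6 : Nat.card (frattini Q) * (frattini Q).index ≤ Nat.card (frattini Q) * 4 := by
        rw [h5]; rw [hCcard] at h1; omega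
      exact Nat.le_of_mul_le_mul_left h6 Nat.card_pos
    obtain ⟨k, hk⟩ := IsPGroup.iff_card.mp hQ
    have h5 : (frattini Q).index ∣ 2 ^ k := hk ▸ (frattini Q).index_dvd_card
    obtain ⟨j, -, hj⟩ := (Nat.dvd_prime_pow Nat.prime_two).mp h5
    rw [hj] at h4 ⊢
    apply pow_dvd_pow
    by_contra hlt
    have : 2 ^ 3 ≤ 2 ^ j := Nat.pow_le_pow_right two_pos (by omega)
    omega
  · intro i hi1 hi2 hdvd
    have hqp : q.Prime := hq.out
    interval_cases i
    · simp at hdvd; exact hqp.one_lt.ne' hdvd
    · have : q ∣ 3 := by simpa using hdvd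
      exact hq3 ((Nat.prime_dvd_prime_iff_eq hqp Nat.prime_three).mp this)

end Cfsg.Agent.S3971
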