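import Cfsg.Statements.S3976
import Cfsg.Agent.Lib.Helper3.Wielandt

set_option autoImplicit false
open Cfsg

namespace Cfsg.Agent.S3976

/-- subgroups of order `k` -/
def YS (G : Type*) [Group G] (k : ℕ) := {H : Subgroup G // Nat.card H = k}

instance (G : Type*) [Group G] [Finite G] (k : ℕ) : Finite (YS G k) :=
  inferInstanceAs (Finite {H : Subgroup G // Nat.card H = k})

instance (G : Type*) [Group G] (k : ℕ) : MulAction G (YS G k) where
  smul g H := ⟨H.1.map (MulAut.conj g).toMonoidHom, by
    rw [Subgroup.card_map_of_injective (MulAut.conj g).injective]; exact H.2⟩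
  one_smul H := Subtype.ext (by
    show H.1.map (MulAut.conj 1).toMonoidHom = H.1
    rw [map_one]
    exact Subgroup.map_id H.1)
  mul_smul g h H := Subtype.ext (by
    show H.1.map (MulAut.conj (g * h)).toMonoidHom =
      (H.1.map (MulAut.conj h).toMonoidHom).map (MulAut.conj g).toMonoidHom
    rw [Subgroup.map_map]
    congr 1
    ext x
    simp [mul_assoc])

/-- Let `p` be a prime and `G` a group of order `p ^ m`. For every `s ≤ m` the number of normal subgroups of `G` of order `p ^ s` is congruent to `1` modulo `p`. -/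
theorem result {G : Type*} [Group G] [Finite G] (p m s : ℕ) (hp : p.Prime) (hG : Nat.card G = p ^ m) (hs : s ≤ m) : Nat.card {H : Subgroup G // H.Normal ∧ Nat.card H = p ^ s} ≡ 1 [MOD p] := by
  haveI := Fact.mk hp
  have hPG : IsPGroup p G := IsPGroup.of_card hG
  have h1 := Cfsg.Agent.Lib.Helper3.Wielandt.frobenius (G := G) p s hp (hG ▸ pow_dvd_pow p hs)
  have h2 := hPG.card_modEq_card_fixedPoints (YS G (p ^ s))
  have e : MulAction.fixedPoints G (YS G (p ^ s)) ≃
      {H : Subgroup G // H.Normal ∧ Nat.card H = p ^ s} :=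
    { toFun := fun x => ⟨x.1.1, by
        constructor
        intro n hn g
        have h3 : x.1.1.map (MulAut.conj g).toMonoidHom = x.1.1 :=
          congrArg (fun z : YS G (p ^ s) => z.1) (x.2 g)
        rw [← h3]
        exact ⟨n, hn, rfl⟩, x.1.2⟩
      invFun := fun H => ⟨⟨H.1, H.2.2⟩, by
        intro g
        apply Subtype.ext
        haveI := H.2.1
        exact Subgroup.Normal.conj_smul_eq_self g H.1⟩
      left_inv := fun _ => rfl
      right_inv := fun _ => rfl }
  rw [← Nat.card_congr e]
  exact h2.symm.trans h1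

end Cfsg.Agent.S3976
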