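import Cfsg.Statements.S3994
import Cfsg.Agent.Lib.Helper1.FrobCount

set_option autoImplicit false
open Cfsg

namespace Cfsg.Agent.S3994

/-- Let G be a finite group and n a positive integer. The number of elements of G whose order is divisible by n is either 0 or divisible by the largest divisor of the order of G that is coprime to n. -/
theorem result {G : Type*} [Group G] [Finite G] (n : ℕ) (hn : 0 < n) :
    Nat.card {g : G // n ∣ orderOf g} = 0 ∨
      (Nat.card G / Nat.gcd (Nat.card G) (n ^ Nat.card G)) ∣ Nat.card {g : G // n ∣ orderOf g} := by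
  classical
  haveI := Fintype.ofFinite G
  right
  have hg : Nat.card G ≠ 0 := Nat.card_pos.ne'
  obtain ⟨K, hK⟩ : ∃ K, K = Nat.card G / Nat.gcd (Nat.card G) (n ^ Nat.card G) := ⟨_, rfl⟩
  have hcop : K.Coprime n := hK ▸ Cfsg.Agent.Lib.Helper1.FrobCount.coprime_div_gcd_pow hg
  have hKd : K ∣ Nat.card G := hK ▸ Nat.div_dvd_of_dvd (Nat.gcd_dvd_left _ _)
  have hK0 : K ≠ 0 := by
    rintro rfl
    exact hg (Nat.eq_zero_of_zero_dvd hKd)
  rw [← hK]
  have h1 := Cfsg.Agent.Lib.Helper1.FrobCount.main_sum (G := G) K
    (Finset.univ.filter (fun y => n ∣ orderOf y))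
    (by
      intro g y hy
      simp only [Finset.mem_filter, Finset.mem_univ, true_and] at hy ⊢
      have : orderOf (g * y * g⁻¹) = orderOf y := by
        have := orderOf_injective (MulAut.conj g).toMonoidHom (MulAut.conj g).injective y
        simpa using this
      rw [this]; exact hy)
  rw [Nat.gcd_eq_left hKd] at h1
  have h2 : Nat.card {x : G // x ^ K ∈ Finset.univ.filter (fun y => n ∣ orderOf y)} =
      Nat.card {g : G // n ∣ orderOf g} := by
    apply Nat.card_congr
    refine Equiv.subtypeEquivRight ?_
    intro x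
    simp only [Finset.mem_filter, Finset.mem_univ, true_and]
    exact Cfsg.Agent.Lib.Helper1.FrobCount.dvd_orderOf_pow_iff hK0 hcop x
  rw [← h2]
  exact h1

end Cfsg.Agent.S3994
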