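import Cfsg.Statements.S3997
import Mathlib

set_option autoImplicit false
open Cfsg

namespace Cfsg.Agent.S3997

/-- Let G and H be finite groups with the same order type: for every m they have the same number of elements of order m. If G is nilpotent then so is H. -/
theorem result {G H : Type*} [Group G] [Finite G] [Group H] [Finite H] (hT : (∀ m : ℕ, Nat.card {g : G // orderOf g = m} = Nat.card {h : H // orderOf h = m})) (hG : Group.IsNilpotent G) :
    Group.IsNilpotent H := by
  have he : ∀ m, Nonempty ({g : G // orderOf g = m} ≃ {h : H // orderOf h = m}) :=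
    fun m => Finite.card_eq.mp (hT m)
  let e : G ≃ H := Equiv.ofFiberEquiv (fun m => (he m).some)
  have hmap : ∀ g, orderOf (e g) = orderOf g := fun g => Equiv.ofFiberEquiv_map _ g
  have hcard : Nat.card G = Nat.card H := Nat.card_congr e
  apply (Group.isNilpotent_of_finite_tfae.out 0 3).mpr
  intro p hp Q
  obtain ⟨P⟩ : Nonempty (Sylow p G) := inferInstance
  have hPn : (P : Subgroup G).Normal :=
    (Group.isNilpotent_of_finite_tfae (G := G)).out 0 3 rfl rfl |>.mp hG p hp P
  haveI : Subsingleton (Sylow p G) := (Sylow.unique_of_normal P hPn).instSubsingleton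
  have hAG : {g : G | ∃ k, orderOf g = p ^ k} = ((P : Subgroup G) : Set G) := by
    ext g
    constructor
    · rintro ⟨k, hk⟩
      have h1 : IsPGroup p (Subgroup.zpowers g) := IsPGroup.of_card (n := k) (by rw [Nat.card_zpowers, hk])
      obtain ⟨P', hP'⟩ := h1.exists_le_sylow
      rw [Subsingleton.elim P' P] at hP'
      exact hP' (Subgroup.mem_zpowers g)
    · intro hg
      obtain ⟨k, hk⟩ := (IsPGroup.iff_orderOf.mp P.2) ⟨g, hg⟩
      exact ⟨k, by rw [← hk, ← Subgroup.orderOf_coe]⟩
  have hAH : e '' {g : G | ∃ k, orderOf g = p ^ k} = {h : H | ∃ k, orderOf h = p ^ k} := by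
    ext h
    constructor
    · rintro ⟨g, ⟨k, hk⟩, rfl⟩
      exact ⟨k, by rw [hmap, hk]⟩
    · rintro ⟨k, hk⟩
      refine ⟨e.symm h, ⟨k, ?_⟩, e.apply_symm_apply h⟩
      rw [← hmap, e.apply_symm_apply, hk]
  have hQsub : ((Q : Subgroup H) : Set H) ⊆ {h : H | ∃ k, orderOf h = p ^ k} := by
    intro h hh
    obtain ⟨k, hk⟩ := (IsPGroup.iff_orderOf.mp Q.2) ⟨h, hh⟩
    exact ⟨k, by rw [← hk, ← Subgroup.orderOf_coe]⟩
  have hQeq : ((Q : Subgroup H) : Set H) = {h : H | ∃ k, orderOf h = p ^ k} := by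
    apply Set.eq_of_subset_of_ncard_le hQsub _ (Set.toFinite _)
    rw [← hAH, Set.ncard_image_of_injective _ e.injective, hAG]
    have h1 : (((P : Subgroup G) : Set G)).ncard = Nat.card (P : Subgroup G) := rfl
    have h2 : (((Q : Subgroup H) : Set H)).ncard = Nat.card (Q : Subgroup H) := rfl
    rw [h1, h2, Sylow.card_eq_multiplicity, Sylow.card_eq_multiplicity, hcard]
  constructor
  intro n hn g
  have h1 : n ∈ ((Q : Subgroup H) : Set H) := hn
  rw [hQeq] at h1
  obtain ⟨k, hk⟩ := h1
  have h2 : g * n * g⁻¹ ∈ ((Q : Subgroup H) : Set H) := by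
    rw [hQeq]
    refine ⟨k, ?_⟩
    rw [← hk]
    exact (MulAut.conj g).orderOf_eq n
  exact h2

end Cfsg.Agent.S3997
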