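import Cfsg.Statements.S4200
import Cfsg.Agent.Lib.Helper6.Card

set_option autoImplicit false
open Cfsg

namespace Cfsg.Agent.S4200

open scoped Pointwise

/-- Let Y be a subgroup of the finite group X, of index m. Then the numbers of conjugacy classes satisfy k(Y) ≤ m·k(X) and k(X) ≤ m·k(Y), and the second inequality is strict unless Y is normal in X. -/
theorem result {X : Type*} [Group X] [Finite X] (Y : Subgroup X) : Nat.card (ConjClasses Y) ≤ Y.index * Nat.card (ConjClasses X) ∧ Nat.card (ConjClasses X) ≤ Y.index * Nat.card (ConjClasses Y) ∧ (¬ Y.Normal → Nat.card (ConjClasses X) < Y.index * Nat.card (ConjClasses Y)) := by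
  classical
  haveI : Fintype X := Fintype.ofFinite X
  have hmpos : 0 < Y.index := Nat.pos_of_ne_zero Subgroup.index_ne_zero_of_finite
  let δ : X → X → ℕ := fun g h => if g * h = h * g then 1 else 0
  let υ : X → ℕ := fun h => if h ∈ Y then 1 else 0
  have hδsymm : ∀ g h, δ g h = δ h g := by
    intro g h
    by_cases hc : g * h = h * g
    · simp [δ, hc]
    · have hc' : ¬ h * g = g * h := fun e => hc e.symm
      simp [δ, hc, hc']
  have hA : ∀ g, ∑ h, δ g h = Nat.card (Subgroup.centralizer ({g} : Set X)) := by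
    intro g
    rw [Nat.card_eq_fintype_card, Fintype.card_subtype, Finset.card_filter]
    refine Finset.sum_congr rfl (fun h _ => ?_)
    by_cases hc : g * h = h * g
    · have : h ∈ Subgroup.centralizer ({g} : Set X) :=
        Subgroup.mem_centralizer_singleton_iff.2 hc.symm
      simp [δ, hc, this]
    · have : h ∉ Subgroup.centralizer ({g} : Set X) :=
        fun e => hc (Subgroup.mem_centralizer_singleton_iff.1 e).symm
      simp [δ, hc, this]
  have hB : ∀ g, ∑ h, δ g h * υ h = Nat.card ↥(Subgroup.centralizer ({g} : Set X) ⊓ Y) := by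
    intro g
    rw [Nat.card_eq_fintype_card, Fintype.card_subtype, Finset.card_filter]
    refine Finset.sum_congr rfl (fun h _ => ?_)
    by_cases hc : g * h = h * g
    · have h1 : h ∈ Subgroup.centralizer ({g} : Set X) :=
        Subgroup.mem_centralizer_singleton_iff.2 hc.symm
      by_cases h2 : h ∈ Y
      · simp [δ, υ, hc, h1, h2]
      · simp [δ, υ, hc, h1, h2]
    · have h1 : h ∉ Subgroup.centralizer ({g} : Set X) :=
        fun e => hc (Subgroup.mem_centralizer_singleton_iff.1 e).symm
      simp [δ, υ, hc, h1]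
  have hcardle : ∀ g : X, Nat.card (Subgroup.centralizer ({g} : Set X)) ≤
      Y.index * Nat.card ↥(Subgroup.centralizer ({g} : Set X) ⊓ Y) := by
    intro g
    have h1 := Subgroup.index_inf_le (H := Subgroup.centralizer ({g} : Set X)) (K := Y)
    have h2 := Subgroup.card_mul_index (Subgroup.centralizer ({g} : Set X))
    have h3 := Subgroup.card_mul_index (Subgroup.centralizer ({g} : Set X) ⊓ Y)
    have hpos : 0 < (Subgroup.centralizer ({g} : Set X)).index :=
      Nat.pos_of_ne_zero Subgroup.index_ne_zero_of_finite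
    have : Nat.card (Subgroup.centralizer ({g} : Set X)) * (Subgroup.centralizer ({g} : Set X)).index
        ≤ (Y.index * Nat.card ↥(Subgroup.centralizer ({g} : Set X) ⊓ Y)) *
          (Subgroup.centralizer ({g} : Set X)).index := by
      calc _ = Nat.card ↥(Subgroup.centralizer ({g} : Set X) ⊓ Y) *
            (Subgroup.centralizer ({g} : Set X) ⊓ Y).index := by rw [h2, h3]
        _ ≤ Nat.card ↥(Subgroup.centralizer ({g} : Set X) ⊓ Y) *
            ((Subgroup.centralizer ({g} : Set X)).index * Y.index) := Nat.mul_le_mul_left _ h1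
        _ = _ := by ring
    exact Nat.le_of_mul_le_mul_right this hpos
  have hkey : ∀ g, ∑ h, δ g h ≤ Y.index * ∑ h, δ g h * υ h := by
    intro g
    rw [hA, hB]
    exact hcardle g
  have h12 : ∑ g, ∑ h, δ g h ≤ Y.index * ∑ g, ∑ h, δ g h * υ h := by
    rw [Finset.mul_sum]
    exact Finset.sum_le_sum (fun g _ => hkey g)
  have ht2 : ∑ g, ∑ h, δ g h * υ h = ∑ g, υ g * ∑ h, δ g h := by
    rw [Finset.sum_comm]
    refine Finset.sum_congr rfl (fun h _ => ?_)
    rw [Finset.mul_sum]
    refine Finset.sum_congr rfl (fun g _ => ?_)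
    rw [hδsymm g h, mul_comm]
  have hterm : ∀ g, υ g * ∑ h, δ g h ≤ Y.index * (υ g * ∑ h, δ g h * υ h) := by
    intro g
    calc υ g * ∑ h, δ g h ≤ υ g * (Y.index * ∑ h, δ g h * υ h) := Nat.mul_le_mul_left _ (hkey g)
      _ = Y.index * (υ g * ∑ h, δ g h * υ h) := by ring
  have h23 : ∑ g, ∑ h, δ g h * υ h ≤ Y.index * ∑ g, υ g * ∑ h, δ g h * υ h := by
    rw [ht2, Finset.mul_sum]
    exact Finset.sum_le_sum (fun g _ => hterm g)
  have hT1 : ∑ g, ∑ h, δ g h = Nat.card (ConjClasses X) * Nat.card X := by
    rw [← card_comm_eq_card_conjClasses_mul_card, Nat.card_eq_fintype_card, Fintype.card_subtype,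
      Finset.card_filter, Fintype.sum_prod_type]
    refine Finset.sum_congr rfl (fun g _ => Finset.sum_congr rfl (fun h _ => ?_))
    by_cases hc : g * h = h * g
    · have : Commute g h := hc
      simp [δ, hc, this]
    · have : ¬ Commute g h := hc
      simp [δ, hc, this]
  have conv : ∀ F : X → ℕ, ∑ g, υ g * F g = ∑ g : Y, F g := by
    intro F
    rw [← Finset.sum_subtype (Finset.univ.filter (fun x => x ∈ Y)) (by simp) F, Finset.sum_filter]
    refine Finset.sum_congr rfl (fun g _ => ?_)
    by_cases h2 : g ∈ Y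
    · simp [υ, h2]
    · simp [υ, h2]
  have hT3 : ∑ g, υ g * ∑ h, δ g h * υ h = Nat.card (ConjClasses Y) * Nat.card Y := by
    rw [← card_comm_eq_card_conjClasses_mul_card, Nat.card_eq_fintype_card, Fintype.card_subtype,
      Finset.card_filter, Fintype.sum_prod_type, conv]
    refine Finset.sum_congr rfl (fun g _ => ?_)
    have : ∑ h, δ g h * υ h = ∑ h, υ h * δ g h := Finset.sum_congr rfl (fun h _ => mul_comm _ _)
    rw [this, conv]
    refine Finset.sum_congr rfl (fun h _ => ?_)
    by_cases hc : (g : X) * h = h * g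
    · have : Commute g h := Subtype.ext hc
      simp [δ, hc, this]
    · have : ¬ Commute g h := fun e => hc (congrArg Subtype.val e)
      simp [δ, hc, this]
  have hXY : Nat.card X = Nat.card Y * Y.index := (Subgroup.card_mul_index Y).symm
  have hYpos : 0 < Nat.card Y := Nat.card_pos
  have hXpos : 0 < Nat.card X := Nat.card_pos
  have hυ1 : ∀ g, υ g ≤ 1 := by
    intro g
    by_cases h2 : g ∈ Y
    · simp [υ, h2]
    · simp [υ, h2]
  have h31 : ∑ g, υ g * ∑ h, δ g h * υ h ≤ ∑ g, ∑ h, δ g h := by
    refine Finset.sum_le_sum (fun g _ => ?_)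
    calc υ g * ∑ h, δ g h * υ h ≤ 1 * ∑ h, δ g h * υ h := Nat.mul_le_mul_right _ (hυ1 g)
      _ = ∑ h, δ g h * υ h := one_mul _
      _ ≤ ∑ h, δ g h := Finset.sum_le_sum (fun h _ => by
          calc δ g h * υ h ≤ δ g h * 1 := Nat.mul_le_mul_left _ (hυ1 h)
            _ = δ g h := mul_one _)
  refine ⟨?_, ?_, ?_⟩
  · rw [hT3, hT1, hXY] at h31
    have : Nat.card (ConjClasses Y) * Nat.card Y ≤
        (Y.index * Nat.card (ConjClasses X)) * Nat.card Y := by
      calc _ ≤ _ := h31
        _ = _ := by ring
    exact Nat.le_of_mul_le_mul_right this hYpos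
  · have h13 := h12.trans (Nat.mul_le_mul_left Y.index h23)
    rw [hT1, hT3] at h13
    have : Nat.card (ConjClasses X) * Nat.card X ≤
        (Y.index * Nat.card (ConjClasses Y)) * Nat.card X := by
      calc _ ≤ Y.index * (Y.index * (Nat.card (ConjClasses Y) * Nat.card Y)) := h13
        _ = (Y.index * Nat.card (ConjClasses Y)) * (Nat.card Y * Y.index) := by ring
        _ = _ := by rw [← hXY]
    exact Nat.le_of_mul_le_mul_right this hXpos
  · intro hnn
    obtain ⟨n, hn, x, hx⟩ : ∃ n ∈ Y, ∃ x : X, x * n * x⁻¹ ∉ Y := by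
      by_contra hcon
      push Not at hcon
      exact hnn ⟨fun n hn x => hcon n hn x⟩
    have hstrict : Nat.card (Subgroup.centralizer ({n} : Set X)) <
        Y.index * Nat.card ↥(Subgroup.centralizer ({n} : Set X) ⊓ Y) := by
      by_contra hge
      push Not at hge
      have h1 := Cfsg.Agent.Lib.Helper6.Card.card_mul_set_mul_card_inf Y
        (Subgroup.centralizer ({n} : Set X))
      have h2 : Nat.card X * Nat.card ↥(Y ⊓ Subgroup.centralizer ({n} : Set X)) ≤
          Nat.card ((Y : Set X) * (Subgroup.centralizer ({n} : Set X) : Set X) : Set X) *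
            Nat.card ↥(Y ⊓ Subgroup.centralizer ({n} : Set X)) := by
        rw [h1, hXY, inf_comm]
        calc Nat.card Y * Y.index * Nat.card ↥(Subgroup.centralizer ({n} : Set X) ⊓ Y)
            = Nat.card Y * (Y.index * Nat.card ↥(Subgroup.centralizer ({n} : Set X) ⊓ Y)) := by ring
          _ ≤ Nat.card Y * Nat.card (Subgroup.centralizer ({n} : Set X)) :=
            Nat.mul_le_mul_left _ hge
      have h3 := Nat.le_of_mul_le_mul_right h2 Nat.card_pos
      have h4 : ((Y : Set X) * (Subgroup.centralizer ({n} : Set X) : Set X)) = Set.univ := by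
        apply Set.eq_of_subset_of_ncard_le (Set.subset_univ _)
        rw [Set.ncard_univ, ← Nat.card_coe_set_eq]
        exact h3
      have hx' : x ∈ (Y : Set X) * (Subgroup.centralizer ({n} : Set X) : Set X) := by
        rw [h4]
        trivial
      obtain ⟨y', hy', c, hc, rfl⟩ := Set.mem_mul.1 hx'
      apply hx
      have hcn : c * n = n * c := Subgroup.mem_centralizer_singleton_iff.1 hc
      have : y' * c * n * (y' * c)⁻¹ = y' * n * y'⁻¹ := by
        calc y' * c * n * (y' * c)⁻¹ = y' * (c * n) * c⁻¹ * y'⁻¹ := by group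
          _ = y' * (n * c) * c⁻¹ * y'⁻¹ := by rw [hcn]
          _ = y' * n * y'⁻¹ := by group
      rw [this]
      exact Y.mul_mem (Y.mul_mem hy' hn) (Y.inv_mem hy')
    have h23' : ∑ g, ∑ h, δ g h * υ h < Y.index * ∑ g, υ g * ∑ h, δ g h * υ h := by
      rw [ht2, Finset.mul_sum]
      apply Finset.sum_lt_sum (fun g _ => hterm g)
      refine ⟨n, Finset.mem_univ _, ?_⟩
      have hυ : υ n = 1 := by simp [υ, hn]
      rw [hυ, one_mul, one_mul, hA, hB]
      exact hstrict
    have h13 := lt_of_le_of_lt h12 ((Nat.mul_lt_mul_left hmpos).2 h23')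
    rw [hT1, hT3] at h13
    have : Nat.card (ConjClasses X) * Nat.card X <
        (Y.index * Nat.card (ConjClasses Y)) * Nat.card X := by
      calc _ < Y.index * (Y.index * (Nat.card (ConjClasses Y) * Nat.card Y)) := h13
        _ = (Y.index * Nat.card (ConjClasses Y)) * (Nat.card Y * Y.index) := by ring
        _ = _ := by rw [← hXY]
    exact Nat.lt_of_mul_lt_mul_right this

end Cfsg.Agent.S4200
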