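import Mathlib
import Cfsg.Statements.S4203
import Cfsg.Agent.Lib.Helper2.Basic
import Cfsg.Agent.Lib.Helper7.CharBurnside

set_option autoImplicit false
open Cfsg
open Cfsg.Agent.Lib.Helper2.Basic

namespace Cfsg.Agent.S4203

universe u

theorem two_three (n : ℕ) (hn : n ≠ 0) (h : ∀ q : ℕ, q.Prime → q ∣ n → q ≤ 3) :
    ∃ a b : ℕ, n = 2 ^ a * 3 ^ b := by
  obtain ⟨a, m, hm2, rfl⟩ := Nat.exists_eq_pow_mul_and_not_dvd hn 2 (by norm_num)
  have hm0 : m ≠ 0 := by rintro rfl; simp at hn
  obtain ⟨b, k, hk3, rfl⟩ := Nat.exists_eq_pow_mul_and_not_dvd hm0 3 (by norm_num)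
  refine ⟨a, b, ?_⟩
  have hk1 : k = 1 := by
    by_contra hk
    have hq := Nat.minFac_prime hk
    have hqd : k.minFac ∣ k := Nat.minFac_dvd k
    have hle := h _ hq (hqd.trans ((Dvd.intro_left _ rfl).trans (Dvd.intro_left _ rfl)))
    have h2 := hq.two_le
    have : k.minFac = 2 ∨ k.minFac = 3 := by omega
    rcases this with h' | h'
    · exact hm2 (h' ▸ hqd.trans (Dvd.intro_left _ rfl))
    · exact hk3 (h' ▸ hqd)
  rw [hk1, mul_one]

theorem aux : ∀ (n : ℕ) (G : Type u) [Group G] [Finite G], Nat.card G = n →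
    (∀ M : Subgroup G, IsCoatom M → ∃ p : ℕ, p.Prime ∧ (M.index = p ∨ M.index = p ^ 2)) → Group.IsSolvable G := by
  intro n
  induction n using Nat.strong_induction_on with
  | _ n ih =>
  intro G _ _ hn h
  by_cases htriv : Nat.card G = 1
  · have : Subsingleton G := (Nat.card_eq_one_iff_unique.mp htriv).1
    infer_instance
  -- largest prime
  have hne : (Nat.card G).primeFactors.Nonempty := by
    rw [Nat.nonempty_primeFactors]
    have : 0 < Nat.card G := Nat.card_pos
    omega
  set p := (Nat.card G).primeFactors.max' hne with hp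
  have hpmem : p ∈ (Nat.card G).primeFactors := Finset.max'_mem _ hne
  have hpp : p.Prime := Nat.prime_of_mem_primeFactors hpmem
  have hpd : p ∣ Nat.card G := Nat.dvd_of_mem_primeFactors hpmem
  have hmax : ∀ q : ℕ, q.Prime → q ∣ Nat.card G → q ≤ p := by
    intro q hq hqd
    apply Finset.le_max'
    rw [Nat.mem_primeFactors]
    exact ⟨hq, hqd, Nat.card_pos.ne'⟩
  have : Fact p.Prime := ⟨hpp⟩
  obtain ⟨P⟩ : Nonempty (Sylow p G) := inferInstance
  by_cases hPn : (P : Subgroup G).Normal
  swap
  · rw [← Subgroup.normalizer_eq_top_iff] at hPn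
    obtain ⟨M, hM, hNM⟩ := exists_isCoatom_ge hPn
    obtain ⟨q, hq, hqi⟩ := h M hM
    have hmod := index_modEq_one_of_normalizer_le P M hNM
    have hqd : q ∣ M.index := by
      rcases hqi with h' | h'
      · rw [h']
      · rw [h']; exact Dvd.intro_left _ (by ring)
    have hle := hmax _ hq (hqd.trans (Subgroup.index_dvd_card M))
    have hq2 := hq.two_le
    have h1 : 1 < M.index := by
      rcases hqi with h' | h'
      · rw [h']; exact hq.one_lt
      · rw [h']; nlinarith
    have h2 : p ∣ M.index - 1 := (Nat.modEq_iff_dvd' h1.le).mp hmod.symm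
    have hp3 : p = 3 := by
      rcases hqi with h' | h'
      · have h3 : p ≤ M.index - 1 := Nat.le_of_dvd (by omega) h2
        omega
      · rw [h'] at h2
        have h4 : q ^ 2 - 1 = (q - 1) * (q + 1) := by
          obtain ⟨r, rfl⟩ : ∃ r, q = r + 1 := ⟨q - 1, by omega⟩
          simp only [Nat.add_sub_cancel]
          have : (r + 1) ^ 2 = r * (r + 1 + 1) + 1 := by ring
          rw [this, Nat.add_sub_cancel]
        rw [h4] at h2
        rcases (Nat.Prime.dvd_mul hpp).mp h2 with h5 | h5
        · have := Nat.le_of_dvd (by omega) h5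
          omega
        · have h6 := Nat.le_of_dvd (by omega) h5
          have hne' : q ≠ p := by
            intro hqp
            rw [← hqp] at h5
            have : q ∣ 1 := (Nat.dvd_add_right (dvd_refl q)).mp h5
            exact hq.one_lt.ne' (Nat.dvd_one.mp this)
          have h7 : p = q + 1 := by omega
          rcases hq.eq_two_or_odd' with h8 | h8
          · omega
          · exfalso
            rcases hpp.eq_two_or_odd' with h9 | h9
            · omega
            · rw [h7] at h9
              exact (Nat.not_odd_iff_even.mpr (h8.add_one)) h9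
    obtain ⟨a, b, hab⟩ := two_three (Nat.card G) Nat.card_pos.ne' (fun q hq hqd => hp3 ▸ hmax q hq hqd)
    exact Cfsg.Agent.Lib.Helper7.CharBurnside.burnside_paqb 2 3 a b Nat.prime_two Nat.prime_three hab
  have hPsol : Group.IsSolvable (P : Subgroup G) := by
    have : Group.IsNilpotent (P : Subgroup G) := P.isPGroup'.isNilpotent
    infer_instance
  have hQ : Group.IsSolvable (G ⧸ (P : Subgroup G)) := by
    apply ih (Nat.card (G ⧸ (P : Subgroup G))) _ _ rfl
    · intro M hM
      have := h _ (isCoatom_comap_of_surjective (QuotientGroup.mk'_surjective (P : Subgroup G)) hM)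
      rwa [Subgroup.index_comap_of_surjective _ (QuotientGroup.mk'_surjective (P : Subgroup G))] at this
    · rw [← hn, ← Subgroup.index_eq_card]
      have h1 : (P : Subgroup G).index * Nat.card (P : Subgroup G) = Nat.card G := Subgroup.index_mul_card _
      have h2 : p ∣ Nat.card (P : Subgroup G) := P.dvd_card_of_dvd_card hpd
      have h3 : 2 ≤ Nat.card (P : Subgroup G) := le_trans hpp.two_le (Nat.le_of_dvd Nat.card_pos h2)
      have h4 : 0 < (P : Subgroup G).index := Nat.pos_of_ne_zero (Subgroup.index_ne_zero_of_finite)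
      nlinarith
  exact (Group.isSolvable_iff_subgroup_quotient (P : Subgroup G)).mpr ⟨hPsol, hQ⟩

theorem result {G : Type*} [Group G] [Finite G] (h : ∀ M : Subgroup G, IsCoatom M → ∃ p : ℕ, p.Prime ∧ (M.index = p ∨ M.index = p ^ 2)) : Group.IsSolvable G :=
  aux _ G rfl h

end Cfsg.Agent.S4203
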