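import Mathlib
import Cfsg.Statements.S4204
import Cfsg.Agent.Lib.Helper2.Commutator

set_option autoImplicit false
open Cfsg
open Cfsg.Agent.Lib.Helper2.Commutator

namespace Cfsg.Agent.S4204

variable {G : Type*} [Group G]

/-- shifted lower central series, with `⊤` in degree zero -/
def sh (H : Subgroup G) : ℕ → Subgroup G
  | 0 => ⊤
  | i + 1 => H.lowerCentralSeries i

theorem sh_normal (H : Subgroup G) [H.Normal] (i : ℕ) : (sh H i).Normal := by
  cases i with
  | zero => exact Subgroup.normal_top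
  | succ i => exact Subgroup.lowerCentralSeries_normal H i

theorem sh_comm (H : Subgroup G) [H.Normal] (i : ℕ) : ⁅sh H i, H⁆ ≤ sh H (i + 1) := by
  cases i with
  | zero => exact Subgroup.commutator_le_right _ _
  | succ i => exact le_rfl

/-- the bound -/
def X (H K : Subgroup G) (n : ℕ) : Subgroup G :=
  ⨆ p : {p : ℕ × ℕ // p.1 + p.2 = n + 1}, sh H p.1.1 ⊓ sh K p.1.2

theorem X_normal (H K : Subgroup G) [H.Normal] [K.Normal] (n : ℕ) : (X H K n).Normal := by
  unfold X
  have : ∀ p : {p : ℕ × ℕ // p.1 + p.2 = n + 1}, (sh H p.1.1 ⊓ sh K p.1.2).Normal := by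
    intro p
    have := sh_normal H p.1.1
    have := sh_normal K p.1.2
    infer_instance
  rw [iSup]
  apply Subgroup.sSup_normal
  rintro _ ⟨p, rfl⟩
  exact this p

theorem le_X (H K : Subgroup G) {n i j : ℕ} (h : i + j = n + 1) : sh H i ⊓ sh K j ≤ X H K n :=
  le_iSup (fun p : {p : ℕ × ℕ // p.1 + p.2 = n + 1} => sh H p.1.1 ⊓ sh K p.1.2) ⟨(i, j), h⟩

theorem lcs_le_X (H K : Subgroup G) [H.Normal] [K.Normal] (n : ℕ) :
    (H ⊔ K).lowerCentralSeries n ≤ X H K n := by
  induction n with
  | zero =>
    rw [Subgroup.lowerCentralSeries_zero]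
    apply sup_le
    · refine le_trans ?_ (le_X H K (i := 1) (j := 0) rfl)
      exact le_inf le_rfl le_top
    · refine le_trans ?_ (le_X H K (i := 0) (j := 1) rfl)
      exact le_inf le_top le_rfl
  | succ n ih =>
    rw [Subgroup.lowerCentralSeries_succ]
    refine le_trans (Subgroup.commutator_mono ih le_rfl) ?_
    have := X_normal H K (n + 1)
    unfold X at *
    apply commutator_iSup_left_le
    rintro ⟨⟨i, j⟩, hij⟩
    simp only at hij ⊢
    have hi := sh_normal H i
    have hj := sh_normal K j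
    apply commutator_sup_right_le
    · refine le_trans ?_ (le_X H K (n := n + 1) (i := i + 1) (j := j) (by omega))
      apply le_inf
      · exact le_trans (Subgroup.commutator_mono inf_le_left le_rfl) (sh_comm H i)
      · exact le_trans (Subgroup.commutator_mono inf_le_right le_rfl) (Subgroup.commutator_le_left _ _)
    · refine le_trans ?_ (le_X H K (n := n + 1) (i := i) (j := j + 1) (by omega))
      apply le_inf
      · exact le_trans (Subgroup.commutator_mono inf_le_left le_rfl) (Subgroup.commutator_le_left _ _)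
      · exact le_trans (Subgroup.commutator_mono inf_le_right le_rfl) (sh_comm K j)

theorem sh_eq_bot (H : Subgroup G) {c i : ℕ} (hH : H.lowerCentralSeries c = ⊥) (hi : c + 1 ≤ i) :
    sh H i = ⊥ := by
  obtain ⟨k, rfl⟩ : ∃ k, i = k + 1 := ⟨i - 1, by omega⟩
  rw [eq_bot_iff, ← hH]
  exact Subgroup.lowerCentralSeries_antitone H (by omega)

theorem result {G : Type*} [Group G] [Finite G] (H K : Subgroup G) [H.Normal] [K.Normal] (c d : ℕ) (hH : H.lowerCentralSeries c = ⊥) (hK : K.lowerCentralSeries d = ⊥) : (H ⊔ K).lowerCentralSeries (c + d) = ⊥ := by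
  rw [eq_bot_iff]
  refine le_trans (lcs_le_X H K (c + d)) ?_
  unfold X
  apply iSup_le
  rintro ⟨⟨i, j⟩, hij⟩
  simp only at hij ⊢
  by_cases hi : c + 1 ≤ i
  · rw [sh_eq_bot H hH hi]; exact inf_le_left
  · rw [sh_eq_bot K hK (by omega)]; exact inf_le_right

end Cfsg.Agent.S4204
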