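import Mathlib
import Cfsg.Statements.S4205

set_option autoImplicit false
open Cfsg
open scoped commutatorElement

namespace Cfsg.Agent.S4205

theorem result {G : Type*} [Group G] [Finite G] (c : ℕ) (hG : Subgroup.upperCentralSeries G c = ⊤) (H : Subgroup G) : (fun K : Subgroup G => Subgroup.normalizer (K : Set G))^[c] H = ⊤ := by
  have key : ∀ i : ℕ, Subgroup.upperCentralSeries G i ≤ (fun K : Subgroup G => Subgroup.normalizer (K : Set G))^[i] H := by
    intro i
    induction i with
    | zero => simp
    | succ i ih =>
      rw [Function.iterate_succ_apply']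
      rw [Subgroup.le_normalizer_iff]
      intro z hz k hk
      have h1 : ⁅z, k⁆ ∈ Subgroup.upperCentralSeries G i := Subgroup.mem_upperCentralSeries_succ_iff.mp hz k
      have h2 : z * k * z⁻¹ = ⁅z, k⁆ * k := by
        rw [commutatorElement_def]; group
      rw [h2]
      exact Subgroup.mul_mem _ (ih h1) hk
  exact top_le_iff.mp (hG ▸ key c)

end Cfsg.Agent.S4205
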