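import Mathlib
import Cfsg.Statements.S4207
import Cfsg.Agent.Lib.Helper2.PGen

set_option autoImplicit false
open Cfsg

namespace Cfsg.Agent.S4207

open Cfsg.Agent.Lib.Helper2.PGen

theorem result {P : Type*} [Group P] [Finite P] {p n r : ℕ} [Fact p.Prime] (hP : Nat.card P = p ^ n) (hr : (frattini P).index = p ^ r) (A : Subgroup (MulAut P)) (hA : ∀ α ∈ A, ∀ x : P, α x * x⁻¹ ∈ frattini P) : Nat.card A ∣ p ^ (r * (n - r)) := by
  have hp : p.Prime := Fact.out
  obtain ⟨x, hx⟩ := exists_generators_frattini hp hr
  let S : SubMulAction A (Fin r → P) :=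
    { carrier := {y | ∀ i, y i * (x i)⁻¹ ∈ frattini P}
      smul_mem' := by
        intro α y hy i
        have h1 : (α • y) i = (α : MulAut P) (y i) := rfl
        rw [h1]
        have h2 := mul_mem (hA α α.2 (y i)) (hy i)
        convert h2 using 1
        group }
  have hfree : ∀ (α : A) (y : S), α • y = y → α = 1 := by
    intro α y hy
    have h1 : ∀ i, (α : MulAut P) ((y : Fin r → P) i) = (y : Fin r → P) i := by
      intro i
      exact congrFun (congrArg Subtype.val hy) i
    have h2 : ((α : MulAut P).toMonoidHom : P →* P) = MonoidHom.id P := by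
      apply MonoidHom.eq_of_eqOn_dense (hx y y.2)
      rintro _ ⟨i, rfl⟩
      exact h1 i
    apply Subtype.ext
    ext z
    exact DFunLike.congr_fun h2 z
  have hdvd := card_dvd_of_free hfree
  have hcard : Nat.card S = Nat.card (frattini P) ^ r := by
    have e : S ≃ (Fin r → frattini P) :=
      { toFun := fun y i => ⟨(y : Fin r → P) i * (x i)⁻¹, y.2 i⟩
        invFun := fun z => ⟨fun i => (z i : P) * x i, fun i => by simp⟩
        left_inv := by intro y; apply Subtype.ext; funext i; simp
        right_inv := by intro z; funext i; apply Subtype.ext; simp }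
    rw [Nat.card_congr e, Nat.card_fun, Nat.card_fin]
  have hΦ : Nat.card (frattini P) = p ^ (n - r) := by
    have h1 := Subgroup.card_mul_index (frattini P)
    rw [hr, hP] at h1
    have hrn : r ≤ n := by
      have : p ^ r ∣ p ^ n := Dvd.intro_left _ h1
      exact (Nat.pow_dvd_pow_iff_le_right hp.one_lt).mp this
    have h2 : p ^ n = p ^ (n - r) * p ^ r := by rw [← pow_add, Nat.sub_add_cancel hrn]
    rw [h2] at h1
    exact Nat.eq_of_mul_eq_mul_right (pow_pos hp.pos r) h1
  rw [hcard, hΦ, ← pow_mul, mul_comm] at hdvd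
  exact hdvd

end Cfsg.Agent.S4207
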