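import Cfsg.Statements.S4212
import Cfsg.Agent.Lib.Helper1.FrobCount

set_option autoImplicit false
open Cfsg

namespace Cfsg.Agent.S4212

/-- Let `G` be a finite group of order `g`, `c` an element whose conjugacy class has `h` elements, and `n` a natural number. Then the number of elements `x` of `G` with `x^n` conjugate to `c` is a multiple of `gcd(hn, g)`. -/
theorem result {G : Type*} [Group G] [Finite G] (c : G) (n : ℕ) : Nat.gcd (Nat.card {y : G // IsConj c y} * n) (Nat.card G) ∣ Nat.card {x : G // IsConj c (x ^ n)} := by
  classical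
  haveI := Fintype.ofFinite G
  have h1 := Cfsg.Agent.Lib.Helper1.FrobCount.card_eq_sum_cnt (G := G) n (Finset.univ.filter (fun y => IsConj c y))
  have h2 : Nat.card {x : G // x ^ n ∈ Finset.univ.filter (fun y => IsConj c y)} =
      Nat.card {x : G // IsConj c (x ^ n)} := by
    apply Nat.card_congr
    refine Equiv.subtypeEquivRight ?_
    intro x
    simp only [Finset.mem_filter, Finset.mem_univ, true_and]
  rw [h2, Finset.sum_const_nat (m := Cfsg.Agent.Lib.Helper1.FrobCount.cnt G n c)] at h1
  · have h3 : (Finset.univ.filter (fun y => IsConj c y)).card = Nat.card {y : G // IsConj c y} := by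
      rw [Nat.card_eq_fintype_card, Fintype.card_subtype]
    rw [h1, h3, ← Subgroup.card_mul_index (Subgroup.centralizer ({c} : Set G)),
      Cfsg.Agent.Lib.Helper1.FrobCount.index_centralizer_eq, mul_comm (Nat.card _) (Nat.card {y : G // IsConj c y}),
      Nat.gcd_mul_left]
    exact Nat.mul_dvd_mul_left _ (Cfsg.Agent.Lib.Helper1.FrobCount.main n c)
  · intro y hy
    simp only [Finset.mem_filter, Finset.mem_univ, true_and] at hy
    rw [isConj_iff] at hy
    obtain ⟨g, rfl⟩ := hy
    exact Cfsg.Agent.Lib.Helper1.FrobCount.cnt_conj n c g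

end Cfsg.Agent.S4212
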