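import Cfsg.Statements.S4217
import Mathlib

set_option autoImplicit false
open Cfsg

namespace Cfsg.Agent.S4217

open Cfsg
open scoped IsMulCommutative

section gas
variable {G : Type*} [Group G]

/-- conjugation on the normal subgroup `A` -/
def cH (A : Subgroup G) [hn : A.Normal] (g : G) : A →* A :=
  MonoidHom.mk' (fun a => ⟨g * a * g⁻¹, hn.conj_mem a a.2 g⟩) (by
    intro a b; apply Subtype.ext; simp [mul_assoc])

theorem cH_val (A : Subgroup G) [A.Normal] (g : G) (a : A) : ((cH A g a : A) : G) = g * a * g⁻¹ := rfl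

theorem cH_mul (A : Subgroup G) [A.Normal] (g h : G) (a : A) : cH A (g * h) a = cH A g (cH A h a) := by
  apply Subtype.ext
  simp only [cH_val]; group

theorem cH_one (A : Subgroup G) [A.Normal] (a : A) : cH A 1 a = a := by
  apply Subtype.ext
  simp only [cH_val]; group

theorem cH_self (A : Subgroup G) [A.Normal] [IsMulCommutative A] (a d : A) : cH A (a : G) d = d := by
  have : a * d * a⁻¹ = d := by rw [mul_comm a d, mul_inv_cancel_right]
  apply Subtype.ext
  rw [cH_val]
  exact congrArg Subtype.val this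

theorem cH_eq_one (A : Subgroup G) [A.Normal] (g : G) (a : A) (h : cH A g a = 1) : a = 1 := by
  have := congrArg Subtype.val h
  rw [cH_val] at this
  apply Subtype.ext
  exact conj_eq_one_iff.mp this

def CH (A : Subgroup G) [A.Normal] (n : ℤ) : Prop :=
  ∃ δ : G → A, (∀ g h, δ (g * h) = δ g * cH A g (δ h)) ∧ ∀ a : A, δ a = a ^ n

def CHsub (A : Subgroup G) [A.Normal] [IsMulCommutative A] : AddSubgroup ℤ where
  carrier := {n | CH A n}
  add_mem' := by
    rintro n m ⟨δ1, h1, h1'⟩ ⟨δ2, h2, h2'⟩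
    refine ⟨fun g => δ1 g * δ2 g, fun g h => ?_, fun a => ?_⟩
    · simp only [h1, h2, map_mul]
      exact mul_mul_mul_comm _ _ _ _
    · simp only [h1', h2', zpow_add]
  zero_mem' := ⟨fun _ => 1, fun g h => by simp, fun a => by simp⟩
  neg_mem' := by
    rintro n ⟨δ1, h1, h1'⟩
    refine ⟨fun g => (δ1 g)⁻¹, fun g h => ?_, fun a => ?_⟩
    · simp only [h1, map_inv, mul_inv]
    · simp only [h1', zpow_neg]

theorem complement_of_CH_one (A : Subgroup G) [hn : A.Normal] [IsMulCommutative A] (h : CH A 1) :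
    ∃ K : Subgroup G, K.IsComplement' A := by
  obtain ⟨δ, h1, h2⟩ := h
  have hδ1 : δ 1 = 1 := by
    have := h1 1 1
    rw [mul_one, cH_one] at this
    exact (mul_eq_left.mp this.symm)
  let K : Subgroup G :=
    { carrier := {g | δ g = 1}
      one_mem' := hδ1
      mul_mem' := by
        intro a b ha hb
        show δ (a * b) = 1
        rw [h1, show δ a = 1 from ha, show δ b = 1 from hb, map_one, mul_one]
      inv_mem' := by
        intro a ha
        show δ a⁻¹ = 1
        have := h1 a a⁻¹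
        rw [mul_inv_cancel, hδ1, show δ a = 1 from ha, one_mul] at this
        exact cH_eq_one A a _ this.symm }
  refine ⟨K, Subgroup.isComplement'_of_disjoint_and_mul_eq_univ ?_ ?_⟩
  · rw [Subgroup.disjoint_def]
    intro x hxK hxA
    have e1 : δ x = 1 := hxK
    have e2 := h2 ⟨x, hxA⟩
    rw [zpow_one] at e2
    have : (⟨x, hxA⟩ : A) = 1 := by rw [← e2]; exact e1
    exact congrArg Subtype.val this
  · rw [Set.eq_univ_iff_forall]
    intro g
    set a := δ g with ha
    have hk : ((a : G)⁻¹ * g) ∈ K := by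
      show δ ((a : G)⁻¹ * g) = 1
      have e : ((a : G)⁻¹) = ((a⁻¹ : A) : G) := rfl
      rw [e, h1, h2, zpow_one, cH_self, ← ha, inv_mul_cancel]
    refine ⟨(a : G)⁻¹ * g, hk, ((a : G)⁻¹ * g)⁻¹ * a * ((a : G)⁻¹ * g), ?_, by group⟩
    exact hn.conj_mem' a a.2 _

theorem index_mem [Finite G] (A : Subgroup G) [hn : A.Normal] [IsMulCommutative A] (H K : Subgroup G)
    (hKA : K ⊓ A = ⊥) (hsup : K ⊔ A = H) : CH A (H.index : ℤ) := by
  classical
  have := Fintype.ofFinite (G ⧸ H)
  have hAH : A ≤ H := hsup ▸ le_sup_right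
  have hKH : K ≤ H := hsup ▸ le_sup_left
  let r : G → G := fun u => ((u : G ⧸ H)).out
  have hr : ∀ u, (r u)⁻¹ * u ∈ H := by
    intro u
    rw [← QuotientGroup.eq]
    exact QuotientGroup.out_eq' _
  have hrc : ∀ u v : G, u⁻¹ * v ∈ H → r u = r v := by
    intro u v h
    have : (u : G ⧸ H) = (v : G ⧸ H) := QuotientGroup.eq.mpr h
    show ((u : G ⧸ H)).out = ((v : G ⧸ H)).out
    rw [this]
  have hdec : ∀ h ∈ H, ∃ a : A, ∃ k ∈ K, h = a * k := by
    intro h hh
    rw [← hsup, sup_comm] at hh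
    obtain ⟨a, ha, k, hk, rfl⟩ := Subgroup.mem_sup_of_normal_left.mp hh
    exact ⟨⟨a, ha⟩, k, hk, rfl⟩
  have hex : ∀ u, ∃ d : A, ∃ k ∈ K, u = d * r u * k := by
    intro u
    obtain ⟨a, k, hk, e⟩ := hdec _ (hr u)
    refine ⟨cH A (r u) a, k, hk, ?_⟩
    rw [cH_val]
    calc u = r u * ((r u)⁻¹ * u) := by group
      _ = r u * (a * k) := by rw [e]
      _ = r u * a * (r u)⁻¹ * r u * k := by group
  have huniq : ∀ (w : G) (d d' : A) (k k' : G), k ∈ K → k' ∈ K → (d : G) * w * k = d' * w * k' → d = d' := by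
    intro w d d' k k' hk hk' e
    have e1 : w⁻¹ * ((d' : G)⁻¹ * d) * w = k' * k⁻¹ := by
      have : (d : G) = d' * w * k' * k⁻¹ * w⁻¹ := by
        calc (d : G) = (d * w * k) * k⁻¹ * w⁻¹ := by group
          _ = d' * w * k' * k⁻¹ * w⁻¹ := by rw [e]
      rw [this]; group
    have m1 : w⁻¹ * ((d' : G)⁻¹ * d) * w ∈ A := hn.conj_mem' _ (A.mul_mem (A.inv_mem d'.2) d.2) _
    have m2 : w⁻¹ * ((d' : G)⁻¹ * d) * w ∈ K := by rw [e1]; exact K.mul_mem hk' (K.inv_mem hk)
    have m3 : w⁻¹ * ((d' : G)⁻¹ * d) * w ∈ K ⊓ A := ⟨m2, m1⟩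
    rw [hKA, Subgroup.mem_bot] at m3
    have m4 : (d' : G)⁻¹ * d = 1 := by
      have : w⁻¹ * ((d' : G)⁻¹ * d) * w⁻¹⁻¹ = 1 := by rw [inv_inv]; exact m3
      exact conj_eq_one_iff.mp this
    apply Subtype.ext
    exact (inv_mul_eq_one.mp m4).symm
  let D : G → A := fun u => Classical.choose (hex u)
  have hD : ∀ u, ∃ k ∈ K, u = D u * r u * k := fun u => Classical.choose_spec (hex u)
  have hDu : ∀ (u : G) (d : A) (k : G), k ∈ K → u = d * r u * k → D u = d := by
    intro u d k hk e
    obtain ⟨k', hk', e'⟩ := hD u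
    exact huniq (r u) _ _ k' k hk' hk (e'.symm.trans e)
  have hDl : ∀ (a : A) (u : G), D (a * u) = a * D u := by
    intro a u
    obtain ⟨k, hk, e⟩ := hD u
    have hr' : r (a * u) = r u := by
      apply hrc
      have : ((a : G) * u)⁻¹ * u = u⁻¹ * (a : G)⁻¹ * u := by group
      rw [this]
      exact hAH (hn.conj_mem' _ (A.inv_mem a.2) _)
    apply hDu _ _ k hk
    rw [hr', Subgroup.coe_mul]
    calc (a : G) * u = a * (D u * r u * k) := by rw [← e]
      _ = a * D u * r u * k := by group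
  have hDr : ∀ (u k : G), k ∈ K → D (u * k) = D u := by
    intro u k hk
    obtain ⟨k', hk', e⟩ := hD u
    have hr' : r (u * k) = r u := by
      apply hrc
      have : (u * k)⁻¹ * u = k⁻¹ := by group
      rw [this]
      exact hKH (K.inv_mem hk)
    apply hDu _ _ (k' * k) (K.mul_mem hk' hk)
    rw [hr']
    calc u * k = (D u * r u * k') * k := by rw [← e]
      _ = D u * r u * (k' * k) := by group
  let E : G → G → A := fun g u => D (g * u) / cH A g (D u)
  have hEK : ∀ g u k, k ∈ K → E g (u * k) = E g u := by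
    intro g u k hk
    show D (g * (u * k)) / cH A g (D (u * k)) = D (g * u) / cH A g (D u)
    rw [← mul_assoc, hDr _ _ hk, hDr _ _ hk]
  have hEA : ∀ g u (a : A), E g (u * a) = E g u := by
    intro g u a
    show D (g * (u * a)) / cH A g (D (u * a)) = D (g * u) / cH A g (D u)
    have e1 : u * (a : G) = (cH A u a : A) * u := by rw [cH_val]; group
    have e2 : g * (u * (a : G)) = (cH A (g * u) a : A) * (g * u) := by rw [cH_val]; group
    rw [e2, e1, hDl, hDl, map_mul, ← cH_mul, mul_div_mul_left_eq_div]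
  have hEc : ∀ g u v, u⁻¹ * v ∈ H → E g u = E g v := by
    intro g u v h
    obtain ⟨a, k, hk, e⟩ := hdec _ h
    have : v = u * a * k := by
      calc v = u * (u⁻¹ * v) := by group
        _ = u * (a * k) := by rw [e]
        _ = u * a * k := by group
    rw [this, hEK _ _ _ hk, hEA]
  have hEm : ∀ g g' u, E (g * g') u = E g (g' * u) * cH A g (E g' u) := by
    intro g g' u
    show D (g * g' * u) / cH A (g * g') (D u) = D (g * (g' * u)) / cH A g (D (g' * u)) * cH A g (D (g' * u) / cH A g' (D u))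
    rw [map_div, div_mul_div_cancel, cH_mul, mul_assoc]
  refine ⟨fun g => ∏ q : G ⧸ H, E g q.out, fun g g' => ?_, fun a => ?_⟩
  · show ∏ q : G ⧸ H, E (g * g') q.out = (∏ q : G ⧸ H, E g q.out) * cH A g (∏ q : G ⧸ H, E g' q.out)
    rw [map_prod, ← Finset.prod_mul_distrib]
    have h3 : ∏ q : G ⧸ H, E g q.out = ∏ q : G ⧸ H, E g (g' * q.out) := by
      symm
      apply Fintype.prod_equiv (MulAction.toPerm g')
      intro q
      apply hEc
      rw [← QuotientGroup.eq]
      have : ((MulAction.toPerm g') q) = g' • q := rfl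
      rw [this, QuotientGroup.out_eq']
      conv_rhs => rw [← QuotientGroup.out_eq' q]
      rfl
    rw [Finset.prod_mul_distrib, h3, ← Finset.prod_mul_distrib]
    exact Finset.prod_congr rfl (fun q _ => hEm g g' q.out)
  · show ∏ q : G ⧸ H, E a q.out = a ^ (H.index : ℤ)
    have : ∀ q : G ⧸ H, E a q.out = a := by
      intro q
      show D (a * q.out) / cH A a (D q.out) = a
      rw [hDl, cH_self, mul_div_cancel_right]
    rw [Finset.prod_congr rfl (fun q _ => this q), Finset.prod_const, Finset.card_univ, zpow_natCast,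
      Subgroup.index, Nat.card_eq_fintype_card]

end gas

/-- Let `A` be an abelian normal subgroup of the finite group `G`. Then `A` has a complement in `G` if and only if, for every prime `p` dividing the index of `A`, there are a Sylow `p`-subgroup `S` of `G/A` and a subgroup `K` of `G` with `K ∩ A = 1` and `KA` equal to the preimage of `S` (that is, `A` has a complement in the preimage of a Sylow `p`-subgroup of `G/A`). -/
theorem result {G : Type*} [Group G] [Finite G] (A : Subgroup G) [A.Normal] (hA : IsMulCommutative A) : (∃ K : Subgroup G, K.IsComplement' A) ↔ ∀ p : ℕ, p.Prime → p ∣ A.index → ∃ (S : Sylow p (G ⧸ A)) (K : Subgroup G), K ⊓ A = ⊥ ∧ K ⊔ A = (S : Subgroup (G ⧸ A)).comap (QuotientGroup.mk' A) := by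
  haveI := hA
  constructor
  · rintro ⟨K, hK⟩ p hp hpA
    haveI : Fact p.Prime := ⟨hp⟩
    obtain ⟨S⟩ : Nonempty (Sylow p (G ⧸ A)) := inferInstance
    refine ⟨S, K ⊓ (S : Subgroup (G ⧸ A)).comap (QuotientGroup.mk' A), ?_, ?_⟩
    · rw [eq_bot_iff]
      have := hK.disjoint.eq_bot
      rw [← this]
      exact inf_le_inf_right _ inf_le_left
    · have hAc : A ≤ (S : Subgroup (G ⧸ A)).comap (QuotientGroup.mk' A) := by
        intro a ha
        rw [Subgroup.mem_comap]
        have : QuotientGroup.mk' A a = 1 := (QuotientGroup.eq_one_iff a).mpr ha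
        rw [this]; exact Subgroup.one_mem _
      apply le_antisymm (sup_le inf_le_right hAc)
      intro x hx
      have hx' : x ∈ K ⊔ A := by rw [hK.sup_eq_top]; trivial
      obtain ⟨k, hk, a, ha, rfl⟩ := Subgroup.mem_sup_of_normal_right.mp hx'
      have hkc : k ∈ (S : Subgroup (G ⧸ A)).comap (QuotientGroup.mk' A) := by
        have := Subgroup.mul_mem _ hx (Subgroup.inv_mem _ (hAc ha))
        rwa [mul_inv_cancel_right] at this
      exact Subgroup.mul_mem _ (Subgroup.mem_sup_left (Subgroup.mem_inf.mpr ⟨hk, hkc⟩)) (Subgroup.mem_sup_right ha)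
  · intro h
    apply complement_of_CH_one A
    show (1 : ℤ) ∈ CHsub A
    obtain ⟨d, hd⟩ := Int.subgroup_cyclic (CHsub A)
    have hmem : ∀ p : ℕ, p.Prime → p ∣ A.index → ∃ m : ℕ, ¬ p ∣ m ∧ m ∣ A.index ∧ d ∣ (m : ℤ) := by
      intro p hp hpA
      haveI : Fact p.Prime := ⟨hp⟩
      obtain ⟨S, K, h1, h2⟩ := h p hp hpA
      have h3 : (((S : Subgroup (G ⧸ A)).comap (QuotientGroup.mk' A)).index : ℤ) ∈ CHsub A := index_mem A _ K h1 h2
      rw [Subgroup.index_comap_of_surjective _ (QuotientGroup.mk'_surjective A)] at h3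
      refine ⟨(S : Subgroup (G ⧸ A)).index, S.not_dvd_index, ?_, ?_⟩
      · rw [Subgroup.index_eq_card A]
        exact Subgroup.index_dvd_card _
      · rw [hd, AddSubgroup.mem_closure_singleton] at h3
        obtain ⟨n, hn⟩ := h3
        exact ⟨n, by rw [← hn]; simp [mul_comm]⟩
    have hunit : d.natAbs = 1 := by
      by_contra hne
      obtain ⟨q, hq, hqd⟩ := Nat.exists_prime_and_dvd hne
      have hqd' : (q : ℤ) ∣ d := Int.natCast_dvd.mpr hqd
      by_cases hA1 : A.index = 1
      · -- trivial quotient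
        have : CH A 1 := by
          have htop : A = ⊤ := Subgroup.index_eq_one.mp hA1
          refine ⟨fun g => ⟨g, htop ▸ Subgroup.mem_top g⟩, fun g k => ?_, fun a => by simp⟩
          apply Subtype.ext
          have hc := cH_self A ⟨g, htop ▸ Subgroup.mem_top g⟩ ⟨k, htop ▸ Subgroup.mem_top k⟩
          rw [Subgroup.coe_mul, hc]
        have h1 : (1 : ℤ) ∈ CHsub A := this
        rw [hd, AddSubgroup.mem_closure_singleton] at h1
        obtain ⟨n, hn⟩ := h1
        have : d ∣ 1 := ⟨n, by rw [← hn]; simp [mul_comm]⟩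
        exact hne (Int.natAbs_dvd_natAbs.mpr this |> Nat.dvd_one.mp)
      · obtain ⟨p0, hp0, hp0A⟩ := Nat.exists_prime_and_dvd hA1
        obtain ⟨m, -, hmA, hdm⟩ := hmem p0 hp0 hp0A
        have hqA : q ∣ A.index := (Int.natCast_dvd_natCast.mp (hqd'.trans hdm)).trans hmA
        obtain ⟨m', hqm', -, hdm'⟩ := hmem q hq hqA
        exact hqm' (Int.natCast_dvd_natCast.mp (hqd'.trans hdm'))
    rw [hd, AddSubgroup.mem_closure_singleton]
    rcases Int.natAbs_eq d with h1 | h1
    · exact ⟨1, by rw [h1, hunit]; simp⟩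
    · exact ⟨-1, by rw [h1, hunit]; simp⟩

end Cfsg.Agent.S4217
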