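import Cfsg.Statements.S4218
import Cfsg.Agent.Lib.Helper9.PSolv
import Cfsg.Agent.Lib.Helper1.FrattiniAct
import Cfsg.Agent.Lib.Helper2.Frattini2

set_option autoImplicit false
open Cfsg

namespace Cfsg.Agent.S4218

open Cfsg.Agent.Lib.Helper1 Cfsg.Agent.Lib.Helper9.PSolv
open scoped commutatorElement

theorem frat_faithful {G : Type*} [Group G] [Finite G] {p : ℕ} [hp : Fact p.Prime]
    (K T : Subgroup G) [hK : K.Normal] [hT : T.Normal]
    (hV : IsPGroup p (T.map (QuotientGroup.mk' K)))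
    (hHH : ∀ g : G, (∀ x ∈ T, g * x * g⁻¹ * x⁻¹ ∈ K) → g ∈ T)
    (hmax : ∀ C : Subgroup G, C.Normal → IsPGroup p (C.map (QuotientGroup.mk' K)) → C ≤ T)
    (g : G) :
    (∀ x ∈ T, g * x * g⁻¹ * x⁻¹ ∈ ((frattini (↥T ⧸ K.subgroupOf T)).comap
      (QuotientGroup.mk' (K.subgroupOf T))).map T.subtype) ↔ g ∈ T := by
  set KT := K.subgroupOf T with hKT
  set f := QuotientGroup.mk' K with hf
  set V := T.map f with hVdef
  set F' := (frattini (↥T ⧸ KT)).comap (QuotientGroup.mk' KT) with hF'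
  set F := F'.map T.subtype with hF
  have hXp : IsPGroup p (↥T ⧸ KT) := by
    intro y
    obtain ⟨x, rfl⟩ := QuotientGroup.mk'_surjective KT y
    obtain ⟨k, hk⟩ := hV ⟨f x, Subgroup.mem_map_of_mem f x.2⟩
    refine ⟨k, ?_⟩
    rw [← map_pow, QuotientGroup.mk'_apply, QuotientGroup.eq_one_iff]
    have h1 : f ((x : G) ^ (p ^ k)) = 1 := by
      have := congrArg Subtype.val hk
      simpa using this
    exact (QuotientGroup.eq_one_iff (N := K) ((x : G) ^ (p ^ k))).1 h1
  constructor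
  swap
  · intro hg x hx
    have : Group.IsNilpotent (↥T ⧸ KT) := hXp.isNilpotent
    refine ⟨⁅(⟨g, hg⟩ : T), ⟨x, hx⟩⁆, ?_, by simp [commutatorElement_def]⟩
    show QuotientGroup.mk' KT ⁅(⟨g, hg⟩ : T), ⟨x, hx⟩⁆ ∈ frattini _
    apply Cfsg.Agent.Lib.Helper2.Frattini.commutator_le_frattini
    rw [map_commutatorElement, commutator_def]
    exact Subgroup.commutator_mem_commutator (Subgroup.mem_top _) (Subgroup.mem_top _)
  intro hg
  have hFn : F.Normal := by
    constructor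
    rintro _ ⟨y, hy, rfl⟩ a
    have he : KT.map ((MulAut.conjNormal a : ↥T ≃* ↥T) : ↥T →* ↥T) = KT := by
      ext z
      constructor
      · rintro ⟨w, hw, rfl⟩
        show ((MulAut.conjNormal a w : T) : G) ∈ K
        rw [MulAut.conjNormal_apply]
        exact hK.conj_mem _ hw a
      · intro hz
        refine ⟨(MulAut.conjNormal a : ↥T ≃* ↥T).symm z, ?_, by simp⟩
        show (((MulAut.conjNormal a : ↥T ≃* ↥T).symm z : T) : G) ∈ K
        rw [MulAut.conjNormal_symm_apply]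
        have := hK.conj_mem _ hz a⁻¹
        simpa using this
    refine ⟨MulAut.conjNormal a y, ?_, MulAut.conjNormal_apply a y⟩
    have h1 := (frattini_characteristic (G := ↥T ⧸ KT)).fixed
      (QuotientGroup.congr KT KT (MulAut.conjNormal a) he)
    have h2 : QuotientGroup.mk' KT y ∈ (frattini (↥T ⧸ KT)).comap
        (QuotientGroup.congr KT KT (MulAut.conjNormal a) he).toMonoidHom := by
      rw [h1]; exact hy
    exact h2
  let C : Subgroup G :=
    { carrier := {c | ∀ x ∈ T, c * x * c⁻¹ * x⁻¹ ∈ F}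
      one_mem' := fun v _ => by simp
      mul_mem' := by
        intro c d hc hd x hx
        have e : c * d * x * (c * d)⁻¹ * x⁻¹ = c * (d * x * d⁻¹ * x⁻¹) * c⁻¹ * (c * x * c⁻¹ * x⁻¹) := by
          group
        rw [e]
        exact F.mul_mem (hFn.conj_mem _ (hd x hx) c) (hc x hx)
      inv_mem' := by
        intro c hc x hx
        have e : c⁻¹ * x * c⁻¹⁻¹ * x⁻¹ = c⁻¹ * (c * x * c⁻¹ * x⁻¹)⁻¹ * c⁻¹⁻¹ := by group
        rw [e]
        exact hFn.conj_mem _ (F.inv_mem (hc x hx)) c⁻¹ }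
  have hCn : C.Normal := by
    constructor
    intro c hc a x hx
    have hx' : a⁻¹ * x * a ∈ T := by
      have := hT.conj_mem x hx a⁻¹
      simpa using this
    have e : a * c * a⁻¹ * x * (a * c * a⁻¹)⁻¹ * x⁻¹ =
        a * (c * (a⁻¹ * x * a) * c⁻¹ * (a⁻¹ * x * a)⁻¹) * a⁻¹ := by group
    rw [e]
    exact hFn.conj_mem _ (hc _ hx') a
  have hVn : V.Normal := hT.map f (QuotientGroup.mk'_surjective K)
  let fT : ↥T →* ↥V := (f.comp T.subtype).codRestrict V (fun x => Subgroup.mem_map_of_mem f x.2)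
  let φ : (↥T ⧸ KT) →* ↥V := QuotientGroup.lift KT fT
    (fun x hx => Subtype.ext ((QuotientGroup.eq_one_iff _).2 hx))
  have hφs : Function.Surjective φ := by
    rintro ⟨_, x, hx, rfl⟩
    exact ⟨QuotientGroup.mk' KT ⟨x, hx⟩, rfl⟩
  have hφF : ∀ y ∈ F', fT y ∈ frattini ↥V := fun y hy =>
    frattini_le_comap_frattini_of_surjective hφs hy
  have star : ∀ h ∈ C, (orderOf h).Coprime p → h ∈ K := by
    intro h hh hcop
    have hofh : (orderOf (f h)).Coprime p :=
      Nat.Coprime.coprime_dvd_left (orderOf_map_dvd f h) hcop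
    have hA := centralizes_of_frattini (Subgroup.zpowers (f h)) V
      (by rw [Subgroup.normalizer_eq_top]; exact le_top) ?_ ?_
    · have hfh : f h ∈ Subgroup.centralizer (V : Set (G ⧸ K)) := hA (Subgroup.mem_zpowers _)
      have hhT : h ∈ T := by
        apply hHH
        intro x hx
        have h1 := Subgroup.mem_centralizer_iff.1 hfh (f x) (Subgroup.mem_map_of_mem f hx)
        apply (QuotientGroup.eq_one_iff _).1
        show f (h * x * h⁻¹ * x⁻¹) = 1
        rw [map_mul, map_mul, map_mul, map_inv, map_inv, ← h1, mul_inv_cancel_right, mul_inv_cancel]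
      obtain ⟨k, hk⟩ := hV ⟨f h, Subgroup.mem_map_of_mem f hhT⟩
      have hk' : (f h) ^ (p ^ k) = 1 := by
        have := congrArg Subtype.val hk
        simpa using this
      have h2 : orderOf (f h) ∣ p ^ k := orderOf_dvd_of_pow_eq_one hk'
      have h3 : orderOf (f h) = 1 :=
        Nat.Coprime.eq_one_of_dvd (Nat.Coprime.pow_right k hofh) h2
      exact (QuotientGroup.eq_one_iff _).1 (orderOf_eq_one_iff.1 h3)
    · rw [Nat.card_zpowers]
      obtain ⟨k, hk⟩ := IsPGroup.iff_card.1 (hV.to_subgroup (frattini ↥V))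
      rw [hk]
      exact Nat.Coprime.pow_right k hofh
    · intro a ha v hv
      obtain ⟨n, rfl⟩ := Subgroup.mem_zpowers_iff.1 ha
      obtain ⟨x, hx, rfl⟩ := hv
      obtain ⟨y, hy, hyx⟩ := (C.zpow_mem hh n) x hx
      refine ⟨fT y, hφF y hy, ?_⟩
      show f (T.subtype y) = _
      rw [hyx]
      simp
  have hCp : IsPGroup p (C.map f) := by
    rintro ⟨_, y, hy, rfl⟩
    obtain ⟨a, m, hm, hn⟩ := Nat.exists_eq_pow_mul_and_not_dvd (orderOf_pos y).ne' p hp.out.ne_one
    refine ⟨a, Subtype.ext ?_⟩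
    show (f y) ^ (p ^ a) = 1
    rw [← map_pow]
    apply (QuotientGroup.eq_one_iff _).2
    apply star _ (C.pow_mem hy _)
    rw [orderOf_pow_of_dvd (pow_ne_zero _ hp.out.ne_zero) (by rw [hn]; exact Dvd.intro _ rfl), hn,
      Nat.mul_div_cancel_left _ (pow_pos hp.out.pos _)]
    exact ((Nat.Prime.coprime_iff_not_dvd hp.out).2 hm).symm
  exact hmax C hCn hCp hg

/-- Let `G` be a finite `p`-solvable group, `N₀ = O_{p'}(G)`, `P₁ = O_{p',p}(G)`, and let `F ≤ P₁` be the preimage of the Frattini subgroup of `P₁/N₀`. Then an element `g` of `G` induces the identity on `P₁/F` by conjugation (that is, `g x g⁻¹ x⁻¹ ∈ F` for all `x ∈ P₁`) if and only if `g ∈ P₁`: the group `G/P₁` acts faithfully on `P₁/F`. -/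
theorem result {G : Type*} [Group G] [Finite G] {p : ℕ} [Fact p.Prime] (hG : Cfsg.IsPSolvable p G) (g : G) : (∀ x ∈ Cfsg.pPrimePCore p G, g * x * g⁻¹ * x⁻¹ ∈ ((frattini (↥(Cfsg.pPrimePCore p G) ⧸ (Cfsg.pPrimeCore p G).subgroupOf (Cfsg.pPrimePCore p G))).comap (QuotientGroup.mk' ((Cfsg.pPrimeCore p G).subgroupOf (Cfsg.pPrimePCore p G)))).map (Cfsg.pPrimePCore p G).subtype) ↔ g ∈ Cfsg.pPrimePCore p G := by
  have hKn : (Cfsg.pPrimeCore p G).Normal := Cfsg.Agent.Lib.Helper1.pPrimeCore_normal p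
  have hVn : (Cfsg.pCore p (G ⧸ Cfsg.pPrimeCore p G)).Normal := Cfsg.Agent.Lib.Helper1.pCore_normal p
  have hTn : (Cfsg.pPrimePCore p G).Normal := hVn.comap _
  have hmap : (Cfsg.pPrimePCore p G).map (QuotientGroup.mk' (Cfsg.pPrimeCore p G)) =
      Cfsg.pCore p (G ⧸ Cfsg.pPrimeCore p G) :=
    Subgroup.map_comap_eq_self_of_surjective (QuotientGroup.mk'_surjective _) _
  apply frat_faithful (p := p) (Cfsg.pPrimeCore p G) (Cfsg.pPrimePCore p G)
  · rw [hmap]; exact pCore_isPGroup p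
  · exact hall_higman_rel hG
  · intro C hC hCp
    have h1 : C.map (QuotientGroup.mk' (Cfsg.pPrimeCore p G)) ≤
        Cfsg.pCore p (G ⧸ Cfsg.pPrimeCore p G) :=
      le_pCore (hC.map _ (QuotientGroup.mk'_surjective _)) hCp
    exact Subgroup.map_le_iff_le_comap.1 h1

end Cfsg.Agent.S4218
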