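import Cfsg.Statements.S4219
import Mathlib
import Cfsg.Agent.Lib.Helper1.Basic

set_option autoImplicit false
open Cfsg

namespace Cfsg.Agent.S4219

open Cfsg
open Cfsg.Agent.Lib.Helper1
open scoped Pointwise

theorem witt_aux {G : Type*} [Group G] [Finite G] (H : Subgroup G) {p : ℕ} [Fact p.Prime]
    (P : Sylow p H) (h : G)
    (hh : MulAut.conj h⁻¹ • ((P : Subgroup H).map H.subtype) ≤ H) :
    ∃ k ∈ H, h * k ∈ Subgroup.normalizer (((P : Subgroup H).map H.subtype : Subgroup G) : Set G) := by
  obtain ⟨Q, hQ⟩ : ∃ Q, Q = (P : Subgroup H).map H.subtype := ⟨_, rfl⟩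
  rw [← hQ] at hh ⊢
  have hcQ : Nat.card Q = Nat.card P := by
    rw [hQ]; exact Subgroup.card_map_of_injective H.subtype_injective
  have hR : IsPGroup p ((MulAut.conj h⁻¹ • Q).subgroupOf H) := by
    have h1 : IsPGroup p Q := by rw [hQ]; exact P.2.map _
    have h2 : IsPGroup p (MulAut.conj h⁻¹ • Q : Subgroup G) := h1.map (MulAut.conj h⁻¹).toMonoidHom
    exact h2.comap_of_injective _ H.subtype_injective
  obtain ⟨P', hP'⟩ := hR.exists_le_sylow
  obtain ⟨k, hk⟩ := MulAction.exists_smul_eq H P P'
  have hcR : Nat.card ((MulAut.conj h⁻¹ • Q).subgroupOf H) = Nat.card P := by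
    rw [← hcQ, ← card_conj_smul h⁻¹ Q]
    exact Nat.card_congr (Subgroup.subgroupOfEquivOfLe hh).toEquiv
  have hcP' : Nat.card P' = Nat.card P := by
    rw [← hk]
    show Nat.card ((k • P : Sylow p H) : Subgroup H) = _
    rw [Sylow.coe_subgroup_smul]
    exact card_conj_smul k _
  have heq : (MulAut.conj h⁻¹ • Q).subgroupOf H = (P' : Subgroup H) :=
    Subgroup.eq_of_le_of_card_ge hP' (by rw [hcR, hcP'])
  have h3 : MulAut.conj h⁻¹ • Q = MulAut.conj k.1 • Q := by
    have h4 := congrArg (Subgroup.map H.subtype) heq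
    rw [Subgroup.subgroupOf_map_subtype, inf_eq_left.mpr hh, ← hk, Sylow.coe_subgroup_smul] at h4
    have h5 := map_conj_smul H.subtype k (P : Subgroup H)
    rw [h4, hQ]
    exact h5
  refine ⟨k.1, k.2, ?_⟩
  rw [Subgroup.mem_normalizer_iff_map_conj_eq]
  show MulAut.conj (h * k.1) • Q = Q
  rw [← conj_smul_smul, ← h3, conj_smul_smul]
  simp

/-- Let a finite group `G` act `t`-fold transitively on a finite set, let `H` be the stabilizer of `t` distinct points and `P` a Sylow `p`-subgroup of `H`. Then the normalizer of `P` in `G` is `t`-fold transitive on the fixed points of `P`: any `t` distinct fixed points of `P` can be carried to any other `t` distinct fixed points of `P` by an element normalizing `P`. -/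
theorem result {G : Type*} [Group G] [Finite G] {α : Type*} [Fintype α] [MulAction G α] {t : ℕ} (hG : MulAction.IsMultiplyPretransitive G α t) (x : Fin t ↪ α) {p : ℕ} [Fact p.Prime] (P : Sylow p (MulAction.stabilizer G x)) (a b : Fin t ↪ α) (ha : ∀ i, a i ∈ MulAction.fixedPoints ((P : Subgroup (MulAction.stabilizer G x)).map (MulAction.stabilizer G x).subtype) α) (hb : ∀ i, b i ∈ MulAction.fixedPoints ((P : Subgroup (MulAction.stabilizer G x)).map (MulAction.stabilizer G x).subtype) α) : ∃ g ∈ Subgroup.normalizer ((((P : Subgroup (MulAction.stabilizer G x)).map (MulAction.stabilizer G x).subtype) : Subgroup G) : Set G), g • a = b := by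
  have key : ∀ a : Fin t ↪ α, (∀ i, a i ∈ MulAction.fixedPoints ((P : Subgroup (MulAction.stabilizer G x)).map (MulAction.stabilizer G x).subtype) α) →
      ∃ g ∈ Subgroup.normalizer ((((P : Subgroup (MulAction.stabilizer G x)).map (MulAction.stabilizer G x).subtype) : Subgroup G) : Set G), g • x = a := by
    intro a ha
    obtain ⟨h, hh⟩ := MulAction.exists_smul_eq G x a
    obtain ⟨k, hk, hn⟩ := witt_aux (MulAction.stabilizer G x) P h (by
      intro y hy
      rw [mem_conj_smul, inv_inv] at hy
      rw [MulAction.mem_stabilizer_iff]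
      have h1 : (h * y * h⁻¹) • a = a := by
        ext i
        exact ha i ⟨_, hy⟩
      rw [← hh, ← mul_smul] at h1
      have h2 : h * y * h⁻¹ * h = h * y := by group
      rw [h2, mul_smul] at h1
      exact smul_left_cancel h h1)
    refine ⟨h * k, hn, ?_⟩
    rw [mul_smul, MulAction.mem_stabilizer_iff.mp hk, hh]
  obtain ⟨g1, hg1, h1⟩ := key a ha
  obtain ⟨g2, hg2, h2⟩ := key b hb
  refine ⟨g2 * g1⁻¹, Subgroup.mul_mem _ hg2 (Subgroup.inv_mem _ hg1), ?_⟩
  rw [← h1, ← h2, mul_smul, inv_smul_smul]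

end Cfsg.Agent.S4219
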