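import Cfsg.Statements.S4275
import Mathlib

set_option autoImplicit false
open Cfsg

namespace Cfsg.Agent.S4275

/-- Let G be a transitive group of permutations of a finite set Ω, let o ∈ Ω, and let α be an automorphism of G. Then α is induced by conjugation by a permutation of Ω normalizing G if and only if the image under α of the stabilizer of o fixes some point of Ω. -/
theorem result {Ω : Type*} [Fintype Ω] (G : Subgroup (Equiv.Perm Ω)) (htr : MulAction.IsPretransitive G Ω) (o : Ω) (α : G ≃* G) : (∃ σ : Equiv.Perm Ω, σ ∈ Subgroup.normalizer (G : Set (Equiv.Perm Ω)) ∧ ∀ g : G, ((α g : G) : Equiv.Perm Ω) = σ * (g : Equiv.Perm Ω) * σ⁻¹) ↔ ∃ ω : Ω, ∀ g ∈ (MulAction.stabilizer G o).map α.toMonoidHom, g • ω = ω := by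
  classical
  constructor
  · rintro ⟨σ, hσ, hα⟩
    refine ⟨σ o, ?_⟩
    rintro _ ⟨g, hg, rfl⟩
    have h1 : ((g : G) : Equiv.Perm Ω) o = o := hg
    show ((α g : G) : Equiv.Perm Ω) (σ o) = σ o
    rw [hα g]
    simp [h1]
  · rintro ⟨ω, hω⟩
    have hex : ∀ x : Ω, ∃ g : G, g • o = x := fun x => MulAction.exists_smul_eq G o x
    choose γ hγ using hex
    let s : Ω → Ω := fun x => (α (γ x)) • ω
    have hK : ∀ g : G, s (g • o) = (α g) • ω := by
      intro g
      have h1 : (γ (g • o))⁻¹ * g ∈ MulAction.stabilizer G o := by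
        rw [MulAction.mem_stabilizer_iff, mul_smul, inv_smul_eq_iff]
        exact (hγ _).symm
      have h2 := hω (α ((γ (g • o))⁻¹ * g)) ⟨_, h1, rfl⟩
      rw [map_mul, map_inv, mul_smul, inv_smul_eq_iff] at h2
      exact h2.symm
    have hE : ∀ (g : G) (x : Ω), s (g • x) = (α g) • s x := by
      intro g x
      obtain ⟨h, rfl⟩ := MulAction.exists_smul_eq G o x
      rw [← mul_smul, hK, hK, map_mul, mul_smul]
    have hsurj : Function.Surjective s := by
      intro y
      obtain ⟨k, hk⟩ := MulAction.exists_smul_eq G ω y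
      obtain ⟨g, rfl⟩ := α.surjective k
      exact ⟨g • o, by rw [hK, hk]⟩
    have hbij : Function.Bijective s := ⟨Finite.injective_iff_surjective.mpr hsurj, hsurj⟩
    let σ : Equiv.Perm Ω := Equiv.ofBijective s hbij
    have hα : ∀ g : G, ((α g : G) : Equiv.Perm Ω) = σ * (g : Equiv.Perm Ω) * σ⁻¹ := by
      intro g
      ext y
      obtain ⟨x, rfl⟩ := σ.surjective y
      have h5 : σ⁻¹ (σ x) = x := by simp
      rw [Equiv.Perm.mul_apply, Equiv.Perm.mul_apply, h5]
      exact (hE g x).symm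
    refine ⟨σ, ?_, hα⟩
    rw [Subgroup.mem_normalizer_iff]
    intro h
    constructor
    · intro hh
      have h1 := hα ⟨h, hh⟩
      have h2 : σ * h * σ⁻¹ = ((α ⟨h, hh⟩ : G) : Equiv.Perm Ω) := h1.symm
      rw [h2]
      exact (α ⟨h, hh⟩).2
    · intro hh
      obtain ⟨g, hg⟩ := α.surjective ⟨σ * h * σ⁻¹, hh⟩
      have h1 := hα g
      rw [hg] at h1
      have h3 : σ * h * σ⁻¹ = σ * (g : Equiv.Perm Ω) * σ⁻¹ := h1
      have h2 : h = (g : Equiv.Perm Ω) := mul_left_cancel (mul_right_cancel h3)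
      rw [h2]; exact g.2

end Cfsg.Agent.S4275
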