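import Cfsg.Statements.S4299
import Mathlib
import Cfsg.Agent.Lib.Helper1.Basic

set_option autoImplicit false
open Cfsg

namespace Cfsg.Agent.S4299

open Cfsg
open Cfsg.Agent.Lib.Helper1
open scoped Pointwise

theorem mem_range_inr {N U : Type*} [Group N] [Group U] (φ : U →* MulAut N) (x : N ⋊[φ] U) :
    x ∈ (SemidirectProduct.inr : U →* N ⋊[φ] U).range ↔ x.left = 1 := by
  constructor
  · rintro ⟨u, rfl⟩
    exact SemidirectProduct.left_inr u
  · intro h
    refine ⟨x.right, ?_⟩
    apply SemidirectProduct.ext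
    · rw [SemidirectProduct.left_inr, h]
    · rw [SemidirectProduct.right_inr]

theorem frob_semidirect {N U : Type*} [Group N] [Group U] (φ : U →* MulAut N) [Nontrivial N] [Nontrivial U]
    (hfpf : ∀ u : U, u ≠ 1 → ∀ v : N, φ u v = v → v = 1) :
    Cfsg.IsFrobeniusComplement (SemidirectProduct.inr : U →* N ⋊[φ] U).range := by
  refine ⟨?_, ?_, ?_⟩
  · intro h
    obtain ⟨u, hu⟩ := exists_ne (1 : U)
    have h1 : (SemidirectProduct.inr u : N ⋊[φ] U) ∈ (SemidirectProduct.inr : U →* N ⋊[φ] U).range := ⟨u, rfl⟩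
    rw [h, Subgroup.mem_bot] at h1
    apply hu
    apply SemidirectProduct.inr_injective (φ := φ)
    rw [h1, map_one]
  · intro h
    obtain ⟨v, hv⟩ := exists_ne (1 : N)
    have h1 : (SemidirectProduct.inl v : N ⋊[φ] U) ∈ (SemidirectProduct.inr : U →* N ⋊[φ] U).range := by
      rw [h]; trivial
    rw [mem_range_inr, SemidirectProduct.left_inl] at h1
    exact hv h1
  · intro g hg
    rw [mem_range_inr] at hg
    rw [Subgroup.eq_bot_iff_forall]
    intro x hx
    obtain ⟨hx1, hx2⟩ := Subgroup.mem_inf.mp hx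
    rw [mem_conj_smul, mem_range_inr] at hx2
    obtain ⟨u, rfl⟩ := hx1
    by_contra hne
    have hu : u ≠ 1 := by
      rintro rfl
      exact hne (map_one _)
    apply hg
    apply hfpf u hu
    simp only [SemidirectProduct.mul_left, SemidirectProduct.inv_left, SemidirectProduct.mul_right,
      SemidirectProduct.inv_right, SemidirectProduct.left_inr, SemidirectProduct.right_inr, map_one, mul_one] at hx2
    -- hx2 : φ g.right⁻¹ g.left⁻¹ * φ (g.right⁻¹ * u) g.left = 1
    have h3 : φ g.right⁻¹ (g.left⁻¹ * φ u g.left) = 1 := by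
      rw [map_mul, ← hx2, map_mul φ]
      rfl
    have h4 : g.left⁻¹ * φ u g.left = 1 := by
      have := (φ g.right⁻¹).injective (h3.trans (map_one _).symm)
      exact this
    exact (inv_mul_eq_one.mp h4).symm

/-- Every nontrivial finite cyclic group occurs as a Frobenius complement of some finite Frobenius group. -/
theorem result {C : Type*} [Group C] [Finite C] [IsCyclic C] [Nontrivial C] :
    ∃ (L : Type) (_ : Group L) (_ : Finite L) (H : Subgroup L), Cfsg.IsFrobeniusComplement H ∧ Nonempty (C ≃* H) := by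
  obtain ⟨p, hp, -, hmod⟩ := Nat.exists_prime_gt_modEq_one (k := Nat.card C) 0 Nat.card_pos.ne'
  haveI : Fact p.Prime := ⟨hp⟩
  have hdvd : Nat.card C ∣ p - 1 := (Nat.modEq_iff_dvd' hp.one_lt.le).mp hmod.symm
  obtain ⟨m, hm⟩ := hdvd
  obtain ⟨g, hg⟩ := IsCyclic.exists_generator (α := (ZMod p)ˣ)
  have hog : orderOf g = p - 1 := by
    rw [orderOf_eq_card_of_forall_mem_zpowers hg, Nat.card_eq_fintype_card, ZMod.card_units]
  have hm0 : m ≠ 0 := by
    rintro rfl
    have := hp.one_lt
    omega
  have hom : orderOf (g ^ m) = Nat.card C := by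
    rw [orderOf_pow_of_dvd hm0 (by rw [hog, hm]; exact Dvd.intro_left _ rfl), hog, hm]
    exact Nat.mul_div_cancel _ (Nat.pos_of_ne_zero hm0)
  obtain ⟨U, hU⟩ : ∃ U, U = Subgroup.zpowers (g ^ m) := ⟨_, rfl⟩
  have hUc : Nat.card U = Nat.card C := by rw [hU, Nat.card_zpowers, hom]
  haveI hUcyc : IsCyclic U := by rw [hU]; infer_instance
  haveI hUnt : Nontrivial U := by
    rw [← Finite.one_lt_card_iff_nontrivial, hUc]
    exact Finite.one_lt_card
  let φ : U →* MulAut (Multiplicative (ZMod p)) :=
    (MulAutMultiplicative (ZMod p)).symm.toMonoidHom.comp (DistribMulAction.toAddAut U (ZMod p))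
  have hφ : ∀ (u : U) (v : Multiplicative (ZMod p)), φ u v = Multiplicative.ofAdd ((u.1 : ZMod p) * Multiplicative.toAdd v) :=
    fun u v => rfl
  haveI : Nontrivial (Multiplicative (ZMod p)) := inferInstance
  refine ⟨Multiplicative (ZMod p) ⋊[φ] U, inferInstance,
    Finite.of_equiv _ (SemidirectProduct.equivProd (φ := φ)).symm,
    (SemidirectProduct.inr : U →* Multiplicative (ZMod p) ⋊[φ] U).range, ?_, ?_⟩
  · apply frob_semidirect
    intro u hu v hv
    rw [hφ] at hv
    have h1 : (u.1 : ZMod p) * Multiplicative.toAdd v = Multiplicative.toAdd v := congrArg Multiplicative.toAdd hv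
    have h2 : ((u.1 : ZMod p) - 1) * Multiplicative.toAdd v = 0 := by
      rw [sub_mul, h1, one_mul, sub_self]
    rcases mul_eq_zero.mp h2 with h3 | h3
    · exfalso
      apply hu
      apply Subtype.ext
      apply Units.ext
      exact sub_eq_zero.mp h3
    · exact congrArg Multiplicative.ofAdd h3
  · exact ⟨(mulEquivOfCyclicCardEq hUc.symm).trans (MonoidHom.ofInjective SemidirectProduct.inr_injective)⟩

end Cfsg.Agent.S4299
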