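import Cfsg.Statements.S4300
import Mathlib

set_option autoImplicit false
open Cfsg

namespace Cfsg.Agent.S4300

open Cfsg

/-- Let G act faithfully and primitively on a set X, and suppose the stabilizer of some point is a simple group. Then either G is simple, or G has a normal subgroup, neither trivial nor the whole group, that acts regularly on X (transitively with trivial point stabilizers). -/
theorem result {G : Type*} [Group G] {X : Type*} [MulAction G X] [FaithfulSMul G X]
    (hprim : MulAction.IsPreprimitive G X) (x : X) (hsimple : IsSimpleGroup (MulAction.stabilizer G x)) :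
    IsSimpleGroup G ∨ ∃ N : Subgroup G, N.Normal ∧ N ≠ ⊥ ∧ N ≠ ⊤ ∧
      MulAction.IsPretransitive N X ∧ ∀ y : X, MulAction.stabilizer N y = ⊥ := by
  by_cases hs : IsSimpleGroup G
  · exact Or.inl hs
  right
  haveI : Nontrivial G := by
    obtain ⟨a, b, hab⟩ := hsimple.toNontrivial
    exact ⟨a.1, b.1, fun h => hab (Subtype.ext h)⟩
  have : ∃ N : Subgroup G, N.Normal ∧ N ≠ ⊥ ∧ N ≠ ⊤ := by
    by_contra hcon
    push Not at hcon
    apply hs
    apply IsSimpleGroup.mk
    intro N hN
    by_cases h1 : N = ⊥
    · exact Or.inl h1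
    · exact Or.inr (hcon N hN h1)
  obtain ⟨N, hN, hbot, htop⟩ := this
  have hfix : MulAction.fixedPoints N X ≠ Set.univ := by
    intro h
    apply hbot
    refine (N.eq_bot_iff_forall.mpr fun n hn => ?_)
    apply FaithfulSMul.eq_of_smul_eq_smul (α := X)
    intro x
    rw [one_smul]
    exact Set.eq_univ_iff_forall.mp h x ⟨n, hn⟩
  have htr : MulAction.IsPretransitive N X := MulAction.IsQuasiPreprimitive.isPretransitive_of_normal hfix
  refine ⟨N, hN, hbot, htop, htr, ?_⟩
  have hx : N ⊓ MulAction.stabilizer G x = ⊥ := by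
    haveI : (N.subgroupOf (MulAction.stabilizer G x)).Normal := inferInstance
    rcases hsimple.eq_bot_or_eq_top_of_normal (N.subgroupOf (MulAction.stabilizer G x)) inferInstance with h | h
    · rw [Subgroup.subgroupOf_eq_bot] at h
      exact disjoint_iff.mp h
    · exfalso
      rw [Subgroup.subgroupOf_eq_top] at h
      apply htop
      rw [eq_top_iff]
      intro g _
      obtain ⟨n, hn⟩ := MulAction.exists_smul_eq N x (g • x)
      have h1 : n.1⁻¹ * g ∈ MulAction.stabilizer G x := by
        rw [MulAction.mem_stabilizer_iff, mul_smul, ← hn]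
        show n.1⁻¹ • (n.1 • x) = x
        rw [inv_smul_smul]
      have h2 := N.mul_mem n.2 (h h1)
      rwa [mul_inv_cancel_left] at h2
  intro y
  rw [Subgroup.eq_bot_iff_forall]
  intro m hm
  obtain ⟨n, hn⟩ := MulAction.exists_smul_eq N x y
  have h1 : n.1⁻¹ * m.1 * n.1 ∈ N ⊓ MulAction.stabilizer G x := by
    refine Subgroup.mem_inf.mpr ⟨N.mul_mem (N.mul_mem (N.inv_mem n.2) m.2) n.2, ?_⟩
    rw [MulAction.mem_stabilizer_iff, mul_smul, mul_smul]
    have h3 : n.1 • x = y := hn
    have h4 : m.1 • y = y := hm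
    rw [h3, h4, ← h3, inv_smul_smul]
  rw [hx, Subgroup.mem_bot] at h1
  apply Subtype.ext
  show m.1 = 1
  calc m.1 = n.1 * (n.1⁻¹ * m.1 * n.1) * n.1⁻¹ := by group
    _ = 1 := by rw [h1]; group

end Cfsg.Agent.S4300
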