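import Cfsg.Statements.S4309
import Cfsg.Agent.Lib.Helper3.ZJ2

set_option autoImplicit false
open Cfsg

namespace Cfsg.Agent.S4309

open Cfsg.Agent.Lib.Helper1 Cfsg.Agent.Lib.Helper3.PLocal

/-- Let `π` be a set of primes, `G` a finite group with a Hall `π`-subgroup `H` (every prime divisor of the order of `H` lies in `π` and no prime of `π` divides its index), and `A` a normal subgroup of `G`. Then `H ∩ A` is a Hall `π`-subgroup of `A` and the image of `H` in `G/A` is a Hall `π`-subgroup of `G/A`. -/
theorem result {G : Type*} [Group G] [Finite G] (π : Set ℕ)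
    (H A : Subgroup G) [A.Normal] (hH : Cfsg.IsPiHall π H) :
    Cfsg.IsPiHall π ((H ⊓ A).subgroupOf A) ∧ Cfsg.IsPiHall π (H.map (QuotientGroup.mk' A)) := by
  constructor
  · constructor
    · intro p hp hpd
      rw [card_subgroupOf inf_le_right] at hpd
      exact hH.1 p hp (hpd.trans (Subgroup.card_dvd_of_le inf_le_left))
    · intro p hp hpπ hpd
      apply hH.2 p hp hpπ
      change p ∣ (H ⊓ A).relIndex A at hpd
      rw [Subgroup.inf_relIndex_right] at hpd
      have e1 := card_sup_mul_card_inf' H A (by rw [Subgroup.normalizer_eq_top]; exact le_top)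
      have e2 : H.relIndex A * Nat.card (H ⊓ A : Subgroup G) = Nat.card A := by
        rw [← Subgroup.inf_relIndex_right]
        exact relIndex_mul_card'' inf_le_right
      have e3 : H.relIndex (H ⊔ A) * Nat.card H = Nat.card (H ⊔ A : Subgroup G) := relIndex_mul_card'' le_sup_left
      have e4 : H.relIndex A = H.relIndex (H ⊔ A) := by
        have hpos : 0 < Nat.card (H ⊓ A : Subgroup G) * Nat.card H := Nat.mul_pos Nat.card_pos Nat.card_pos
        apply Nat.eq_of_mul_eq_mul_right hpos
        calc H.relIndex A * (Nat.card (H ⊓ A : Subgroup G) * Nat.card H)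
            = Nat.card H * Nat.card A := by rw [← mul_assoc, e2, mul_comm]
          _ = Nat.card (H ⊔ A : Subgroup G) * Nat.card (H ⊓ A : Subgroup G) := e1.symm
          _ = _ := by rw [← e3]; ring
      rw [e4] at hpd
      exact hpd.trans (Subgroup.relIndex_dvd_index_of_le le_sup_left)
  · constructor
    · intro p hp hpd
      exact hH.1 p hp (hpd.trans (Subgroup.card_map_dvd _ _))
    · intro p hp hpπ hpd
      apply hH.2 p hp hpπ
      rw [Subgroup.index_map, QuotientGroup.ker_mk', MonoidHom.range_eq_top.mpr (QuotientGroup.mk'_surjective A),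
        Subgroup.index_top, mul_one] at hpd
      exact hpd.trans (Subgroup.index_dvd_of_le le_sup_left)

end Cfsg.Agent.S4309
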