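import Mathlib
import Cfsg.Statements.S4421

set_option autoImplicit false
open Cfsg

namespace Cfsg.Agent.S4421

theorem map_conj_mul {G : Type*} [Group G] (A : Subgroup G) (g h : G) :
    A.map (MulAut.conj (g * h)).toMonoidHom = (A.map (MulAut.conj h).toMonoidHom).map (MulAut.conj g).toMonoidHom := by
  rw [Subgroup.map_map]
  congr 1
  ext x
  simp [mul_assoc]

theorem map_conj_one {G : Type*} [Group G] (A : Subgroup G) :
    A.map (MulAut.conj (1 : G)).toMonoidHom = A := by
  ext x; simp [Subgroup.mem_map]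

theorem map_conj_self {G : Type*} [Group G] (S : Subgroup G) {s : G} (hs : s ∈ S) :
    S.map (MulAut.conj s).toMonoidHom = S := by
  have : s ∈ Subgroup.normalizer (S : Set G) := Subgroup.le_normalizer hs
  exact Subgroup.mem_normalizer_iff_map_conj_eq.mp this

theorem result {G : Type*} [Group G] [Finite G] (A S H : Subgroup G)
    (hAS : A ≤ S) (hSH : S ≤ H)
    (h1 : ∀ g : G, A.map (MulAut.conj g).toMonoidHom ≤ S → ∃ s ∈ S, A.map (MulAut.conj g).toMonoidHom = A.map (MulAut.conj s).toMonoidHom)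
    (h2 : ∀ g : G, S.map (MulAut.conj g).toMonoidHom ≤ H → ∃ y ∈ H, S.map (MulAut.conj g).toMonoidHom = S.map (MulAut.conj y).toMonoidHom)
    (h3 : ∀ x ∈ Subgroup.normalizer (A : Set G), S.map (MulAut.conj x).toMonoidHom ≤ H) :
    ∀ x ∈ Subgroup.normalizer (A : Set G), ∃ y ∈ H ⊓ Subgroup.normalizer (A : Set G),
      ∃ z ∈ Subgroup.normalizer (S : Set G) ⊓ Subgroup.normalizer (A : Set G), x = y * z := by
  intro x hx
  have hxA : A.map (MulAut.conj x).toMonoidHom = A := Subgroup.mem_normalizer_iff_map_conj_eq.mp hx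
  obtain ⟨y, hyH, hy⟩ := h2 x (h3 x hx)
  have hA1 : A ≤ S.map (MulAut.conj y).toMonoidHom := by
    calc A = A.map (MulAut.conj x).toMonoidHom := hxA.symm
      _ ≤ S.map (MulAut.conj x).toMonoidHom := Subgroup.map_mono hAS
      _ = _ := hy
  have hA2 : A.map (MulAut.conj y⁻¹).toMonoidHom ≤ S := by
    have := Subgroup.map_mono (f := (MulAut.conj y⁻¹).toMonoidHom) hA1
    rw [← map_conj_mul, inv_mul_cancel, map_conj_one] at this
    exact this
  obtain ⟨s, hsS, hs⟩ := h1 y⁻¹ hA2
  have hysA : A.map (MulAut.conj (y * s)).toMonoidHom = A := by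
    rw [map_conj_mul, ← hs, ← map_conj_mul, mul_inv_cancel, map_conj_one]
  have hysN : y * s ∈ Subgroup.normalizer (A : Set G) := Subgroup.mem_normalizer_iff_map_conj_eq.mpr hysA
  refine ⟨y * s, ⟨H.mul_mem hyH (hSH hsS), hysN⟩, (y * s)⁻¹ * x, ⟨?_, ?_⟩, by group⟩
  · apply Subgroup.mem_normalizer_iff_map_conj_eq.mpr
    show S.map (MulAut.conj ((y * s)⁻¹ * x)).toMonoidHom = S
    rw [map_conj_mul, hy]
    have : S.map (MulAut.conj y).toMonoidHom = S.map (MulAut.conj (y * s)).toMonoidHom := by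
      rw [map_conj_mul, map_conj_self S hsS]
    rw [this, ← map_conj_mul, inv_mul_cancel, map_conj_one]
  · exact Subgroup.mul_mem _ (Subgroup.inv_mem _ hysN) hx

end Cfsg.Agent.S4421
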