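import Mathlib
import Cfsg.Statements.S4422

set_option autoImplicit false
open Cfsg

namespace Cfsg.Agent.S4422

theorem prime_case (q e r : ℕ) (hq : 2 ≤ q) (he : 1 ≤ e) (hr : r.Prime)
    (hm : r ∣ q ^ e - 1) (hcop : ∀ i : ℕ, 1 ≤ i → i < e → ¬ r ∣ (q ^ i - 1)) : r % e = 1 % e := by
  have : Fact r.Prime := ⟨hr⟩
  have hone : ∀ i, 1 ≤ q ^ i := fun i => Nat.one_le_pow _ _ (by omega)
  have hiff : ∀ i, r ∣ q ^ i - 1 ↔ ((q : ZMod r)) ^ i = 1 := by
    intro i
    rw [← (ZMod.natCast_eq_zero_iff (q ^ i - 1) r), Nat.cast_sub (hone i), Nat.cast_pow, Nat.cast_one, sub_eq_zero]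
  have h1 : ((q : ZMod r)) ^ e = 1 := (hiff e).mp hm
  have hq0 : (q : ZMod r) ≠ 0 := by
    intro h0
    rw [h0, zero_pow (by omega)] at h1
    exact zero_ne_one h1
  have hord : orderOf (q : ZMod r) = e := by
    have hd : orderOf (q : ZMod r) ∣ e := orderOf_dvd_of_pow_eq_one h1
    have hpos : 0 < orderOf (q : ZMod r) := Nat.pos_of_dvd_of_pos hd (by omega)
    by_contra hne
    have hlt : orderOf (q : ZMod r) < e := lt_of_le_of_ne (Nat.le_of_dvd (by omega) hd) hne
    exact hcop _ hpos hlt ((hiff _).mpr (pow_orderOf_eq_one _))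
  have h2 : ((q : ZMod r)) ^ (r - 1) = 1 := ZMod.pow_card_sub_one_eq_one hq0
  have h3 : e ∣ r - 1 := hord ▸ orderOf_dvd_of_pow_eq_one h2
  have h4 : 1 ≤ r := hr.one_lt.le
  exact ((Nat.modEq_iff_dvd' h4).mpr h3).symm

theorem result (q e m : ℕ) (hq : 2 ≤ q) (he : 1 ≤ e)
    (hm : m ∣ q ^ e - 1) (hcop : ∀ i : ℕ, 1 ≤ i → i < e → Nat.Coprime m (q ^ i - 1)) :
    m % e = 1 % e := by
  have hpos : q ^ e - 1 ≠ 0 := by
    have : 2 ^ e ≤ q ^ e := Nat.pow_le_pow_left hq e
    have h2 : 2 ≤ 2 ^ e := by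
      calc 2 = 2 ^ 1 := by norm_num
        _ ≤ 2 ^ e := Nat.pow_le_pow_right (by norm_num) he
    omega
  have hm0 : m ≠ 0 := fun h => hpos (Nat.eq_zero_of_zero_dvd (h ▸ hm))
  -- induct on m via prime factorisation
  have key : ∀ k : ℕ, k ∣ m → k % e = 1 % e := by
    intro k
    induction k using Nat.recOnMul with
    | zero => intro h; exact absurd (Nat.eq_zero_of_zero_dvd h) hm0
    | one => intro _; rfl
    | prime r hr =>
      intro h
      apply prime_case q e r hq he hr (h.trans hm)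
      intro i hi hie hd
      have := hcop i hi hie
      have h5 : r ∣ Nat.gcd m (q ^ i - 1) := Nat.dvd_gcd h hd
      rw [this] at h5
      exact hr.one_lt.ne' (Nat.dvd_one.mp h5)
    | mul a b iha ihb =>
      intro h
      have ha := iha ((Dvd.intro _ rfl).trans h)
      have hb := ihb ((Dvd.intro_left _ rfl).trans h)
      have : a * b ≡ 1 * 1 [MOD e] := Nat.ModEq.mul ha hb
      rw [one_mul] at this
      exact this
  exact key m dvd_rfl

end Cfsg.Agent.S4422
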