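import Cfsg.Statements.S4425
import Cfsg.Agent.Lib.Helper7.All1
import Cfsg.Agent.Lib.Helper7.Brauer12
import Cfsg.Agent.Lib.Helper7.CharDeg
-- import your own Cfsg.Agent.* helpers here

set_option autoImplicit false
open Cfsg
open Cfsg.Agent.Lib.Helper7.CharBasic Cfsg.Agent.Lib.Helper7.CharIrr Cfsg.Agent.Lib.Helper7.CharDecomp Cfsg.Agent.Lib.Helper7.CharComplete Cfsg.Agent.Lib.Helper7.CharOrth Cfsg.Agent.Lib.Helper7.CharInd Cfsg.Agent.Lib.Helper7.CharIntegral Cfsg.Agent.Lib.Helper7.CharBurnside Cfsg.Agent.Lib.Helper7.CharLinear Cfsg.Agent.Lib.Helper7.CharEquiv Cfsg.Agent.Lib.Helper7.CharMore Cfsg.Agent.Lib.Helper7.CharCount Cfsg.Agent.Lib.Helper7.CharMisc Cfsg.Agent.Lib.Helper7.CharMisc2 Cfsg.Agent.Lib.Helper7.CharNormal Cfsg.Agent.Lib.Helper7.CharOdd Cfsg.Agent.Lib.Helper7.CharClifford Cfsg.Agent.Lib.Helper7.CharProd Cfsg.Agent.Lib.Helper7.CharPerm Cfsg.Agent.Lib.Helper7.CharClassAlg Cfsg.Agent.Lib.Helper7.CharClassAlg2 Cfsg.Agent.Lib.Helper7.CharCentral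 Cfsg.Agent.Lib.Helper7.CharNormal2 Cfsg.Agent.Lib.Helper7.CharCliffordCorr Cfsg.Agent.Lib.Helper7.Brauer12 Cfsg.Agent.Lib.Helper7.Brauer11 Cfsg.Agent.Lib.Helper7.CharDeg Cfsg.Agent.Lib.Helper7.CharGen
open scoped ComplexConjugate

namespace Cfsg.Agent.S4425

/-- Let χ be an irreducible character of the finite group G, p a prime, p^a the p-part of the order of G and p^b the p-part of the degree χ(1). Let χ̃ be the class function equal to p^a · χ on p-regular elements and zero on p-singular elements. Then p^(−b) · χ̃ is a generalized character of G, while p^(−(b+1)) · χ̃ is not. -/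
theorem result {G : Type*} [Group G] [Finite G] (p : ℕ) [Fact p.Prime] (χ : Cfsg.IrrCharacter G) : Cfsg.IsGeneralizedCharacter G (fun x : G => if p ∣ orderOf x then (0 : ℂ) else ((p ^ ((Nat.card G).factorization p - (Cfsg.charDegree (χ : G → ℂ)).factorization p) : ℕ) : ℂ) * (χ : G → ℂ) x) ∧ ¬ Cfsg.IsGeneralizedCharacter G (fun x : G => if p ∣ orderOf x then (0 : ℂ) else ((p ^ (Nat.card G).factorization p : ℕ) : ℂ) / ((p ^ ((Cfsg.charDegree (χ : G → ℂ)).factorization p + 1) : ℕ) : ℂ) * (χ : G → ℂ) x) := by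
  classical
  haveI := Fintype.ofFinite G
  have hp : p.Prime := Fact.out
  obtain ⟨m, ρ, hirr, hρ⟩ := χ.2
  haveI := hirr
  have h1m : (χ : G → ℂ) 1 = m := by rw [← hρ, Representation.char_one]; simp
  have hdeg : charDegree (χ : G → ℂ) = m := charDegree_of_eq h1m
  have hm0 : m ≠ 0 := by
    rintro rfl
    exact irr_one_ne_zero χ.2 (by rw [h1m, Nat.cast_zero])
  constructor
  · have h := isGen_pow_sub_smul_pReg p hp ρ
    rw [hdeg]
    convert h using 1
    funext x
    simp only [Pi.smul_apply, pReg, smul_eq_mul, hρ]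
    split_ifs <;> simp
  · intro hgen
    obtain ⟨k, hk⟩ := dvd_degree_of_vanish p hgen (fun g hg => by simp only [hg, if_true])
    have h1 : ¬ p ∣ orderOf (1 : G) := by
      rw [orderOf_one]; exact hp.one_lt.ne' ∘ Nat.dvd_one.mp
    simp only [if_neg h1] at hk
    rw [hdeg, h1m] at hk
    have hpa : ((p ^ (Nat.card G).factorization p : ℕ) : ℂ) ≠ 0 := by
      exact_mod_cast (pow_pos hp.pos _).ne'
    have hpb : ((p ^ (m.factorization p + 1) : ℕ) : ℂ) ≠ 0 := by
      exact_mod_cast (pow_pos hp.pos _).ne'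
    have h2 : (m : ℂ) = ((p ^ (m.factorization p + 1) : ℕ) : ℂ) * k := by
      field_simp at hk
      linear_combination hk
    have h3 : (m : ℤ) = ((p ^ (m.factorization p + 1) : ℕ) : ℤ) * k := by exact_mod_cast h2
    have h4 : ((p ^ (m.factorization p + 1) : ℕ) : ℤ) ∣ (m : ℤ) := ⟨k, h3⟩
    exact Nat.pow_succ_factorization_not_dvd hm0 hp (Int.natCast_dvd_natCast.mp h4)

end Cfsg.Agent.S4425
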