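import Cfsg.Statements.S4446
import Cfsg.Agent.Lib.Helper7.All1
import Cfsg.Agent.Lib.Helper7.Glaub3
-- import your own Cfsg.Agent.* helpers here

set_option autoImplicit false
open Cfsg
open Cfsg.Agent.Lib.Helper7.CharBasic Cfsg.Agent.Lib.Helper7.CharIrr Cfsg.Agent.Lib.Helper7.CharDecomp Cfsg.Agent.Lib.Helper7.CharComplete Cfsg.Agent.Lib.Helper7.CharOrth Cfsg.Agent.Lib.Helper7.CharInd Cfsg.Agent.Lib.Helper7.CharIntegral Cfsg.Agent.Lib.Helper7.CharBurnside Cfsg.Agent.Lib.Helper7.CharLinear Cfsg.Agent.Lib.Helper7.CharEquiv Cfsg.Agent.Lib.Helper7.CharMore Cfsg.Agent.Lib.Helper7.CharCount Cfsg.Agent.Lib.Helper7.CharMisc Cfsg.Agent.Lib.Helper7.CharMisc2 Cfsg.Agent.Lib.Helper7.CharNormal Cfsg.Agent.Lib.Helper7.CharOdd Cfsg.Agent.Lib.Helper7.CharClifford Cfsg.Agent.Lib.Helper7.CharProd Cfsg.Agent.Lib.Helper7.CharPerm Cfsg.Agent.Lib.Helper7.CharClassAlg Cfsg.Agent.Lib.Helper7.CharClassAlg2 Cfsg.Agent.Lib.Helper7.CharCentral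 Cfsg.Agent.Lib.Helper7.CharNormal2 Cfsg.Agent.Lib.Helper7.CharCliffordCorr Cfsg.Agent.Lib.Helper7.Glaub0 Cfsg.Agent.Lib.Helper7.Glaub1 Cfsg.Agent.Lib.Helper7.Glaub2 Cfsg.Agent.Lib.Helper7.Glaub3
open scoped ComplexConjugate

namespace Cfsg.Agent.S4446

/-- Let the finite group Γ be generated by a normal subgroup G and a cyclic subgroup S of coprime orders, C = G ⊓ C(S), and let χ be an S-invariant irreducible character of G with canonical extension χ̂ to Γ (the extension whose determinantal order is coprime to the order of S). Then there are exactly one irreducible character β of C and one sign ε such that χ̂(c s) = ε β(c) for every c ∈ C and every generator s of S; this β is a constituent of the restriction of χ to C; distinct S-invariant χ give distinct β; and every irreducible character of C arises in this way. -/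
theorem result {Γ : Type*} [Group Γ] [Fintype Γ] (G S : Subgroup Γ) [Fintype G] (hnorm : ∀ s ∈ S, ∀ g ∈ G, s * g * s⁻¹ ∈ G) (hcop : (Nat.card G).Coprime (Nat.card S)) (htop : G ⊔ S = ⊤) (hcyc : IsCyclic S) (C : Subgroup Γ) [Fintype C] (hC : C = G ⊓ Subgroup.centralizer (S : Set Γ)) (hCG : C ≤ G) : (∀ (χ : Cfsg.IrrCharacter G) (χh : Cfsg.IrrCharacter Γ), (∀ s ∈ S, ∀ g g' : G, (g' : Γ) = s * g * s⁻¹ → (χ : G → ℂ) g' = (χ : G → ℂ) g) → (∀ g : G, (χh : Γ → ℂ) g = (χ : G → ℂ) g) → (Cfsg.detOrder (χh : Γ → ℂ)).Coprime (Nat.card S) → (∃! βε : Cfsg.IrrCharacter C × ℤ, (βε.2 = 1 ∨ βε.2 = -1) ∧ ∀ c : C, ∀ s : Γ, Subgroup.zpowers s = S → (χh : Γ → ℂ) ((c : Γ) * s) = (βε.2 : ℂ) * (βε.1 : C → ℂ) c) ∧ ∀ β : Cfsg.IrrCharacter C, ∀ ε : ℤ, (ε = 1 ∨ ε = -1) → (∀ c : C, ∀ s : Γ, Subgroup.zpowers s = S → (χh : Γ → ℂ) ((c : Γ) * s) = (ε : ℂ) * (β : C → ℂ) c) → Cfsg.classInner (fun c : C => (χ : G → ℂ) ⟨c, hCG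 c.2⟩) (β : C → ℂ) ≠ 0) ∧ (∀ (χ χ' : Cfsg.IrrCharacter G) (χh χh' : Cfsg.IrrCharacter Γ), (∀ s ∈ S, ∀ g g' : G, (g' : Γ) = s * g * s⁻¹ → (χ : G → ℂ) g' = (χ : G → ℂ) g) → (∀ s ∈ S, ∀ g g' : G, (g' : Γ) = s * g * s⁻¹ → (χ' : G → ℂ) g' = (χ' : G → ℂ) g) → (∀ g : G, (χh : Γ → ℂ) g = (χ : G → ℂ) g) → (∀ g : G, (χh' : Γ → ℂ) g = (χ' : G → ℂ) g) → (Cfsg.detOrder (χh : Γ → ℂ)).Coprime (Nat.card S) → (Cfsg.detOrder (χh' : Γ → ℂ)).Coprime (Nat.card S) → ∀ β : Cfsg.IrrCharacter C, ∀ ε ε' : ℤ, (ε = 1 ∨ ε = -1) → (ε' = 1 ∨ ε' = -1) → (∀ c : C, ∀ s : Γ, Subgroup.zpowers s = S → (χh : Γ → ℂ) ((c : Γ) * s) = (ε : ℂ) * (β : C → ℂ) c) → (∀ c : C, ∀ s : Γ, Subgroup.zpowers s = S → (χh' : Γ → ℂ) ((c : Γ) * s) = (ε' : ℂ) * (β : C → ℂ) c) → χ = χ') ∧ (∀ β : Cfsg.IrrCharacter C, ∃ (χ : Cfsg.IrrCharacter G) (χh : Cfsg.IrrCharacter Γ) (ε : ℤ), (∀ s ∈ S, ∀ g g' : G, (g' : Γ) = s * g * s⁻¹ → (χ : G → ℂ) g' = (χ : G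 → ℂ) g) ∧ (∀ g : G, (χh : Γ → ℂ) g = (χ : G → ℂ) g) ∧ (Cfsg.detOrder (χh : Γ → ℂ)).Coprime (Nat.card S) ∧ (ε = 1 ∨ ε = -1) ∧ ∀ c : C, ∀ s : Γ, Subgroup.zpowers s = S → (χh : Γ → ℂ) ((c : Γ) * s) = (ε : ℂ) * (β : C → ℂ) c) := by
  classical
  have hle : G ⊔ S ≤ Subgroup.normalizer (G : Set Γ) := by
    apply sup_le Subgroup.le_normalizer
    intro s hs
    rw [Subgroup.mem_normalizer_iff]
    intro h
    constructor
    · exact hnorm s hs h
    · intro hh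
      have := hnorm s⁻¹ (S.inv_mem hs) _ hh
      simpa [mul_assoc] using this
  haveI hG : G.Normal := Subgroup.normalizer_eq_top_iff.mp (top_le_iff.mp (htop ▸ hle))
  obtain ⟨s₀, hs₀⟩ := S.isCyclic_iff_exists_zpowers_eq_top.mp hcyc
  have hCs : ∀ s : Γ, Subgroup.zpowers s = S → ∀ y, y ∈ C ↔ y ∈ G ∧ y * s = s * y := by
    intro s hs y
    rw [hC, Subgroup.mem_inf, Subgroup.mem_centralizer_iff]
    constructor
    · rintro ⟨h1, h2⟩
      exact ⟨h1, (h2 s (hs ▸ Subgroup.mem_zpowers s)).symm⟩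
    · rintro ⟨h1, h2⟩
      refine ⟨h1, ?_⟩
      intro h hh
      rw [SetLike.mem_coe, ← hs] at hh
      obtain ⟨i, rfl⟩ := Subgroup.mem_zpowers_iff.mp hh
      exact ((Commute.zpow_right (show Commute y s from h2) i).eq).symm
  have hord : ∀ s : Γ, Subgroup.zpowers s = S → orderOf s = Nat.card S := by
    intro s hs; rw [← hs, Nat.card_zpowers]
  have hgen : G ⊔ Subgroup.zpowers s₀ = ⊤ := by rw [hs₀]; exact htop
  have hcop0 : (Nat.card G).Coprime (orderOf s₀) := by rw [hord s₀ hs₀]; exact hcop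
  have hC0 := hCs s₀ hs₀
  -- independence of the generator
  have hindep : ∀ ψ : Γ → ℂ, IsIrrCharacter Γ ψ → IsIrrCharacter G (fun g : G => ψ g) →
      (Cfsg.detOrder ψ).Coprime (Nat.card S) → ∀ s : Γ, Subgroup.zpowers s = S → ∀ c : C,
      ψ ((c : Γ) * s) = ψ ((c : Γ) * s₀) := by
    intro ψ h1 h2 h3 s hs c
    have hmem : s ∈ Subgroup.zpowers s₀ := by rw [hs₀, ← hs]; exact Subgroup.mem_zpowers s
    obtain ⟨k, hk⟩ := (mem_powers_iff_mem_zpowers).mpr hmem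
    have hk' : s₀ ^ k = s := hk
    have hcopk : k.Coprime (orderOf s₀) := by
      have h4 : orderOf (s₀ ^ k) = orderOf s₀ := by rw [hk', hord s hs, hord s₀ hs₀]
      rw [orderOf_pow] at h4
      rcases Nat.div_eq_self.mp h4 with h5 | h5
      · exact absurd h5 (orderOf_pos s₀).ne'
      · rw [Nat.Coprime, Nat.gcd_comm]; exact h5
    rw [← hk']
    exact psi_mul_pow G C s₀ hgen hcop0 hC0 h1 h2 (by rw [hord s₀ hs₀]; exact h3) c.2
      (Subgroup.mem_zpowers s₀) hcopk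
  have hresOf : ∀ (χ : Cfsg.IrrCharacter G) (χh : Cfsg.IrrCharacter Γ),
      (∀ g : G, (χh : Γ → ℂ) g = (χ : G → ℂ) g) → IsIrrCharacter G (fun g : G => (χh : Γ → ℂ) g) := by
    intro χ χh h
    have : (fun g : G => (χh : Γ → ℂ) g) = (χ : G → ℂ) := funext h
    rw [this]; exact χ.2
  refine ⟨?_, ?_, ?_⟩
  · intro χ χh hinv hext hdet
    have hres := hresOf χ χh hext
    have hdet0 : (Cfsg.detOrder (χh : Γ → ℂ)).Coprime (orderOf s₀) := by
      rw [hord s₀ hs₀]; exact hdet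
    obtain ⟨β, hβ, ε, hε, h⟩ := exists_corr G C s₀ hgen hcop0 hC0 χh.2 hres hdet0
    constructor
    · refine ⟨(⟨β, hβ⟩, ε), ⟨hε, ?_⟩, ?_⟩
      · intro c s hs
        rw [hindep _ χh.2 hres hdet s hs c]
        exact h c
      · rintro ⟨β', ε'⟩ ⟨hε', h'⟩
        simp only at hε' h'
        have h1 : ∀ c : C, (ε' : ℂ) * (β' : C → ℂ) c = (ε : ℂ) * β c := by
          intro c; rw [← h' c s₀ hs₀, h c]
        obtain ⟨n, hn, hn'⟩ := irr_one_pos hβ
        obtain ⟨n', hn2, hn2'⟩ := irr_one_pos β'.2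
        have h2 := h1 1
        rw [hn', hn2'] at h2
        have h3 : ε' * (n' : ℤ) = ε * n := by exact_mod_cast h2
        have h4 : ε' = ε := by
          rcases hε with rfl | rfl <;> rcases hε' with rfl | rfl
          · rfl
          · exfalso; omega
          · exfalso; omega
          · rfl
        subst h4
        have h5 : (ε' : ℂ) ≠ 0 := by
          rcases hε with rfl | rfl <;> simp
        refine Prod.ext (Subtype.ext ?_) rfl
        funext c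
        exact mul_left_cancel₀ h5 (h1 c)
    · intro β' ε' hε' h'
      have h1 := constituent G C s₀ hC0 χh.2 β'.2 hε' (fun c => h' c s₀ hs₀)
      have h2 : (fun c : C => (χh : Γ → ℂ) (c : Γ)) = fun c : C => (χ : G → ℂ) ⟨c, hCG c.2⟩ := by
        funext c; exact hext ⟨c, hCG c.2⟩
      rwa [h2] at h1
  · intro χ χ' χh χh' hinv hinv' hext hext' hdet hdet' β ε ε' hε hε' h h'
    have h1 := corr_inj G C s₀ hcop0 hC0 χh.2 χh'.2 (hresOf χ χh hext) (hresOf χ' χh' hext') β.2 hε hε'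
      (fun c => h c s₀ hs₀) (fun c => h' c s₀ hs₀)
    apply Subtype.ext
    funext g
    rw [← hext g, ← hext' g]
    exact congrFun h1 g
  · intro β
    obtain ⟨ψ, h1, h2, h3, ε, hε, h4⟩ := corr_surj G C s₀ hgen hcop0 hC0 β.2
    have h3' : (Cfsg.detOrder ψ).Coprime (Nat.card S) := by rw [← hord s₀ hs₀]; exact h3
    refine ⟨⟨_, h2⟩, ⟨ψ, h1⟩, ε, ?_, fun _ => rfl, h3', hε, ?_⟩
    · intro s _ g g' hgg
      change ψ g' = ψ g
      rw [hgg]
      exact IsIrrCharacter.isClassFunction h1 g s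
    · intro c s hs
      change ψ ((c : Γ) * s) = _
      rw [hindep ψ h1 h2 h3' s hs c]
      exact h4 c

end Cfsg.Agent.S4446
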