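import Cfsg.Statements.S4476
import Cfsg.Agent.Lib.Helper7.All1
import Cfsg.Agent.Lib.Helper7.CharFS
import Cfsg.Agent.Lib.Helper7.CharDeg
-- import your own Cfsg.Agent.* helpers here

set_option autoImplicit false
open Cfsg
open Cfsg.Agent.Lib.Helper7.CharBasic Cfsg.Agent.Lib.Helper7.CharIrr Cfsg.Agent.Lib.Helper7.CharDecomp Cfsg.Agent.Lib.Helper7.CharComplete Cfsg.Agent.Lib.Helper7.CharOrth Cfsg.Agent.Lib.Helper7.CharInd Cfsg.Agent.Lib.Helper7.CharIntegral Cfsg.Agent.Lib.Helper7.CharBurnside Cfsg.Agent.Lib.Helper7.CharLinear Cfsg.Agent.Lib.Helper7.CharEquiv Cfsg.Agent.Lib.Helper7.CharMore Cfsg.Agent.Lib.Helper7.CharCount Cfsg.Agent.Lib.Helper7.CharMisc Cfsg.Agent.Lib.Helper7.CharMisc2 Cfsg.Agent.Lib.Helper7.CharNormal Cfsg.Agent.Lib.Helper7.CharOdd Cfsg.Agent.Lib.Helper7.CharClifford Cfsg.Agent.Lib.Helper7.CharProd Cfsg.Agent.Lib.Helper7.CharPerm Cfsg.Agent.Lib.Helper7.CharClassAlg Cfsg.Agent.Lib.Helper7.CharClassAlg2 Cfsg.Agent.Lib.Helper7.CharCentral Cfsg.Agent.Lib.Helper7.CharNormal2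 Cfsg.Agent.Lib.Helper7.CharCliffordCorr Cfsg.Agent.Lib.Helper7.CharFS Cfsg.Agent.Lib.Helper7.CharDeg
open scoped ComplexConjugate

namespace Cfsg.Agent.S4476

/-- Let G be a finite group of even order g with exactly t involutions, and put α = (g − 1)/t (a rational number). Then (a) some non-identity element x of G has at most α² conjugates; and (b) some non-principal real-valued irreducible character of G has degree at most α. -/
theorem result {G : Type*} [Group G] [Fintype G] (heven : Even (Nat.card G)) (t : ℕ) (ht : Nat.card {x : G // orderOf x = 2} = t) : (∃ x : G, x ≠ 1 ∧ ((Subgroup.centralizer ({x} : Set G)).index : ℚ) ≤ (((Nat.card G : ℚ) - 1) / t) ^ 2) ∧ ∃ χ : Cfsg.IrrCharacter G, (χ : G → ℂ) ≠ (fun _ => 1) ∧ (∀ g : G, ((χ : G → ℂ) g).im = 0) ∧ (Cfsg.charDegree (χ : G → ℂ) : ℚ) ≤ ((Nat.card G : ℚ) - 1) / t := by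
  classical
  haveI : Fintype (IrrCharacter G) := Fintype.ofFinite _
  set N := Nat.card G with hN
  let d : IrrCharacter G → ℕ := fun χ => charDegree (χ : G → ℂ)
  have hd : ∀ χ : IrrCharacter G, ((d χ : ℕ) : ℂ) = (χ : G → ℂ) 1 := fun χ =>
    charDegree_cast (IsIrrCharacter.isCharacter χ.2)
  have hdpos : ∀ χ : IrrCharacter G, 0 < d χ := fun χ => charDegree_pos χ.2
  let χ₀ : IrrCharacter G := ⟨fun _ => 1, isIrrCharacter_one⟩
  have hd0 : d χ₀ = 1 := charDegree_of_eq (by simp [χ₀])
  let isReal : IrrCharacter G → Prop := fun χ => ∀ g : G, ((χ : G → ℂ) g).im = 0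
  let R : Finset (IrrCharacter G) := Finset.univ.filter (fun χ => χ ≠ χ₀ ∧ isReal χ)
  -- t ≥ 1
  have ht1 : 1 ≤ t := by
    haveI : Fact (Nat.Prime 2) := ⟨Nat.prime_two⟩
    obtain ⟨x, hx⟩ := exists_prime_orderOf_dvd_card' (G := G) 2 heven.two_dvd
    rw [← ht]
    haveI : Nonempty {x : G // orderOf x = 2} := ⟨⟨x, hx⟩⟩
    exact Nat.card_pos
  -- count of square roots of one
  have hcount : Nat.card {s : G // s * s = 1} = t + 1 := by
    haveI : Fact (Nat.Prime 2) := ⟨Nat.prime_two⟩
    rw [← ht, Nat.card_eq_fintype_card, Nat.card_eq_fintype_card, Fintype.card_subtype,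
      Fintype.card_subtype]
    have : Finset.univ.filter (fun s : G => s * s = 1) =
        insert 1 (Finset.univ.filter (fun s : G => orderOf s = 2)) := by
      ext s
      simp only [Finset.mem_filter, Finset.mem_univ, true_and, Finset.mem_insert]
      rw [orderOf_eq_prime_iff, pow_two]
      constructor
      · intro h
        by_cases h1 : s = 1
        · exact Or.inl h1
        · exact Or.inr ⟨h, h1⟩
      · rintro (h | h)
        · rw [h]; simp
        · exact h.1
    rw [this, Finset.card_insert_of_notMem]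
    simp
  -- Fact A
  have hA : t ≤ ∑ χ ∈ R, d χ := by
    have h1 := card_sq_eq_one (G := G)
    rw [finsum_eq_sum_of_fintype, hcount] at h1
    have h2 : ∀ χ : IrrCharacter G,
        ((((Nat.card G : ℂ)⁻¹ * ∑ s : G, (χ : G → ℂ) (s * s)) * (χ : G → ℂ) 1)).re ≤
        if isReal χ then (d χ : ℝ) else 0 := by
      intro χ
      have h3 := fs_trichotomy χ.2
      rw [← hd χ]
      by_cases hr : isReal χ
      · rw [if_pos hr]
        have : (0 : ℝ) ≤ d χ := Nat.cast_nonneg _
        rcases h3.1 with h | h | h <;> rw [h] <;> simp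
      · rw [if_neg hr]
        have : ¬ ∀ g, conj ((χ : G → ℂ) g) = (χ : G → ℂ) g := by
          intro hall
          exact hr (fun g => Complex.conj_eq_iff_im.mp (hall g))
        rw [h3.2.mpr this]
        simp
    have h4 := congrArg Complex.re h1
    rw [Complex.re_sum] at h4
    have h5 : ((t + 1 : ℕ) : ℝ) ≤ ∑ χ : IrrCharacter G, if isReal χ then (d χ : ℝ) else 0 := by
      have : (((t + 1 : ℕ) : ℂ)).re = ((t + 1 : ℕ) : ℝ) := Complex.natCast_re _
      rw [← this, h4]
      exact Finset.sum_le_sum (fun χ _ => h2 χ)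
    rw [← Finset.sum_filter] at h5
    have h6 : Finset.univ.filter isReal = insert χ₀ R := by
      ext χ
      simp only [Finset.mem_filter, Finset.mem_univ, true_and, Finset.mem_insert, R]
      constructor
      · intro h
        by_cases hc : χ = χ₀
        · exact Or.inl hc
        · exact Or.inr ⟨hc, h⟩
      · rintro (h | h)
        · rw [h]; intro g; simp [χ₀]
        · exact h.2
    rw [h6, Finset.sum_insert (by simp [R]), hd0] at h5
    have h7 : t + 1 ≤ 1 + ∑ χ ∈ R, d χ := by exact_mod_cast h5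
    omega
  -- Fact B
  have hB : ∑ χ ∈ Finset.univ.erase χ₀, d χ ^ 2 + 1 = N := by
    have h1 := sum_sq_degrees (G := G)
    rw [finsum_eq_sum_of_fintype] at h1
    simp only [← hd] at h1
    have h2 : ∑ χ : IrrCharacter G, d χ ^ 2 = N := by exact_mod_cast h1
    rw [← h2, ← Finset.add_sum_erase _ _ (Finset.mem_univ χ₀), hd0]
    ring
  have hRsub : R ⊆ Finset.univ.erase χ₀ := by
    intro χ hχ
    simp only [R, Finset.mem_filter, Finset.mem_univ, true_and] at hχ
    simp [hχ.1]
  have hN1 : 1 ≤ N := Nat.card_pos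
  have htQ : (0 : ℚ) < t := by exact_mod_cast ht1
  have hNQ : ((N - 1 : ℕ) : ℚ) = (N : ℚ) - 1 := by push_cast [hN1]; ring
  refine ⟨?_, ?_⟩
  · -- Part 1
    have hk : Nat.card (ConjClasses G) = Fintype.card (IrrCharacter G) := by
      rw [← card_irr, Nat.card_eq_fintype_card]
    have hCS : t ^ 2 ≤ (Fintype.card (IrrCharacter G) - 1) * (N - 1) := by
      have h1 : (∑ χ ∈ Finset.univ.erase χ₀, d χ) ^ 2 ≤
          (Finset.univ.erase χ₀).card * ∑ χ ∈ Finset.univ.erase χ₀, d χ ^ 2 :=
        sq_sum_le_card_mul_sum_sq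
      rw [Finset.card_erase_of_mem (Finset.mem_univ _), Finset.card_univ] at h1
      have h2 : ∑ χ ∈ Finset.univ.erase χ₀, d χ ^ 2 = N - 1 := by omega
      rw [h2] at h1
      have h3 : t ≤ ∑ χ ∈ Finset.univ.erase χ₀, d χ :=
        hA.trans (Finset.sum_le_sum_of_subset hRsub)
      exact (Nat.pow_le_pow_left h3 2).trans h1
    have hC : N * Fintype.card (IrrCharacter G) =
        ∑ g : G, Nat.card (Subgroup.centralizer ({g} : Set G)) := by
      have h1 := card_classes_eq_sum (G := G) (fun _ => True)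
      simp only [if_true] at h1
      have h2 : Nat.card {C : ConjClasses G // True} = Fintype.card (IrrCharacter G) := by
        rw [← hk]
        exact Nat.card_congr (Equiv.subtypeUnivEquiv (fun _ => trivial))
      rw [h2] at h1
      have hG := card_ne_zero (G := G)
      have h3 : (N : ℂ) * (Fintype.card (IrrCharacter G) : ℂ) =
          ∑ g : G, (Nat.card (Subgroup.centralizer ({g} : Set G)) : ℂ) := by
        rw [h1, hN]; field_simp
      exact_mod_cast h3
    by_contra hcon
    push Not at hcon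
    have h1 : ∀ x : G, x ≠ 1 →
        Nat.card (Subgroup.centralizer ({x} : Set G)) * (N - 1) ^ 2 < N * t ^ 2 := by
      intro x hx
      have h2 := hcon x hx
      rw [← hNQ, div_pow, div_lt_iff₀ (by positivity)] at h2
      have h3 : (N - 1) ^ 2 < (Subgroup.centralizer ({x} : Set G)).index * t ^ 2 := by
        exact_mod_cast h2
      have h4 := Subgroup.card_mul_index (Subgroup.centralizer ({x} : Set G))
      have h5 : 0 < Nat.card (Subgroup.centralizer ({x} : Set G)) := Nat.card_pos
      calc Nat.card (Subgroup.centralizer ({x} : Set G)) * (N - 1) ^ 2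
          < Nat.card (Subgroup.centralizer ({x} : Set G)) *
            ((Subgroup.centralizer ({x} : Set G)).index * t ^ 2) :=
            Nat.mul_lt_mul_of_pos_left h3 h5
        _ = N * t ^ 2 := by rw [← mul_assoc, h4]
    have h6 : Nat.card (Subgroup.centralizer ({1} : Set G)) = N := by
      have : Subgroup.centralizer ({1} : Set G) = ⊤ := by
        ext x; simp [Subgroup.mem_centralizer_iff]
      rw [this, Subgroup.card_top]
    rw [← Finset.add_sum_erase _ _ (Finset.mem_univ (1 : G)), h6] at hC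
    have hne : (Finset.univ.erase (1 : G)).Nonempty := by
      haveI : Fact (Nat.Prime 2) := ⟨Nat.prime_two⟩
      obtain ⟨x, hx⟩ := exists_prime_orderOf_dvd_card' (G := G) 2 heven.two_dvd
      refine ⟨x, ?_⟩
      simp only [Finset.mem_erase, Finset.mem_univ, and_true]
      rintro rfl
      simp at hx
    have h7 : ∑ g ∈ Finset.univ.erase (1 : G),
        Nat.card (Subgroup.centralizer ({g} : Set G)) * (N - 1) ^ 2 <
        ∑ g ∈ Finset.univ.erase (1 : G), N * t ^ 2 :=
      Finset.sum_lt_sum_of_nonempty hne (fun g hg => h1 g (Finset.ne_of_mem_erase hg))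
    rw [← Finset.sum_mul, Finset.sum_const, Finset.card_erase_of_mem (Finset.mem_univ _),
      Finset.card_univ, smul_eq_mul, ← Nat.card_eq_fintype_card (α := G), ← hN] at h7
    have hkpos : 1 ≤ Fintype.card (IrrCharacter G) := Fintype.card_pos_iff.mpr ⟨χ₀⟩
    have h8 : ∑ g ∈ Finset.univ.erase (1 : G), Nat.card (Subgroup.centralizer ({g} : Set G)) =
        N * (Fintype.card (IrrCharacter G) - 1) := by
      rw [Nat.mul_sub, mul_one, hC]; omega
    rw [h8] at h7
    have h9 : N * (Fintype.card (IrrCharacter G) - 1) * (N - 1) ^ 2 ≥ (N - 1) * (N * t ^ 2) := by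
      calc (N - 1) * (N * t ^ 2) ≤ (N - 1) * (N * ((Fintype.card (IrrCharacter G) - 1) * (N - 1))) :=
            Nat.mul_le_mul_left _ (Nat.mul_le_mul_left _ hCS)
        _ = N * (Fintype.card (IrrCharacter G) - 1) * (N - 1) ^ 2 := by ring
    omega
  · -- Part 2
    by_contra hcon
    push Not at hcon
    have h1 : ∀ χ ∈ R, (N - 1) * d χ < t * d χ ^ 2 := by
      intro χ hχ
      simp only [R, Finset.mem_filter, Finset.mem_univ, true_and] at hχ
      have h2 := hcon χ (fun h => hχ.1 (Subtype.ext h)) hχ.2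
      rw [← hNQ, div_lt_iff₀ htQ] at h2
      have h3 : N - 1 < d χ * t := by exact_mod_cast h2
      calc (N - 1) * d χ < (d χ * t) * d χ := Nat.mul_lt_mul_of_pos_right h3 (hdpos χ)
        _ = t * d χ ^ 2 := by ring
    have hne : R.Nonempty := by
      by_contra hemp
      rw [Finset.not_nonempty_iff_eq_empty] at hemp
      rw [hemp] at hA
      simp at hA
      omega
    have h2 := Finset.sum_lt_sum_of_nonempty hne h1
    rw [← Finset.mul_sum, ← Finset.mul_sum] at h2
    have h3 : ∑ χ ∈ R, d χ ^ 2 ≤ N - 1 := by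
      have := Finset.sum_le_sum_of_subset (f := fun χ => d χ ^ 2) hRsub
      omega
    have h4 : (N - 1) * t ≤ (N - 1) * ∑ χ ∈ R, d χ := Nat.mul_le_mul_left _ hA
    have h5 : t * ∑ χ ∈ R, d χ ^ 2 ≤ t * (N - 1) := Nat.mul_le_mul_left _ h3
    have h6 : (N - 1) * t = t * (N - 1) := mul_comm _ _
    omega

end Cfsg.Agent.S4476
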