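import Cfsg.Statements.S4490
import Cfsg.Agent.Lib.Helper7.All1
import Cfsg.Agent.Lib.Helper7.BReal1
-- import your own Cfsg.Agent.* helpers here

set_option autoImplicit false
open Cfsg
open Cfsg.Agent.Lib.Helper7.CharBasic Cfsg.Agent.Lib.Helper7.CharIrr Cfsg.Agent.Lib.Helper7.CharDecomp Cfsg.Agent.Lib.Helper7.CharComplete Cfsg.Agent.Lib.Helper7.CharOrth Cfsg.Agent.Lib.Helper7.CharInd Cfsg.Agent.Lib.Helper7.CharIntegral Cfsg.Agent.Lib.Helper7.CharBurnside Cfsg.Agent.Lib.Helper7.CharLinear Cfsg.Agent.Lib.Helper7.CharEquiv Cfsg.Agent.Lib.Helper7.CharMore Cfsg.Agent.Lib.Helper7.CharCount Cfsg.Agent.Lib.Helper7.CharMisc Cfsg.Agent.Lib.Helper7.CharMisc2 Cfsg.Agent.Lib.Helper7.CharNormal Cfsg.Agent.Lib.Helper7.CharOdd Cfsg.Agent.Lib.Helper7.CharClifford Cfsg.Agent.Lib.Helper7.CharProd Cfsg.Agent.Lib.Helper7.CharPerm Cfsg.Agent.Lib.Helper7.CharClassAlg Cfsg.Agent.Lib.Helper7.CharClassAlg2 Cfsg.Agent.Lib.Helper7.CharCentral Cfsg.Agent.Lib.Helper7.CharNormal2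 Cfsg.Agent.Lib.Helper7.CharCliffordCorr
open scoped ComplexConjugate

namespace Cfsg.Agent.S4490

/-- Let G be a finite group and M a maximal ideal of the algebraic integers containing 2. Every 2-block B of G whose defect groups are the Sylow 2-subgroups of G (a block of full defect) and which is not the principal block is different from its complex-conjugate block, the block formed by the complex conjugates of the members of B. -/
theorem result {G : Type*} [Group G] [Finite G] (M : Ideal Cfsg.AlgInt) (hM : Cfsg.IsPModular 2 M) (B : Set (Cfsg.IrrCharacter G)) (hB : Cfsg.IsPBlock M B) (P : Sylow 2 G) (hfull : Cfsg.IsDefectGroup 2 M B (P : Subgroup G)) (hnp : B ≠ Cfsg.principalBlock M G) : {ψ : Cfsg.IrrCharacter G | ∃ χ ∈ B, (ψ : G → ℂ) = fun g => (starRingEnd ℂ) ((χ : G → ℂ) g)} ≠ B := by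
  classical
  haveI := Fintype.ofFinite G
  haveI : Fact (Nat.Prime 2) := ⟨Nat.prime_two⟩
  intro hconj
  apply hnp
  have hpos : 0 < Nat.card G := Nat.card_pos
  have hpow : ∀ g : G, g ^ (Nat.card G - 1) = g⁻¹ := by
    intro g
    rw [eq_inv_iff_mul_eq_one, ← pow_succ, Nat.sub_add_cancel hpos, pow_card_eq_one']
  apply Cfsg.Agent.Lib.Helper7.BReal1.stable_full_defect_principal hM (Nat.card G - 1) _
    (fun g _ => hpow g) B hB
  · have h1 := Cfsg.Agent.Lib.Helper2.BlockSub.card_defectGroup hM hB hfull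
    have h2 := P.card_eq_multiplicity
    have h3 : Nat.card (P : Subgroup G) = 2 ^ (Nat.card G).factorization 2 := h2
    rw [h3] at h1
    exact (Nat.pow_right_injective (le_refl 2) h1).symm
  · intro χ hχ
    refine ⟨⟨_, Cfsg.Agent.Lib.Helper7.CharMore.isIrrCharacter_conj χ.2⟩, ?_, ?_⟩
    · rw [← hconj]
      exact ⟨χ, hχ, rfl⟩
    · intro g
      rw [hpow]
      exact Cfsg.Agent.Lib.Helper7.BSub1.irr_conj_eq_inv χ.2 g
  · have h4 : Nat.card G - 1 + 1 = Nat.card G := Nat.sub_add_cancel hpos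
    have h5 : Nat.Coprime (Nat.card G - 1) (Nat.card G - 1 + 1) := by simp
    rwa [h4] at h5

end Cfsg.Agent.S4490
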