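import Cfsg.Statements.S4495
import Cfsg.Agent.Lib.Helper1.CxSelf

set_option autoImplicit false
open Cfsg

namespace Cfsg.Agent.S4495

/-- Let the finite group G contain an element x of prime order p with C_G(x) = ⟨x⟩, and let t be the number of conjugacy classes of elements of order p. If t ≠ p − 1 then the commutator subgroup has index at most (p − 1)/t; if t = p − 1 it has index exactly p. -/
theorem result {G : Type*} [Group G] [Finite G] (p : ℕ) (hp : p.Prime) (x : G) (hx : orderOf x = p) (hC : Subgroup.centralizer ({x} : Set G) = Subgroup.zpowers x) (t : ℕ) (ht : Nat.card {C : ConjClasses G // ∃ g ∈ C.carrier, orderOf g = p} = t) : (t ≠ p - 1 → (commutator G).index * t ≤ p - 1) ∧ (t = p - 1 → (commutator G).index = p) := by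
  haveI := Fact.mk hp
  have hte := Cfsg.Agent.Lib.Helper1.CxSelf.t_mul_e hx hC
  rw [ht] at hte
  have hp1 : 0 < p - 1 := Nat.sub_pos_of_lt hp.one_lt
  constructor
  · intro hne
    have he : (Subgroup.zpowers x).relIndex (Subgroup.normalizer (Subgroup.zpowers x : Set G)) ≠ 1 := by
      intro h; rw [h, mul_one] at hte; exact hne hte
    have h1 := Cfsg.Agent.Lib.Helper1.CxSelf.index_commutator_dvd hx hC
      (Cfsg.Agent.Lib.Helper1.CxSelf.le_commutator_of_ne hx hC he)
    have hepos : 0 < (Subgroup.zpowers x).relIndex (Subgroup.normalizer (Subgroup.zpowers x : Set G)) := by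
      rcases Nat.eq_zero_or_pos
        ((Subgroup.zpowers x).relIndex (Subgroup.normalizer (Subgroup.zpowers x : Set G))) with h | h
      · rw [h, mul_zero] at hte; omega
      · exact h
    calc (commutator G).index * t
        ≤ (Subgroup.zpowers x).relIndex (Subgroup.normalizer (Subgroup.zpowers x : Set G)) * t :=
          Nat.mul_le_mul_right _ (Nat.le_of_dvd hepos h1)
      _ = p - 1 := by rw [mul_comm]; exact hte
  · intro h
    have he : (Subgroup.zpowers x).relIndex (Subgroup.normalizer (Subgroup.zpowers x : Set G)) = 1 := by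
      rw [h] at hte
      exact Nat.eq_of_mul_eq_mul_left hp1 (hte.trans (mul_one _).symm)
    exact (Cfsg.Agent.Lib.Helper1.CxSelf.commutator_of_e_one hx hC he).1

end Cfsg.Agent.S4495
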