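import Cfsg.Statements.S4496
import Cfsg.Agent.Lib.Helper1.CxSelf

set_option autoImplicit false
open Cfsg

namespace Cfsg.Agent.S4496

open scoped commutatorElement

theorem exists_commutator_eq {G : Type*} [Group G] [Finite G] {x : G}
    (hC : Subgroup.centralizer ({x} : Set G) = Subgroup.zpowers x) {S : Subgroup G}
    (hS : S.Normal) (hd : S ⊓ Subgroup.zpowers x = ⊥) (s : G) (hs : s ∈ S) :
    ∃ a ∈ S, a * x * a⁻¹ * x⁻¹ = s := by
  let φ : S → S := fun s => ⟨(s : G) * x * (s : G)⁻¹ * x⁻¹, by
    have : (s : G) * x * (s : G)⁻¹ * x⁻¹ = (s : G) * (x * (s : G)⁻¹ * x⁻¹) := by group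
    rw [this]
    exact S.mul_mem s.2 (hS.conj_mem _ (S.inv_mem s.2) x)⟩
  have hinj : Function.Injective φ := by
    intro a b hab
    have h1 : (a : G) * x * (a : G)⁻¹ * x⁻¹ = (b : G) * x * (b : G)⁻¹ * x⁻¹ := congrArg Subtype.val hab
    have h2 : (b : G)⁻¹ * (a : G) * x = x * ((b : G)⁻¹ * (a : G)) := by
      have : (b : G)⁻¹ * ((a : G) * x * (a : G)⁻¹ * x⁻¹) * (x * (a : G)) =
          (b : G)⁻¹ * ((b : G) * x * (b : G)⁻¹ * x⁻¹) * (x * (a : G)) := by rw [h1]
      have l : (b : G)⁻¹ * ((a : G) * x * (a : G)⁻¹ * x⁻¹) * (x * (a : G)) = (b : G)⁻¹ * (a : G) * x := by group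
      have r : (b : G)⁻¹ * ((b : G) * x * (b : G)⁻¹ * x⁻¹) * (x * (a : G)) = x * ((b : G)⁻¹ * (a : G)) := by group
      rw [l, r] at this
      exact this
    have h3 : (b : G)⁻¹ * (a : G) ∈ Subgroup.zpowers x := by
      rw [← hC, Subgroup.mem_centralizer_iff]
      intro h hh
      rw [Set.mem_singleton_iff] at hh
      subst hh
      exact h2.symm
    have h4 : (b : G)⁻¹ * (a : G) ∈ S ⊓ Subgroup.zpowers x := ⟨S.mul_mem (S.inv_mem b.2) a.2, h3⟩
    rw [hd, Subgroup.mem_bot, inv_mul_eq_one] at h4
    exact Subtype.ext h4.symm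
  have hsurj := Finite.injective_iff_surjective.mp hinj
  obtain ⟨a, ha⟩ := hsurj ⟨s, hs⟩
  exact ⟨a, a.2, congrArg Subtype.val ha⟩

/-- Let the finite group G contain an element x of prime order p with C_G(x) = ⟨x⟩. Then: (a) every normal subgroup of order divisible by p contains the commutator subgroup; (b) every normal subgroup S of order prime to p has order dividing the number of subgroups of order p of G and congruent to 1 modulo p, and in G/S the image of x again has prime order p and commutes only with its own powers. -/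
theorem result {G : Type*} [Group G] [Finite G] (p : ℕ) (hp : p.Prime) (x : G) (hx : orderOf x = p) (hC : Subgroup.centralizer ({x} : Set G) = Subgroup.zpowers x) (S : Subgroup G) [S.Normal] : (p ∣ Nat.card S → commutator G ≤ S) ∧ (¬ p ∣ Nat.card S → Nat.card S ∣ Nat.card {H : Subgroup G // Nat.card H = p} ∧ Nat.card S % p = 1 ∧ orderOf (QuotientGroup.mk x : G ⧸ S) = p ∧ Subgroup.centralizer ({(QuotientGroup.mk x : G ⧸ S)} : Set (G ⧸ S)) = Subgroup.zpowers (QuotientGroup.mk x : G ⧸ S)) := by
  haveI := Fact.mk hp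
  have hSn : S.Normal := inferInstance
  constructor
  · intro hpS
    obtain ⟨y, hy⟩ := exists_prime_orderOf_dvd_card' p hpS
    rw [← Subgroup.orderOf_coe] at hy
    have hCy := Cfsg.Agent.Lib.Helper1.CxSelf.hyp_of_orderOf hx hC hy
    refine le_trans (Cfsg.Agent.Lib.Helper1.CxSelf.commutator_le_normalClosure hy hCy)
      (Subgroup.normalClosure_le_normal ?_)
    exact Subgroup.zpowers_le.mpr y.2
  · intro hpS
    have hcop : (Nat.card S).Coprime p := ((Nat.Prime.coprime_iff_not_dvd hp).mpr hpS).symm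
    have hd := Cfsg.Agent.Lib.Helper1.CxSelf.disjoint_of_coprime hx hcop
    have hxS : x ∉ S := by
      intro h
      have : x ∈ S ⊓ Subgroup.zpowers x := ⟨h, Subgroup.mem_zpowers x⟩
      rw [hd, Subgroup.mem_bot] at this
      exact Cfsg.Agent.Lib.Helper1.CxSelf.x_ne_one hx this
    refine ⟨?_, ?_, ?_, ?_⟩
    · rw [Cfsg.Agent.Lib.Helper1.CxSelf.card_subgroups hx hC]
      have h1 := Cfsg.Agent.Lib.Helper1.card_sup_of_disjoint _ _
        (Cfsg.Agent.Lib.Helper1.CxSelf.normalizer_inf_eq_bot hx hC hSn hd)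
      have h2 := Subgroup.card_subgroup_dvd_card
        (Subgroup.normalizer (Subgroup.zpowers x : Set G) ⊔ S)
      rw [h1, ← Subgroup.card_mul_index (Subgroup.normalizer (Subgroup.zpowers x : Set G))] at h2
      exact Nat.dvd_of_mul_dvd_mul_left Nat.card_pos h2
    · letI : MulAction (Subgroup.zpowers x) S :=
        MulAction.compHom S ((MulAut.conjNormal (H := S)).comp (Subgroup.zpowers x).subtype)
      have hsm : ∀ (a : Subgroup.zpowers x) (s : S), ((a • s : S) : G) = a * s * (a : G)⁻¹ := fun _ _ => rfl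
      have hPp : IsPGroup p (Subgroup.zpowers x) :=
        IsPGroup.of_card (n := 1) (by rw [Cfsg.Agent.Lib.Helper1.CxSelf.card_P hx, pow_one])
      have h1 := hPp.card_modEq_card_fixedPoints S
      have h2 : Nat.card (MulAction.fixedPoints (Subgroup.zpowers x) S) = 1 := by
        rw [Nat.card_eq_one_iff_unique]
        refine ⟨⟨?_⟩, ⟨⟨1, ?_⟩⟩⟩
        · rintro ⟨a, ha⟩ ⟨b, hb⟩
          have key : ∀ c : S, c ∈ MulAction.fixedPoints (Subgroup.zpowers x) S → c = 1 := by
            intro c hc
            have h3 := congrArg Subtype.val (hc ⟨x, Subgroup.mem_zpowers x⟩)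
            rw [hsm] at h3
            have h4 : Commute (c : G) x := by
              show (c : G) * x = x * c
              have : x * (c : G) * x⁻¹ = c := h3
              rw [mul_inv_eq_iff_eq_mul] at this
              exact this.symm
            have h5 := Cfsg.Agent.Lib.Helper1.CxSelf.mem_of_commute hx hC (Subgroup.mem_zpowers x)
              (Cfsg.Agent.Lib.Helper1.CxSelf.x_ne_one hx) h4
            have h6 : (c : G) ∈ S ⊓ Subgroup.zpowers x := ⟨c.2, h5⟩
            rw [hd, Subgroup.mem_bot] at h6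
            exact Subtype.ext h6
          apply Subtype.ext
          exact (key a ha).trans (key b hb).symm
        · intro a
          apply Subtype.ext
          rw [hsm]
          simp
      rw [h2] at h1
      rw [h1, Nat.mod_eq_of_lt hp.one_lt]
    · apply orderOf_eq_prime
      · rw [← QuotientGroup.mk_pow, ← hx, pow_orderOf_eq_one]
        rfl
      · rw [Ne, QuotientGroup.eq_one_iff]
        exact hxS
    · apply le_antisymm
      · intro q hq
        obtain ⟨g, rfl⟩ := QuotientGroup.mk_surjective q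
        rw [Subgroup.mem_centralizer_iff] at hq
        have h1 := hq _ rfl
        have h2 : g * x * g⁻¹ * x⁻¹ ∈ S := by
          rw [← QuotientGroup.eq_one_iff]
          have : ((g * x * g⁻¹ * x⁻¹ : G) : G ⧸ S) = (g : G ⧸ S) * (x : G ⧸ S) * (g : G ⧸ S)⁻¹ * (x : G ⧸ S)⁻¹ := rfl
          rw [this, ← h1]
          group
        obtain ⟨a, ha, hae⟩ := exists_commutator_eq hC hSn hd (g⁻¹ * (g * x * g⁻¹ * x⁻¹)⁻¹ * g)
          (by
            have := hSn.conj_mem _ (S.inv_mem h2) g⁻¹
            simpa using this)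
        have h3 : Commute (g * a) x := by
          show g * a * x = x * (g * a)
          have e1 : g * a * x * (g * a)⁻¹ * x⁻¹ = g * (a * x * a⁻¹ * x⁻¹) * g⁻¹ * (g * x * g⁻¹ * x⁻¹) := by group
          rw [hae] at e1
          have e2 : g * (g⁻¹ * (g * x * g⁻¹ * x⁻¹)⁻¹ * g) * g⁻¹ * (g * x * g⁻¹ * x⁻¹) = 1 := by group
          rw [e2] at e1
          rw [mul_inv_eq_one, mul_inv_eq_iff_eq_mul] at e1
          exact e1
        have h4 := Cfsg.Agent.Lib.Helper1.CxSelf.mem_of_commute hx hC (Subgroup.mem_zpowers x)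
              (Cfsg.Agent.Lib.Helper1.CxSelf.x_ne_one hx) h3
        obtain ⟨i, hi⟩ := h4
        refine ⟨i, ?_⟩
        simp only [] at hi ⊢
        rw [← QuotientGroup.mk_zpow, hi, QuotientGroup.mk_mul]
        have : (a : G ⧸ S) = 1 := (QuotientGroup.eq_one_iff a).mpr ha
        rw [this, mul_one]
      · rw [Subgroup.zpowers_le, Subgroup.mem_centralizer_iff]
        intro z hz
        rw [Set.mem_singleton_iff] at hz
        rw [hz]

end Cfsg.Agent.S4496
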