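import Cfsg.Statements.S4497
import Cfsg.Agent.Lib.Helper1.CxSelf

set_option autoImplicit false
open Cfsg

namespace Cfsg.Agent.S4497

/-- Let the finite group G contain an element x of prime order p with C_G(x) = ⟨x⟩, let t be the number of conjugacy classes of elements of order p, and let S* = O_{p′}(G) be the largest normal subgroup of order prime to p. Then S* ≤ G′; if t ≠ p − 1 the quotient G′/S* is simple (in particular non-trivial); if t = p − 1 then G′ = S*. -/
theorem result {G : Type*} [Group G] [Finite G] (p : ℕ) (hp : p.Prime) (x : G) (hx : orderOf x = p) (hC : Subgroup.centralizer ({x} : Set G) = Subgroup.zpowers x) (t : ℕ) (ht : Nat.card {C : ConjClasses G // ∃ g ∈ C.carrier, orderOf g = p} = t) : Cfsg.pPrimeCore p G ≤ commutator G ∧ (t ≠ p - 1 → ∀ h : ((Cfsg.pPrimeCore p G).subgroupOf (commutator G)).Normal, IsSimpleGroup (↥(commutator G) ⧸ (Cfsg.pPrimeCore p G).subgroupOf (commutator G))) ∧ (t = p - 1 → commutator G = Cfsg.pPrimeCore p G) := by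
  haveI := Fact.mk hp
  have hte := Cfsg.Agent.Lib.Helper1.CxSelf.t_mul_e hx hC
  rw [ht] at hte
  have hp1 : 0 < p - 1 := Nat.sub_pos_of_lt hp.one_lt
  have hd : Cfsg.pPrimeCore p G ⊓ Subgroup.zpowers x = ⊥ :=
    Cfsg.Agent.Lib.Helper1.CxSelf.disjoint_of_coprime hx (Cfsg.Agent.Lib.Helper1.pPrimeCore_coprime p)
  have hSD : Cfsg.pPrimeCore p G ≤ commutator G := by
    rw [commutator_def]
    exact Cfsg.Agent.Lib.Helper1.CxSelf.le_commutator_of_disjoint hC
      (Cfsg.Agent.Lib.Helper1.pPrimeCore_normal p) hd le_top (Subgroup.mem_top x)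
  refine ⟨hSD, ?_, ?_⟩
  · intro hne h
    have he : (Subgroup.zpowers x).relIndex (Subgroup.normalizer (Subgroup.zpowers x : Set G)) ≠ 1 := by
      intro h; rw [h, mul_one] at hte; exact hne hte
    have hPD := Cfsg.Agent.Lib.Helper1.CxSelf.le_commutator_of_ne hx hC he
    refine { exists_pair_ne := ?_, eq_bot_or_eq_top_of_normal := ?_ }
    · refine ⟨QuotientGroup.mk ⟨x, hPD (Subgroup.mem_zpowers x)⟩, 1, ?_⟩
      rw [Ne, QuotientGroup.eq_one_iff, Subgroup.mem_subgroupOf]
      intro hxS
      have : x ∈ Cfsg.pPrimeCore p G ⊓ Subgroup.zpowers x := ⟨hxS, Subgroup.mem_zpowers x⟩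
      rw [hd, Subgroup.mem_bot] at this
      exact Cfsg.Agent.Lib.Helper1.CxSelf.x_ne_one hx this
    · intro H hH
      obtain ⟨M0, hM0⟩ : ∃ M0, M0 = H.comap (QuotientGroup.mk' ((Cfsg.pPrimeCore p G).subgroupOf (commutator G))) :=
        ⟨_, rfl⟩
      have hM0n : M0.Normal := by rw [hM0]; infer_instance
      have hmem : ∀ d : commutator G, (d : G) ∈ M0.map (commutator G).subtype ↔ d ∈ M0 := by
        intro d
        constructor
        · rintro ⟨d', hd', hdd⟩
          have : d' = d := Subtype.ext hdd
          rw [← this]; exact hd'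
        · intro hd'
          exact ⟨d, hd', rfl⟩
      have h1 := Cfsg.Agent.Lib.Helper1.CxSelf.simple_aux hx hC (M0.map (commutator G).subtype)
        (by
          intro s hs
          have : (⟨s, hSD hs⟩ : commutator G) ∈ M0 := by
            rw [hM0, Subgroup.mem_comap]
            have : QuotientGroup.mk' ((Cfsg.pPrimeCore p G).subgroupOf (commutator G)) ⟨s, hSD hs⟩ = 1 := by
              rw [QuotientGroup.mk'_apply, QuotientGroup.eq_one_iff, Subgroup.mem_subgroupOf]
              exact hs
            rw [this]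
            exact H.one_mem
          exact (hmem ⟨s, hSD hs⟩).mpr this)
        (Subgroup.map_subtype_le _)
        (by
          rintro d hd m ⟨m', hm', rfl⟩
          exact (hmem (⟨d, hd⟩ * m' * ⟨d, hd⟩⁻¹)).mpr (hM0n.conj_mem m' hm' ⟨d, hd⟩))
      rcases h1 with h1 | h1
      · left
        rw [eq_bot_iff]
        intro q hq
        obtain ⟨d, rfl⟩ := QuotientGroup.mk_surjective q
        have h2 : d ∈ M0 := by rw [hM0]; exact hq
        have h3 := (hmem d).mpr h2
        rw [h1] at h3
        rw [Subgroup.mem_bot, QuotientGroup.eq_one_iff, Subgroup.mem_subgroupOf]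
        exact h3
      · right
        rw [eq_top_iff]
        intro q _
        obtain ⟨d, rfl⟩ := QuotientGroup.mk_surjective q
        have h3 : (d : G) ∈ M0.map (commutator G).subtype := by rw [h1]; exact d.2
        have h2 := (hmem d).mp h3
        rw [hM0] at h2
        exact h2
  · intro h
    have he : (Subgroup.zpowers x).relIndex (Subgroup.normalizer (Subgroup.zpowers x : Set G)) = 1 := by
      rw [h] at hte
      exact Nat.eq_of_mul_eq_mul_left hp1 (hte.trans (mul_one _).symm)
    have h2 := (Cfsg.Agent.Lib.Helper1.CxSelf.commutator_of_e_one hx hC he).2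
    exact le_antisymm (Cfsg.Agent.Lib.Helper1.le_pPrimeCore inferInstance
      (Cfsg.Agent.Lib.Helper1.CxSelf.coprime_of_disjoint hx hC inferInstance h2)) hSD

end Cfsg.Agent.S4497
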