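import Cfsg.Statements.S4509
import Cfsg.Agent.Lib.Helper1.CxSelf

set_option autoImplicit false
open Cfsg

namespace Cfsg.Agent.S4509

open scoped commutatorElement

/-- Let the finite group G contain an element x of prime order p with C_G(x) = ⟨x⟩; let t be the number of conjugacy classes of elements of order p and 1 + n·p the number of subgroups of order p. Then G has a normal subgroup of order 1 + n·p if and only if either t = p − 1, or t < p − 1 and G″ ≠ G′. Moreover, if t = p − 1 then G′ has order 1 + n·p and G/G′ is cyclic of order p; and if t < p − 1 and G″ ≠ G′ then G″ has order 1 + n·p and G′ has order p·(1 + n·p). -/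
theorem result {G : Type*} [Group G] [Finite G] (p : ℕ) (hp : p.Prime) (x : G) (hx : orderOf x = p) (hC : Subgroup.centralizer ({x} : Set G) = Subgroup.zpowers x) (t : ℕ) (ht : Nat.card {C : ConjClasses G // ∃ g ∈ C.carrier, orderOf g = p} = t) (n : ℕ) (hn : Nat.card {H : Subgroup G // Nat.card H = p} = 1 + n * p) : ((∃ S : Subgroup G, S.Normal ∧ Nat.card S = 1 + n * p) ↔ (t = p - 1 ∨ (t < p - 1 ∧ derivedSeries G 2 ≠ derivedSeries G 1))) ∧ (t = p - 1 → Nat.card (commutator G) = 1 + n * p ∧ IsCyclic (G ⧸ commutator G) ∧ (commutator G).index = p) ∧ (t < p - 1 → derivedSeries G 2 ≠ derivedSeries G 1 → Nat.card (derivedSeries G 2) = 1 + n * p ∧ Nat.card (commutator G) = p * (1 + n * p)) := by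
  haveI := Fact.mk hp
  have hte := Cfsg.Agent.Lib.Helper1.CxSelf.t_mul_e hx hC
  rw [ht] at hte
  have hp1 : 0 < p - 1 := Nat.sub_pos_of_lt hp.one_lt
  obtain ⟨N, hN⟩ : ∃ N, N = Subgroup.normalizer (Subgroup.zpowers x : Set G) := ⟨_, rfl⟩
  obtain ⟨e, he⟩ : ∃ e, e = (Subgroup.zpowers x).relIndex N := ⟨_, rfl⟩
  have hidx : N.index = 1 + n * p := by
    rw [hN, ← Cfsg.Agent.Lib.Helper1.CxSelf.card_subgroups hx hC, hn]
  have hcN : Nat.card N = p * e := by
    rw [he, hN]; exact Cfsg.Agent.Lib.Helper1.CxSelf.card_normalizer hx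
  have hcG : Nat.card G = p * e * (1 + n * p) := by
    rw [← hcN, ← hidx, Subgroup.card_mul_index]
  rw [← hN, ← he] at hte
  have hepos : 0 < e := by
    rcases Nat.eq_zero_or_pos e with h | h
    · rw [h, mul_zero] at hte; omega
    · exact h
  have hD1 : derivedSeries G 1 = commutator G := derivedSeries_one G
  have hD2 : derivedSeries G 2 = ⁅commutator G, commutator G⁆ := by
    rw [derivedSeries_succ, hD1]
  have hd : Cfsg.pPrimeCore p G ⊓ Subgroup.zpowers x = ⊥ :=
    Cfsg.Agent.Lib.Helper1.CxSelf.disjoint_of_coprime hx (Cfsg.Agent.Lib.Helper1.pPrimeCore_coprime p)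
  have hSn := Cfsg.Agent.Lib.Helper1.pPrimeCore_normal (G := G) p
  -- (B)
  have hB : t = p - 1 → Nat.card (commutator G) = 1 + n * p ∧ IsCyclic (G ⧸ commutator G) ∧
      (commutator G).index = p := by
    intro h
    have he1 : e = 1 := by
      rw [h] at hte
      exact Nat.eq_of_mul_eq_mul_left hp1 (hte.trans (mul_one _).symm)
    have h2 := (Cfsg.Agent.Lib.Helper1.CxSelf.commutator_of_e_one hx hC (by rw [← hN, ← he, he1])).1
    refine ⟨?_, ?_, h2⟩
    · have h3 := Subgroup.card_mul_index (commutator G)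
      rw [h2, hcG, he1, mul_one, mul_comm] at h3
      exact Nat.eq_of_mul_eq_mul_left hp.pos h3
    · apply isCyclic_of_prime_card (p := p)
      rw [← Subgroup.index_eq_card, h2]
  -- (C)
  have hCC : t < p - 1 → derivedSeries G 2 ≠ derivedSeries G 1 →
      Nat.card (derivedSeries G 2) = 1 + n * p ∧ Nat.card (commutator G) = p * (1 + n * p) := by
    intro hlt hne
    have he1 : (Subgroup.zpowers x).relIndex (Subgroup.normalizer (Subgroup.zpowers x : Set G)) ≠ 1 := by
      rw [← hN, ← he]
      intro h; rw [h, mul_one] at hte; omega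
    have hPD := Cfsg.Agent.Lib.Helper1.CxSelf.le_commutator_of_ne hx hC he1
    have hSD : Cfsg.pPrimeCore p G ≤ commutator G := by
      rw [commutator_def]
      exact Cfsg.Agent.Lib.Helper1.CxSelf.le_commutator_of_disjoint hC hSn hd le_top (Subgroup.mem_top x)
    have hSD2 : Cfsg.pPrimeCore p G ≤ ⁅commutator G, commutator G⁆ :=
      Cfsg.Agent.Lib.Helper1.CxSelf.le_commutator_of_disjoint hC hSn hd hSD (hPD (Subgroup.mem_zpowers x))
    have hD2le : ⁅commutator G, commutator G⁆ ≤ commutator G := Subgroup.commutator_le_left _ _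
    have hD2n : (⁅commutator G, commutator G⁆ : Subgroup G).Normal := inferInstance
    have h1 := Cfsg.Agent.Lib.Helper1.CxSelf.simple_aux hx hC _ hSD2 hD2le
      (fun d _ m hm => hD2n.conj_mem m hm d)
    have h2 : ⁅commutator G, commutator G⁆ = Cfsg.pPrimeCore p G := by
      rcases h1 with h1 | h1
      · exact h1
      · exact absurd (by rw [hD2, hD1, h1]) hne
    have h3 := Cfsg.Agent.Lib.Helper1.CxSelf.simple_aux hx hC (Subgroup.zpowers x ⊔ Cfsg.pPrimeCore p G)
      le_sup_right (sup_le hPD hSD)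
      (by
        intro d hd m hm
        have : d * m * d⁻¹ = ⁅d, m⁆ * m := by rw [commutatorElement_def]; group
        rw [this]
        refine Subgroup.mul_mem _ ?_ hm
        apply (le_sup_right : Cfsg.pPrimeCore p G ≤ Subgroup.zpowers x ⊔ Cfsg.pPrimeCore p G)
        rw [← h2]
        exact Subgroup.commutator_mem_commutator hd ((sup_le hPD hSD) hm))
    have h4 : Subgroup.zpowers x ⊔ Cfsg.pPrimeCore p G = commutator G := by
      rcases h3 with h3 | h3
      · exfalso
        have : x ∈ Cfsg.pPrimeCore p G ⊓ Subgroup.zpowers x :=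
          ⟨h3 ▸ (le_sup_left : Subgroup.zpowers x ≤ _) (Subgroup.mem_zpowers x), Subgroup.mem_zpowers x⟩
        rw [hd, Subgroup.mem_bot] at this
        exact Cfsg.Agent.Lib.Helper1.CxSelf.x_ne_one hx this
      · exact h3
    have h5 : Nat.card (commutator G) = p * Nat.card (Cfsg.pPrimeCore p G) := by
      rw [← h4, Cfsg.Agent.Lib.Helper1.card_sup_of_disjoint _ _ (by rw [inf_comm]; exact hd),
        Cfsg.Agent.Lib.Helper1.CxSelf.card_P hx]
    have h6 : N ⊔ Cfsg.pPrimeCore p G = ⊤ := by
      have := Cfsg.Agent.Lib.Helper1.CxSelf.frattini hx hC hPD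
      rw [← h4, ← sup_assoc, sup_eq_left.mpr Subgroup.le_normalizer, ← hN] at this
      exact this
    have h7 : Nat.card G = Nat.card N * Nat.card (Cfsg.pPrimeCore p G) := by
      rw [← Cfsg.Agent.Lib.Helper1.card_sup_of_disjoint _ _
        (by rw [hN]; exact Cfsg.Agent.Lib.Helper1.CxSelf.normalizer_inf_eq_bot hx hC hSn hd), h6,
        Subgroup.card_top]
    rw [hcG, hcN] at h7
    have h8 : 1 + n * p = Nat.card (Cfsg.pPrimeCore p G) :=
      Nat.eq_of_mul_eq_mul_left (Nat.mul_pos hp.pos hepos) h7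
    refine ⟨by rw [hD2, h2, h8], by rw [h5, h8]⟩
  refine ⟨⟨?_, ?_⟩, hB, hCC⟩
  · rintro ⟨S, hSn', hcS⟩
    by_cases htp : t = p - 1
    · exact Or.inl htp
    · right
      have hle : t ≤ p - 1 := by
        rw [← hte]; exact Nat.le_mul_of_pos_right _ hepos
      refine ⟨lt_of_le_of_ne hle htp, ?_⟩
      have he1 : (Subgroup.zpowers x).relIndex (Subgroup.normalizer (Subgroup.zpowers x : Set G)) ≠ 1 := by
        rw [← hN, ← he]
        intro h; rw [h, mul_one] at hte; exact htp hte
      have hPD := Cfsg.Agent.Lib.Helper1.CxSelf.le_commutator_of_ne hx hC he1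
      have hcop : (Nat.card S).Coprime p := by
        rw [hcS]
        simp
      have hdS := Cfsg.Agent.Lib.Helper1.CxSelf.disjoint_of_coprime hx hcop
      have hNS : N ⊔ S = ⊤ := by
        apply Subgroup.eq_top_of_card_eq
        rw [Cfsg.Agent.Lib.Helper1.card_sup_of_disjoint _ _
          (by rw [hN]; exact Cfsg.Agent.Lib.Helper1.CxSelf.normalizer_inf_eq_bot hx hC hSn' hdS), hcN, hcS, hcG]
      have h1 : commutator G ≤ Subgroup.zpowers x ⊔ S := by
        have := Cfsg.Agent.Lib.Helper1.CxSelf.commutator_sup_le (S := S)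
          (Cfsg.Agent.Lib.Helper1.CxSelf.commutator_normalizer_le hx hC)
        rw [← hN, hNS] at this
        rw [commutator_def]
        exact this
      have h2 : ⁅Subgroup.zpowers x ⊔ S, Subgroup.zpowers x ⊔ S⁆ ≤ S := by
        have := Cfsg.Agent.Lib.Helper1.CxSelf.commutator_sup_le (S := S) (A := Subgroup.zpowers x) (B := ⊥)
          (by
            rw [Subgroup.commutator_le]
            rintro a ⟨i, rfl⟩ b ⟨j, rfl⟩
            rw [Subgroup.mem_bot, commutatorElement_eq_one_iff_commute]
            exact zpow_mul_comm x i j)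
        rw [bot_sup_eq] at this
        exact this
      intro heq
      rw [hD2, hD1] at heq
      have h3 : x ∈ S := by
        apply h2
        apply Subgroup.commutator_mono h1 h1
        rw [heq]
        exact hPD (Subgroup.mem_zpowers x)
      have : x ∈ S ⊓ Subgroup.zpowers x := ⟨h3, Subgroup.mem_zpowers x⟩
      rw [hdS, Subgroup.mem_bot] at this
      exact Cfsg.Agent.Lib.Helper1.CxSelf.x_ne_one hx this
  · rintro (h | ⟨h1, h2⟩)
    · exact ⟨commutator G, inferInstance, (hB h).1⟩
    · exact ⟨derivedSeries G 2, inferInstance, (hCC h1 h2).1⟩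

end Cfsg.Agent.S4509
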