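import Cfsg.Statements.S4636
import Mathlib

set_option autoImplicit false
open Cfsg
open scoped Pointwise

namespace Cfsg.Agent.S4636

theorem mem_of_pow_eq_one {C : Type*} [Group C] [Finite C] [IsCyclic C] {p : ℕ} (hp : 0 < p)
    (Z : Subgroup C) (hZ : Nat.card Z = p) (y : C) (hy : y ^ p = 1) : y ∈ Z := by
  classical
  have := Fintype.ofFinite C
  have h1 : (Finset.univ.filter (fun a : C => a ^ p = 1)).card ≤ p := IsCyclic.card_pow_eq_one_le hp
  have h2 : (Finset.univ.filter (fun a : C => a ∈ Z)).card = p := by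
    rw [← hZ, Nat.card_eq_fintype_card, Fintype.card_subtype]
  have h3 : Finset.univ.filter (fun a : C => a ∈ Z) ⊆ Finset.univ.filter (fun a : C => a ^ p = 1) := by
    intro a ha
    simp only [Finset.mem_filter, Finset.mem_univ, true_and] at ha ⊢
    have := pow_card_eq_one' (x := (⟨a, ha⟩ : Z))
    rw [hZ] at this
    exact congrArg Subtype.val this
  have h4 := Finset.eq_of_subset_of_card_le h3 (by rw [h2]; exact h1)
  have : y ∈ Finset.univ.filter (fun a : C => a ^ p = 1) := by simp [hy]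
  rw [← h4] at this
  simpa using this

/-- Let P be a nontrivial cyclic p-subgroup of the finite group G and Z its subgroup of order p. For every x outside N_G(Z), P meets its conjugate xPx⁻¹ trivially; consequently N_G(Q) ≤ N_G(Z) for every nontrivial subgroup Q of P. -/
theorem result {G : Type*} [Group G] [Finite G] (p : ℕ) [Fact p.Prime] (P : Subgroup G) (hP : IsPGroup p P) (hP1 : P ≠ ⊥) (hcyc : IsCyclic P) (Z : Subgroup G) (hZ : Z ≤ P) (hZcard : Nat.card Z = p) : (∀ x : G, x ∉ Subgroup.normalizer (Z : Set G) → P ⊓ MulAut.conj x • P = ⊥) ∧ ∀ Q : Subgroup G, Q ≤ P → Q ≠ ⊥ → Subgroup.normalizer (Q : Set G) ≤ Subgroup.normalizer (Z : Set G) := by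
  have hp : p.Prime := Fact.out
  have key : ∀ y ∈ P, y ^ p = 1 → y ∈ Z := by
    intro y hy hyp
    have hc : Nat.card (Z.subgroupOf P) = p := by
      rw [← hZcard]
      exact Nat.card_congr (Subgroup.subgroupOfEquivOfLe hZ).toEquiv
    have := mem_of_pow_eq_one hp.pos (Z.subgroupOf P) hc ⟨y, hy⟩ (Subtype.ext (by simpa using hyp))
    simpa [Subgroup.mem_subgroupOf] using this
  have gen : ∀ w ∈ Z, w ≠ 1 → ∀ z ∈ Z, ∃ n : ℤ, w ^ n = z := by
    intro w hw hw1 z hz
    have := mem_zpowers_of_prime_card hZcard (g := (⟨w, hw⟩ : Z)) (g' := ⟨z, hz⟩)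
      (fun h => hw1 (congrArg Subtype.val h))
    obtain ⟨n, hn⟩ := Subgroup.mem_zpowers_iff.mp this
    exact ⟨n, by simpa using congrArg Subtype.val hn⟩
  have main : ∀ x : G, P ⊓ MulAut.conj x • P ≠ ⊥ → x ∈ Subgroup.normalizer (Z : Set G) := by
    intro x hne
    set R := P ⊓ MulAut.conj x • P with hR
    have hRp : IsPGroup p R := hP.to_le inf_le_left
    have hnt : Nontrivial R := (Subgroup.nontrivial_iff_ne_bot R).mpr hne
    obtain ⟨n, hn0, hn⟩ := hRp.nontrivial_iff_card.mp hnt
    have hdvd : p ∣ Nat.card R := hn ▸ dvd_pow_self p (by omega)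
    obtain ⟨w, hw⟩ := exists_prime_orderOf_dvd_card' p hdvd
    have hwp : (w : G) ^ p = 1 := by
      have := pow_orderOf_eq_one w
      rw [hw] at this
      simpa using congrArg Subtype.val this
    have hw1 : (w : G) ≠ 1 := by
      intro h
      have : w = 1 := Subtype.ext h
      rw [this, orderOf_one] at hw
      exact hp.one_lt.ne hw
    have hwP : (w : G) ∈ P := w.2.1
    have hwP' : x⁻¹ * (w : G) * x ∈ P := by
      have : (w : G) ∈ MulAut.conj x • P := w.2.2
      rw [Subgroup.mem_pointwise_smul_iff_inv_smul_mem] at this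
      simpa [MulAut.smul_def, MulAut.conj_apply, ← map_inv] using this
    have hwZ : (w : G) ∈ Z := key _ hwP hwp
    have hwZ' : x⁻¹ * (w : G) * x ∈ Z := by
      apply key _ hwP'
      have : x⁻¹ * (w : G) * x = x⁻¹ * (w : G) * x⁻¹⁻¹ := by simp
      rw [this, conj_pow, hwp]; simp
    have hw1' : x⁻¹ * (w : G) * x ≠ 1 := by
      intro h
      apply hw1
      have : (w : G) = x * (x⁻¹ * (w : G) * x) * x⁻¹ := by group
      rw [this, h]; group
    have c1 : ∀ z ∈ Z, x⁻¹ * z * x ∈ Z := by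
      intro z hz
      obtain ⟨n, rfl⟩ := gen _ hwZ hw1 z hz
      have : x⁻¹ * (w : G) ^ n * x = (x⁻¹ * (w : G) * x) ^ n := by
        have e : x⁻¹ * (w : G) * x = x⁻¹ * (w : G) * x⁻¹⁻¹ := by simp
        rw [e, conj_zpow]; simp
      rw [this]
      exact Z.zpow_mem hwZ' n
    have c2 : ∀ z ∈ Z, x * z * x⁻¹ ∈ Z := by
      intro z hz
      obtain ⟨n, rfl⟩ := gen _ hwZ' hw1' z hz
      rw [← conj_zpow]
      have : x * (x⁻¹ * (w : G) * x) * x⁻¹ = w := by group
      rw [this]
      exact Z.zpow_mem hwZ n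
    rw [Subgroup.mem_normalizer_iff]
    intro h
    refine ⟨c2 h, fun hh => ?_⟩
    have := c1 _ hh
    simpa [mul_assoc] using this
  refine ⟨fun x hx => by_contra fun hne => hx (main x hne), ?_⟩
  intro Q hQ hQ1 g hg
  apply main
  intro hbot
  apply hQ1
  rw [eq_bot_iff, ← hbot]
  apply le_inf hQ
  intro q hq
  rw [Subgroup.mem_pointwise_smul_iff_inv_smul_mem]
  apply hQ
  have := (Subgroup.mem_normalizer_iff.mp (Subgroup.inv_mem _ hg) q).mp hq
  simpa [MulAut.smul_def, MulAut.conj_apply, ← map_inv] using this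

end Cfsg.Agent.S4636
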