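import Cfsg.Statements.S4646
import Cfsg.Agent.Lib.Helper7.All1
import Cfsg.Agent.Lib.Helper7.BPair2
import Cfsg.Agent.S4663
import Cfsg.Agent.S0071
-- import your own Cfsg.Agent.* helpers here

set_option autoImplicit false
open Cfsg
open Cfsg.Agent.Lib.Helper7.CharBasic Cfsg.Agent.Lib.Helper7.CharIrr Cfsg.Agent.Lib.Helper7.CharDecomp Cfsg.Agent.Lib.Helper7.CharComplete Cfsg.Agent.Lib.Helper7.CharOrth Cfsg.Agent.Lib.Helper7.CharInd Cfsg.Agent.Lib.Helper7.CharIntegral Cfsg.Agent.Lib.Helper7.CharBurnside Cfsg.Agent.Lib.Helper7.CharLinear Cfsg.Agent.Lib.Helper7.CharEquiv Cfsg.Agent.Lib.Helper7.CharMore Cfsg.Agent.Lib.Helper7.CharCount Cfsg.Agent.Lib.Helper7.CharMisc Cfsg.Agent.Lib.Helper7.CharMisc2 Cfsg.Agent.Lib.Helper7.CharNormal Cfsg.Agent.Lib.Helper7.CharOdd Cfsg.Agent.Lib.Helper7.CharClifford Cfsg.Agent.Lib.Helper7.CharProd Cfsg.Agent.Lib.Helper7.CharPerm Cfsg.Agent.Lib.Helper7.CharClassAlg Cfsg.Agent.Lib.Helper7.CharClassAlg2 Cfsg.Agent.Lib.Helper7.CharCentral Cfsg.Agent.Lib.Helper7.CharNormal2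 Cfsg.Agent.Lib.Helper7.CharCliffordCorr
open scoped ComplexConjugate

namespace Cfsg.Agent.S4646

/-- For a finite group G, a prime p and a maximal ideal M of the algebraic integers containing p: the principal block of G is nilpotent if and only if its p-regular rank is 1 (the trivial Brauer character is its only irreducible Brauer character). -/
theorem result {G : Type*} [Group G] [Finite G] (p : ℕ) [Fact p.Prime] (M : Ideal Cfsg.AlgInt) (hM : Cfsg.IsPModular p M) : Cfsg.IsNilpotentBlock p M (Cfsg.principalBlock M G) ↔ Cfsg.blockRank p (Cfsg.principalBlock M G) = 1 := by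
  classical
  have := Fintype.ofFinite G
  haveI := hM.2.1.isPrime
  have hp : p.Prime := hM.1
  constructor
  · intro hnil
    obtain ⟨P⟩ : Nonempty (Sylow p G) := inferInstance
    have hF := (Cfsg.Agent.S0071.result P).mpr (by
      intro Q hQ g hg hcop
      have hQp : IsPGroup p Q := P.2.to_le hQ
      exact hnil.2 Q (principalBlock M (Subgroup.centralizer (Q : Set G)))
        ((Cfsg.Agent.S4663.result p M hM Q hQp _
          (Cfsg.Agent.Lib.Helper7.BPair2.principal_isPBlock M)).mpr rfl) g hg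
        (Cfsg.Agent.Lib.Helper7.BPair2.stabilizes_principal _ g
          (Cfsg.Agent.Lib.Helper7.BPair2.mem_normalizer_centralizer hg))
        ((Nat.Prime.coprime_iff_not_dvd hp).mp hcop.symm))
    obtain ⟨N, hN, hc⟩ := hF
    haveI := hN
    have hidx : ∃ k, N.index = p ^ k := by
      rw [hc.symm.index_eq_card]
      exact IsPGroup.iff_card.mp P.2
    have hcard : ¬ p ∣ Nat.card N := by
      rw [← hc.index_eq_card]
      exact P.not_dvd_index
    have hB := Cfsg.Agent.Lib.Helper2.BlockKer.principal_of_normal_complement hM N hidx hcard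
    apply Cfsg.Agent.Lib.Helper7.BPair2.blockRank_eq_one_of_const hp _
      (Cfsg.Agent.Lib.Helper7.BPair2.one_mem_principal M)
    intro χ hχ g hg
    rw [hB] at hχ
    exact hχ g (Cfsg.Agent.Lib.Helper2.BlockKer.mem_of_preg hp N hidx g hg)
  · intro hr
    refine ⟨Cfsg.Agent.Lib.Helper7.BPair2.principal_isPBlock M, ?_⟩
    intro Q e hQe x hx _ hxreg
    have hconst := Cfsg.Agent.Lib.Helper7.BPair2.const_of_blockRank_eq_one hp _
      (Cfsg.Agent.Lib.Helper7.BPair2.one_mem_principal M) hr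
    obtain ⟨K, hKn, hK, hKp, -, -⟩ := Cfsg.Agent.Lib.Helper2.BlockKer.blockKer_thm hM _
      (Cfsg.Agent.Lib.Helper7.BPair2.principal_isPBlock M) (Cfsg.Agent.Lib.Helper7.BPair2.one G)
      (Cfsg.Agent.Lib.Helper7.BPair2.one_mem_principal M)
    have hxK : x ∈ K := by
      have : x ∈ (K : Set G) := by
        rw [hK]
        intro χ hχ
        exact hconst χ hχ x hxreg
      exact this
    rw [Subgroup.mem_centralizer_iff]
    intro q hq
    have hzQ : x * q * x⁻¹ * q⁻¹ ∈ Q :=
      Q.mul_mem ((Subgroup.mem_normalizer_iff.mp hx q).mp hq) (Q.inv_mem hq)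
    have hzK : x * q * x⁻¹ * q⁻¹ ∈ K := by
      have : x * q * x⁻¹ * q⁻¹ = x * (q * x⁻¹ * q⁻¹) := by group
      rw [this]
      exact K.mul_mem hxK (hKn.conj_mem _ (K.inv_mem hxK) q)
    obtain ⟨n, hn⟩ := IsPGroup.iff_card.mp hQe.1.1
    have hdisj : Disjoint Q K := by
      apply Subgroup.disjoint_of_coprime_natCard
      rw [hn]
      exact Nat.Coprime.pow_left n ((Nat.Prime.coprime_iff_not_dvd hp).mpr hKp)
    have hz := Subgroup.disjoint_def.mp hdisj hzQ hzK
    have h1 := mul_inv_eq_one.mp hz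
    exact (mul_inv_eq_iff_eq_mul.mp h1).symm

end Cfsg.Agent.S4646
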