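import Cfsg.Statements.S4652
import Cfsg.Agent.Lib.Helper7.All1
import Cfsg.Agent.Lib.Helper7.BPair2
import Cfsg.Agent.S0906
-- import your own Cfsg.Agent.* helpers here

set_option autoImplicit false
open Cfsg
open Cfsg.Agent.Lib.Helper7.CharBasic Cfsg.Agent.Lib.Helper7.CharIrr Cfsg.Agent.Lib.Helper7.CharDecomp Cfsg.Agent.Lib.Helper7.CharComplete Cfsg.Agent.Lib.Helper7.CharOrth Cfsg.Agent.Lib.Helper7.CharInd Cfsg.Agent.Lib.Helper7.CharIntegral Cfsg.Agent.Lib.Helper7.CharBurnside Cfsg.Agent.Lib.Helper7.CharLinear Cfsg.Agent.Lib.Helper7.CharEquiv Cfsg.Agent.Lib.Helper7.CharMore Cfsg.Agent.Lib.Helper7.CharCount Cfsg.Agent.Lib.Helper7.CharMisc Cfsg.Agent.Lib.Helper7.CharMisc2 Cfsg.Agent.Lib.Helper7.CharNormal Cfsg.Agent.Lib.Helper7.CharOdd Cfsg.Agent.Lib.Helper7.CharClifford Cfsg.Agent.Lib.Helper7.CharProd Cfsg.Agent.Lib.Helper7.CharPerm Cfsg.Agent.Lib.Helper7.CharClassAlg Cfsg.Agent.Lib.Helper7.CharClassAlg2 Cfsg.Agent.Lib.Helper7.CharCentral Cfsg.Agent.Lib.Helper7.CharNormal2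 Cfsg.Agent.Lib.Helper7.CharCliffordCorr
open scoped ComplexConjugate

namespace Cfsg.Agent.S4652

/-- Fix a prime p and a maximal ideal M of the algebraic integers containing p. The defect groups of the principal p-block of a finite group G are exactly the Sylow p-subgroups of G: a subgroup D is a defect group of the principal block if and only if D is a Sylow p-subgroup. -/
theorem result {G : Type*} [Group G] [Fintype G] (p : ℕ) [Fact p.Prime] (M : Ideal Cfsg.AlgInt) (hM : Cfsg.IsPModular p M) (D : Subgroup G) : Cfsg.IsDefectGroup p M (Cfsg.principalBlock M G) D ↔ ∃ S : Sylow p G, (S : Subgroup G) = D := by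
  classical
  haveI := hM.2.1.isPrime
  have hB := Cfsg.Agent.Lib.Helper7.BPair2.principal_isPBlock (G := G) M
  have hdef : Cfsg.blockDefect p (Cfsg.principalBlock M G) = (Nat.card G).factorization p := by
    unfold Cfsg.blockDefect
    have h0 : sInf ((fun χ : IrrCharacter G => (charDegree (χ : G → ℂ)).factorization p) ''
        (Cfsg.principalBlock M G)) = 0 := by
      apply Nat.sInf_eq_zero.mpr
      left
      refine ⟨Cfsg.Agent.Lib.Helper7.BPair2.one G,
        Cfsg.Agent.Lib.Helper7.BPair2.one_mem_principal M, ?_⟩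
      simp [Cfsg.Agent.Lib.Helper7.BPair2.one, Cfsg.charDegree]
    rw [h0, Nat.sub_zero]
  have hfwd : ∀ D : Subgroup G, Cfsg.IsDefectGroup p M (Cfsg.principalBlock M G) D →
      ∃ S : Sylow p G, (S : Subgroup G) = D := by
    intro D hD
    have h1 := Cfsg.Agent.Lib.Helper2.BlockSub.card_defectGroup hM hB hD
    rw [hdef] at h1
    exact ⟨Sylow.ofCard D h1, Sylow.coe_ofCard D h1⟩
  constructor
  · exact hfwd D
  · rintro ⟨S, rfl⟩
    obtain ⟨g, hg⟩ := Cfsg.Agent.S0906.result p M hM _ hB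
    obtain ⟨P⟩ : Nonempty (Sylow p (Subgroup.centralizer ({g} : Set G))) := inferInstance
    have hD0 : Cfsg.IsDefectGroup p M (Cfsg.principalBlock M G)
      ((P : Subgroup (Subgroup.centralizer ({g} : Set G))).map
        (Subgroup.centralizer ({g} : Set G)).subtype) := ⟨g, hg, P, rfl⟩
    obtain ⟨S0, hS0⟩ := hfwd _ hD0
    obtain ⟨c, hc⟩ := MulAction.exists_smul_eq G S0 S
    have h2 := Cfsg.Agent.Lib.Helper2.BlockSub.isDefectGroup_conj hM hB hD0 c
    rw [← hS0] at h2
    rw [← hc]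
    exact h2

end Cfsg.Agent.S4652
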