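import Cfsg.Statements.S4664
import Cfsg.Agent.Lib.Helper7.All1
import Cfsg.Agent.Lib.Helper2.BlockDef
-- import your own Cfsg.Agent.* helpers here

set_option autoImplicit false
open Cfsg
open Cfsg.Agent.Lib.Helper7.CharBasic Cfsg.Agent.Lib.Helper7.CharIrr Cfsg.Agent.Lib.Helper7.CharDecomp Cfsg.Agent.Lib.Helper7.CharComplete Cfsg.Agent.Lib.Helper7.CharOrth Cfsg.Agent.Lib.Helper7.CharInd Cfsg.Agent.Lib.Helper7.CharIntegral Cfsg.Agent.Lib.Helper7.CharBurnside Cfsg.Agent.Lib.Helper7.CharLinear Cfsg.Agent.Lib.Helper7.CharEquiv Cfsg.Agent.Lib.Helper7.CharMore Cfsg.Agent.Lib.Helper7.CharCount Cfsg.Agent.Lib.Helper7.CharMisc Cfsg.Agent.Lib.Helper7.CharMisc2 Cfsg.Agent.Lib.Helper7.CharNormal Cfsg.Agent.Lib.Helper7.CharOdd Cfsg.Agent.Lib.Helper7.CharClifford Cfsg.Agent.Lib.Helper7.CharProd Cfsg.Agent.Lib.Helper7.CharPerm Cfsg.Agent.Lib.Helper7.CharClassAlg Cfsg.Agent.Lib.Helper7.CharClassAlg2 Cfsg.Agent.Lib.Helper7.CharCentral Cfsg.Agent.Lib.Helper7.CharNormal2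 Cfsg.Agent.Lib.Helper7.CharCliffordCorr
open scoped ComplexConjugate

namespace Cfsg.Agent.S4664

/-- Fix a prime p and a maximal ideal M of the algebraic integers containing p, and let B be a p-block of the finite group G. Let m be the p'-part of the order of G and η = exp(2πi/m). Then every coefficient of the idempotent of B lies in the cyclotomic field ℚ(η). -/
theorem result {G : Type*} [Group G] [Fintype G] (p : ℕ) [Fact p.Prime] (M : Ideal Cfsg.AlgInt) (hM : Cfsg.IsPModular p M) (B : Set (Cfsg.IrrCharacter G)) (hB : Cfsg.IsPBlock M B) (g : G) : Cfsg.blockCoeff B g ∈ IntermediateField.adjoin ℚ ({Complex.exp (2 * Real.pi * Complex.I / ((Nat.card G / p ^ (Nat.card G).factorization p : ℕ) : ℂ))} : Set ℂ) := by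
  classical
  set m := Nat.card G / p ^ (Nat.card G).factorization p with hm
  set ζ := Complex.exp (2 * Real.pi * Complex.I / (m : ℂ)) with hζ
  set K := IntermediateField.adjoin ℚ ({ζ} : Set ℂ) with hK
  have hp : p.Prime := Fact.out
  have hG0 : Nat.card G ≠ 0 := Nat.card_pos.ne'
  have hm0 : m ≠ 0 := (Nat.ordCompl_pos p hG0).ne'
  haveI : NeZero m := ⟨hm0⟩
  have hprim : IsPrimitiveRoot ζ m := Complex.isPrimitiveRoot_exp m hm0
  have hζK : ζ ∈ K := IntermediateField.subset_adjoin ℚ _ (Set.mem_singleton ζ)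
  have hroot : ∀ μ : ℂ, μ ^ m = 1 → μ ∈ K := by
    intro μ hμ
    obtain ⟨i, _, hi⟩ := hprim.eq_pow_of_pow_eq_one hμ
    rw [← hi]
    exact K.pow_mem hζK i
  have hval : ∀ (χ : G → ℂ), IsCharacter G χ → ∀ x : G, orderOf x ∣ m → χ x ∈ K := by
    intro χ hχ x hx
    obtain ⟨n, ρ, rfl⟩ := hχ
    obtain ⟨b, μ, h1, h2⟩ := exists_eigenbasis_rep ρ x
    rw [char_eq_sum ρ x b μ h1]
    apply K.sum_mem
    intro i _
    apply hroot
    obtain ⟨c, hc⟩ := hx
    rw [hc, pow_mul, h2, one_pow]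
  by_cases h0 : Cfsg.blockCoeff B g = 0
  · rw [h0]; exact K.zero_mem
  have hreg : ¬ p ∣ orderOf g := Cfsg.Agent.Lib.Helper2.BlockDef.preg_of_blockCoeff_ne hM hB h0
  have hdvd : orderOf g ∣ m := by
    have h1 : orderOf g ∣ p ^ (Nat.card G).factorization p * m := by
      rw [hm, Nat.ordProj_mul_ordCompl_eq_self]
      exact orderOf_dvd_natCard g
    have h2 : Nat.Coprime (orderOf g) (p ^ (Nat.card G).factorization p) :=
      Nat.Coprime.pow_right _ ((Nat.Prime.coprime_iff_not_dvd hp).mpr hreg).symm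
    exact h2.dvd_of_dvd_mul_left h1
  unfold Cfsg.blockCoeff
  apply K.mul_mem (K.inv_mem (natCast_mem K _))
  apply finsum_mem_induction (fun z : ℂ => z ∈ K) K.zero_mem (fun x y hx hy => K.add_mem hx hy)
  intro χ _
  have hc : IsCharacter G (χ : G → ℂ) := IsIrrCharacter.isCharacter χ.2
  apply K.mul_mem (hval _ hc 1 (by rw [orderOf_one]; exact one_dvd m))
  have h3 : conj ((χ : G → ℂ) g) = (χ : G → ℂ) g⁻¹ := by
    obtain ⟨n, ρ, hρ⟩ := hc
    rw [← hρ, char_inv]
  rw [h3]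
  exact hval _ hc g⁻¹ (by rw [orderOf_inv]; exact hdvd)

end Cfsg.Agent.S4664
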