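import Cfsg.Statements.S4665
import Cfsg.Agent.Lib.Helper7.All1
import Cfsg.Agent.Lib.Helper7.Brauer12
import Cfsg.Agent.Lib.Helper7.CharDeg
-- import your own Cfsg.Agent.* helpers here

set_option autoImplicit false
open Cfsg
open Cfsg.Agent.Lib.Helper7.CharBasic Cfsg.Agent.Lib.Helper7.CharIrr Cfsg.Agent.Lib.Helper7.CharDecomp Cfsg.Agent.Lib.Helper7.CharComplete Cfsg.Agent.Lib.Helper7.CharOrth Cfsg.Agent.Lib.Helper7.CharInd Cfsg.Agent.Lib.Helper7.CharIntegral Cfsg.Agent.Lib.Helper7.CharBurnside Cfsg.Agent.Lib.Helper7.CharLinear Cfsg.Agent.Lib.Helper7.CharEquiv Cfsg.Agent.Lib.Helper7.CharMore Cfsg.Agent.Lib.Helper7.CharCount Cfsg.Agent.Lib.Helper7.CharMisc Cfsg.Agent.Lib.Helper7.CharMisc2 Cfsg.Agent.Lib.Helper7.CharNormal Cfsg.Agent.Lib.Helper7.CharOdd Cfsg.Agent.Lib.Helper7.CharClifford Cfsg.Agent.Lib.Helper7.CharProd Cfsg.Agent.Lib.Helper7.CharPerm Cfsg.Agent.Lib.Helper7.CharClassAlg Cfsg.Agent.Lib.Helper7.CharClassAlg2 Cfsg.Agent.Lib.Helper7.CharCentral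 Cfsg.Agent.Lib.Helper7.CharNormal2 Cfsg.Agent.Lib.Helper7.CharCliffordCorr Cfsg.Agent.Lib.Helper7.Brauer12 Cfsg.Agent.Lib.Helper7.Brauer11 Cfsg.Agent.Lib.Helper7.CharDeg Cfsg.Agent.Lib.Helper7.CharGen
open scoped ComplexConjugate

namespace Cfsg.Agent.S4665

/-- Fix a prime p, a maximal ideal M of the algebraic integers containing p, and a p-block B of the finite group G, and let p^a be the p-part of the order of G. Let χ be an integer combination of the irreducible characters in B. If the function that agrees with χ on p-regular elements and vanishes on p-singular elements is again an integer combination of the irreducible characters in B, then p^a divides χ(1). -/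
theorem result {G : Type*} [Group G] [Fintype G] (p : ℕ) [Fact p.Prime] (M : Ideal Cfsg.AlgInt) (hM : Cfsg.IsPModular p M) (B : Set (Cfsg.IrrCharacter G)) (hB : Cfsg.IsPBlock M B) (χ : G → ℂ) (hχ : (∃ n : Cfsg.IrrCharacter G → ℤ, ∀ g : G, χ g = ∑ᶠ ψ ∈ B, (n ψ : ℂ) * (ψ : G → ℂ) g)) (h0 : (∃ n : Cfsg.IrrCharacter G → ℤ, ∀ g : G, Cfsg.pRegularPart p χ g = ∑ᶠ ψ ∈ B, (n ψ : ℂ) * (ψ : G → ℂ) g)) : ∃ k : ℤ, χ 1 = (p ^ (Nat.card G).factorization p : ℂ) * k := by
  classical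
  haveI := Fintype.ofFinite (IrrCharacter G)
  obtain ⟨n, hn⟩ := h0
  have hgen : IsGeneralizedCharacter G (Cfsg.pRegularPart p χ) := by
    have h1 : Cfsg.pRegularPart p χ = ∑ ψ ∈ B.toFinset, ((n ψ : ℤ) : ℂ) • (ψ : G → ℂ) := by
      funext g
      rw [hn g, finsum_mem_eq_toFinset_sum, Finset.sum_apply]
      refine Finset.sum_congr rfl fun ψ _ => ?_
      simp
    rw [h1]
    apply isGen_sum
    intro ψ _
    exact isGen_zsmul _ (isGen_of_isCharacter (IsIrrCharacter.isCharacter ψ.2))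
  obtain ⟨k, hk⟩ := dvd_degree_of_vanish p hgen (by
    intro g hg
    unfold Cfsg.pRegularPart
    rw [if_neg]
    exact fun h => h hg)
  refine ⟨k, ?_⟩
  have h1 : Cfsg.pRegularPart p χ 1 = χ 1 := by
    unfold Cfsg.pRegularPart
    rw [if_pos]
    unfold Cfsg.IsPRegular
    rw [orderOf_one]
    exact (Fact.out : p.Prime).one_lt.ne' ∘ Nat.dvd_one.mp
  rw [← h1, hk]
  push_cast
  rfl

end Cfsg.Agent.S4665
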