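import Cfsg.Statements.S4666
import Cfsg.Agent.Lib.Helper7.All1
import Cfsg.Agent.Lib.Helper7.BSpan1
-- import your own Cfsg.Agent.* helpers here

set_option autoImplicit false
open Cfsg
open Cfsg.Agent.Lib.Helper7.CharBasic Cfsg.Agent.Lib.Helper7.CharIrr Cfsg.Agent.Lib.Helper7.CharDecomp Cfsg.Agent.Lib.Helper7.CharComplete Cfsg.Agent.Lib.Helper7.CharOrth Cfsg.Agent.Lib.Helper7.CharInd Cfsg.Agent.Lib.Helper7.CharIntegral Cfsg.Agent.Lib.Helper7.CharBurnside Cfsg.Agent.Lib.Helper7.CharLinear Cfsg.Agent.Lib.Helper7.CharEquiv Cfsg.Agent.Lib.Helper7.CharMore Cfsg.Agent.Lib.Helper7.CharCount Cfsg.Agent.Lib.Helper7.CharMisc Cfsg.Agent.Lib.Helper7.CharMisc2 Cfsg.Agent.Lib.Helper7.CharNormal Cfsg.Agent.Lib.Helper7.CharOdd Cfsg.Agent.Lib.Helper7.CharClifford Cfsg.Agent.Lib.Helper7.CharProd Cfsg.Agent.Lib.Helper7.CharPerm Cfsg.Agent.Lib.Helper7.CharClassAlg Cfsg.Agent.Lib.Helper7.CharClassAlg2 Cfsg.Agent.Lib.Helper7.CharCentral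 Cfsg.Agent.Lib.Helper7.CharNormal2 Cfsg.Agent.Lib.Helper7.CharCliffordCorr
open scoped ComplexConjugate

namespace Cfsg.Agent.S4666

/-- Fix a prime p and a maximal ideal M of the algebraic integers containing p, and a p-block B of the finite group G of defect d. For every integer combination χ of the irreducible characters in B, p^d times the function that agrees with χ on p-regular elements and vanishes elsewhere is again an integer combination of the irreducible characters in B. -/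
theorem result {G : Type*} [Group G] [Fintype G] (p : ℕ) [Fact p.Prime] (M : Ideal Cfsg.AlgInt) (hM : Cfsg.IsPModular p M) (B : Set (Cfsg.IrrCharacter G)) (hB : Cfsg.IsPBlock M B) (χ : G → ℂ) (hχ : (∃ n : Cfsg.IrrCharacter G → ℤ, ∀ g : G, χ g = ∑ᶠ ψ ∈ B, (n ψ : ℂ) * (ψ : G → ℂ) g)) : (∃ n : Cfsg.IrrCharacter G → ℤ, ∀ g : G, (p ^ Cfsg.blockDefect p B : ℂ) * Cfsg.pRegularPart p χ g = ∑ᶠ ψ ∈ B, (n ψ : ℂ) * (ψ : G → ℂ) g) := by
  classical
  haveI := Fintype.ofFinite (IrrCharacter G)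
  have hp : p.Prime := hM.1
  obtain ⟨n, hn⟩ := hχ
  have key : ∀ ψ : IrrCharacter G, ψ ∈ B → ∃ a : IrrCharacter G → ℤ, (∀ θ, θ ∉ B → a θ = 0) ∧
      ((p ^ blockDefect p B : ℕ) : ℂ) • Cfsg.Agent.Lib.Helper7.Brauer11.pReg p (ψ : G → ℂ) =
        ∑ θ : IrrCharacter G, (a θ : ℂ) • (θ : G → ℂ) := by
    intro ψ hψ
    apply Cfsg.Agent.Lib.Helper7.BSpan1.gen_pReg_eq_sum hM hB hψ
    obtain ⟨m, ρ, hirr, hρ⟩ := ψ.2
    haveI := hirr
    have h1m : (ψ : G → ℂ) 1 = m := by rw [← hρ, Representation.char_one]; simp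
    have hdeg : charDegree (ψ : G → ℂ) = m := Cfsg.Agent.Lib.Helper7.CharDeg.charDegree_of_eq h1m
    have h := Cfsg.Agent.Lib.Helper7.Brauer12.isGen_pow_sub_smul_pReg p hp ρ
    rw [hρ] at h
    have hle : (Nat.card G).factorization p - m.factorization p ≤ blockDefect p B := by
      unfold blockDefect
      apply Nat.sub_le_sub_left
      rw [← hdeg]
      exact Nat.sInf_le (Set.mem_image_of_mem _ hψ)
    obtain ⟨k, hk⟩ := Nat.exists_eq_add_of_le hle
    have := Cfsg.Agent.Lib.Helper7.CharGen.isGen_nsmul (p ^ k) h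
    convert this using 1
    rw [hk, pow_add]
    funext x
    simp only [Pi.smul_apply, smul_eq_mul, nsmul_eq_mul]
    push_cast
    ring
  choose! a ha0 ha using key
  set S := (Set.toFinite B).toFinset with hS
  have hmem : ∀ ψ, ψ ∈ S ↔ ψ ∈ B := fun ψ => Set.Finite.mem_toFinset _
  refine ⟨fun θ => ∑ ψ ∈ S, n ψ * a ψ θ, ?_⟩
  intro g
  rw [finsum_mem_eq_finite_toFinset_sum _ (Set.toFinite B)]
  have e1 : pRegularPart p χ g =
      ∑ ψ ∈ S, (n ψ : ℂ) * Cfsg.Agent.Lib.Helper7.Brauer11.pReg p (ψ : G → ℂ) g := by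
    rw [Cfsg.Agent.Lib.Helper7.BPair2.pRegularPart_apply]
    unfold IsPRegular Cfsg.Agent.Lib.Helper7.Brauer11.pReg
    by_cases hg : p ∣ orderOf g
    · simp [hg]
    · simp only [hg, not_false_eq_true, if_true, if_false]
      rw [hn g, finsum_mem_eq_finite_toFinset_sum _ (Set.toFinite B)]
  rw [e1, Finset.mul_sum]
  have e2 : ∀ ψ ∈ S, (p ^ blockDefect p B : ℂ) *
      ((n ψ : ℂ) * Cfsg.Agent.Lib.Helper7.Brauer11.pReg p (ψ : G → ℂ) g) =
      ∑ θ ∈ S, (n ψ : ℂ) * (a ψ θ : ℂ) * (θ : G → ℂ) g := by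
    intro ψ hψ
    have h1 := congrFun (ha ψ ((hmem ψ).mp hψ)) g
    simp only [Pi.smul_apply, Finset.sum_apply, smul_eq_mul] at h1
    have h2 : ∑ θ : IrrCharacter G, (a ψ θ : ℂ) * (θ : G → ℂ) g =
        ∑ θ ∈ S, (a ψ θ : ℂ) * (θ : G → ℂ) g := by
      symm
      apply Finset.sum_subset (Finset.subset_univ _)
      intro θ _ hθ
      rw [ha0 ψ ((hmem ψ).mp hψ) θ (fun h => hθ ((hmem θ).mpr h))]
      simp
    rw [h2] at h1
    push_cast at h1
    calc (p ^ blockDefect p B : ℂ) *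
      ((n ψ : ℂ) * Cfsg.Agent.Lib.Helper7.Brauer11.pReg p (ψ : G → ℂ) g)
        = (n ψ : ℂ) * ((p ^ blockDefect p B : ℂ) *
          Cfsg.Agent.Lib.Helper7.Brauer11.pReg p (ψ : G → ℂ) g) := by ring
      _ = _ := by
        rw [h1, Finset.mul_sum]
        apply Finset.sum_congr rfl
        intro θ _
        ring
  rw [Finset.sum_congr rfl e2, Finset.sum_comm]
  apply Finset.sum_congr rfl
  intro θ _
  push_cast
  rw [Finset.sum_mul]

end Cfsg.Agent.S4666
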