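import Mathlib
import Cfsg.Statements.S4668
import Mathlib
import Cfsg.Agent.Lib.Helper2.BlockMisc
import Cfsg.Agent.Lib.Helper2.BlockOrth
import Cfsg.Agent.Lib.Helper6.PAct

set_option autoImplicit false
open Cfsg

namespace Cfsg.Agent.S4668

/-- Fix a prime p and a maximal ideal M of the algebraic integers containing p. Let Q₀ < Q₁ < ⋯ < Q_m be a strictly increasing chain of p-subgroups of the finite group G and N the intersection of their normalizers. Then every block idempotent of N is supported on C_G(Q_m): for every p-block E of N, the idempotent coefficient of E vanishes at every element of N outside C_G(Q_m). -/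
theorem result {G : Type*} [Group G] [Fintype G] (p : ℕ) [Fact p.Prime] (M : Ideal Cfsg.AlgInt) (hM : Cfsg.IsPModular p M) (m : ℕ) (Q : Fin (m + 1) → Subgroup G) (hQ : StrictMono Q) (hQp : ∀ i, IsPGroup p (Q i)) (N : Subgroup G) (hN : ∀ g : G, g ∈ N ↔ ∀ i, g ∈ Subgroup.normalizer (Q i : Set G)) (E : Set (Cfsg.IrrCharacter N)) (hE : Cfsg.IsPBlock M E) (n : N) (hn : (n : G) ∉ Subgroup.centralizer (Q (Fin.last m) : Set G)) : Cfsg.blockCoeff E n = 0 := by
  classical
  haveI := hM.2.1.isPrime
  by_contra hne
  have hreg : ¬ p ∣ orderOf n := fun h => hne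
    (Cfsg.Agent.Lib.Helper2.BlockOrth.blockCoeff_eq_zero hM E
      (Cfsg.Agent.Lib.Helper2.BlockZ.block_closed hE) n h)
  have hreg' : (orderOf (n : G)).Coprime p := by
    rw [Subgroup.orderOf_coe]
    exact ((Nat.Prime.coprime_iff_not_dvd (Fact.out : p.Prime)).mpr hreg).symm
  have hNle : ∀ i, N ≤ Subgroup.normalizer (Q i : Set G) := fun i g hg => (hN g).mp hg i
  haveI hRn : ((Q (Fin.last m)).subgroupOf N).Normal :=
    Subgroup.normal_subgroupOf_of_le_normalizer (hNle _)
  have hRp : IsPGroup p ((Q (Fin.last m)).subgroupOf N) := (hQp _).comap_subtype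
  have hcent : n ∈ Subgroup.centralizer (((Q (Fin.last m)).subgroupOf N : Subgroup N) : Set N) := by
    by_contra hc
    exact hne (Cfsg.Agent.Lib.Helper2.BlockMisc.blockCoeff_eq_zero_of_notMem_centralizer hM _ hRp
      hE n hc)
  have hcomm : ∀ q : G, q ∈ Q (Fin.last m) → q ∈ N → q * (n : G) = (n : G) * q := by
    intro q hq hqN
    have h1 := Subgroup.mem_centralizer_iff.mp hcent ⟨q, hqN⟩ (Subgroup.mem_subgroupOf.mpr hq)
    exact congrArg Subtype.val h1
  have hmono := hQ.monotone
  have key : ∀ i : Fin (m + 1), (n : G) ∈ Subgroup.centralizer (Q i : Set G) := by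
    intro i
    induction i using Fin.induction with
    | zero =>
      rw [Subgroup.mem_centralizer_iff]
      intro q hq
      apply hcomm q (hmono (Fin.zero_le _) hq)
      rw [hN]
      intro j
      exact Subgroup.le_normalizer (hmono (Fin.zero_le j) hq)
    | succ i ih =>
      apply Cfsg.Agent.Lib.Helper6.PAct.thompson_AxB (p := p) (R := Q i.succ) (B := Q i.castSucc)
        (hQp _) (hQp _)
        ((hmono (le_of_lt (Fin.castSucc_lt_succ))).trans Subgroup.le_normalizer)
        (hNle _ n.2) ih hreg'
      rw [Subgroup.mem_centralizer_iff]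
      intro r hr
      have hr1 : r ∈ Q i.succ := hr.1
      have hr2 : r ∈ Subgroup.centralizer (Q i.castSucc : Set G) := hr.2
      apply hcomm r (hmono (Fin.le_last _) hr1)
      rw [hN]
      intro j
      rcases lt_or_ge j i.succ with hj | hj
      · have hj' : j ≤ i.castSucc := Fin.le_castSucc_iff.mpr hj
        have h3 : r ∈ Subgroup.centralizer (Q j : Set G) :=
          Subgroup.centralizer_le (hmono hj') hr2
        rw [Subgroup.mem_normalizer_iff]
        intro h
        constructor
        · intro hh
          have h4 := Subgroup.mem_centralizer_iff.mp h3 h hh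
          have h5 : r * h * r⁻¹ = h := by rw [← h4]; group
          rw [h5]; exact hh
        · intro hh
          have h4 := Subgroup.mem_centralizer_iff.mp h3 _ hh
          have h5 : r * h * r⁻¹ = h := by
            have h6 : r * h = r * (r * h * r⁻¹) := by rw [← h4]; group
            exact (mul_left_cancel h6).symm
          rw [← h5]; exact hh
      · exact Subgroup.le_normalizer (hmono hj hr1)
  exact hn (key _)

end Cfsg.Agent.S4668
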