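import Cfsg.Statements.S4681
import Cfsg.Agent.Lib.Helper7.All1
import Cfsg.Agent.Lib.Helper7.BPair4
import Cfsg.Agent.S4663
-- import your own Cfsg.Agent.* helpers here

set_option autoImplicit false
open Cfsg
open Cfsg.Agent.Lib.Helper7.CharBasic Cfsg.Agent.Lib.Helper7.CharIrr Cfsg.Agent.Lib.Helper7.CharDecomp Cfsg.Agent.Lib.Helper7.CharComplete Cfsg.Agent.Lib.Helper7.CharOrth Cfsg.Agent.Lib.Helper7.CharInd Cfsg.Agent.Lib.Helper7.CharIntegral Cfsg.Agent.Lib.Helper7.CharBurnside Cfsg.Agent.Lib.Helper7.CharLinear Cfsg.Agent.Lib.Helper7.CharEquiv Cfsg.Agent.Lib.Helper7.CharMore Cfsg.Agent.Lib.Helper7.CharCount Cfsg.Agent.Lib.Helper7.CharMisc Cfsg.Agent.Lib.Helper7.CharMisc2 Cfsg.Agent.Lib.Helper7.CharNormal Cfsg.Agent.Lib.Helper7.CharOdd Cfsg.Agent.Lib.Helper7.CharClifford Cfsg.Agent.Lib.Helper7.CharProd Cfsg.Agent.Lib.Helper7.CharPerm Cfsg.Agent.Lib.Helper7.CharClassAlg Cfsg.Agent.Lib.Helper7.CharClassAlg2 Cfsg.Agent.Lib.Helper7.CharCentral Cfsg.Agent.Lib.Helper7.CharNormal2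 Cfsg.Agent.Lib.Helper7.CharCliffordCorr
open scoped ComplexConjugate

namespace Cfsg.Agent.S4681

/-- Fix a prime p and a maximal ideal M of the algebraic integers containing p. Let B₀ be the principal p-block of the finite group G, P a Sylow p-subgroup and e₀ the principal p-block of C_G(P). Then (P, e₀) is a maximal Brauer pair of B₀, and the fusion system of B₀ on (P, e₀) is the fusion system of G on P: its maps from each subgroup of P are exactly the conjugation maps into P by elements of G. -/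
theorem result {G : Type*} [Group G] [Fintype G] (p : ℕ) [Fact p.Prime] (M : Ideal Cfsg.AlgInt) (hM : Cfsg.IsPModular p M) (S : Sylow p G) : Cfsg.IsMaximalBrauerPair p M (Cfsg.principalBlock M G) (S : Subgroup G) (Cfsg.principalBlock M (Subgroup.centralizer ((S : Subgroup G) : Set G))) ∧ ∀ F : Cfsg.FusionSystem (S : Subgroup G), Cfsg.IsBlockFusionSystemOn p M (Cfsg.principalBlock M G) (S : Subgroup G) (Cfsg.principalBlock M (Subgroup.centralizer ((S : Subgroup G) : Set G))) F → ∀ Q : Subgroup G, F.Hom Q = (Cfsg.groupFusionSystem (S : Subgroup G)).Hom Q := by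
  classical
  haveI := hM.2.1.isPrime
  refine ⟨⟨(Cfsg.Agent.S4663.result p M hM (S : Subgroup G) S.2 _
    (Cfsg.Agent.Lib.Helper7.BPair2.principal_isPBlock M)).mpr rfl, ?_⟩, ?_⟩
  · intro R g hR hle
    exact S.is_maximal' hR.1.1 (Cfsg.Agent.Lib.Helper7.BPair4.le_of_subpairLE hle)
  · intro F hF Q
    ext φ
    rw [hF.2 Q φ]
    constructor
    · rintro ⟨hQ, g, hg, hmap, -⟩
      refine ⟨hQ, fun x => ?_, g, hg⟩
      rw [hg]
      exact hmap (Subgroup.mem_map.mpr ⟨x, x.2, by simp⟩)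
    · rintro ⟨hQ, hS, g, hg⟩
      have hmap : Q.map (MulAut.conj g).toMonoidHom ≤ (S : Subgroup G) := by
        rintro _ ⟨x, hx, rfl⟩
        have h1 := hS ⟨x, hx⟩
        rw [hg] at h1
        simpa using h1
      refine ⟨hQ, g, hg, hmap, principalBlock M (Subgroup.centralizer (Q : Set G)),
        Cfsg.Agent.Lib.Helper7.BPair4.subpairLE_principal hM S.2 Q hQ, ?_⟩
      rw [Cfsg.Agent.Lib.Helper7.BPair4.conjBlock_principal]
      exact Cfsg.Agent.Lib.Helper7.BPair4.subpairLE_principal hM S.2 _ hmap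

end Cfsg.Agent.S4681
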