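import Cfsg.Statements.S4691
import Cfsg.Agent.Lib.Helper7.All1
import Cfsg.Agent.Lib.Helper7.BPair2
import Cfsg.Agent.S4663
import Cfsg.Agent.S0071
-- import your own Cfsg.Agent.* helpers here

set_option autoImplicit false
open Cfsg
open Cfsg.Agent.Lib.Helper7.CharBasic Cfsg.Agent.Lib.Helper7.CharIrr Cfsg.Agent.Lib.Helper7.CharDecomp Cfsg.Agent.Lib.Helper7.CharComplete Cfsg.Agent.Lib.Helper7.CharOrth Cfsg.Agent.Lib.Helper7.CharInd Cfsg.Agent.Lib.Helper7.CharIntegral Cfsg.Agent.Lib.Helper7.CharBurnside Cfsg.Agent.Lib.Helper7.CharLinear Cfsg.Agent.Lib.Helper7.CharEquiv Cfsg.Agent.Lib.Helper7.CharMore Cfsg.Agent.Lib.Helper7.CharCount Cfsg.Agent.Lib.Helper7.CharMisc Cfsg.Agent.Lib.Helper7.CharMisc2 Cfsg.Agent.Lib.Helper7.CharNormal Cfsg.Agent.Lib.Helper7.CharOdd Cfsg.Agent.Lib.Helper7.CharClifford Cfsg.Agent.Lib.Helper7.CharProd Cfsg.Agent.Lib.Helper7.CharPerm Cfsg.Agent.Lib.Helper7.CharClassAlg Cfsg.Agent.Lib.Helper7.CharClassAlg2 Cfsg.Agent.Lib.Helper7.CharCentral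 Cfsg.Agent.Lib.Helper7.CharNormal2 Cfsg.Agent.Lib.Helper7.CharCliffordCorr
open scoped ComplexConjugate

namespace Cfsg.Agent.S4691

/-- Fix a prime p and a maximal ideal M of the algebraic integers containing p. A finite group G has a normal p-complement if and only if its principal p-block is nilpotent. -/
theorem result {G : Type*} [Group G] [Fintype G] (p : ℕ) [Fact p.Prime] (M : Ideal Cfsg.AlgInt) (hM : Cfsg.IsPModular p M) : Cfsg.HasNormalPComplement p G ↔ Cfsg.IsNilpotentBlock p M (Cfsg.principalBlock M G) := by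
  classical
  haveI := hM.2.1.isPrime
  have hp : p.Prime := hM.1
  constructor
  · rintro ⟨P, K, hKn, hc⟩
    refine ⟨Cfsg.Agent.Lib.Helper7.BPair2.principal_isPBlock M, ?_⟩
    intro Q e hQe x hx _ hxreg
    haveI := hKn
    have hidx : ∃ k, K.index = p ^ k := by
      rw [hc.symm.index_eq_card]
      exact IsPGroup.iff_card.mp P.2
    have hKp : ¬ p ∣ Nat.card K := by
      rw [← hc.index_eq_card]
      exact P.not_dvd_index
    have hxK : x ∈ K := Cfsg.Agent.Lib.Helper2.BlockKer.mem_of_preg hp K hidx x hxreg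
    rw [Subgroup.mem_centralizer_iff]
    intro q hq
    have hzQ : x * q * x⁻¹ * q⁻¹ ∈ Q :=
      Q.mul_mem ((Subgroup.mem_normalizer_iff.mp hx q).mp hq) (Q.inv_mem hq)
    have hzK : x * q * x⁻¹ * q⁻¹ ∈ K := by
      have : x * q * x⁻¹ * q⁻¹ = x * (q * x⁻¹ * q⁻¹) := by group
      rw [this]
      exact K.mul_mem hxK (hKn.conj_mem _ (K.inv_mem hxK) q)
    obtain ⟨n, hn⟩ := IsPGroup.iff_card.mp hQe.1.1
    have hdisj : Disjoint Q K := by
      apply Subgroup.disjoint_of_coprime_natCard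
      rw [hn]
      exact Nat.Coprime.pow_left n ((Nat.Prime.coprime_iff_not_dvd hp).mpr hKp)
    have hz := Subgroup.disjoint_def.mp hdisj hzQ hzK
    have h1 := mul_inv_eq_one.mp hz
    exact (mul_inv_eq_iff_eq_mul.mp h1).symm
  · intro hnil
    obtain ⟨P⟩ : Nonempty (Sylow p G) := inferInstance
    have hF := (Cfsg.Agent.S0071.result P).mpr (by
      intro Q hQ g hg hcop
      have hQp : IsPGroup p Q := P.2.to_le hQ
      exact hnil.2 Q (principalBlock M (Subgroup.centralizer (Q : Set G)))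
        ((Cfsg.Agent.S4663.result p M hM Q hQp _
          (Cfsg.Agent.Lib.Helper7.BPair2.principal_isPBlock M)).mpr rfl) g hg
        (Cfsg.Agent.Lib.Helper7.BPair2.stabilizes_principal _ g
          (Cfsg.Agent.Lib.Helper7.BPair2.mem_normalizer_centralizer hg))
        ((Nat.Prime.coprime_iff_not_dvd hp).mp hcop.symm))
    obtain ⟨N, hN, hc⟩ := hF
    exact ⟨P, N, hN, hc⟩

end Cfsg.Agent.S4691
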