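import Cfsg.Statements.S4713
import Cfsg.Agent.Lib.Helper7.All1
import Cfsg.Agent.Lib.Helper7.Ito1
-- import your own Cfsg.Agent.* helpers here

set_option autoImplicit false
open Cfsg
open Cfsg.Agent.Lib.Helper7.CharBasic Cfsg.Agent.Lib.Helper7.CharIrr Cfsg.Agent.Lib.Helper7.CharDecomp Cfsg.Agent.Lib.Helper7.CharComplete Cfsg.Agent.Lib.Helper7.CharOrth Cfsg.Agent.Lib.Helper7.CharInd Cfsg.Agent.Lib.Helper7.CharIntegral Cfsg.Agent.Lib.Helper7.CharBurnside Cfsg.Agent.Lib.Helper7.CharLinear Cfsg.Agent.Lib.Helper7.CharEquiv Cfsg.Agent.Lib.Helper7.CharMore Cfsg.Agent.Lib.Helper7.CharCount Cfsg.Agent.Lib.Helper7.CharMisc Cfsg.Agent.Lib.Helper7.CharMisc2 Cfsg.Agent.Lib.Helper7.CharNormal Cfsg.Agent.Lib.Helper7.CharOdd Cfsg.Agent.Lib.Helper7.CharClifford Cfsg.Agent.Lib.Helper7.CharProd Cfsg.Agent.Lib.Helper7.CharPerm Cfsg.Agent.Lib.Helper7.CharClassAlg Cfsg.Agent.Lib.Helper7.CharClassAlg2 Cfsg.Agent.Lib.Helper7.CharCentral Cfsg.Agent.Lib.Helper7.CharNormal2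 Cfsg.Agent.Lib.Helper7.CharCliffordCorr Cfsg.Agent.Lib.Helper7.Ito1
open scoped ComplexConjugate

namespace Cfsg.Agent.S4713

/-- Let p be a prime and G a finite p-solvable group. Then G has a normal abelian Sylow p-subgroup if and only if the degree of every irreducible character of G is prime to p. -/
theorem result {G : Type*} [Group G] [Finite G] (p : ℕ) [Fact p.Prime] (hsolv : Cfsg.IsPSolvable p G) (P : Sylow p G) : ((P : Subgroup G).Normal ∧ IsMulCommutative P) ↔ ∀ χ : Cfsg.IrrCharacter G, ¬ p ∣ Cfsg.charDegree (χ : G → ℂ) := by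
  constructor
  · rintro ⟨hn, hc⟩ χ
    exact not_dvd_of_normal_comm (P : Subgroup G) hn
      (fun a ha b hb => congrArg Subtype.val (hc.is_comm.comm ⟨a, ha⟩ ⟨b, hb⟩)) P.not_dvd_index χ
  · intro hdeg
    obtain ⟨Q, hQn, hQp, hQi⟩ := exists_normal_sylow (p := p) (fun G _ => Cfsg.IsPSolvable p G)
      (fun G _ N _ h => psolv_of_surjective (Fact.out) (QuotientGroup.mk' N)
        (QuotientGroup.mk'_surjective N) h)
      (fun G _ _ _ h => psolv_exists_normal h) _ G rfl hsolv hdeg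
    haveI := hQn
    have h1 : Q ≤ P := hQp.le_sylow_of_normal P
    have h2 : (P : Subgroup G) = Q := (hQp.toSylow hQi).is_maximal' P.isPGroup' h1
    have hc := sylow_normal_comm hdeg Q hQn hQp
    rw [h2]
    exact ⟨hQn, ⟨⟨fun a b => Subtype.ext (hc a a.2 b b.2)⟩⟩⟩

end Cfsg.Agent.S4713
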