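import Cfsg.Statements.S4717
import Cfsg.Agent.Lib.Helper7.All1
import Cfsg.Agent.Lib.Helper7.BInd2
import Cfsg.Agent.Lib.Helper2.BlockSM5
-- import your own Cfsg.Agent.* helpers here

set_option autoImplicit false
open Cfsg
open Cfsg.Agent.Lib.Helper7.CharBasic Cfsg.Agent.Lib.Helper7.CharIrr Cfsg.Agent.Lib.Helper7.CharDecomp Cfsg.Agent.Lib.Helper7.CharComplete Cfsg.Agent.Lib.Helper7.CharOrth Cfsg.Agent.Lib.Helper7.CharInd Cfsg.Agent.Lib.Helper7.CharIntegral Cfsg.Agent.Lib.Helper7.CharBurnside Cfsg.Agent.Lib.Helper7.CharLinear Cfsg.Agent.Lib.Helper7.CharEquiv Cfsg.Agent.Lib.Helper7.CharMore Cfsg.Agent.Lib.Helper7.CharCount Cfsg.Agent.Lib.Helper7.CharMisc Cfsg.Agent.Lib.Helper7.CharMisc2 Cfsg.Agent.Lib.Helper7.CharNormal Cfsg.Agent.Lib.Helper7.CharOdd Cfsg.Agent.Lib.Helper7.CharClifford Cfsg.Agent.Lib.Helper7.CharProd Cfsg.Agent.Lib.Helper7.CharPerm Cfsg.Agent.Lib.Helper7.CharClassAlg Cfsg.Agent.Lib.Helper7.CharClassAlg2 Cfsg.Agent.Lib.Helper7.CharCentral Cfsg.Agent.Lib.Helper7.CharNormal2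 Cfsg.Agent.Lib.Helper7.CharCliffordCorr
open scoped ComplexConjugate

namespace Cfsg.Agent.S4717

/-- Let p be a prime, M a maximal ideal of the algebraic integers containing p, and r a natural number; say that a finite group X has deficiency class r when X has no non-principal p-block of defect ≥ r. If G has deficiency class r then so does the centralizer of every p-element of G; conversely, if r > 0 and the centralizer of every element of order p has deficiency class r, then G has deficiency class r. -/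
theorem result {G : Type*} [Group G] [Finite G] (p : ℕ) [Fact p.Prime] (M : Ideal Cfsg.AlgInt) (hM : Cfsg.IsPModular p M) (r : ℕ) : ((∀ B' : Set (Cfsg.IrrCharacter G), Cfsg.IsPBlock M B' → B' ≠ Cfsg.principalBlock M G → Cfsg.blockDefect p B' < r) → ∀ y : G, (∃ k : ℕ, orderOf y = p ^ k) → (∀ B' : Set (Cfsg.IrrCharacter ↥(Subgroup.centralizer ({y} : Set G))), Cfsg.IsPBlock M B' → B' ≠ Cfsg.principalBlock M ↥(Subgroup.centralizer ({y} : Set G)) → Cfsg.blockDefect p B' < r)) ∧ (0 < r → (∀ y : G, orderOf y = p → (∀ B' : Set (Cfsg.IrrCharacter ↥(Subgroup.centralizer ({y} : Set G))), Cfsg.IsPBlock M B' → B' ≠ Cfsg.principalBlock M ↥(Subgroup.centralizer ({y} : Set G)) → Cfsg.blockDefect p B' < r)) → (∀ B' : Set (Cfsg.IrrCharacter G), Cfsg.IsPBlock M B' → B' ≠ Cfsg.principalBlock M G → Cfsg.blockDefect p B' < r)) := by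
  classical
  have := Fintype.ofFinite G
  haveI := hM.2.1.isPrime
  constructor
  · intro hG y hy b hb hbne
    obtain ⟨B, hB⟩ := Cfsg.Agent.Lib.Helper2.BlockSM5.exists_induced_centralizer hM y hy hb
    have hBne : B ≠ principalBlock M G := by
      rintro rfl
      exact hbne ((Cfsg.Agent.S0936.result p M hM _ b ⟨_, hB⟩).mp hB)
    exact lt_of_le_of_lt (Cfsg.Agent.Lib.Helper7.BInd1.defect_le_of_induced hM hB)
      (hG B hB.2.1 hBne)
  · intro hr hloc B hB hBne
    by_contra hcon
    rw [not_lt] at hcon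
    obtain ⟨D, hD⟩ := Cfsg.Agent.Lib.Helper7.BInd1.exists_defectGroup hM hB
    have hcard := Cfsg.Agent.Lib.Helper2.BlockSub.card_defectGroup hM hB hD
    have hne : Nat.card D ≠ 1 := by
      rw [hcard]
      intro h
      have h0 : blockDefect p B ≠ 0 := by omega
      exact absurd h (Nat.one_lt_pow h0 hM.1.one_lt).ne'
    obtain ⟨y, hyD, hyo, hyc⟩ := Cfsg.Agent.Lib.Helper7.BInd1.exists_central_order_p
      (Cfsg.Agent.Lib.Helper7.BInd1.isPGroup_defectGroup hD) hne
    have hH : D ⊔ Subgroup.centralizer (D : Set G) ≤ Subgroup.centralizer ({y} : Set G) := by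
      apply sup_le
      · intro q hq
        rw [Subgroup.mem_centralizer_singleton_iff]
        exact hyc q hq
      · intro c hc
        rw [Subgroup.mem_centralizer_singleton_iff]
        exact (Subgroup.mem_centralizer_iff.mp hc y hyD).symm
    obtain ⟨b, hb, hle⟩ := Cfsg.Agent.Lib.Helper7.BInd2.exists_induced_ge hM hB hD _ hH
    have hbne : b ≠ principalBlock M (Subgroup.centralizer ({y} : Set G)) := by
      rintro rfl
      have h1 := (Cfsg.Agent.S0936.result p M hM _ _ ⟨_, hb⟩).mpr rfl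
      exact hBne (Cfsg.Agent.Lib.Helper7.BInd1.induced_unique hb h1)
    have := hloc y hyo b hb.1 hbne
    omega

end Cfsg.Agent.S4717
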