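import Cfsg.Statements.S4718
import Cfsg.Agent.Lib.Helper7.All1
import Cfsg.Agent.Lib.Helper7.Landau1
import Cfsg.Agent.Lib.Helper7.BCount1
import Cfsg.Agent.Lib.Helper2.BlockKul
-- import your own Cfsg.Agent.* helpers here

set_option autoImplicit false
universe u
open Cfsg
open Cfsg.Agent.Lib.Helper7.CharBasic Cfsg.Agent.Lib.Helper7.CharIrr Cfsg.Agent.Lib.Helper7.CharDecomp Cfsg.Agent.Lib.Helper7.CharComplete Cfsg.Agent.Lib.Helper7.CharOrth Cfsg.Agent.Lib.Helper7.CharInd Cfsg.Agent.Lib.Helper7.CharIntegral Cfsg.Agent.Lib.Helper7.CharBurnside Cfsg.Agent.Lib.Helper7.CharLinear Cfsg.Agent.Lib.Helper7.CharEquiv Cfsg.Agent.Lib.Helper7.CharMore Cfsg.Agent.Lib.Helper7.CharCount Cfsg.Agent.Lib.Helper7.CharMisc Cfsg.Agent.Lib.Helper7.CharMisc2 Cfsg.Agent.Lib.Helper7.CharNormal Cfsg.Agent.Lib.Helper7.CharOdd Cfsg.Agent.Lib.Helper7.CharClifford Cfsg.Agent.Lib.Helper7.CharProd Cfsg.Agent.Lib.Helper7.CharPerm Cfsg.Agent.Lib.Helper7.CharClassAlg Cfsg.Agent.Lib.Helper7.CharClassAlg2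 Cfsg.Agent.Lib.Helper7.CharCentral Cfsg.Agent.Lib.Helper7.CharNormal2 Cfsg.Agent.Lib.Helper7.CharCliffordCorr
open scoped ComplexConjugate

namespace Cfsg.Agent.S4718

/-- Let p be a prime and a a natural number. There is a bound N such that every finite group whose Sylow p-subgroups have order p^a and whose only p-block (relative to a maximal ideal of the algebraic integers containing p) is the principal block has order at most N. -/
theorem result (p : ℕ) [Fact p.Prime] (a : ℕ) : ∃ N : ℕ, ∀ (G : Type u) [Group G] [Finite G] (M : Ideal Cfsg.AlgInt), Cfsg.IsPModular p M → (Nat.card G).factorization p = a → (∀ B : Set (Cfsg.IrrCharacter G), Cfsg.IsPBlock M B → B = Cfsg.principalBlock M G) → Nat.card G ≤ N := by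
  classical
  obtain ⟨N, hN⟩ := Cfsg.Agent.Lib.Helper7.Landau1.landau.{u} (p ^ (2 * a))
  refine ⟨N, ?_⟩
  intro G _ _ M hM ha hB
  haveI := Fintype.ofFinite G
  haveI := hM.2.1.isPrime
  apply hN G
  rw [← Cfsg.Agent.Lib.Helper7.CharOrth.card_irr, ← ha]
  have h1 := Cfsg.Agent.Lib.Helper7.BCount1.card_block_le hM
    (Cfsg.Agent.Lib.Helper7.BPair2.principal_isPBlock (G := G) M)
    (Cfsg.Agent.Lib.Helper7.BPair2.one_mem_principal (G := G) M)
    (Cfsg.Agent.Lib.Helper2.BlockKul.height_one p _)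
  have h2 : principalBlock M G = Set.univ := by
    rw [Set.eq_univ_iff_forall]
    intro χ
    rw [← hB (blockOf M (χ : G → ℂ)) ⟨χ, rfl⟩]
    exact Cfsg.Agent.Lib.Helper2.BlockZ.sameBlock_refl (M := M) _
  rw [h2, Nat.card_congr (Equiv.Set.univ _)] at h1
  exact h1

end Cfsg.Agent.S4718
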