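import Cfsg.Statements.S4965
import Cfsg.Agent.Lib.Helper7.All1
-- import your own Cfsg.Agent.* helpers here

set_option autoImplicit false
open Cfsg
open Cfsg.Agent.Lib.Helper7.CharBasic Cfsg.Agent.Lib.Helper7.CharIrr Cfsg.Agent.Lib.Helper7.CharDecomp Cfsg.Agent.Lib.Helper7.CharComplete Cfsg.Agent.Lib.Helper7.CharOrth Cfsg.Agent.Lib.Helper7.CharInd Cfsg.Agent.Lib.Helper7.CharIntegral Cfsg.Agent.Lib.Helper7.CharBurnside Cfsg.Agent.Lib.Helper7.CharLinear Cfsg.Agent.Lib.Helper7.CharEquiv Cfsg.Agent.Lib.Helper7.CharMore Cfsg.Agent.Lib.Helper7.CharCount Cfsg.Agent.Lib.Helper7.CharMisc Cfsg.Agent.Lib.Helper7.CharMisc2 Cfsg.Agent.Lib.Helper7.CharNormal Cfsg.Agent.Lib.Helper7.CharOdd Cfsg.Agent.Lib.Helper7.CharClifford Cfsg.Agent.Lib.Helper7.CharProd Cfsg.Agent.Lib.Helper7.CharPerm Cfsg.Agent.Lib.Helper7.CharClassAlg Cfsg.Agent.Lib.Helper7.CharClassAlg2 Cfsg.Agent.Lib.Helper7.CharCentral Cfsg.Agent.Lib.Helper7.CharNormal2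 Cfsg.Agent.Lib.Helper7.CharCliffordCorr
open scoped ComplexConjugate

namespace Cfsg.Agent.S4965

/-- Let X be a finite group with an abelian normal subgroup V (any two elements of V commute), and let φ be the action of X ⧸ V on V induced by conjugation (well defined because V is abelian; the hypothesis hφ says that the class of x acts as conjugation by x). Then X has at most as many conjugacy classes as the semidirect product of V by X ⧸ V formed with this action: the split extension has the largest class number among extensions with the given action. -/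
theorem result {X : Type*} [Group X] [Finite X] (V : Subgroup X) [V.Normal] (hab : ∀ a ∈ V, ∀ b ∈ V, a * b = b * a) (φ : X ⧸ V →* MulAut ↥V) (hφ : ∀ (x : X) (v : ↥V), ((φ (QuotientGroup.mk x) v : ↥V) : X) = x * v * x⁻¹) : Nat.card (ConjClasses X) ≤ Nat.card (ConjClasses (SemidirectProduct ↥V (X ⧸ V) φ)) := by
  classical
  haveI : Finite (SemidirectProduct ↥V (X ⧸ V) φ) :=
    Finite.of_equiv _ SemidirectProduct.equivProd.symm
  have hcardY : Nat.card (SemidirectProduct ↥V (X ⧸ V) φ) = Nat.card X := by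
    rw [Nat.card_congr SemidirectProduct.equivProd, Nat.card_prod, ← Subgroup.index_eq_card,
      Subgroup.card_mul_index]
  have hX := card_comm_eq_card_conjClasses_mul_card X
  have hY := card_comm_eq_card_conjClasses_mul_card (SemidirectProduct ↥V (X ⧸ V) φ)
  rw [hcardY] at hY
  have hpos : 0 < Nat.card X := Nat.card_pos
  suffices h : Nat.card {p : X × X // Commute p.1 p.2} ≤
      Nat.card {p : SemidirectProduct ↥V (X ⧸ V) φ × SemidirectProduct ↥V (X ⧸ V) φ //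
        Commute p.1 p.2} by
    rw [hX, hY] at h
    exact Nat.le_of_mul_le_mul_right h hpos
  -- base points
  have hbase : ∀ q : (X ⧸ V) × (X ⧸ V), ∃ b : X × X,
      (∃ p : X × X, Commute p.1 p.2 ∧ (p.1 : X ⧸ V) = q.1 ∧ (p.2 : X ⧸ V) = q.2) →
      (Commute b.1 b.2 ∧ (b.1 : X ⧸ V) = q.1 ∧ (b.2 : X ⧸ V) = q.2) := by
    intro q
    by_cases h : ∃ p : X × X, Commute p.1 p.2 ∧ (p.1 : X ⧸ V) = q.1 ∧ (p.2 : X ⧸ V) = q.2
    · obtain ⟨p, hp⟩ := h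
      exact ⟨p, fun _ => hp⟩
    · exact ⟨(1, 1), fun h' => absurd h' h⟩
  choose B hB using hbase
  have hB' : ∀ p : {p : X × X // Commute p.1 p.2},
      Commute (B ((p.1.1 : X ⧸ V), (p.1.2 : X ⧸ V))).1 (B ((p.1.1 : X ⧸ V), (p.1.2 : X ⧸ V))).2 ∧
      ((B ((p.1.1 : X ⧸ V), (p.1.2 : X ⧸ V))).1 : X ⧸ V) = p.1.1 ∧
      ((B ((p.1.1 : X ⧸ V), (p.1.2 : X ⧸ V))).2 : X ⧸ V) = p.1.2 := fun p =>
    hB _ ⟨p.1, p.2, rfl, rfl⟩
  have hmem1 : ∀ p : {p : X × X // Commute p.1 p.2},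
      p.1.1 * ((B ((p.1.1 : X ⧸ V), (p.1.2 : X ⧸ V))).1)⁻¹ ∈ V := by
    intro p
    rw [← QuotientGroup.eq_one_iff, QuotientGroup.mk_mul, QuotientGroup.mk_inv, (hB' p).2.1]
    simp
  have hmem2 : ∀ p : {p : X × X // Commute p.1 p.2},
      p.1.2 * ((B ((p.1.1 : X ⧸ V), (p.1.2 : X ⧸ V))).2)⁻¹ ∈ V := by
    intro p
    rw [← QuotientGroup.eq_one_iff, QuotientGroup.mk_mul, QuotientGroup.mk_inv, (hB' p).2.2]
    simp
  have hcomm : ∀ p : {p : X × X // Commute p.1 p.2},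
      Commute (⟨⟨_, hmem1 p⟩, (p.1.1 : X ⧸ V)⟩ : SemidirectProduct ↥V (X ⧸ V) φ)
        ⟨⟨_, hmem2 p⟩, (p.1.2 : X ⧸ V)⟩ := by
    intro p
    obtain ⟨hb0, hb1, hb2⟩ := hB' p
    set x₀ := (B ((p.1.1 : X ⧸ V), (p.1.2 : X ⧸ V))).1 with hx₀
    set y₀ := (B ((p.1.1 : X ⧸ V), (p.1.2 : X ⧸ V))).2 with hy₀
    have hp : p.1.1 * p.1.2 = p.1.2 * p.1.1 := p.2
    apply SemidirectProduct.ext
    · apply Subtype.ext
      simp only [SemidirectProduct.mul_left, Subgroup.coe_mul]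
      have hφ1 : φ (p.1.1 : X ⧸ V) = φ (x₀ : X ⧸ V) := by rw [hb1]
      have hφ2 : φ (p.1.2 : X ⧸ V) = φ (y₀ : X ⧸ V) := by rw [hb2]
      rw [hφ1, hφ2, hφ, hφ]
      simp only
      have hb0' : x₀ * y₀ = y₀ * x₀ := hb0
      have e1 : p.1.1 * x₀⁻¹ * (x₀ * (p.1.2 * y₀⁻¹) * x₀⁻¹) = (p.1.1 * p.1.2) * (x₀ * y₀)⁻¹ := by
        group
      have e2 : p.1.2 * y₀⁻¹ * (y₀ * (p.1.1 * x₀⁻¹) * y₀⁻¹) = (p.1.2 * p.1.1) * (y₀ * x₀)⁻¹ := by
        group
      rw [e1, e2, hp, hb0']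
    · simp only [SemidirectProduct.mul_right]
      rw [← QuotientGroup.mk_mul, ← QuotientGroup.mk_mul, hp]
  apply Nat.card_le_card_of_injective (fun p => (⟨(⟨⟨_, hmem1 p⟩, (p.1.1 : X ⧸ V)⟩,
    ⟨⟨_, hmem2 p⟩, (p.1.2 : X ⧸ V)⟩), hcomm p⟩ :
      {p : SemidirectProduct ↥V (X ⧸ V) φ × SemidirectProduct ↥V (X ⧸ V) φ // Commute p.1 p.2}))
  intro p p' h
  have h0 := congrArg Subtype.val h
  simp only [Prod.mk.injEq] at h0
  obtain ⟨h1, h2⟩ := h0
  have q1 : (p.1.1 : X ⧸ V) = p'.1.1 := congrArg SemidirectProduct.right h1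
  have q2 : (p.1.2 : X ⧸ V) = p'.1.2 := congrArg SemidirectProduct.right h2
  have l1 : p.1.1 * ((B ((p.1.1 : X ⧸ V), (p.1.2 : X ⧸ V))).1)⁻¹ =
      p'.1.1 * ((B ((p'.1.1 : X ⧸ V), (p'.1.2 : X ⧸ V))).1)⁻¹ :=
    congrArg (fun z => ((SemidirectProduct.left z : ↥V) : X)) h1
  have l2 : p.1.2 * ((B ((p.1.1 : X ⧸ V), (p.1.2 : X ⧸ V))).2)⁻¹ =
      p'.1.2 * ((B ((p'.1.1 : X ⧸ V), (p'.1.2 : X ⧸ V))).2)⁻¹ :=
    congrArg (fun z => ((SemidirectProduct.left z : ↥V) : X)) h2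
  rw [q1, q2] at l1 l2
  apply Subtype.ext
  exact Prod.ext (mul_right_cancel l1) (mul_right_cancel l2)

end Cfsg.Agent.S4965
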