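import Cfsg.Statements.S5015
import Cfsg.Agent.Lib.Helper9.RankOne

set_option autoImplicit false
open Cfsg
open Cfsg.Agent.Lib.Helper9.RankOne

namespace Cfsg.Agent.S5015

theorem cond {Y Ω : Type*} [Group Y] [MulAction Y Ω] (α β : Ω) (A B : Subgroup Y) (hαβ : α ≠ β)
    (hA : A ≤ MulAction.stabilizer Y α) (hAn : ∀ y ∈ MulAction.stabilizer Y α, Cfsg.conjBy A y = A)
    (hregA : ∀ β γ : Ω, β ≠ α → γ ≠ α → ∃! a : Y, a ∈ A ∧ a • β = γ)
    (hregB : ∀ γ δ : Ω, γ ≠ β → δ ≠ β → ∃! b : Y, b ∈ B ∧ b • γ = δ)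
    (y : Y) (hy : y • α = β) (hBy : B = conjBy A y) : RankOneCondition A B := by
  intro a ha ha1
  have h1 : a⁻¹ • β ≠ β := by
    intro hh
    obtain ⟨x, _, hx⟩ := hregA β β hαβ.symm hαβ.symm
    have e1 := hx a⁻¹ ⟨A.inv_mem ha, hh⟩
    have e2 := hx 1 ⟨A.one_mem, one_smul _ _⟩
    apply ha1
    exact inv_eq_one.mp (e1.trans e2.symm)
  have h2 : a⁻¹ • β ≠ α := by
    intro hh
    have : a • α = α := hA ha
    apply hαβ
    rw [← this, ← hh, smul_smul]; simp
  obtain ⟨b', ⟨hb', hb'α⟩, _⟩ := hregB α (a⁻¹ • β) hαβ h1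
  refine ⟨b'⁻¹, B.inv_mem hb', ?_, ?_⟩
  · intro hh
    rw [inv_eq_one] at hh
    rw [hh, one_smul] at hb'α
    exact h2 hb'α.symm
  · rw [inv_inv, hBy, conjBy_conjBy]
    have h3 : (a⁻¹ * y)⁻¹ * b' ∈ MulAction.stabilizer Y α := by
      rw [MulAction.mem_stabilizer_iff, mul_smul, hb'α, smul_smul]
      have : (a⁻¹ * y)⁻¹ * a⁻¹ = y⁻¹ := by group
      rw [this, ← hy, smul_smul]; simp
    have h4 := hAn _ h3
    have h5 : b' = (a⁻¹ * y) * ((a⁻¹ * y)⁻¹ * b') := by group
    rw [h5, ← conjBy_conjBy, h4]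

theorem transport_reg {Y Ω : Type*} [Group Y] [MulAction Y Ω] (α : Ω) (A : Subgroup Y)
    (hregA : ∀ β γ : Ω, β ≠ α → γ ≠ α → ∃! a : Y, a ∈ A ∧ a • β = γ) (y : Y) :
    ∀ γ δ : Ω, γ ≠ y • α → δ ≠ y • α → ∃! b : Y, b ∈ conjBy A y ∧ b • γ = δ := by
  intro γ δ hγ hδ
  have hγ' : y⁻¹ • γ ≠ α := fun hh => hγ (by rw [← hh, smul_smul]; simp)
  have hδ' : y⁻¹ • δ ≠ α := fun hh => hδ (by rw [← hh, smul_smul]; simp)
  obtain ⟨a, ⟨ha, haγ⟩, huniq⟩ := hregA _ _ hγ' hδ'
  refine ⟨y * a * y⁻¹, ⟨conj_mem_conjBy ha, ?_⟩, ?_⟩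
  · rw [mul_smul, mul_smul, haγ, smul_smul]; simp
  · rintro b ⟨hb, hbγ⟩
    rw [mem_conjBy] at hb
    have := huniq _ ⟨hb, by rw [mul_smul, mul_smul, smul_smul y, mul_inv_cancel, one_smul, hbγ]⟩
    rw [← this]; group

/-- Let a group Y act doubly transitively on a set Ω with at least three points, and suppose that the stabilizer of a point α contains a nilpotent subgroup A, normalized by that stabilizer, which acts regularly on the points other than α. Then for any y in Y moving α, the subgroups A and y A y⁻¹ are the unipotent subgroups of a rank one group, and the normal closure of A in Y (the subgroup generated by all conjugates of A) is generated by A and y A y⁻¹ alone. -/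
theorem result {Y Ω : Type*} [Group Y] [MulAction Y Ω]
    (h2 : MulAction.IsMultiplyPretransitive Y Ω 2) (hΩ : 3 ≤ ENat.card Ω) (α : Ω) (A : Subgroup Y)
    (hA : A ≤ MulAction.stabilizer Y α) (hAn : ∀ y ∈ MulAction.stabilizer Y α, Cfsg.conjBy A y = A)
    (hnil : Group.IsNilpotent A) (hreg : ∀ β γ : Ω, β ≠ α → γ ≠ α → ∃! a : Y, a ∈ A ∧ a • β = γ)
    (y : Y) (hy : y ∉ MulAction.stabilizer Y α) :
    Cfsg.IsRankOnePair A (Cfsg.conjBy A y) ∧ Subgroup.normalClosure (A : Set Y) = A ⊔ Cfsg.conjBy A y := by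
  have hβ : y • α ≠ α := hy
  have hB : conjBy A y ≤ MulAction.stabilizer Y (y • α) := by
    intro b hb
    rw [mem_conjBy] at hb
    have := hA hb
    rw [MulAction.mem_stabilizer_iff] at this ⊢
    have e : b = y * (y⁻¹ * b * y) * y⁻¹ := by group
    rw [e, mul_smul, mul_smul, smul_smul y⁻¹, inv_mul_cancel, one_smul, this]
  have hBn : ∀ g ∈ MulAction.stabilizer Y (y • α), conjBy (conjBy A y) g = conjBy A y := by
    intro g hg
    have h1 : y⁻¹ * g * y ∈ MulAction.stabilizer Y α := by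
      rw [MulAction.mem_stabilizer_iff] at hg ⊢
      rw [mul_smul, mul_smul, hg, smul_smul]; simp
    rw [conjBy_conjBy]
    have e : g * y = y * (y⁻¹ * g * y) := by group
    rw [e, ← conjBy_conjBy, hAn _ h1]
  have hregB := transport_reg α A hreg y
  refine ⟨⟨?_, hnil, ?_, ?_, ?_⟩, ?_⟩
  · -- A ≠ B
    intro hAB
    obtain ⟨γ, hγα, hγβ⟩ : ∃ γ : Ω, γ ≠ α ∧ γ ≠ y • α := by
      by_contra hcon
      push Not at hcon
      have hsub : (Set.univ : Set Ω) ⊆ {α, y • α} := by
        intro x _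
        by_cases hx : x = α
        · simp [hx]
        · simp [hcon x hx]
      have h1 := Set.encard_le_encard hsub
      rw [Set.encard_univ] at h1
      have h3 : ({α, y • α} : Set Ω).encard ≤ 2 := by
        refine (Set.encard_insert_le _ _).trans ?_
        rw [Set.encard_singleton]; norm_num
      have h4 : (3 : ℕ∞) ≤ 2 := hΩ.trans (h1.trans h3)
      exact absurd h4 (by decide)
    obtain ⟨a, ⟨ha, haγ⟩, _⟩ := hreg (y • α) γ hβ hγα
    rw [hAB] at ha
    have := hB ha
    rw [MulAction.mem_stabilizer_iff] at this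
    exact hγβ (haγ.symm.trans this)
  · exact Group.nilpotent_of_surjective _ ((MulAut.conj y).toMonoidHom.subgroupMap_surjective A)
  · exact cond α (y • α) A (conjBy A y) hβ.symm hA hAn hreg hregB y rfl rfl
  · refine cond (y • α) α (conjBy A y) A hβ hB hBn hregB hreg y⁻¹ (by rw [smul_smul]; simp) ?_
    rw [conjBy_conjBy]; simp [conjBy_one]
  · apply le_antisymm
    · unfold Subgroup.normalClosure
      rw [Subgroup.closure_le]
      intro x hx
      rw [Group.mem_conjugatesOfSet_iff] at hx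
      obtain ⟨a, ha, hax⟩ := hx
      obtain ⟨g, rfl⟩ := isConj_iff.mp hax
      have hmem : g * a * g⁻¹ ∈ conjBy A g := conj_mem_conjBy ha
      by_cases hg : g • α = α
      · rw [hAn g hg] at hmem
        exact Subgroup.mem_sup_left hmem
      · obtain ⟨a', ⟨ha', ha'g⟩, _⟩ := hreg (y • α) (g • α) hβ hg
        have h1 : (a' * y)⁻¹ * g ∈ MulAction.stabilizer Y α := by
          rw [MulAction.mem_stabilizer_iff, mul_smul, ← ha'g, smul_smul, smul_smul]
          simp
        have e : g = (a' * y) * ((a' * y)⁻¹ * g) := by group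
        rw [e, ← conjBy_conjBy, hAn _ h1, ← conjBy_conjBy] at hmem
        rw [← e] at hmem
        exact conjBy_le_of_mem le_sup_right (Subgroup.mem_sup_left ha') hmem
    · apply sup_le Subgroup.le_normalClosure
      intro b hb
      rw [mem_conjBy] at hb
      have := (Subgroup.normalClosure_normal (s := (A : Set Y))).conj_mem _
        (Subgroup.le_normalClosure hb) y
      simpa [mul_assoc] using this

end Cfsg.Agent.S5015
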