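import Cfsg.Statements.S5016
import Cfsg.Agent.Lib.Helper9.RankOne

set_option autoImplicit false
open Cfsg
open Cfsg.Agent.Lib.Helper9.RankOne

namespace Cfsg.Agent.S5016

variable {k : Type*} [Field k]

local notation "SL2" => Matrix.SpecialLinearGroup (Fin 2) k

def L (t : k) : Matrix.SpecialLinearGroup (Fin 2) k := ⟨!![1, 0; t, 1], by simp [Matrix.det_fin_two]⟩
def U (t : k) : Matrix.SpecialLinearGroup (Fin 2) k := ⟨!![1, t; 0, 1], by simp [Matrix.det_fin_two]⟩

theorem L_coe (t : k) : (L t : Matrix (Fin 2) (Fin 2) k) = !![1, 0; t, 1] := rfl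
theorem U_coe (t : k) : (U t : Matrix (Fin 2) (Fin 2) k) = !![1, t; 0, 1] := rfl

theorem ext2 {g h : Matrix.SpecialLinearGroup (Fin 2) k} (h00 : g 0 0 = h 0 0) (h01 : g 0 1 = h 0 1)
    (h10 : g 1 0 = h 1 0) (h11 : g 1 1 = h 1 1) : g = h := by
  apply Matrix.SpecialLinearGroup.ext
  intro i j
  fin_cases i <;> fin_cases j <;> assumption

theorem L_mul (t u : k) : L t * L u = L (t + u) := by
  apply ext2 <;> simp [Matrix.SpecialLinearGroup.coe_mul, L_coe, Matrix.mul_apply, Fin.sum_univ_two, add_comm]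

theorem U_mul (t u : k) : U t * U u = U (t + u) := by
  apply ext2 <;> simp [Matrix.SpecialLinearGroup.coe_mul, U_coe, Matrix.mul_apply, Fin.sum_univ_two, add_comm]

theorem L_zero : L (0 : k) = 1 := by
  apply ext2 <;> simp [L_coe]

theorem U_zero : U (0 : k) = 1 := by
  apply ext2 <;> simp [U_coe]

theorem L_inv (t : k) : (L t)⁻¹ = L (-t) := by
  rw [inv_eq_iff_mul_eq_one, L_mul]; simp [L_zero]

theorem U_inv (t : k) : (U t)⁻¹ = U (-t) := by
  rw [inv_eq_iff_mul_eq_one, U_mul]; simp [U_zero]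

theorem L_inj {t u : k} (h : L t = L u) : t = u := by
  have := congrArg (fun g : Matrix.SpecialLinearGroup (Fin 2) k => g 1 0) h
  simpa [L_coe] using this

theorem U_inj {t u : k} (h : U t = U u) : t = u := by
  have := congrArg (fun g : Matrix.SpecialLinearGroup (Fin 2) k => g 0 1) h
  simpa [U_coe] using this

theorem mem_lower {g : Matrix.SpecialLinearGroup (Fin 2) k} :
    g ∈ lowerUnipotentSL2 k ↔ ∃ t, g = L t := by
  constructor
  · intro hg
    unfold lowerUnipotentSL2 at hg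
    induction hg using Subgroup.closure_induction with
    | mem x hx =>
      obtain ⟨h1, h2, h3⟩ := hx
      refine ⟨x 1 0, ?_⟩
      apply ext2 <;> simp [L_coe, h1, h2, h3]
    | one => exact ⟨0, L_zero.symm⟩
    | mul x y _ _ hx hy =>
      obtain ⟨t, rfl⟩ := hx
      obtain ⟨u, rfl⟩ := hy
      exact ⟨_, L_mul t u⟩
    | inv x _ hx =>
      obtain ⟨t, rfl⟩ := hx
      exact ⟨_, L_inv t⟩
  · rintro ⟨t, rfl⟩
    apply Subgroup.subset_closure
    simp [L_coe]

theorem mem_upper {g : Matrix.SpecialLinearGroup (Fin 2) k} :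
    g ∈ upperUnipotentSL2 k ↔ ∃ t, g = U t := by
  constructor
  · intro hg
    unfold upperUnipotentSL2 at hg
    induction hg using Subgroup.closure_induction with
    | mem x hx =>
      obtain ⟨h1, h2, h3⟩ := hx
      refine ⟨x 0 1, ?_⟩
      apply ext2 <;> simp [U_coe, h1, h2, h3]
    | one => exact ⟨0, U_zero.symm⟩
    | mul x y _ _ hx hy =>
      obtain ⟨t, rfl⟩ := hx
      obtain ⟨u, rfl⟩ := hy
      exact ⟨_, U_mul t u⟩
    | inv x _ hx =>
      obtain ⟨t, rfl⟩ := hx
      exact ⟨_, U_inv t⟩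
  · rintro ⟨t, rfl⟩
    apply Subgroup.subset_closure
    simp [U_coe]

theorem L_mem (t : k) : L t ∈ lowerUnipotentSL2 k := mem_lower.mpr ⟨t, rfl⟩
theorem U_mem (t : k) : U t ∈ upperUnipotentSL2 k := mem_upper.mpr ⟨t, rfl⟩

/-- the key conjugation formula : with `w = L t * U (-t⁻¹)`, `w * L u * w⁻¹ = U (-u/t^2)`. -/
theorem key_conj {t : k} (ht : t ≠ 0) (u : k) :
    (L t * U (-t⁻¹)) * L u = U (-u / t ^ 2) * (L t * U (-t⁻¹)) := by
  apply ext2 <;> simp [Matrix.SpecialLinearGroup.coe_mul, L_coe, U_coe, Matrix.mul_apply, Fin.sum_univ_two] <;> field_simp <;> first | done | ring1 | simp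

theorem key_conj' {t : k} (ht : t ≠ 0) (u : k) :
    (U t * L (-t⁻¹)) * U u = L (-u / t ^ 2) * (U t * L (-t⁻¹)) := by
  apply ext2 <;> simp [Matrix.SpecialLinearGroup.coe_mul, L_coe, U_coe, Matrix.mul_apply, Fin.sum_univ_two] <;> field_simp <;> first | done | ring1 | simp

theorem conj_eq {t : k} (ht : t ≠ 0) :
    conjBy (lowerUnipotentSL2 k) (U t⁻¹)⁻¹ = conjBy (upperUnipotentSL2 k) (L t)⁻¹ := by
  rw [← conjBy_eq_iff, conjBy_conjBy, U_inv]
  ext g
  rw [mem_conjBy, mem_lower, mem_upper]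
  constructor
  · rintro ⟨u, hu⟩
    refine ⟨-u / t ^ 2, ?_⟩
    have := key_conj ht u
    rw [← hu] at this
    rw [← mul_left_inj (L t * U (-t⁻¹)), ← this]
    group
  · rintro ⟨u, rfl⟩
    refine ⟨-u * t ^ 2, ?_⟩
    have := key_conj ht (-u * t ^ 2)
    have e : -(-u * t ^ 2) / t ^ 2 = u := by field_simp
    rw [e] at this
    rw [mul_assoc, ← this]; group

theorem conj_eq' {t : k} (ht : t ≠ 0) :
    conjBy (upperUnipotentSL2 k) (L t⁻¹)⁻¹ = conjBy (lowerUnipotentSL2 k) (U t)⁻¹ := by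
  have := conj_eq (inv_ne_zero ht)
  rw [inv_inv] at this
  exact this.symm

theorem special_eq {t : k} (ht : t ≠ 0) :
    (U t⁻¹)⁻¹ * L t * U t⁻¹ = (L t)⁻¹ * (U t⁻¹)⁻¹ * L t := by
  rw [U_inv, L_inv]
  apply ext2 <;> simp [Matrix.SpecialLinearGroup.coe_mul, L_coe, U_coe, Matrix.mul_apply, Fin.sum_univ_two] <;> field_simp <;> first | done | ring1 | simp

theorem gen (g : Matrix.SpecialLinearGroup (Fin 2) k) :
    g ∈ lowerUnipotentSL2 k ⊔ upperUnipotentSL2 k := by
  have hL : ∀ t, L t ∈ lowerUnipotentSL2 k ⊔ upperUnipotentSL2 k :=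
    fun t => Subgroup.mem_sup_left (L_mem t)
  have hU : ∀ t, U t ∈ lowerUnipotentSL2 k ⊔ upperUnipotentSL2 k :=
    fun t => Subgroup.mem_sup_right (U_mem t)
  have main : ∀ g : Matrix.SpecialLinearGroup (Fin 2) k, g 1 0 ≠ 0 →
      g ∈ lowerUnipotentSL2 k ⊔ upperUnipotentSL2 k := by
    intro g hc
    have hdet : g 0 0 * g 1 1 - g 0 1 * g 1 0 = 1 := by
      have := g.det_coe
      rwa [Matrix.det_fin_two] at this
    have : g = U ((g 0 0 - 1) / g 1 0) * L (g 1 0) * U ((g 1 1 - 1) / g 1 0) := by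
      apply ext2
      · simp [Matrix.SpecialLinearGroup.coe_mul, L_coe, U_coe, Matrix.mul_apply, Fin.sum_univ_two]; field_simp; ring
      · simp [Matrix.SpecialLinearGroup.coe_mul, L_coe, U_coe, Matrix.mul_apply, Fin.sum_univ_two]; field_simp
        linear_combination (-1 : k) * hdet
      · simp [Matrix.SpecialLinearGroup.coe_mul, L_coe, U_coe, Matrix.mul_apply, Fin.sum_univ_two]
      · simp [Matrix.SpecialLinearGroup.coe_mul, L_coe, U_coe, Matrix.mul_apply, Fin.sum_univ_two]; field_simp; ring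
    rw [this]
    exact Subgroup.mul_mem _ (Subgroup.mul_mem _ (hU _) (hL _)) (hU _)
  by_cases hc : g 1 0 = 0
  · have hdet : g 0 0 * g 1 1 - g 0 1 * g 1 0 = 1 := by
      have := g.det_coe
      rwa [Matrix.det_fin_two] at this
    have ha : g 0 0 ≠ 0 := by
      intro h0
      rw [h0, hc] at hdet
      simp at hdet
    have h1 : L 1 * g ∈ lowerUnipotentSL2 k ⊔ upperUnipotentSL2 k := by
      apply main
      simp [Matrix.SpecialLinearGroup.coe_mul, L_coe, Matrix.mul_apply, Fin.sum_univ_two, hc, ha]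
    have : g = (L 1)⁻¹ * (L 1 * g) := by group
    rw [this]
    exact Subgroup.mul_mem _ (Subgroup.inv_mem _ (hL 1)) h1
  · exact main g hc

theorem comm_lower : IsMulCommutative (lowerUnipotentSL2 k) := by
  constructor
  constructor
  rintro ⟨a, ha⟩ ⟨b, hb⟩
  obtain ⟨t, rfl⟩ := mem_lower.mp ha
  obtain ⟨u, rfl⟩ := mem_lower.mp hb
  apply Subtype.ext
  show L t * L u = L u * L t
  rw [L_mul, L_mul, add_comm]

theorem comm_upper : IsMulCommutative (upperUnipotentSL2 k) := by
  constructor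
  constructor
  rintro ⟨a, ha⟩ ⟨b, hb⟩
  obtain ⟨t, rfl⟩ := mem_upper.mp ha
  obtain ⟨u, rfl⟩ := mem_upper.mp hb
  apply Subtype.ext
  show U t * U u = U u * U t
  rw [U_mul, U_mul, add_comm]

theorem pair : IsRankOnePair (lowerUnipotentSL2 k) (upperUnipotentSL2 k) := by
  refine ⟨?_, ?_, ?_, ?_, ?_⟩
  · intro h
    have h1 : L (1 : k) ∈ upperUnipotentSL2 k := h ▸ L_mem 1
    obtain ⟨t, ht⟩ := mem_upper.mp h1
    have := congrArg (fun g : Matrix.SpecialLinearGroup (Fin 2) k => g 1 0) ht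
    simp [L_coe, U_coe] at this
  · have := comm_lower (k := k)
    exact ⟨1, Subgroup.upperCentralSeries_one_eq_top_iff.mpr this⟩
  · have := comm_upper (k := k)
    exact ⟨1, Subgroup.upperCentralSeries_one_eq_top_iff.mpr this⟩
  · intro a ha ha1
    obtain ⟨t, rfl⟩ := mem_lower.mp ha
    have ht : t ≠ 0 := by
      rintro rfl
      exact ha1 L_zero
    refine ⟨U t⁻¹, U_mem _, ?_, conj_eq ht⟩
    intro h
    rw [← U_zero] at h
    exact inv_ne_zero ht (U_inj h)
  · intro b hb hb1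
    obtain ⟨t, rfl⟩ := mem_upper.mp hb
    have ht : t ≠ 0 := by
      rintro rfl
      exact hb1 U_zero
    refine ⟨L t⁻¹, L_mem _, ?_, conj_eq' ht⟩
    intro h
    rw [← L_zero] at h
    exact inv_ne_zero ht (L_inj h)

/-- For any field k, the special linear group SL₂(k) is a special rank one group with abelian unipotent subgroups, the unipotent subgroups being the group of lower unitriangular matrices and the group of upper unitriangular matrices. -/
theorem result (k : Type*) [Field k] :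
    Cfsg.IsRankOneGroup (Matrix.SpecialLinearGroup (Fin 2) k) (Cfsg.lowerUnipotentSL2 k) (Cfsg.upperUnipotentSL2 k) ∧
    Cfsg.IsSpecialRankOnePair (Cfsg.lowerUnipotentSL2 k) (Cfsg.upperUnipotentSL2 k) ∧
    Cfsg.HasAbelianUnipotents (Cfsg.lowerUnipotentSL2 k) (Cfsg.upperUnipotentSL2 k) := by
  refine ⟨⟨?_, pair⟩, ⟨pair, ?_⟩, comm_lower, comm_upper⟩
  · rw [eq_top_iff]
    intro g _
    exact gen g
  · intro a ha ha1 b hb _ hab
    obtain ⟨t, rfl⟩ := mem_lower.mp ha
    have ht : t ≠ 0 := by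
      rintro rfl
      exact ha1 L_zero
    have h1 := conj_eq ht
    have h2 := conj_right_inj (RankOnePair_symm pair) (Subgroup.inv_mem _ hb)
      (Subgroup.inv_mem _ (U_mem t⁻¹)) (hab.trans h1.symm)
    rw [inv_inj] at h2
    rw [h2]
    exact special_eq ht

end Cfsg.Agent.S5016
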