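import Cfsg.Statements.S5017
import Cfsg.Agent.Lib.Helper9.RankOne

set_option autoImplicit false
open Cfsg
open Cfsg.Agent.Lib.Helper9.RankOne

namespace Cfsg.Agent.S5017

theorem normalizes_imp_central {X : Type*} [Group X] {A B : Subgroup X} (h : Cfsg.IsRankOneGroup X A B)
    (N : Subgroup X) (hN : N.Normal) (hNA : N ≤ Subgroup.normalizer (A : Set X)) :
    N ≤ Subgroup.center X := by
  intro n hn
  rw [Subgroup.mem_center_iff]
  intro g
  exact (centralizes_of_normalizes h.2 (fun x _ n hn => hN.conj_mem n hn x) hNA n hn g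
    (h.1 ▸ Subgroup.mem_top g)).symm

theorem dichotomy {X : Type*} [Group X] {A B : Subgroup X} (h : Cfsg.IsRankOneGroup X A B)
    (N : Subgroup X) (hN : N.Normal) : N ⊔ A = ⊤ ∨ N ≤ Subgroup.center X := by
  by_cases hNA : N ≤ Subgroup.normalizer (A : Set X)
  · right
    exact normalizes_imp_central h N hN hNA
  · left
    obtain ⟨n, hn, hnA⟩ := SetLike.not_le_iff_exists.mp hNA
    have hB : B ≤ N ⊔ A := right_le_of_moves h.2 (h.1 ▸ Subgroup.mem_top n)
      (Subgroup.mem_sup_left hn) le_sup_right (fun hh => hnA (conjBy_eq_self_iff.mp hh))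
    rw [eq_top_iff, ← h.1]
    exact sup_le le_sup_right hB

theorem center_ne_top {X : Type*} [Group X] {A B : Subgroup X} (h : Cfsg.IsRankOneGroup X A B) :
    Subgroup.center X ≠ ⊤ := by
  intro hZ
  obtain ⟨a, ha, ha1⟩ := exists_ne_one_left h.2
  apply ha1
  apply eq_one_of_mem_of_normalizes h.2 ha
  have haZ : a ∈ Subgroup.center X := hZ ▸ Subgroup.mem_top a
  rw [Subgroup.mem_normalizer_iff]
  intro x
  rw [Subgroup.mem_center_iff] at haZ
  rw [← haZ x]
  simp

/-- Let X be a rank one group with unipotent subgroups A and B and N a normal subgroup of X. Then either X = N A or N lies in the centre of X. Consequently a perfect rank one group is quasisimple. -/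
theorem result {X : Type*} [Group X] {A B : Subgroup X} (h : Cfsg.IsRankOneGroup X A B) :
    (∀ N : Subgroup X, N.Normal → N ⊔ A = ⊤ ∨ N ≤ Subgroup.center X) ∧
    (Group.IsPerfect X → Cfsg.IsQuasisimple X) := by
  refine ⟨dichotomy h, fun hP => ⟨hP, ?_⟩⟩
  have hnt : Nontrivial (X ⧸ Subgroup.center X) := QuotientGroup.nontrivial_iff.mpr (center_ne_top h)
  refine ⟨fun M hM => ?_⟩
  have hsurj := QuotientGroup.mk'_surjective (Subgroup.center X)
  have hNn : (M.comap (QuotientGroup.mk' (Subgroup.center X))).Normal := inferInstance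
  rcases dichotomy h _ hNn with h1 | h1
  · right
    set N := M.comap (QuotientGroup.mk' (Subgroup.center X)) with hNdef
    have hNtop : N = ⊤ := by
      rw [← QuotientGroup.subsingleton_iff]
      by_contra hns
      have hnt' : Nontrivial (X ⧸ N) := not_subsingleton_iff_nontrivial.mp hns
      have hnilA : Group.IsNilpotent A := h.2.nilpotent_left
      have hs : Function.Surjective ((QuotientGroup.mk' N).comp A.subtype) := by
        intro q
        obtain ⟨x, rfl⟩ := QuotientGroup.mk'_surjective N q
        have hx : x ∈ N ⊔ A := h1 ▸ Subgroup.mem_top x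
        rw [Subgroup.mem_sup_of_normal_left] at hx
        obtain ⟨n, hn, a, ha, rfl⟩ := hx
        refine ⟨⟨a, ha⟩, ?_⟩
        simp only [MonoidHom.comp_apply, Subgroup.subtype_apply, QuotientGroup.mk'_apply]
        rw [QuotientGroup.eq]
        have : a⁻¹ * (n * a) = a⁻¹ * n * a⁻¹⁻¹ := by group
        rw [this]
        exact hNn.conj_mem n hn a⁻¹
      have hnil : Group.IsNilpotent (X ⧸ N) := Group.nilpotent_of_surjective _ hs
      exact Group.IsPerfect.not_isNilpotent (X ⧸ N) hnil
    rw [eq_top_iff]
    intro q _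
    obtain ⟨x, rfl⟩ := hsurj q
    have : x ∈ N := hNtop ▸ Subgroup.mem_top x
    exact this
  · left
    rw [eq_bot_iff]
    intro q hq
    obtain ⟨x, rfl⟩ := hsurj q
    have : x ∈ Subgroup.center X := h1 hq
    rw [Subgroup.mem_bot]
    exact (QuotientGroup.eq_one_iff x).mpr this

end Cfsg.Agent.S5017
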