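import Cfsg.Statements.S5018
import Cfsg.Agent.S5017
import Cfsg.Agent.Lib.Helper9.RankOne

set_option autoImplicit false
open Cfsg
open Cfsg.Agent.Lib.Helper9.RankOne
open scoped commutatorElement

namespace Cfsg.Agent.S5018

theorem second_centre {X : Type*} [Group X] {A B : Subgroup X} (h : Cfsg.IsRankOneGroup X A B) :
    Subgroup.upperCentralSeries X 2 = Subgroup.center X := by
  apply le_antisymm
  · apply Cfsg.Agent.S5017.normalizes_imp_central h _ inferInstance
    intro n hn
    by_contra hnA
    have hmove : conjBy A n ≠ A := fun hh => hnA (conjBy_eq_self_iff.mp hh)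
    have h1 := conj_mem_unipotent (left_mem_unipotent A B) (h.1 ▸ Subgroup.mem_top n : n ∈ A ⊔ B)
    rcases (mem_unipotent_iff h.2).mp h1 with h2 | ⟨a, ha, h2⟩
    · exact hmove h2
    · obtain ⟨a', ha', ha'1⟩ := exists_ne_one_left h.2
      -- `n a' n⁻¹ = z a'` with `z` central
      have hz : ⁅n, a'⁆ ∈ Subgroup.center X := by
        have := (Subgroup.mem_upperCentralSeries_succ_iff (n := 1)).mp hn a'
        rwa [Subgroup.upperCentralSeries_one] at this
      have h3 : n * a' * n⁻¹ ∈ conjBy B a := by
        rw [← h2]; exact conj_mem_conjBy ha'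
      have h4 : n * a' * n⁻¹ = ⁅n, a'⁆ * a' := by
        rw [commutatorElement_def]; group
      have h5 : conjBy (conjBy B a) (⁅n, a'⁆ * a') = conjBy B a := by
        rw [← h4]; exact conjBy_of_mem h3
      have h6 : ∀ C : Subgroup X, conjBy C ⁅n, a'⁆ = C := by
        intro C
        rw [conjBy_eq_self_iff, Subgroup.mem_normalizer_iff]
        intro x
        rw [Subgroup.mem_center_iff] at hz
        rw [← hz x, mul_inv_cancel_right]
      rw [← conjBy_conjBy, h6, conjBy_conjBy] at h5
      have h7 := conj_right_inj h.2 (A.mul_mem ha' ha) ha h5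
      exact ha'1 (by simpa using h7)
  · rw [← Subgroup.upperCentralSeries_one]
    exact Subgroup.upperCentralSeries_mono X (by norm_num)

/-- A rank one group is not nilpotent, and its second centre equals its centre. -/
theorem result {X : Type*} [Group X] {A B : Subgroup X} (h : Cfsg.IsRankOneGroup X A B) :
    Subgroup.upperCentralSeries X 2 = Subgroup.center X ∧ ¬ Group.IsNilpotent X := by
  refine ⟨second_centre h, ?_⟩
  intro hnil
  have h1 : Subgroup.upperCentralSeries X 1 = Subgroup.upperCentralSeries X 2 := by
    rw [second_centre h, Subgroup.upperCentralSeries_one]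
  have h2 : ∀ k, Subgroup.upperCentralSeries X (k + 1) = Subgroup.upperCentralSeries X 1 := by
    intro k
    induction k with
    | zero => rfl
    | succ k ih =>
      rw [h1]
      ext x
      rw [Subgroup.mem_upperCentralSeries_succ_iff, Subgroup.mem_upperCentralSeries_succ_iff, ih]
  obtain ⟨n, hn⟩ := hnil.nilpotent'
  apply Cfsg.Agent.S5017.center_ne_top h
  rw [← Subgroup.upperCentralSeries_one, ← h2 n, eq_top_iff, ← hn]
  exact Subgroup.upperCentralSeries_mono X (Nat.le_succ n)

end Cfsg.Agent.S5018
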