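import Cfsg.Statements.S5092
import Cfsg.Agent.Lib.Lead.Hyperfocal

set_option autoImplicit false
open Cfsg Cfsg.FusionSystem Cfsg.Agent.Fus
open scoped commutatorElement

namespace Cfsg.Agent.S5092

variable {Ω : Type*} [Group Ω] {S : Subgroup Ω}

/-- the maps of `F` that are trivial modulo a subgroup `M` containing `[S,S]`. -/
def trivModSystem (F : FusionSystem S) (M : Subgroup Ω) (hM : ⁅S, S⁆ ≤ M) : FusionSystem S where
  Hom P := {φ | φ ∈ F.Hom P ∧ ∀ x : P, (x : Ω)⁻¹ * φ x ∈ M}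
  le_of_mem h := F.le_of_mem h.1
  injective_of_mem h := F.injective_of_mem h.1
  conj_mem := by
    intro P g hP hg
    refine ⟨F.conj_mem hP hg, fun x => ?_⟩
    rw [conjHom_apply]
    apply hM
    have h1 := Subgroup.commutator_mem_commutator (S.inv_mem (hP x.2)) hg
    have e : (x : Ω)⁻¹ * (g * x * g⁻¹) = ⁅(x : Ω)⁻¹, g⁆ := by
      rw [commutatorElement_def]; group
    rw [e]; exact h1
  comp_mem := by
    rintro P Q φ ψ ⟨hφ, h₁⟩ ⟨hψ, h₂⟩ h
    refine ⟨F.comp_mem hφ hψ h, fun x => ?_⟩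
    show (x : Ω)⁻¹ * ψ ⟨φ x, h x⟩ ∈ M
    have e : (x : Ω)⁻¹ * ψ ⟨φ x, h x⟩ = ((x : Ω)⁻¹ * φ x) * ((φ x)⁻¹ * ψ ⟨φ x, h x⟩) := by group
    rw [e]; exact M.mul_mem (h₁ x) (h₂ ⟨φ x, h x⟩)
  inv_mem := by
    rintro P φ ⟨hφ, h₁⟩
    obtain ⟨ψ, hψ, h⟩ := F.inv_mem hφ
    refine ⟨ψ, ⟨hψ, ?_⟩, h⟩
    rintro ⟨_, x, rfl⟩
    rw [h x]
    show (φ x)⁻¹ * (x : Ω) ∈ M
    have e : (φ x)⁻¹ * (x : Ω) = ((x : Ω)⁻¹ * φ x)⁻¹ := by group
    rw [e]; exact M.inv_mem (h₁ x)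

/-- For a saturated fusion system over a finite p-group S, the focal subgroup is the product of the hyperfocal subgroup and the derived subgroup of S. -/
theorem result {Ω : Type*} [Group Ω] {S : Subgroup Ω} [Finite S] (p : ℕ) [Fact p.Prime] (hS : IsPGroup p S) (F : Cfsg.FusionSystem S) (hF : F.IsSaturated p) : F.focalSubgroup = F.hyperfocalSubgroup p ⊔ ⁅(S : Subgroup Ω), (S : Subgroup Ω)⁆ := by
  apply le_antisymm
  · have hle : F ≤ trivModSystem F (F.hyperfocalSubgroup p ⊔ ⁅S, S⁆) le_sup_right := by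
      apply le_of_pResidual hS F hF
      intro P hP β hβ
      rw [mem_autGroup_iff _ hP]
      exact ⟨(mem_autGroup_iff F hP _).mp β.2, fun x =>
        Subgroup.mem_sup_left (mem_hyperfocal F hP hβ x)⟩
    rw [focalSubgroup, Subgroup.closure_le]
    rintro _ ⟨P, φ, x, hφ, rfl⟩
    exact (hle P hφ).2 x
  · apply sup_le
    · rw [hyperfocalSubgroup, Subgroup.closure_le]
      rintro _ ⟨P, α, x, hP, -, rfl⟩
      exact Subgroup.subset_closure ⟨P, _, x, (mem_autGroup_iff F hP _).mp α.2, rfl⟩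
    · rw [Subgroup.commutator_le]
      intro a ha b hb
      apply Subgroup.subset_closure
      refine ⟨S, conjHom S b, ⟨a⁻¹, S.inv_mem ha⟩, F.conj_mem le_rfl hb, ?_⟩
      rw [conjHom_apply, commutatorElement_def]
      show a * b * a⁻¹ * b⁻¹ = (a⁻¹)⁻¹ * (b * a⁻¹ * b⁻¹)
      group

end Cfsg.Agent.S5092
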