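import Cfsg.Statements.S5096
import Cfsg.Agent.Lib.Lead.Fusion

set_option autoImplicit false
open Cfsg

namespace Cfsg.Agent.S5096

open Cfsg.Agent.Fus Cfsg.FusionSystem

theorem result {Ω : Type*} [Group Ω] {S : Subgroup Ω} (F : Cfsg.FusionSystem S) (Q : Subgroup Ω) (hQ : Q ≤ S) : ∃ E : Cfsg.FusionSystem (Cfsg.FusionSystem.normalizerIn S Q), F.IsNormalizerSystem Q E := by
  refine ⟨{ Hom := fun P => F.normalizerHom Q P, le_of_mem := ?_, injective_of_mem := ?_,
            conj_mem := ?_, comp_mem := ?_, inv_mem := ?_ }, fun P => rfl⟩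
  · intro P φ h
    exact ⟨h.2.1, h.2.2.1⟩
  · intro P φ h
    exact F.injective_of_mem h.1
  · intro P g hP hg
    refine ⟨F.conj_mem (hP.trans inf_le_left) hg.1, hP, fun x => ?_, conjHom (P ⊔ Q) g,
      F.conj_mem (sup_le (hP.trans inf_le_left) hQ) hg.1, fun x => rfl, ?_⟩
    · exact Subgroup.mul_mem _ (Subgroup.mul_mem _ hg (hP x.2)) (Subgroup.inv_mem _ hg)
    · rw [map_subgroupOf_eq_iff' _ le_sup_right]
      refine ⟨fun x => (Subgroup.mem_normalizer_iff.mp hg.2 x).mp x.2, fun y hy => ?_⟩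
      have h1 : g⁻¹ * y * g ∈ Q := by
        rw [Subgroup.mem_normalizer_iff.mp hg.2]
        have : g * (g⁻¹ * y * g) * g⁻¹ = y := by group
        rw [this]; exact hy
      refine ⟨⟨g⁻¹ * y * g, h1⟩, ?_⟩
      show g * (g⁻¹ * y * g) * g⁻¹ = y
      group
  · intro P P' φ ψ hφ hψ h
    obtain ⟨hφF, hPN, hφN, φ', hφ', hφext, hφQ⟩ := hφ
    obtain ⟨hψF, hP'N, hψN, ψ', hψ', hψext, hψQ⟩ := hψ
    rw [map_subgroupOf_eq_iff' _ le_sup_right] at hφQ hψQ
    have hval : ∀ x : ↥(P ⊔ Q), φ' x ∈ P' ⊔ Q :=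
      forall_sup_mem φ' (fun x => by rw [hφext]; exact Subgroup.mem_sup_left (h x))
        (fun x => Subgroup.mem_sup_right (hφQ.1 x))
    refine ⟨F.comp_mem hφF hψF h, hPN, fun x => hψN _, ψ'.comp (φ'.codRestrict _ hval),
      F.comp_mem hφ' hψ' hval, fun x => ?_, ?_⟩
    · have e : φ'.codRestrict _ hval (Subgroup.inclusion le_sup_left x) =
          Subgroup.inclusion le_sup_left (⟨φ x, h x⟩ : P') := Subtype.ext (hφext x)
      show ψ' (φ'.codRestrict _ hval (Subgroup.inclusion le_sup_left x)) = ψ ⟨φ x, h x⟩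
      rw [e, hψext]
    · rw [map_subgroupOf_eq_iff' _ le_sup_right]
      constructor
      · intro x
        have e : φ'.codRestrict _ hval (Subgroup.inclusion le_sup_right x) =
          Subgroup.inclusion le_sup_right (⟨_, hφQ.1 x⟩ : Q) := Subtype.ext rfl
        show ψ' (φ'.codRestrict _ hval (Subgroup.inclusion le_sup_right x)) ∈ Q
        rw [e]; exact hψQ.1 _
      · intro y hy
        obtain ⟨z, hz⟩ := hψQ.2 y hy
        obtain ⟨w, hw⟩ := hφQ.2 z z.2
        refine ⟨w, ?_⟩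
        have e : φ'.codRestrict _ hval (Subgroup.inclusion le_sup_right w) =
          Subgroup.inclusion le_sup_right z := Subtype.ext hw
        show ψ' (φ'.codRestrict _ hval (Subgroup.inclusion le_sup_right w)) = y
        rw [e, hz]
  · intro P φ hφ
    obtain ⟨hφF, hPN, hφN, φ', hφ', hφext, hφQ⟩ := hφ
    rw [map_subgroupOf_eq_iff' _ le_sup_right] at hφQ
    obtain ⟨χ, hχ, hχinv, hχrange⟩ := inv_mem' F hφ' rfl
    have hle : φ.range ⊔ Q ≤ φ'.range := by
      apply sup_le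
      · rintro _ ⟨x, rfl⟩; exact ⟨_, hφext x⟩
      · intro y hy
        obtain ⟨w, hw⟩ := hφQ.2 y hy
        exact ⟨_, hw⟩
    have hψ' := restrict_mem F hχ hle
    have hψ := restrict_mem F hψ' (le_sup_left : φ.range ≤ φ.range ⊔ Q)
    have key : ∀ x : P, ∀ hx, χ ⟨φ x, hx⟩ = x := by
      intro x hx
      have e : (⟨φ x, hx⟩ : φ'.range) = ⟨φ' (Subgroup.inclusion le_sup_left x), ⟨_, rfl⟩⟩ :=
        Subtype.ext (hφext x).symm
      rw [e]; exact hχinv _ _
    refine ⟨_, ⟨hψ, ?_, ?_, _, hψ', fun x => rfl, ?_⟩, ?_⟩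
    · rintro _ ⟨x, rfl⟩; exact hφN x
    · rintro ⟨_, x, rfl⟩
      have hh : φ x ∈ φ'.range := hle (Subgroup.mem_sup_left ⟨x, rfl⟩)
      show χ ⟨φ x, hh⟩ ∈ _
      rw [key x hh]; exact hPN x.2
    · rw [map_subgroupOf_eq_iff' _ le_sup_right]
      constructor
      · intro y
        obtain ⟨w, hw⟩ := hφQ.2 y y.2
        have hh : (y : Ω) ∈ φ'.range := hle (Subgroup.mem_sup_right y.2)
        show χ ⟨(y : Ω), hh⟩ ∈ Q
        have hr : φ' (Subgroup.inclusion le_sup_right w) ∈ φ'.range := ⟨_, rfl⟩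
        have e : (⟨(y : Ω), hh⟩ : φ'.range) = ⟨φ' (Subgroup.inclusion le_sup_right w), hr⟩ :=
          Subtype.ext hw.symm
        rw [e, hχinv _ hr]; exact w.2
      · intro w hw
        refine ⟨⟨_, hφQ.1 ⟨w, hw⟩⟩, ?_⟩
        exact hχinv (Subgroup.inclusion le_sup_right ⟨w, hw⟩) _
    · intro x
      show χ ⟨φ x, _⟩ = x
      exact key x _

end Cfsg.Agent.S5096
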