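import Cfsg.Statements.S5101
import Cfsg.Agent.Lib.Lead.GroupFusion

set_option autoImplicit false
open Cfsg

namespace Cfsg.Agent.S5101

open Cfsg.Agent.Fus Cfsg.FusionSystem

theorem result {G : Type*} [Group G] [Finite G] (p : ℕ) [Fact p.Prime] (S : Sylow p G) (P : Subgroup G) (hP : P ≤ S) : (Cfsg.groupFusionSystem (S : Subgroup G)).IsFullyCentralized P ↔ ∃ R : Sylow p ↥(Subgroup.centralizer (P : Set G)), (R : Subgroup ↥(Subgroup.centralizer (P : Set G))) = (Cfsg.FusionSystem.centralizerIn (S : Subgroup G) P).subgroupOf (Subgroup.centralizer (P : Set G)) := by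
  have hKH : centralizerIn (S : Subgroup G) P ≤ Subgroup.centralizer (P : Set G) := inf_le_right
  have hK : IsPGroup p (centralizerIn (S : Subgroup G) P) := S.2.to_le inf_le_left
  rw [exists_sylow_eq_subgroupOf_iff hKH hK]
  constructor
  · rintro ⟨-, hfn⟩ T hTN hT
    have hTP : IsPGroup p (T ⊔ P : Subgroup G) := hT.to_sup_of_normal_right' (S.2.to_le hP)
      (hTN.trans (Subgroup.centralizer_le_normalizer _))
    obtain ⟨g, hg⟩ := exists_map_conj_le_sylow S hTP
    have hQS : P.map (MulAut.conj g).toMonoidHom ≤ S := (Subgroup.map_mono le_sup_right).trans hg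
    have h1 := hfn (P.map (MulAut.conj g).toMonoidHom)
      ((groupFusion_isConj_iff _ _ _).mpr ⟨hP, hQS, g, rfl⟩)
    have h2 : T.map (MulAut.conj g).toMonoidHom ≤
        centralizerIn (S : Subgroup G) (P.map (MulAut.conj g).toMonoidHom) := by
      refine le_inf ((Subgroup.map_mono le_sup_left).trans hg) ?_
      rw [centralizer_map_conj]
      exact Subgroup.map_mono hTN
    have h3 := Subgroup.card_le_of_le h2
    rw [card_map_conj] at h3
    omega
  · intro h
    refine ⟨hP, fun Q hQ => ?_⟩
    obtain ⟨-, hQS, g, rfl⟩ := (groupFusion_isConj_iff _ _ _).mp hQ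
    have h1 := h ((centralizerIn (S : Subgroup G) (P.map (MulAut.conj g).toMonoidHom)).map
      (MulAut.conj g⁻¹).toMonoidHom) ?_ (isPGroup_map_conj _ (S.2.to_le inf_le_left))
    · rwa [card_map_conj] at h1
    · have : centralizerIn (S : Subgroup G) (P.map (MulAut.conj g).toMonoidHom) ≤
          (Subgroup.centralizer (P : Set G)).map (MulAut.conj g).toMonoidHom := by
        rw [← centralizer_map_conj]; exact inf_le_right
      have h5 := Subgroup.map_mono (f := (MulAut.conj g⁻¹).toMonoidHom) this
      rwa [map_conj_map_conj_inv] at h5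

end Cfsg.Agent.S5101
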