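import Cfsg.Statements.S5105
import Cfsg.Agent.Lib.Lead.Cores

set_option autoImplicit false
open Cfsg

namespace Cfsg.Agent.S5105

open Cfsg.Agent.Cores

/-- vanishing of `H¹` for a cocycle trivial on a subgroup of index prime to the exponent. -/
theorem cocycle_split {G : Type*} [Group G] [Finite G] (T V : Subgroup G) [hVn : V.Normal]
    (hVc : ∀ a ∈ V, ∀ b ∈ V, a * b = b * a) (hcop : (Nat.card V).Coprime T.index)
    (c : G → G) (hcV : ∀ g, c g ∈ V) (hcc : ∀ g h, c (g * h) = c g * (g * c h * g⁻¹))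
    (hcT : ∀ t ∈ T, c t = 1) :
    ∃ z ∈ V, ∀ h, c h = z * (h * z⁻¹ * h⁻¹) := by
  classical
  letI : CommGroup V := { (inferInstance : Group V) with
    mul_comm := fun a b => Subtype.ext (hVc a a.2 b b.2) }
  haveI : Fintype (G ⧸ T) := Fintype.ofFinite _
  have hconst : ∀ g, ∀ t ∈ T, c (g * t) = c g := by
    intro g t ht
    rw [hcc, hcT t ht]; simp
  let c' : G ⧸ T → V := fun q => ⟨c q.out, hcV _⟩
  have hc' : ∀ g : G, c' (g : G ⧸ T) = ⟨c g, hcV _⟩ := by
    intro g
    apply Subtype.ext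
    show c (Quotient.out (g : G ⧸ T)) = c g
    obtain ⟨t, ht⟩ := QuotientGroup.mk_out_eq_mul T g
    rw [ht]
    exact hconst g t t.2
  let cj : G → (V →* V) := fun h =>
    { toFun := fun v => ⟨h * v * h⁻¹, hVn.conj_mem v v.2 h⟩
      map_one' := by apply Subtype.ext; simp
      map_mul' := by intro a b; apply Subtype.ext; simp }
  let w : V := ∏ q : G ⧸ T, c' q
  have key : ∀ h : G, cj h w = (⟨c h, hcV h⟩ : V)⁻¹ ^ T.index * w := by
    intro h
    have h1 : cj h w = ∏ q : G ⧸ T, cj h (c' q) := map_prod (cj h) c' Finset.univ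
    have h2 : ∀ q : G ⧸ T, cj h (c' q) = (⟨c h, hcV h⟩ : V)⁻¹ * c' (h • q) := by
      intro q
      induction q using QuotientGroup.induction_on with
      | H g =>
        have : h • (g : G ⧸ T) = ((h * g : G) : G ⧸ T) := rfl
        rw [this, hc', hc']
        apply Subtype.ext
        show h * c g * h⁻¹ = (c h)⁻¹ * c (h * g)
        rw [hcc]; group
    rw [h1, Finset.prod_congr rfl (fun q _ => h2 q), Finset.prod_mul_distrib, Finset.prod_const,
      Finset.card_univ]
    congr 1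
    · congr 1
      rw [Subgroup.index, Nat.card_eq_fintype_card]
    · exact Equiv.prod_comp (MulAction.toPerm h) c'
  obtain ⟨m, hm⟩ : ∃ m : ℕ, ∀ v : V, (v ^ T.index) ^ m = v := by
    by_cases h1 : Nat.card V = 1
    · refine ⟨0, fun v => ?_⟩
      have : Subsingleton V := (Nat.card_eq_one_iff_unique.mp h1).1
      exact Subsingleton.elim _ _
    · have hlt : 1 < Nat.card V := by
        have : 0 < Nat.card V := Nat.card_pos
        omega
      obtain ⟨m, hm⟩ := Nat.exists_mul_mod_eq_one_of_coprime hcop.symm hlt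
      refine ⟨m, fun v => ?_⟩
      rw [← pow_mul, ← Nat.div_add_mod (T.index * m) (Nat.card V), hm.2, pow_add, pow_mul,
        pow_card_eq_one', one_pow, one_mul, pow_one]
  refine ⟨(w ^ m : V), (w ^ m : V).2, fun h => ?_⟩
  have h3 : (⟨c h, hcV h⟩ : V) ^ T.index = w * (cj h w)⁻¹ := by
    rw [key h, inv_pow, mul_inv, inv_inv, mul_comm _ w⁻¹, ← mul_assoc, mul_inv_cancel, one_mul]
  have h4 : (⟨c h, hcV h⟩ : V) = w ^ m * (cj h (w ^ m))⁻¹ := by
    rw [← hm ⟨c h, hcV h⟩, h3, mul_pow, inv_pow, map_pow]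
  have h5 := congrArg Subtype.val h4
  rw [show c h = ((⟨c h, hcV h⟩ : V) : G) from rfl, h5]
  show ((w ^ m : V) : G) * (h * ((w ^ m : V) : G) * h⁻¹)⁻¹ = _
  group

theorem rigid {G : Type*} [Group G] [Finite G] (p : ℕ) [Fact p.Prime] (T : Sylow p G)
    (hC : Subgroup.centralizer ((pCore p G : Subgroup G) : Set G) ≤ pCore p G) (ψ : G ≃* G)
    (hψ : ∀ x ∈ T, ψ x = x) :
    ∃ z ∈ T, (∀ t ∈ T, z * t = t * z) ∧ ∀ g, ψ g = z * g * z⁻¹ := by
  haveI hQn := pCore_normal p G
  have hQT : pCore p G ≤ T := pCore_le_sylow T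
  haveI hVn : (Subgroup.centralizer ((pCore p G : Subgroup G) : Set G)).Normal := inferInstance
  have hVp : IsPGroup p (Subgroup.centralizer ((pCore p G : Subgroup G) : Set G)) :=
    (isPGroup_pCore p G).to_le hC
  have hcop : (Nat.card (Subgroup.centralizer ((pCore p G : Subgroup G) : Set G))).Coprime
      (T : Subgroup G).index := by
    obtain ⟨n, hn⟩ := IsPGroup.iff_card.mp hVp
    rw [hn]
    apply Nat.Coprime.pow_left
    exact (Nat.Prime.coprime_iff_not_dvd Fact.out).mpr T.not_dvd_index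
  have hcV : ∀ g, ψ g * g⁻¹ ∈ Subgroup.centralizer ((pCore p G : Subgroup G) : Set G) := by
    intro g
    rw [Subgroup.mem_centralizer_iff]
    intro x hx
    have h1 : g⁻¹ * x * g ∈ pCore p G := by
      have := hQn.conj_mem x hx g⁻¹
      simpa using this
    have h2 : ψ (g⁻¹ * x * g) = g⁻¹ * x * g := hψ _ (hQT h1)
    have h3 : ψ x = x := hψ _ (hQT hx)
    rw [map_mul, map_mul, map_inv, h3] at h2
    -- (ψ g)⁻¹ x ψ g = g⁻¹ x g
    have h4 : x * ψ g = ψ g * (g⁻¹ * x * g) := by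
      rw [← h2]; group
    calc x * (ψ g * g⁻¹) = (x * ψ g) * g⁻¹ := by group
      _ = ψ g * (g⁻¹ * x * g) * g⁻¹ := by rw [h4]
      _ = ψ g * g⁻¹ * x := by group
  obtain ⟨z, hzV, hz⟩ := cocycle_split (T : Subgroup G)
    (Subgroup.centralizer ((pCore p G : Subgroup G) : Set G))
    (fun a ha b hb => ((Subgroup.mem_centralizer_iff.mp hb) a (hC ha)))
    hcop (fun g => ψ g * g⁻¹) hcV (by intro g h; simp only [map_mul]; group)
    (by intro t ht; simp only [hψ t ht, mul_inv_cancel])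
  have hg : ∀ g, ψ g = z * g * z⁻¹ := by
    intro g
    have := hz g
    calc ψ g = (ψ g * g⁻¹) * g := by group
      _ = z * (g * z⁻¹ * g⁻¹) * g := by rw [this]
      _ = z * g * z⁻¹ := by group
  refine ⟨z, hQT (hC hzV), fun t ht => ?_, hg⟩
  have := hg t
  rw [hψ t ht] at this
  calc z * t = (z * t * z⁻¹) * z := by group
    _ = t * z := by rw [← this]

/-- Model Theorem, rigidity: if G is a model of a constrained fusion system over a finite p-group S (through ι : S → G), then every automorphism of G fixing ι(S) elementwise is conjugation by ι(z) for some z in the centre of S. -/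
theorem result {Ω : Type*} [Group Ω] {S : Subgroup Ω} [Finite S] (p : ℕ) [Fact p.Prime] (hS : IsPGroup p S) (F : Cfsg.FusionSystem S) (hF : F.IsConstrained p) {G : Type*} [Group G] (ι : S →* G) (hG : F.IsModel p G ι) (ψ : G ≃* G) (hψ : ∀ x : S, ψ (ι x) = ι x) : ∃ z : S, z ∈ Subgroup.center S ∧ ∀ g : G, ψ g = ι z * g * (ι z)⁻¹ := by
  obtain ⟨hfin, ⟨hinj, -⟩, ⟨T, hT⟩, hC⟩ := hG
  obtain ⟨z, hzT, hzc, hz⟩ := rigid p T hC ψ (by
    intro x hx
    have : x ∈ ι.range := hT ▸ hx
    obtain ⟨y, rfl⟩ := this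
    exact hψ y)
  have : z ∈ ι.range := hT ▸ hzT
  obtain ⟨y, rfl⟩ := this
  refine ⟨y, ?_, hz⟩
  rw [Subgroup.mem_center_iff]
  intro t
  apply hinj
  rw [map_mul, map_mul]
  exact (hzc (ι t) (hT.ge ⟨t, rfl⟩)).symm

end Cfsg.Agent.S5105
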