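import Cfsg.Statements.S5107
import Cfsg.Agent.S5076
import Cfsg.Agent.S5088
import Cfsg.Agent.S5106

set_option autoImplicit false
open Cfsg Cfsg.FusionSystem Cfsg.Agent.Fus
open scoped commutatorElement

namespace Cfsg.Agent.S5107

/-- If a Sylow p-subgroup S of a finite group G has nilpotency class at most two and its centre is strongly closed in S with respect to G, then every map of the fusion system of G on S is conjugation by an element of N_G(S), and S is the largest subgroup normal in that fusion system. -/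
theorem result {G : Type*} [Group G] [Finite G] (p : ℕ) [Fact p.Prime] (S : Sylow p G) (hcl : ⁅(S : Subgroup G), (S : Subgroup G)⁆ ≤ (S : Subgroup G) ⊓ Subgroup.centralizer ((S : Subgroup G) : Set G)) (hZ : Cfsg.IsStronglyClosed ((S : Subgroup G) ⊓ Subgroup.centralizer ((S : Subgroup G) : Set G)) (S : Subgroup G)) : (∀ (P : Subgroup G) (φ : P →* G), φ ∈ (Cfsg.groupFusionSystem (S : Subgroup G)).Hom P → ∃ g ∈ Subgroup.normalizer ((S : Subgroup G) : Set G), ∀ x : P, φ x = g * (x : G) * g⁻¹) ∧ (Cfsg.groupFusionSystem (S : Subgroup G)).core = S := by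
  set F := Cfsg.groupFusionSystem (S : Subgroup G) with hFdef
  have hF : F.IsSaturated p := Cfsg.Agent.S5076.result p S
  have hS : IsPGroup p (S : Subgroup G) := S.2
  set Z := (S : Subgroup G) ⊓ Subgroup.centralizer ((S : Subgroup G) : Set G) with hZdef
  have hZsc : F.StronglyClosed Z := by
    refine ⟨inf_le_left, fun R hR φ hφ x => ?_⟩
    obtain ⟨-, hφS, g, hg⟩ := hφ
    rw [hg]
    apply hZ.2 x (hR x.2) g
    rw [← hg]; exact hφS x
  have hSsc : F.StronglyClosed (S : Subgroup G) :=
    ⟨le_rfl, fun R _ φ hφ x => (F.le_of_mem hφ).2 x⟩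
  have hnorm : F.IsNormal (S : Subgroup G) := by
    rw [Cfsg.Agent.S5088.result p hS F hF]
    refine ⟨2, ![⊥, Z, (S : Subgroup G)], rfl, rfl, ?_, ?_⟩
    · intro i j hij
      fin_cases i <;> fin_cases j <;> simp_all [Z]
    · intro i
      fin_cases i
      · refine ⟨hZsc, ?_⟩
        show ⁅(S : Subgroup G), Z⁆ ≤ ⊥
        rw [Subgroup.commutator_le]
        intro a ha b hb
        have h2 : a * b = b * a := Subgroup.mem_centralizer_iff.mp hb.2 a ha
        rw [Subgroup.mem_bot, commutatorElement_def, h2]; group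
      · exact ⟨hSsc, hcl⟩
  constructor
  · intro P φ hφ
    obtain ⟨α, hα, h⟩ := Cfsg.Agent.S5106.exists_aut_of_isNormal F hnorm P (F.le_of_mem hφ).1 φ hφ
    obtain ⟨-, -, g, hg⟩ := (mem_autGroup_iff F le_rfl α).mp hα
    refine ⟨g, mem_normalizer_of_aut α g hg, fun x => ?_⟩
    rw [← h]
    exact hg _
  · apply le_antisymm
    · exact sSup_le fun Q hQ => hQ.1
    · exact le_sSup hnorm

end Cfsg.Agent.S5107
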