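import Cfsg.Statements.S5345
import Mathlib

set_option autoImplicit false
open Cfsg

namespace Cfsg.Agent.S5345

open Cfsg
open scoped Pointwise

/-- Let D be a conjugation-invariant generating set of 3-transpositions of a finite group G and T a Sylow 2-subgroup of G. Then the members of D lying in T generate an abelian subgroup, and their number is the width of D (the largest number of pairwise commuting members of D). -/
theorem result {G : Type*} [Group G] [Finite G] {D : Set G} (hD : Cfsg.IsThreeTranspositionGroup D) (T : Sylow 2 G) : IsMulCommutative (Subgroup.closure {d : G | d ∈ D ∧ d ∈ T}) ∧ {d : G | d ∈ D ∧ d ∈ T}.ncard = Cfsg.commutingWidth D := by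
  obtain ⟨⟨hinv, h3⟩, hconj, -⟩ := hD
  haveI : Fact (Nat.Prime 2) := ⟨Nat.prime_two⟩
  have hsq : ∀ x ∈ D, x * x = 1 := by
    intro x hx
    have := pow_orderOf_eq_one x
    rw [hinv x hx, pow_two] at this
    exact this
  have hinv' : ∀ x ∈ D, x⁻¹ = x := by
    intro x hx
    exact inv_eq_of_mul_eq_one_left (hsq x hx)
  have hcomm : ∀ x ∈ {d : G | d ∈ D ∧ d ∈ T}, ∀ y ∈ {d : G | d ∈ D ∧ d ∈ T}, x * y = y * x := by
    rintro x ⟨hx, hxT⟩ y ⟨hy, hyT⟩
    have h2 : (x * y) ^ 2 = 1 := by
      rcases h3 x hx y hy with h | h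
      · exact h
      · have hxy : x * y ∈ (T : Subgroup G) := (T : Subgroup G).mul_mem hxT hyT
        obtain ⟨k, hk⟩ := T.2 ⟨x * y, hxy⟩
        have hk' : (x * y) ^ (2 ^ k) = 1 := by
          have := congrArg Subtype.val hk
          simpa using this
        have h4 : orderOf (x * y) ∣ Nat.gcd (2 ^ k) 3 :=
          Nat.dvd_gcd (orderOf_dvd_of_pow_eq_one hk') (orderOf_dvd_of_pow_eq_one h)
        have h5 : Nat.gcd (2 ^ k) 3 = 1 := Nat.Coprime.pow_left k (by norm_num)
        rw [h5, Nat.dvd_one, orderOf_eq_one_iff] at h4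
        rw [h4, one_pow]
    rw [pow_two] at h2
    have := eq_inv_of_mul_eq_one_left h2
    rw [mul_inv_rev, hinv' x hx, hinv' y hy] at this
    exact this
  refine ⟨Subgroup.isMulCommutative_closure hcomm, ?_⟩
  unfold commutingWidth
  apply le_antisymm
  · apply le_csSup
    · refine ⟨Nat.card G, ?_⟩
      rintro n ⟨E, -, -, -, rfl⟩
      rw [← Nat.card_coe_set_eq]
      exact Nat.card_le_card_of_injective _ Subtype.val_injective
    · exact ⟨_, fun d hd => hd.1, Set.toFinite _, fun a ha b hb => hcomm a ha b hb, rfl⟩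
  · apply csSup_le
    · exact ⟨_, ∅, Set.empty_subset _, Set.finite_empty, by simp, rfl⟩
    rintro n ⟨E, hED, -, hEc, rfl⟩
    have hA : IsMulCommutative (Subgroup.closure E) := Subgroup.isMulCommutative_closure (fun a ha b hb => hEc a ha b hb)
    have hA2 : ∀ x ∈ Subgroup.closure E, x ^ 2 = 1 := by
      intro x hx
      induction hx using Subgroup.closure_induction with
      | mem x hx => rw [pow_two]; exact hsq x (hED hx)
      | one => simp
      | mul x y hx hy h1 h2 =>
        have : Commute x y := by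
          have := hA.is_comm.comm ⟨x, hx⟩ ⟨y, hy⟩
          exact congrArg Subtype.val this
        rw [this.mul_pow, h1, h2, one_mul]
      | inv x hx h1 => rw [inv_pow, h1, inv_one]
    have hAp : IsPGroup 2 (Subgroup.closure E) := by
      intro g
      refine ⟨1, ?_⟩
      apply Subtype.ext
      simpa using hA2 g.1 g.2
    obtain ⟨Q, hQ⟩ := hAp.exists_le_sylow
    obtain ⟨g, hg⟩ := MulAction.exists_smul_eq G Q T
    apply Set.ncard_le_ncard_of_injOn (fun x => g * x * g⁻¹)
    · intro x hx
      refine ⟨hconj g x (hED hx), ?_⟩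
      have h1 : x ∈ (Q : Subgroup G) := hQ (Subgroup.subset_closure hx)
      rw [← hg]
      show g * x * g⁻¹ ∈ ((g • Q : Sylow 2 G) : Subgroup G)
      rw [Sylow.coe_subgroup_smul]
      exact ⟨x, h1, rfl⟩
    · intro x _ y _ hxy
      simpa using hxy

end Cfsg.Agent.S5345
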