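import Mathlib
import Cfsg.Statements.S5358
import Cfsg.Agent.Lib.Helper5.Orth

set_option autoImplicit false
open scoped MatrixGroups
open Cfsg

namespace Cfsg.Agent.S5358


/-- Let Q be a non-degenerate quadratic form on the n-dimensional coordinate space over the field with three elements and u, v vectors of the same non-zero norm Q(u) = Q(v) spanning different lines (v ≠ u and v ≠ −u). Then the reflection matrices of u and v commute if and only if u and v are orthogonal for the polar form of Q. -/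
theorem result (n : ℕ) (Q : QuadraticForm (ZMod 3) (Fin n → ZMod 3)) (hQ : (QuadraticMap.polarBilin Q).Nondegenerate) (u v : Fin n → ZMod 3) (hu : Q u ≠ 0) (huv : Q u = Q v) (h1 : v ≠ u) (h2 : v ≠ -u) : Commute (Cfsg.reflectionMatrix (⇑Q) u) (Cfsg.reflectionMatrix (⇑Q) v) ↔ QuadraticMap.polar (⇑Q) u v = 0 := by
  have hv : Q v ≠ 0 := huv ▸ hu
  have hR := Cfsg.Agent.Lib.Helper5.Orth.reflectionMatrix_mulVec Q
  have hself := Cfsg.Agent.Lib.Helper5.Orth.polar_self' Q
  constructor
  · intro hc
    by_contra hp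
    have h3 : (Cfsg.reflectionMatrix (⇑Q) u * Cfsg.reflectionMatrix (⇑Q) v).mulVec v =
        (Cfsg.reflectionMatrix (⇑Q) v * Cfsg.reflectionMatrix (⇑Q) u).mulVec v := by rw [hc.eq]
    rw [← Matrix.mulVec_mulVec, ← Matrix.mulVec_mulVec, hR v v, hR u v, hR, hR] at h3
    simp only [QuadraticMap.polar_sub_right, QuadraticMap.polar_smul_right, hself,
      smul_eq_mul] at h3
    rw [QuadraticMap.polar_comm (⇑Q) v u, ← huv] at h3
    have hq2 : (Q u)⁻¹ * (2 * Q u) = 2 := by field_simp
    simp only [hq2] at h3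
    have h4 : ∀ i, u i = ((2 : ZMod 3)⁻¹ * ((Q u)⁻¹ * QuadraticMap.polar (⇑Q) u v)) * v i := by
      intro i
      have h5 := congrFun h3 i
      simp only [Pi.sub_apply, Pi.smul_apply, smul_eq_mul] at h5
      have h6 : ((Q u)⁻¹ * QuadraticMap.polar (⇑Q) u v) *
          (2 * u i - ((Q u)⁻¹ * QuadraticMap.polar (⇑Q) u v) * v i) = 0 := by
        linear_combination h5 - v i * hq2
      have hc0 : (Q u)⁻¹ * QuadraticMap.polar (⇑Q) u v ≠ 0 := mul_ne_zero (inv_ne_zero hu) hp
      have h7 := (mul_eq_zero.mp h6).resolve_left hc0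
      have h22 : (2 : ZMod 3) ≠ 0 := by decide
      have h23 : (2 : ZMod 3)⁻¹ * 2 = 1 := inv_mul_cancel₀ h22
      linear_combination (2 : ZMod 3)⁻¹ * h7 - u i * h23
    have h8 : ∀ a : ZMod 3, a = 0 ∨ a = 1 ∨ a = -1 := by decide
    rcases h8 ((2 : ZMod 3)⁻¹ * ((Q u)⁻¹ * QuadraticMap.polar (⇑Q) u v)) with h9 | h9 | h9
    · apply hu
      have : u = 0 := by
        funext i
        rw [h4 i, h9]
        simp
      rw [this]
      simp
    · apply h1
      funext i
      rw [h4 i, h9]
      simp
    · apply h2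
      funext i
      rw [Pi.neg_apply, h4 i, h9]
      simp
  · intro hp
    have hp' : QuadraticMap.polar (⇑Q) v u = 0 := by rw [QuadraticMap.polar_comm]; exact hp
    apply Matrix.mulVec_injective
    funext x
    rw [← Matrix.mulVec_mulVec, ← Matrix.mulVec_mulVec, hR v x, hR u x, hR, hR]
    simp only [QuadraticMap.polar_sub_right, QuadraticMap.polar_smul_right, hp, hp',
      smul_eq_mul, mul_zero, sub_zero]
    abel

end Cfsg.Agent.S5358
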