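import Cfsg.Statements.S5363
import Mathlib

set_option autoImplicit false
open Cfsg

namespace Cfsg.Agent.S5363

open Cfsg

theorem pow_odd_of_sq {G : Type*} [Group G] {s : G} (hs : s * s = 1) {m : ℕ} (hm : Odd m) : s ^ m = s := by
  obtain ⟨k, rfl⟩ := hm
  rw [pow_succ, pow_mul, pow_two, hs, one_pow, one_mul]

theorem commute_of_order_two {G : Type*} [Group G] {a y : G} (ha : a * a = 1) (hy : y * y = 1)
    (h : (a * y) ^ 2 = 1) : Commute a y := by
  unfold Commute SemiconjBy
  have hai : a⁻¹ = a := inv_eq_of_mul_eq_one_left ha
  have hyi : y⁻¹ = y := inv_eq_of_mul_eq_one_left hy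
  rw [pow_two] at h
  have := eq_inv_of_mul_eq_one_left h
  rw [mul_inv_rev, hai, hyi] at this
  exact this

/-- Let D be a conjugation-invariant set of involutions of a finite group G. Then every product of two members of D has odd order or order 2 if and only if, for every a in D and every b in D different from a and commuting with a, the members of D commuting with a b are exactly those commuting with both a and b. -/
theorem result {G : Type*} [Group G] [Finite G] {D : Set G} (hinv : ∀ d ∈ D, orderOf d = 2) (hconj : ∀ g : G, ∀ d ∈ D, g * d * g⁻¹ ∈ D) : (∀ a ∈ D, ∀ b ∈ D, Odd (orderOf (a * b)) ∨ orderOf (a * b) = 2) ↔ ∀ a ∈ D, ∀ b ∈ D, b ≠ a → Commute a b → {y : G | y ∈ D ∧ Commute (a * b) y} = {y : G | y ∈ D ∧ Commute a y} ∩ {y : G | y ∈ D ∧ Commute b y} := by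
  have hsq : ∀ x ∈ D, x * x = 1 := by
    intro x hx
    have := pow_orderOf_eq_one x
    rw [hinv x hx, pow_two] at this
    exact this
  have hinv' : ∀ x ∈ D, x⁻¹ = x := by
    intro x hx
    exact inv_eq_of_mul_eq_one_left (hsq x hx)
  constructor
  · intro h a ha b hb hne hab
    ext y
    simp only [Set.mem_setOf_eq, Set.mem_inter_iff]
    constructor
    · rintro ⟨hy, hc⟩
      have hz2 : (a * b) * (a * b) = 1 := by
        rw [← pow_two, hab.mul_pow, pow_two, pow_two, hsq a ha, hsq b hb, one_mul]
      have key : Commute a y := by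
        rcases h a ha y hy with h1 | h1
        · rcases h b hb y hy with h2 | h2
          · exfalso
            apply hne
            have e1 : b * y = (a * b) * (a * y) := by
              rw [hab.eq]
              calc b * y = b * (a * a) * y := by rw [hsq a ha, mul_one]
                _ = _ := by group
            have hc2 : Commute (a * b) (a * y) := by
              apply Commute.mul_right _ hc
              exact (Commute.refl a).mul_left hab.symm
            have e2 : (b * y) ^ (orderOf (a * y) * orderOf (b * y)) = a * b := by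
              rw [e1, hc2.mul_pow, pow_mul (a * y), pow_orderOf_eq_one, one_pow, mul_one]
              rw [← e1]
              exact pow_odd_of_sq hz2 (h1.mul h2)
            rw [mul_comm, pow_mul, pow_orderOf_eq_one, one_pow] at e2
            have := eq_inv_of_mul_eq_one_right e2.symm
            rw [this, hinv' a ha]
          · have hby : Commute b y := commute_of_order_two (hsq b hb) (hsq y hy) (by rw [← h2, pow_orderOf_eq_one])
            have e1 : a = (a * b) * b := by rw [mul_assoc, hsq b hb, mul_one]
            rw [e1]
            exact hc.mul_left hby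
        · exact commute_of_order_two (hsq a ha) (hsq y hy) (by rw [← h1, pow_orderOf_eq_one])
      refine ⟨⟨hy, key⟩, hy, ?_⟩
      have e1 : b = a * (a * b) := by rw [← mul_assoc, hsq a ha, one_mul]
      rw [e1]
      exact key.mul_left hc
    · rintro ⟨⟨hy, h1⟩, -, h2⟩
      exact ⟨hy, h1.mul_left h2⟩
  · intro h a ha b hb
    by_cases hpar : Odd (orderOf (a * b))
    · exact Or.inl hpar
    right
    rw [Nat.not_odd_iff_even] at hpar
    obtain ⟨k, hk⟩ := hpar
    set w := a * b with hw
    have hwi : w⁻¹ = b * a := by rw [hw, mul_inv_rev, hinv' a ha, hinv' b hb]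
    have h1 : SemiconjBy a w w⁻¹ := by
      unfold SemiconjBy
      rw [hwi, hw, ← mul_assoc, hsq a ha, one_mul, mul_assoc, hsq a ha, mul_one]
    have h2 : SemiconjBy b w w⁻¹ := by
      unfold SemiconjBy
      rw [hwi, hw, mul_assoc]
    have hpos : 0 < orderOf w := orderOf_pos w
    have hk0 : 0 < k := by omega
    have hc2 : w ^ k * w ^ k = 1 := by
      rw [← pow_add, ← hk, pow_orderOf_eq_one]
    have hci : (w ^ k)⁻¹ = w ^ k := inv_eq_of_mul_eq_one_left hc2
    have hc1 : w ^ k ≠ 1 := pow_ne_one_of_lt_orderOf hk0.ne' (by omega)
    have hac : Commute a (w ^ k) := by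
      have := h1.pow_right k
      rwa [inv_pow, hci] at this
    have hbc : Commute b (w ^ k) := by
      have := h2.pow_right k
      rwa [inv_pow, hci] at this
    have ha' : a * w ^ k ∈ D := by
      rcases Nat.even_or_odd' k with ⟨j, hj | hj⟩
      · have e : a * w ^ k = (w ^ j)⁻¹ * a * (w ^ j)⁻¹⁻¹ := by
          have := h1.pow_right j
          unfold SemiconjBy at this
          rw [inv_pow] at this
          rw [← this, inv_inv, hj, two_mul, pow_add]; group
        rw [e]; exact hconj _ a ha
      · have e : a * w ^ k = (w ^ j)⁻¹ * b * (w ^ j)⁻¹⁻¹ := by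
          have := h2.pow_right j
          unfold SemiconjBy at this
          rw [inv_pow] at this
          rw [← this, inv_inv, hj, add_comm, pow_add, pow_one, two_mul, pow_add]
          nth_rewrite 1 [hw]
          rw [← mul_assoc, ← mul_assoc, ← mul_assoc a a b, hsq a ha, one_mul]
        rw [e]; exact hconj _ b hb
    have hne : a * w ^ k ≠ a := by
      intro h; apply hc1
      exact mul_eq_left.mp h
    have hcomm : Commute a (a * w ^ k) := (Commute.refl a).mul_right hac
    have hset := h a ha _ ha' hne hcomm
    have hbmem : b ∈ {y : G | y ∈ D ∧ Commute (a * (a * w ^ k)) y} := by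
      refine ⟨hb, ?_⟩
      rw [← mul_assoc, hsq a ha, one_mul]
      exact hbc.symm
    rw [hset] at hbmem
    have hab : Commute a b := hbmem.1.2
    have hw2 : w ^ 2 = 1 := by
      rw [hw, hab.mul_pow, pow_two, pow_two, hsq a ha, hsq b hb, one_mul]
    have := orderOf_dvd_of_pow_eq_one hw2
    have := Nat.le_of_dvd (by norm_num) this
    omega

end Cfsg.Agent.S5363
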