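import Cfsg.Statements.S5364
import Mathlib

set_option autoImplicit false
open Cfsg

namespace Cfsg.Agent.S5364

open Cfsg

/-- Let D be a conjugation-invariant set of involutions of a finite group G and t an involution in the centre of G such that d t does not lie in D for any d in D. If the images of the members of D in G modulo the subgroup generated by t satisfy the 3-transposition order conditions (each has order 2 and any two have product of order at most 3), then so do the members of D. -/
theorem result {G : Type*} [Group G] [Finite G] {D : Set G} (hinv : ∀ d ∈ D, orderOf d = 2) (hconj : ∀ g : G, ∀ d ∈ D, g * d * g⁻¹ ∈ D) (t : G) (ht : orderOf t = 2) (htZ : t ∈ Subgroup.center G) (hDt : ∀ d ∈ D, d * t ∉ D) [(Subgroup.zpowers t).Normal] (himg : Cfsg.IsThreeTranspositionSet ((QuotientGroup.mk : G → G ⧸ Subgroup.zpowers t) '' D)) : Cfsg.IsThreeTranspositionSet D := by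
  refine ⟨hinv, ?_⟩
  intro d hd e he
  have hsq : ∀ x ∈ D, x * x = 1 := by
    intro x hx
    have := pow_orderOf_eq_one x
    rw [hinv x hx, pow_two] at this
    exact this
  have hinv' : ∀ x ∈ D, x⁻¹ = x := by
    intro x hx
    exact inv_eq_of_mul_eq_one_left (hsq x hx)
  have htt : t * t = 1 := by
    have := pow_orderOf_eq_one t
    rw [ht, pow_two] at this
    exact this
  have hmemt : ∀ y : G, y ∈ Subgroup.zpowers t → y = 1 ∨ y = t := by
    intro y hy
    rw [← mem_powers_iff_mem_zpowers] at hy
    obtain ⟨n, rfl⟩ := hy
    rcases Nat.even_or_odd' n with ⟨k, rfl | rfl⟩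
    · left
      show t ^ (2 * k) = 1
      rw [pow_mul, pow_two, htt, one_pow]
    · right
      show t ^ (2 * k + 1) = t
      rw [pow_succ, pow_mul, pow_two, htt, one_pow, one_mul]
  have hcomm : ∀ g : G, g * t = t * g := fun g => (Subgroup.mem_center_iff.mp htZ g)
  have h := himg.2 _ ⟨d, hd, rfl⟩ _ ⟨e, he, rfl⟩
  rcases h with h | h
  · left
    have h2 : (d * e) ^ 2 ∈ Subgroup.zpowers t := by
      rw [← QuotientGroup.eq_one_iff]
      simpa using h
    rcases hmemt _ h2 with h3 | h3
    · exact h3
    · exfalso
      apply hDt e he
      have h4 : d * e * d⁻¹ = e * t := by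
        rw [hinv' d hd, hcomm e, ← h3, pow_two]
        calc d * e * d = d * e * d * (e * e) := by rw [hsq e he, mul_one]
          _ = d * e * (d * e) * e := by group
      rw [← h4]
      exact hconj d e he
  · right
    have h2 : (d * e) ^ 3 ∈ Subgroup.zpowers t := by
      rw [← QuotientGroup.eq_one_iff]
      simpa using h
    rcases hmemt _ h2 with h3 | h3
    · exact h3
    · exfalso
      apply hDt e he
      have h4 : (d * e) * d * (d * e)⁻¹ = e * t := by
        rw [mul_inv_rev, hinv' d hd, hinv' e he, hcomm e, ← h3, pow_succ, pow_two]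
        calc d * e * d * (e * d) = d * e * d * (e * d) * (e * e) := by rw [hsq e he, mul_one]
          _ = d * e * (d * e) * (d * e) * e := by group
      rw [← h4]
      exact hconj (d * e) d hd

end Cfsg.Agent.S5364
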