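import Cfsg.Statements.S5394
import Cfsg.Agent.Lib.Helper8.Cls2

set_option autoImplicit false
open scoped Pointwise
open Cfsg

namespace Cfsg.Agent.S5394

/-- The automorphism group of the length-24 code built from the squares modulo 23 has exactly two conjugacy classes of involutions: an involution either fixes exactly the eight points of an octad or has no fixed points, both kinds occur, and any two involutions of the same kind are conjugate in the group. -/
theorem result : (∀ g ∈ Cfsg.M24, orderOf g = 2 → (Finset.univ.filter fun p => g p = p) ∈ Cfsg.octads ∨ ∀ p, g p ≠ p) ∧ (∃ g ∈ Cfsg.M24, orderOf g = 2 ∧ (Finset.univ.filter fun p => g p = p) ∈ Cfsg.octads) ∧ (∃ g ∈ Cfsg.M24, orderOf g = 2 ∧ ∀ p, g p ≠ p) ∧ ∀ g ∈ Cfsg.M24, ∀ h ∈ Cfsg.M24, orderOf g = 2 → orderOf h = 2 → ((∀ p, g p ≠ p) ↔ (∀ p, h p ≠ p)) → ∃ k ∈ Cfsg.M24, k * g * k⁻¹ = h := by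
  open Cfsg.Agent.Lib.Helper8 in
  refine ⟨?_, ⟨toPerm R2A, toPerm_mem_M24 R2A_mem, order_R2A, ?_⟩,
    ⟨toPerm R2B, toPerm_mem_M24 R2B_mem, order_R2B, fixF_eq_empty_iff.mp fix_R2B⟩, ?_⟩
  · intro g hg h2
    open Cfsg.Agent.Lib.Helper8 in
    rcases inv_fix hg h2 with h | h
    · left; exact h
    · right
      open Cfsg.Agent.Lib.Helper8 in
      exact fixF_eq_empty_iff.mp h
  · open Cfsg.Agent.Lib.Helper8 in
    have h := oct_R2A
    open Cfsg.Agent.Lib.Helper8 in
    rw [← fix_R2A] at h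
    exact h
  · intro g hg h hh g2 h2 hiff
    open Cfsg.Agent.Lib.Helper8 in
    exact inv_conj hg hh g2 h2 (by rw [fixF_eq_empty_iff, fixF_eq_empty_iff]; exact hiff)

end Cfsg.Agent.S5394
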