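import Cfsg.Statements.S5420
import Mathlib

set_option autoImplicit false
open Cfsg

namespace Cfsg.Agent.S5420

theorem pCore_normal (p : ℕ) (G : Type*) [Group G] : (Cfsg.pCore p G).Normal :=
  Subgroup.sSup_normal _ (fun _ hH => hH.1)

theorem pCore_isPGroup (p : ℕ) (G : Type*) [Group G] : IsPGroup p (Cfsg.pCore p G) :=
  Sylow.sSup_of_normal _ (fun _ hH => hH.2) (fun _ hH => hH.1)

theorem odd_inf_two {G : Type*} [Group G] [Finite G] (K R : Subgroup G) (hK : Odd (Nat.card K))
    (hR : IsPGroup 2 R) : K ⊓ R = ⊥ := by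
  apply Subgroup.inf_eq_bot_of_coprime
  obtain ⟨n, hn⟩ := IsPGroup.iff_card.mp hR
  rw [hn]
  apply Nat.Coprime.pow_right
  exact Nat.coprime_two_right.mpr hK

theorem comm_of {G : Type*} [Group G] (K R : Subgroup G) (h : K ⊓ R = ⊥) {a b : G}
    (h1 : a * b * a⁻¹ * b⁻¹ ∈ K) (h2 : a * b * a⁻¹ * b⁻¹ ∈ R) : a * b = b * a := by
  have : a * b * a⁻¹ * b⁻¹ ∈ K ⊓ R := ⟨h1, h2⟩
  rw [h, Subgroup.mem_bot] at this
  calc a * b = (a * b * a⁻¹ * b⁻¹) * (b * a) := by group
    _ = b * a := by rw [this, one_mul]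

/-- Let Q be an extraspecial 2-subgroup of the finite group G whose centralizer in G is its centre Z and which is normal in the centralizer of Z. If Z lies in the largest normal 2-subgroup of G, then Q is a large extraspecial 2-subgroup of G: it normalizes no non-trivial subgroup of G of odd order. -/
theorem result {G : Type*} [Group G] [Finite G] (Q : Subgroup G) (hL1 : Cfsg.IsExtraspecial 2 ↥Q) (hL2 : Subgroup.centralizer (Q : Set G) = ((Subgroup.center ↥Q).map Q.subtype)) (hL3 : Subgroup.centralizer (((Subgroup.center ↥Q).map Q.subtype) : Set G) ≤ Subgroup.normalizer (Q : Set G)) (hZ : ((Subgroup.center ↥Q).map Q.subtype) ≤ Cfsg.pCore 2 G) : Cfsg.IsLargeExtraspecial Q := by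
  refine ⟨hL1, hL2, hL3, ?_⟩
  intro K hK hQK
  have hQ2 : IsPGroup 2 Q := hL1.1.1
  have hZQ : (Subgroup.center ↥Q).map Q.subtype ≤ Q := by
    rintro _ ⟨x, _, rfl⟩
    exact x.2
  have hn := pCore_normal 2 G
  have h1 : K ≤ Subgroup.centralizer (((Subgroup.center ↥Q).map Q.subtype) : Set G) := by
    intro k hk
    rw [Subgroup.mem_centralizer_iff]
    intro z hz
    apply comm_of K (pCore 2 G) (odd_inf_two K _ hK (pCore_isPGroup 2 G))
    · exact K.mul_mem ((Subgroup.mem_normalizer_iff.mp (hQK (hZQ hz)) k).mp hk) (K.inv_mem hk)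
    · have := (pCore 2 G).mul_mem (hZ hz) (hn.conj_mem _ ((pCore 2 G).inv_mem (hZ hz)) k)
      simpa [mul_assoc] using this
  have h2 : K ≤ Subgroup.centralizer (Q : Set G) := by
    intro k hk
    rw [Subgroup.mem_centralizer_iff]
    intro q hq
    apply comm_of K Q (odd_inf_two K _ hK hQ2)
    · exact K.mul_mem ((Subgroup.mem_normalizer_iff.mp (hQK hq) k).mp hk) (K.inv_mem hk)
    · have h3 := (Subgroup.mem_normalizer_iff.mp (hL3 (h1 hk)) q⁻¹).mp (Q.inv_mem hq)
      have := Q.mul_mem hq h3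
      simpa [mul_assoc] using this
  have h3 : K ≤ K ⊓ Q := le_inf le_rfl (h2.trans (hL2.le.trans hZQ))
  rw [odd_inf_two K _ hK hQ2] at h3
  exact eq_bot_iff.mpr h3

end Cfsg.Agent.S5420
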