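import Cfsg.Statements.S5433
import Mathlib

set_option autoImplicit false
open Cfsg

namespace Cfsg.Agent.S5433

/-- Let Q be a large extraspecial 2-subgroup of the finite group G (extraspecial; centralizer equal to its centre; normal in the centralizer of its centre; normalizing no non-trivial subgroup of odd order), and L a normal subgroup of G containing Q. Then G is the product of L and the normalizer of Q. -/
theorem result {G : Type*} [Group G] [Finite G] (Q : Subgroup G) (hQ : Cfsg.IsLargeExtraspecial Q) (L : Subgroup G) [L.Normal] (hQL : Q ≤ L) : L ⊔ Subgroup.normalizer (Q : Set G) = ⊤ := by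
  obtain ⟨hL1, hL2, hL3, _⟩ := hQ
  have hQ2 : IsPGroup 2 Q := hL1.1.1
  have hcardZ : Nat.card (Subgroup.center Q) = 2 := hL1.2
  set Z : Subgroup G := (Subgroup.center ↥Q).map Q.subtype with hZdef
  have hcardZ' : Nat.card Z = 2 := by
    rw [hZdef, Subgroup.card_map_of_injective Q.subtype_injective, hcardZ]
  have huniq : ∀ c ∈ Z, ∀ c' ∈ Z, c ≠ 1 → c' ≠ 1 → c = c' := by
    intro c hc c' hc' h1 h1'
    obtain ⟨y, _, hy⟩ := (Nat.card_eq_two_iff' (1 : Z)).mp hcardZ'
    have e1 := hy ⟨c, hc⟩ (fun h => h1 (congrArg Subtype.val h))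
    have e2 := hy ⟨c', hc'⟩ (fun h => h1' (congrArg Subtype.val h))
    exact congrArg Subtype.val (e1.trans e2.symm)
  have : Fact (Nat.Prime 2) := ⟨Nat.prime_two⟩
  obtain ⟨P, hP⟩ := (hQ2.comap_subtype (K := L)).exists_le_sylow
  set T : Subgroup G := (P : Subgroup L).map L.subtype with hT
  have hfrat : Subgroup.normalizer (T : Set G) ⊔ L = ⊤ := Sylow.normalizer_sup_eq_top P
  have hQT : Q ≤ T := by
    intro q hq
    exact ⟨⟨q, hQL hq⟩, hP (show (⟨q, hQL hq⟩ : L) ∈ Q.comap L.subtype from hq), rfl⟩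
  have hT2 : IsPGroup 2 T := P.2.map L.subtype
  -- central elements of T lie in Z
  have hcen : ∀ c ∈ T, (∀ t ∈ T, t * c = c * t) → c ∈ Z := by
    intro c _ hc
    rw [← hL2, Subgroup.mem_centralizer_iff]
    intro q hq
    exact hc q (hQT hq)
  have hZne : ∃ z ∈ Z, z ≠ 1 := by
    obtain ⟨y, hy, _⟩ := (Nat.card_eq_two_iff' (1 : Z)).mp hcardZ'
    exact ⟨y, y.2, fun h => hy (Subtype.ext h)⟩
  have hZQ : Z ≤ Q := by
    rintro _ ⟨x, _, rfl⟩
    exact x.2
  have hTnt : Nontrivial T := by
    obtain ⟨z, hz, hz1⟩ := hZne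
    exact ⟨⟨z, hQT (hZQ hz)⟩, 1, fun h => hz1 (congrArg Subtype.val h)⟩
  have hcnt : Nontrivial (Subgroup.center T) := hT2.center_nontrivial
  obtain ⟨c, hc⟩ := exists_ne (1 : Subgroup.center T)
  have hc1 : ((c : T) : G) ≠ 1 := fun h => hc (Subtype.ext (Subtype.ext h))
  have hccen : ∀ t ∈ T, t * ((c : T) : G) = ((c : T) : G) * t := by
    intro t ht
    have := Subgroup.mem_center_iff.mp c.2 ⟨t, ht⟩
    exact congrArg Subtype.val this
  have hcZ : ((c : T) : G) ∈ Z := hcen _ (c : T).2 hccen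
  have hNT : Subgroup.normalizer (T : Set G) ≤ Subgroup.normalizer (Q : Set G) := by
    intro g hg
    apply hL3
    have hgc : g * ((c : T) : G) * g⁻¹ ∈ T := (Subgroup.mem_normalizer_iff.mp hg _).mp (c : T).2
    have hgcZ : g * ((c : T) : G) * g⁻¹ ∈ Z := by
      apply hcen _ hgc
      intro t ht
      have ht' : g⁻¹ * t * g ∈ T := by
        have := (Subgroup.mem_normalizer_iff.mp (Subgroup.inv_mem _ hg) t).mp ht
        simpa using this
      have := hccen _ ht'
      calc t * (g * ((c : T) : G) * g⁻¹) = g * ((g⁻¹ * t * g) * ((c : T) : G)) * g⁻¹ := by group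
        _ = g * (((c : T) : G) * (g⁻¹ * t * g)) * g⁻¹ := by rw [this]
        _ = _ := by group
    have hne : g * ((c : T) : G) * g⁻¹ ≠ 1 := by
      intro h
      apply hc1
      have : ((c : T) : G) = g⁻¹ * (g * ((c : T) : G) * g⁻¹) * g := by group
      rw [this, h]; group
    have heq := huniq _ hgcZ _ hcZ hne hc1
    rw [Subgroup.mem_centralizer_iff]
    intro z hz
    by_cases hz1 : z = 1
    · rw [hz1]; simp
    · have : z = ((c : T) : G) := huniq _ hz _ hcZ hz1 hc1
      rw [this]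
      calc ((c : T) : G) * g = (g * ((c : T) : G) * g⁻¹) * g := by rw [heq]
        _ = g * ((c : T) : G) := by group
  rw [eq_top_iff, ← hfrat, sup_comm]
  exact sup_le_sup_left hNT L

end Cfsg.Agent.S5433
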