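import Cfsg.Statements.S5437
import Mathlib

set_option autoImplicit false
open Cfsg

namespace Cfsg.Agent.S5437

theorem mem_map_conj {X : Type*} [Group X] {A : Subgroup X} {g x : X} :
    x ∈ A.map (MulAut.conj g).toMonoidHom ↔ g⁻¹ * x * g ∈ A := by
  constructor
  · rintro ⟨a, ha, rfl⟩
    simpa [MulAut.conj_apply, mul_assoc] using ha
  · intro h
    exact ⟨g⁻¹ * x * g, h, by simp [MulAut.conj_apply, mul_assoc]⟩

theorem smul_mk_eq_iff {X : Type*} [Group X] (M : Subgroup X) (g x : X) :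
    g • (x : X ⧸ M) = (x : X ⧸ M) ↔ x⁻¹ * g * x ∈ M := by
  have h1 : g • (x : X ⧸ M) = ((g * x : X) : X ⧸ M) := rfl
  rw [h1, eq_comm, QuotientGroup.eq, mul_assoc]

/-- Let I be a set of involutions of the finite group G closed under conjugation, and H a subgroup of G. The following are equivalent: (1) for every member x of I lying in H, the conjugates of x lying in H form a single H-class and the centralizer of x lies in H; (2) for every g outside H, no member of I lies in both H and g H g⁻¹; (3) every member of I lying in H fixes exactly one coset in the action of G on the cosets of H. -/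
theorem result {G : Type*} [Group G] [Finite G] (I : Set G) (hI : ∀ x ∈ I, orderOf x = 2) (hIc : ∀ g : G, ∀ x ∈ I, g * x * g⁻¹ ∈ I) (H : Subgroup G) : ((∀ x ∈ I, x ∈ H → (∀ g : G, g * x * g⁻¹ ∈ H → ∃ h ∈ H, h * x * h⁻¹ = g * x * g⁻¹) ∧ Subgroup.centralizer ({x} : Set G) ≤ H) ↔ (∀ g : G, g ∉ H → ∀ x ∈ I, ¬ (x ∈ H ∧ x ∈ (H : Subgroup G).map (MulAut.conj g).toMonoidHom))) ∧ ((∀ g : G, g ∉ H → ∀ x ∈ I, ¬ (x ∈ H ∧ x ∈ (H : Subgroup G).map (MulAut.conj g).toMonoidHom)) ↔ ∀ x ∈ I, x ∈ H → ∃! c : G ⧸ H, x • c = c) := by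
  simp only [mem_map_conj]
  refine ⟨⟨?_, ?_⟩, ⟨?_, ?_⟩⟩
  · intro h1 g hg x hx ⟨hxH, hxg⟩
    obtain ⟨hfus, hcen⟩ := h1 x hx hxH
    obtain ⟨h, hh, he⟩ := hfus g⁻¹ (by simpa using hxg)
    apply hg
    have h2 : g * h ∈ Subgroup.centralizer ({x} : Set G) := by
      rw [Subgroup.mem_centralizer_singleton_iff]
      rw [inv_inv] at he
      calc g * h * x = g * (h * x * h⁻¹) * h := by group
        _ = g * (g⁻¹ * x * g) * h := by rw [he]
        _ = x * (g * h) := by group
    have := H.mul_mem (hcen h2) (H.inv_mem hh)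
    simpa using this
  · intro h2 x hx hxH
    refine ⟨?_, ?_⟩
    · intro g hg
      refine ⟨g, ?_, rfl⟩
      by_contra hgH
      exact h2 g hgH _ (hIc g x hx) ⟨hg, by simpa [mul_assoc] using hxH⟩
    · intro c hc
      by_contra hcH
      rw [Subgroup.mem_centralizer_singleton_iff] at hc
      apply h2 c hcH x hx ⟨hxH, ?_⟩
      have : c⁻¹ * x * c = x := by
        calc c⁻¹ * x * c = c⁻¹ * (x * c) := by group
          _ = c⁻¹ * (c * x) := by rw [hc]
          _ = x := by group
      rw [this]; exact hxH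
  · intro h2 x hx hxH
    refine ⟨((1 : G) : G ⧸ H), ?_, ?_⟩
    · show x • ((1 : G) : G ⧸ H) = _
      rw [smul_mk_eq_iff]; simpa using hxH
    · intro c hc
      obtain ⟨g, rfl⟩ := QuotientGroup.mk_surjective c
      have hc' : x • (g : G ⧸ H) = (g : G ⧸ H) := hc
      rw [smul_mk_eq_iff] at hc'
      by_contra hne
      have hg : g ∉ H := by
        intro hgH
        apply hne
        rw [QuotientGroup.eq]
        simpa using H.inv_mem hgH
      exact h2 g hg x hx ⟨hxH, hc'⟩
  · intro h3 g hg x hx ⟨hxH, hxg⟩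
    obtain ⟨c, _, huniq⟩ := h3 x hx hxH
    have e1 := huniq ((1 : G) : G ⧸ H) (by
      show x • ((1 : G) : G ⧸ H) = _
      rw [smul_mk_eq_iff]; simpa using hxH)
    have e2 := huniq (g : G ⧸ H) (by
      show x • (g : G ⧸ H) = _
      rw [smul_mk_eq_iff]; exact hxg)
    have := e1.trans e2.symm
    rw [QuotientGroup.eq] at this
    exact hg (by simpa using this)

end Cfsg.Agent.S5437
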