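import Cfsg.Statements.S5438
import Mathlib
import Cfsg.Agent.Lib.Helper1.HallRel
import Cfsg.Agent.Lib.Helper1.Frat
import Cfsg.Agent.Lib.Helper1.Transfer1

set_option autoImplicit false
open Cfsg

namespace Cfsg.Agent.S5438

open Cfsg
open Cfsg.Agent.Lib.Helper1
open scoped Pointwise

theorem orderOf_conj' {G : Type*} [Group G] (a x : G) : orderOf (a * x * a⁻¹) = orderOf x := by
  have : SemiconjBy a x (a * x * a⁻¹) := by
    unfold SemiconjBy; group
  exact (this.orderOf_eq).symm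

/-- Let z be a 2-central involution of the finite group G (an involution central in some Sylow 2-subgroup) and H a subgroup containing z such that the coset H is the only coset of H fixed by z (in the action of G on the cosets of H). Then H has odd index in G, and for every 2-element x of H the conjugates of x lying in H form a single H-class. -/
theorem result {G : Type*} [Group G] [Finite G] (z : G) (hz : Cfsg.IsTwoCentralInvolution z) (H : Subgroup G) (hzH : z ∈ H) (hfix : ∀ g : G, g⁻¹ * z * g ∈ H → g ∈ H) : Odd H.index ∧ ∀ x ∈ H, (∃ k : ℕ, orderOf x = 2 ^ k) → ∀ g : G, g * x * g⁻¹ ∈ H → ∃ h ∈ H, h * x * h⁻¹ = g * x * g⁻¹ := by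
  obtain ⟨hz2, P, hzP, hPz⟩ := hz
  haveI : Fact (Nat.Prime 2) := ⟨Nat.prime_two⟩
  have hPH : (P : Subgroup G) ≤ H := by
    intro x hx
    apply hfix
    have : x⁻¹ * z * x = z := by
      rw [mul_assoc, ← hPz x hx]; group
    rw [this]; exact hzH
  refine ⟨?_, ?_⟩
  · rw [← Nat.not_even_iff_odd, even_iff_two_dvd]
    intro h
    exact P.not_dvd_index (h.trans (Subgroup.index_dvd_of_le hPH))
  intro x hxH ⟨k, hk⟩ g hg
  set C := Subgroup.centralizer ({x} : Set G) with hC
  obtain ⟨T0⟩ : Nonempty (Sylow 2 C) := inferInstance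
  set T := (T0 : Subgroup C).map C.subtype with hT
  have hTC : T ≤ C := Subgroup.map_subtype_le _
  have hTc : Nat.card T = 2 ^ (Nat.card C).factorization 2 := by
    rw [hT, Subgroup.card_map_of_injective C.subtype_injective, T0.card_eq_multiplicity]
  have hTp : IsPGroup 2 T := IsPGroup.of_card hTc
  obtain ⟨b, -, hb⟩ := sylow_dominance_in ⊤ (P : Subgroup G) T le_top le_top (sylow_card_top P) hTp
  have hPc := sylow_card_of_le hPH le_top (sylow_card_top P)
  have key : ∀ a : G, a⁻¹ * x * a ∈ H → ∃ l ∈ C, a⁻¹ * l * b ∈ H := by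
    intro a ha
    have h1 : IsPGroup 2 (Subgroup.zpowers (a⁻¹ * x * a)) := by
      apply IsPGroup.of_card (n := k)
      rw [Nat.card_zpowers, ← hk]
      have := orderOf_conj' (a⁻¹) x
      rwa [inv_inv] at this
    obtain ⟨h, hh, h2⟩ := sylow_dominance_in H (P : Subgroup G) _ hPH (by rwa [Subgroup.zpowers_le]) hPc h1
    have h3 := h2 (Subgroup.mem_zpowers _)
    rw [mem_conj_smul] at h3
    have h4 := hPz _ h3
    set z' := (a * h) * z * (a * h)⁻¹ with hz'
    have h5 : z' ∈ C := by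
      rw [hC, Subgroup.mem_centralizer_singleton_iff]
      have e1 : z' * x = (a * h) * (z * (h⁻¹ * (a⁻¹ * x * a) * h)) * (a * h)⁻¹ := by
        rw [hz']; group
      have e2 : x * z' = (a * h) * ((h⁻¹ * (a⁻¹ * x * a) * h) * z) * (a * h)⁻¹ := by
        rw [hz']; group
      rw [e1, e2, h4]
    have h6 : IsPGroup 2 (Subgroup.zpowers z') := by
      apply IsPGroup.of_card (n := 1)
      rw [Nat.card_zpowers, pow_one, ← hz2]
      exact orderOf_conj' _ _
    obtain ⟨l, hl, h7⟩ := sylow_dominance_in C T _ hTC (by rwa [Subgroup.zpowers_le]) hTc h6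
    have h8 := h7 (Subgroup.mem_zpowers _)
    rw [mem_conj_smul] at h8
    have h9 := hb h8
    rw [mem_conj_smul] at h9
    have h10 := hPH h9
    refine ⟨l, hl, ?_⟩
    have h11 : h⁻¹ * a⁻¹ * l * b ∈ H := by
      apply hfix
      have e : (h⁻¹ * a⁻¹ * l * b)⁻¹ * z * (h⁻¹ * a⁻¹ * l * b) = b⁻¹ * (l⁻¹ * z' * l) * b := by
        rw [hz']; group
      rw [e]; exact h10
    have := H.mul_mem hh h11
    have e : h * (h⁻¹ * a⁻¹ * l * b) = a⁻¹ * l * b := by group
    rwa [e] at this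
  obtain ⟨l1, hl1, h1⟩ := key 1 (by simpa using hxH)
  obtain ⟨l2, hl2, h2⟩ := key g⁻¹ (by simpa using hg)
  refine ⟨(g⁻¹⁻¹ * l2 * b) * (1⁻¹ * l1 * b)⁻¹, H.mul_mem h2 (H.inv_mem h1), ?_⟩
  rw [hC, Subgroup.mem_centralizer_singleton_iff] at hl1 hl2
  have e1 : l1⁻¹ * x * l1 = x := by
    rw [mul_assoc, ← hl1]; group
  have e2 : l2 * x * l2⁻¹ = x := by
    rw [hl2]; group
  calc (g⁻¹⁻¹ * l2 * b) * (1⁻¹ * l1 * b)⁻¹ * x * ((g⁻¹⁻¹ * l2 * b) * (1⁻¹ * l1 * b)⁻¹)⁻¹ 
      = g * (l2 * (l1⁻¹ * x * l1) * l2⁻¹) * g⁻¹ := by group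
    _ = g * x * g⁻¹ := by rw [e1, e2]

end Cfsg.Agent.S5438
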