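import Cfsg.Statements.S5439
import Mathlib

set_option autoImplicit false
open Cfsg

namespace Cfsg.Agent.S5439

open Cfsg

theorem sq_of_isConj {G : Type*} [Group G] {d e : G} (hd : orderOf d = 2) (he : IsConj d e) :
    e * e = 1 := by
  rw [isConj_iff] at he
  obtain ⟨c, rfl⟩ := he
  have : d * d = 1 := by
    have := pow_orderOf_eq_one d
    rwa [hd, pow_two] at this
  calc c * d * c⁻¹ * (c * d * c⁻¹) = c * (d * d) * c⁻¹ := by group
    _ = 1 := by rw [this]; group

theorem fix_iff {G : Type*} [Group G] (H : Subgroup G) (x g : G) :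
    x • (g : G ⧸ H) = (g : G ⧸ H) ↔ g⁻¹ * x * g ∈ H := by
  rw [MulAction.Quotient.smul_coe, eq_comm, QuotientGroup.eq, smul_eq_mul, mul_assoc]

/-- Let I and J be two different conjugacy classes of involutions of the finite group G and H a subgroup such that every member of I ∪ J fixes exactly one coset in the action on the cosets of H, and such that for every a in I ∩ H and every b in (I ∪ J) ∩ H different from a and commuting with it, the centralizer of a b lies in H. Then H = G. -/
theorem result {G : Type*} [Group G] [Finite G] (I J : Set G) (a₀ b₀ : G) (ha₀ : orderOf a₀ = 2) (hb₀ : orderOf b₀ = 2) (hI : I = {x | IsConj a₀ x}) (hJ : J = {x | IsConj b₀ x}) (hIJ : I ≠ J) (H : Subgroup G) (hfix : ∀ x ∈ I ∪ J, ∃! c : G ⧸ H, x • c = c) (hcent : ∀ a ∈ I, a ∈ H → ∀ b ∈ I ∪ J, b ∈ H → a ≠ b → a * b = b * a → Subgroup.centralizer ({a * b} : Set G) ≤ H) : H = ⊤ := by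
  have hIc : ∀ x ∈ I, ∀ g : G, g * x * g⁻¹ ∈ I := by
    intro x hx g
    rw [hI] at hx ⊢
    exact IsConj.trans hx (isConj_iff.mpr ⟨g, rfl⟩)
  have hJc : ∀ x ∈ J, ∀ g : G, g * x * g⁻¹ ∈ J := by
    intro x hx g
    rw [hJ] at hx ⊢
    exact IsConj.trans hx (isConj_iff.mpr ⟨g, rfl⟩)
  have ha₀I : a₀ ∈ I := by rw [hI]; exact IsConj.refl _
  have hb₀J : b₀ ∈ J := by rw [hJ]; exact IsConj.refl _
  -- step 1
  obtain ⟨a, haI, haH⟩ : ∃ a ∈ I, a ∈ H := by
    obtain ⟨c, hc, -⟩ := hfix a₀ (Or.inl ha₀I)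
    induction c using QuotientGroup.induction_on with
    | H g =>
      rw [fix_iff] at hc
      refine ⟨g⁻¹ * a₀ * g, ?_, hc⟩
      have := hIc a₀ ha₀I g⁻¹
      rwa [inv_inv] at this
  -- step 2
  have key : ∀ b ∈ J, b ∈ H := by
    intro b hb
    have ha2 : a * a = 1 := by rw [hI] at haI; exact sq_of_isConj ha₀ haI
    have hb2 : b * b = 1 := by rw [hJ] at hb; exact sq_of_isConj hb₀ hb
    have hai : a⁻¹ = a := inv_eq_of_mul_eq_one_left ha2
    have hbi : b⁻¹ = b := inv_eq_of_mul_eq_one_left hb2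
    set w := a * b with hw
    have hwi : w⁻¹ = b * a := by rw [hw, mul_inv_rev, hai, hbi]
    have h1 : SemiconjBy a w w⁻¹ := by
      unfold SemiconjBy
      rw [hwi, hw, ← mul_assoc, ha2, one_mul, mul_assoc, ha2, mul_one]
    have h2 : SemiconjBy b w w⁻¹ := by
      unfold SemiconjBy
      rw [hwi, hw, mul_assoc]
    have eodd : ∀ j : ℕ, a * w ^ (2 * j + 1) = (w ^ j)⁻¹ * b * (w ^ j)⁻¹⁻¹ := by
      intro j
      have := h2.pow_right j
      unfold SemiconjBy at this
      rw [inv_pow] at this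
      rw [← this, inv_inv, add_comm, pow_add, pow_one, two_mul, pow_add]
      nth_rewrite 1 [hw]
      rw [← mul_assoc, ← mul_assoc, ← mul_assoc a a b, ha2, one_mul]
    have eeven : ∀ j : ℕ, a * w ^ (2 * j) = (w ^ j)⁻¹ * a * (w ^ j)⁻¹⁻¹ := by
      intro j
      have := h1.pow_right j
      unfold SemiconjBy at this
      rw [inv_pow] at this
      rw [← this, inv_inv, two_mul, pow_add]; group
    have hpar : Even (orderOf w) := by
      rw [← Nat.not_odd_iff_even]
      rintro ⟨j, hj⟩
      have := eodd j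
      rw [← hj, pow_orderOf_eq_one, mul_one] at this
      have haJ : a ∈ J := by rw [this]; exact hJc b hb _
      apply hIJ
      rw [hI] at haI
      rw [hJ] at haJ
      rw [hI, hJ]
      ext x
      simp only [Set.mem_setOf_eq]
      have hab : IsConj a₀ b₀ := haI.trans haJ.symm
      exact ⟨fun h => hab.symm.trans h, fun h => hab.trans h⟩
    obtain ⟨k, hk⟩ := hpar
    have hpos : 0 < orderOf w := orderOf_pos w
    have hk0 : 0 < k := by omega
    have hc2 : w ^ k * w ^ k = 1 := by
      rw [← pow_add, ← hk, pow_orderOf_eq_one]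
    have hci : (w ^ k)⁻¹ = w ^ k := inv_eq_of_mul_eq_one_left hc2
    have hc1 : w ^ k ≠ 1 := pow_ne_one_of_lt_orderOf hk0.ne' (by omega)
    have hac : Commute a (w ^ k) := by
      have := h1.pow_right k
      rwa [inv_pow, hci] at this
    have hbc : Commute b (w ^ k) := by
      have := h2.pow_right k
      rwa [inv_pow, hci] at this
    have ha' : a * w ^ k ∈ I ∪ J := by
      rcases Nat.even_or_odd' k with ⟨j, hj | hj⟩
      · left; rw [hj, eeven]; exact hIc a haI _
      · right; rw [hj, eodd]; exact hJc b hb _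
    have hne : a ≠ a * w ^ k := by
      intro h; apply hc1
      exact mul_eq_left.mp h.symm
    have hcomm : a * (a * w ^ k) = (a * w ^ k) * a := ((Commute.refl a).mul_right hac).eq
    have ha'H : a * w ^ k ∈ H := by
      obtain ⟨c, hc, huniq⟩ := hfix a (Or.inl haI)
      have e1 : ((1 : G) : G ⧸ H) = c := by
        apply huniq
        show a • ((1 : G) : G ⧸ H) = ((1 : G) : G ⧸ H)
        rw [fix_iff]; simpa using haH
      have e2 : (((a * w ^ k : G)) : G ⧸ H) = c := by
        apply huniq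
        show a • ((a * w ^ k : G) : G ⧸ H) = ((a * w ^ k : G) : G ⧸ H)
        rw [fix_iff]
        have : (a * w ^ k)⁻¹ * a * (a * w ^ k) = a := by
          rw [mul_assoc, hcomm]; group
        rw [this]; exact haH
      have := e1.trans e2.symm
      rw [QuotientGroup.eq] at this
      simpa using this
    have := hcent a haI haH _ ha' ha'H hne hcomm
    apply this
    have e3 : a * (a * w ^ k) = w ^ k := by rw [← mul_assoc, ha2, one_mul]
    rw [Subgroup.mem_centralizer_singleton_iff, e3]
    exact hbc.eq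
  -- step 3
  obtain ⟨c, hc, huniq⟩ := hfix b₀ (Or.inr hb₀J)
  rw [eq_top_iff]
  intro g _
  have e1 : ((1 : G) : G ⧸ H) = c := by
    apply huniq
    show b₀ • ((1 : G) : G ⧸ H) = ((1 : G) : G ⧸ H)
    rw [fix_iff]; simpa using key b₀ hb₀J
  have e2 : ((g : G) : G ⧸ H) = c := by
    apply huniq
    show b₀ • ((g : G) : G ⧸ H) = ((g : G) : G ⧸ H)
    rw [fix_iff]
    have := hJc b₀ hb₀J g⁻¹
    rw [inv_inv] at this
    exact key _ this
  have := e1.trans e2.symm
  rw [QuotientGroup.eq] at this
  simpa using this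

end Cfsg.Agent.S5439
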