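import Cfsg.Statements.S5550
import Cfsg.Agent.Lib.Helper8.NoFixCoset

set_option autoImplicit false
open scoped Pointwise
open Cfsg

namespace Cfsg.Agent.S5550

/-- Let u be a word of the length-24 binary Golay code of the definitions (possibly zero or all-ones) and w any binary word of length 24 outside the code. Then some automorphism of the code (a coordinate permutation preserving it) fixes u but moves w to a word not congruent to w modulo the code: the stabilizer of a codeword fixes no non-zero element of the quotient of the space of all words by the code. -/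
theorem result (u : (Cfsg.GolayPt → ZMod 2)) (hu : u ∈ Cfsg.golayCode) (w : (Cfsg.GolayPt → ZMod 2)) (hw : w ∉ Cfsg.golayCode) : ∃ σ ∈ Cfsg.M24, (fun p => u (σ.symm p)) = u ∧ (fun p => w (σ.symm p)) - w ∉ Cfsg.golayCode := by
  open Cfsg.Agent.Lib.Helper8 in
  have hU : support₂ u ∈ supports (golayCode : Set (GolayPt → ZMod 2)) := ⟨u, hu, rfl⟩
  have hs : support₂ w ∉ supports (golayCode : Set (GolayPt → ZMod 2)) := by
    rintro ⟨w', hw', h⟩
    exact hw (support₂_injective h ▸ hw')
  obtain ⟨σ, h1, h2, h3⟩ := nf_all hU hs
  refine ⟨σ, h1, ?_, ?_⟩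
  · apply support₂_injective
    rw [support₂_perm, h2]
  · intro hc
    apply h3
    refine ⟨_, hc, ?_⟩
    have e : (fun p => w (σ.symm p)) - w = (fun p => w (σ.symm p)) + w := by
      funext p
      simp only [Pi.sub_apply, Pi.add_apply]
      rw [sub_eq_add_neg, ZMod.neg_eq_self_mod_two]
    rw [e, support₂_add, support₂_perm]

end Cfsg.Agent.S5550
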