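import Cfsg.Statements.S5599
import Cfsg.Agent.Lib.Helper8.OutM22d

set_option autoImplicit false
open scoped Pointwise
open Cfsg

namespace Cfsg.Agent.S5599

/-- In the automorphism group of the length-24 code, the two-point Mathieu group (permutations of the code's group fixing the extra point and the residue 0) has index 2 in the setwise stabiliser of that pair of points, and an element of the code's group interchanging the two points normalises the two-point group and induces on it, by conjugation, an automorphism that is not inner. -/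
theorem result (g : Equiv.Perm Cfsg.GolayPt) (hg : g ∈ Cfsg.M24) (h₁ : g none = some 0) (h₂ : g (some 0) = none) : Cfsg.Spor.M22.relIndex (Cfsg.M24 ⊓ MulAction.stabilizer (Equiv.Perm Cfsg.GolayPt) ({none, some 0} : Finset Cfsg.GolayPt)) = 2 ∧ (∀ x ∈ Cfsg.Spor.M22, g * x * g⁻¹ ∈ Cfsg.Spor.M22) ∧ ¬ ∃ h ∈ Cfsg.Spor.M22, ∀ x ∈ Cfsg.Spor.M22, g * x * g⁻¹ = h * x * h⁻¹ := by
  open Cfsg.Agent.Lib.Helper8 in
  have hN : isN g := ⟨hg, Or.inr ⟨h₁, h₂⟩⟩
  open Cfsg.Agent.Lib.Helper8 in
  refine ⟨relIndex_M22 hN h₁, fun x hx => isN_conj hN hx, ?_⟩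
  rintro ⟨h, hh, e⟩
  open Cfsg.Agent.Lib.Helper8 in
  have e1 := eq_of_conj_eq hg (M22_iff.mp hh).1 e
  open Cfsg.Agent.Lib.Helper8 in
  have e2 := (M22_iff.mp hh).2.1
  rw [← e1] at e2
  open Cfsg.Agent.Lib.Helper8 in
  exact pt23_ne_pt0 (e2.symm.trans h₁)

end Cfsg.Agent.S5599
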