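import Cfsg.Statements.S5613
import Cfsg.Agent.Lib.Helper8.Pair

set_option autoImplicit false
open scoped Pointwise
open Cfsg

namespace Cfsg.Agent.S5613

/-- In the group of the length-24 code, the joint stabiliser of two octads has order 10752, 1152 or 720 according as the octads meet in 0, 4 or 2 points. -/
theorem result (o o' : Finset Cfsg.GolayPt) (ho : o ∈ Cfsg.octads) (ho' : o' ∈ Cfsg.octads) : ((o ∩ o').card = 0 → Nat.card ↥(MulAction.stabilizer Cfsg.M24 o ⊓ MulAction.stabilizer Cfsg.M24 o') = 10752) ∧ ((o ∩ o').card = 4 → Nat.card ↥(MulAction.stabilizer Cfsg.M24 o ⊓ MulAction.stabilizer Cfsg.M24 o') = 1152) ∧ ((o ∩ o').card = 2 → Nat.card ↥(MulAction.stabilizer Cfsg.M24 o ⊓ MulAction.stabilizer Cfsg.M24 o') = 720) := by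
  open Cfsg.Agent.Lib.Helper8 in
  have key : ∀ m : ℕ, isOct m = true → (o ∩ o').card = popF (8536111 &&& m) →
      Nat.card ↥(MulAction.stabilizer Cfsg.M24 o ⊓ MulAction.stabilizer Cfsg.M24 o') =
        Nat.card (GInv [m, 8536111]) := by
    intro m hm hi
    have hm' := setOf_mem_octads hm
    obtain ⟨g, hg, hgo, hgo'⟩ := norm_O_code ho ho'.1 hm'.1 (ho'.2.trans hm'.2.symm)
      (by rw [hi, card_inter_setOf])
    apply card_eq_card_GInv _ _ hg
    intro k
    rw [mem_GInv_conj hg]
    simp only [List.mem_cons, List.not_mem_nil, or_false, forall_eq_or_imp, forall_eq,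
      inv_conj_iff hgo, inv_conj_iff hgo',
      Subgroup.mem_inf, MulAction.mem_stabilizer_iff, k.2, true_and]
    exact and_comm
  refine ⟨fun h => ?_, fun h => ?_, fun h => ?_⟩
  · rw [key 337856 (by decide +kernel) (by rw [h]; decide +kernel), card_OO0]
  · rw [key 5279 (by decide +kernel) (by rw [h]; decide +kernel), card_OO4]
  · rw [key 15777 (by decide +kernel) (by rw [h]; decide +kernel), card_OO2]

end Cfsg.Agent.S5613
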