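import Cfsg.Statements.S5616
import Cfsg.Agent.Lib.Helper8.SextTrip

set_option autoImplicit false
open scoped Pointwise
open Cfsg

namespace Cfsg.Agent.S5616

/-- Let Y be a set of 3 of the 24 points. The sextets of the length-24 code whose tetrads meeting Y number 1, 2 or 3 are respectively 21, 630 and 1120 in number, and two sextets with the same number of tetrads meeting Y are conjugate under the setwise stabiliser of Y in the code's group. -/
theorem result (Y : Finset Cfsg.GolayPt) (hY : Y.card = 3) : {S : Finset (Finset Cfsg.GolayPt) | S ∈ Cfsg.sextets ∧ (S.filter fun t => (t ∩ Y).Nonempty).card = 1}.ncard = 21 ∧ {S : Finset (Finset Cfsg.GolayPt) | S ∈ Cfsg.sextets ∧ (S.filter fun t => (t ∩ Y).Nonempty).card = 2}.ncard = 630 ∧ {S : Finset (Finset Cfsg.GolayPt) | S ∈ Cfsg.sextets ∧ (S.filter fun t => (t ∩ Y).Nonempty).card = 3}.ncard = 1120 ∧ ∀ S S' : Finset (Finset Cfsg.GolayPt), S ∈ Cfsg.sextets → S' ∈ Cfsg.sextets → (S.filter fun t => (t ∩ Y).Nonempty).card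 = (S'.filter fun t => (t ∩ Y).Nonempty).card → ∃ g ∈ Cfsg.M24, g • Y = Y ∧ g • S = S' := by
  open Cfsg.Agent.Lib.Helper8 in
  have k0 := sextTrip_class 0 (by norm_num) hY
  have k1 := sextTrip_class 1 (by norm_num) hY
  have k2 := sextTrip_class 2 (by norm_num) hY
  refine ⟨k0.1, k1.1, k2.1, ?_⟩
  intro S S' hS hS' h
  have h' : meetCount Y S = meetCount Y S' := h
  obtain ⟨l, hl, e⟩ := meetCount_cases hY hS
  obtain ⟨x, hx, hxS⟩ := (sextTrip_class l hl hY).2 S S' hS e hS' (h' ▸ e)
  exact ⟨x.1, x.2, hx, hxS⟩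

end Cfsg.Agent.S5616
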