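import Mathlib
import Cfsg.Statements.S5632
import Cfsg.Agent.Lib.Helper5.SLMax

set_option autoImplicit false
open Cfsg

namespace Cfsg.Agent.S5632


/-- For a finite field F and subspaces 0 < W < U of F^n with dim W + dim U = n, the elements of SL_n(F) stabilising both W and U form a subgroup that is not maximal in SL_n(F): some subgroup lies strictly between it and SL_n(F). -/
theorem result {F : Type*} [Field F] [Fintype F] (n : ℕ) (W U : Submodule F (Fin n → F)) (hW0 : W ≠ ⊥) (hWU : W < U) (hdim : Module.finrank F W + Module.finrank F U = n) : ∃ K : Subgroup (Matrix.GeneralLinearGroup (Fin n) F), Cfsg.Geo.subspaceStabilizer W ⊓ Cfsg.Geo.subspaceStabilizer U ⊓ Cfsg.Geo.specialLinear (Fin n) F < K ∧ K < Cfsg.Geo.specialLinear (Fin n) F := by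
  have hUtop : U ≠ ⊤ := by
    intro h
    rw [h, finrank_top, Module.finrank_fintype_fun_eq_card, Fintype.card_fin] at hdim
    have : Module.finrank F W = 0 := by omega
    exact hW0 (Submodule.finrank_eq_zero.mp this)
  have hWtop : W ≠ ⊤ := by
    intro h
    rw [h] at hWU
    exact not_top_lt hWU
  obtain ⟨u, huU, huW⟩ := SetLike.exists_of_lt hWU
  obtain ⟨v, hv⟩ : ∃ v, v ∉ U := by
    by_contra hcon
    push Not at hcon
    exact hUtop (eq_top_iff.mpr (fun x _ => hcon x))
  apply Cfsg.Agent.Lib.Helper5.SLMax.not_max W U hW0 hWtop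
  obtain ⟨g, hg, h1, h2⟩ := Cfsg.Agent.Lib.Helper5.SLMax.exists_tv W u v (by
    intro h
    obtain ⟨w, hw, z, hz, e⟩ := Submodule.mem_sup.mp h
    obtain ⟨c, rfl⟩ := Submodule.mem_span_singleton.mp hz
    by_cases hc : c = 0
    · rw [hc, zero_smul, add_zero] at e
      rw [← e] at huW
      exact huW hw
    · apply hv
      have h3 : c • v ∈ U := by
        have : c • v = u - w := by rw [← e]; abel
        rw [this]
        exact U.sub_mem huU (hWU.le hw)
      have := U.smul_mem c⁻¹ h3
      rwa [smul_smul, inv_mul_cancel₀ hc, one_smul] at this)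
  refine ⟨g, hg, Cfsg.Agent.Lib.Helper5.SLMax.mem_stab_of g W (fun x hx => by rw [h1 x hx]; exact hx), ?_⟩
  intro h
  have h3 := Cfsg.Agent.Lib.Helper5.SLMax.maps_of_mem_stab g U h u huU
  rw [h2] at h3
  apply hv
  have := U.sub_mem h3 huU
  rwa [add_sub_cancel_left] at this

end Cfsg.Agent.S5632
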