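import Mathlib
import Cfsg.Statements.S5633
import Cfsg.Agent.Lib.Helper5.SLMax

set_option autoImplicit false
open Cfsg

namespace Cfsg.Agent.S5633


/-- For a finite field F and complementary non-zero subspaces W ⊕ U = F^n with dim W < dim U, the elements of SL_n(F) stabilising both W and U form a subgroup that is not maximal in SL_n(F): some subgroup lies strictly between it and SL_n(F). -/
theorem result {F : Type*} [Field F] [Fintype F] (n : ℕ) (W U : Submodule F (Fin n → F)) (hW0 : W ≠ ⊥) (hWU : W ⊓ U = ⊥) (hWU' : W ⊔ U = ⊤) (hdim : Module.finrank F W < Module.finrank F U) : ∃ K : Subgroup (Matrix.GeneralLinearGroup (Fin n) F), Cfsg.Geo.subspaceStabilizer W ⊓ Cfsg.Geo.subspaceStabilizer U ⊓ Cfsg.Geo.specialLinear (Fin n) F < K ∧ K < Cfsg.Geo.specialLinear (Fin n) F := by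
  have hU0 : U ≠ ⊥ := by
    intro h
    rw [h, finrank_bot] at hdim
    omega
  have hWtop : W ≠ ⊤ := by
    intro h
    rw [h, top_inf_eq] at hWU
    exact hU0 hWU
  obtain ⟨u, huU, hu0⟩ := Submodule.exists_mem_ne_zero_of_ne_bot hU0
  obtain ⟨w, hwW, hw0⟩ := Submodule.exists_mem_ne_zero_of_ne_bot hW0
  have hdisj : ∀ x, x ∈ W → x ∈ U → x = 0 := by
    intro x h1 h2
    have : x ∈ W ⊓ U := ⟨h1, h2⟩
    rwa [hWU, Submodule.mem_bot] at this
  apply Cfsg.Agent.Lib.Helper5.SLMax.not_max W U hW0 hWtop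
  obtain ⟨g, hg, h1, h2⟩ := Cfsg.Agent.Lib.Helper5.SLMax.exists_tv W u w (by
    have : W ⊔ Submodule.span F {w} = W := by
      rw [sup_eq_left, Submodule.span_singleton_le_iff_mem]
      exact hwW
    rw [this]
    intro h
    exact hu0 (hdisj u h huU))
  refine ⟨g, hg, Cfsg.Agent.Lib.Helper5.SLMax.mem_stab_of g W (fun x hx => by rw [h1 x hx]; exact hx), ?_⟩
  intro h
  have h3 := Cfsg.Agent.Lib.Helper5.SLMax.maps_of_mem_stab g U h u huU
  rw [h2] at h3
  apply hw0
  apply hdisj w hwW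
  have := U.sub_mem h3 huU
  rwa [add_sub_cancel_left] at this

end Cfsg.Agent.S5633
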