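import Mathlib
import Cfsg.Statements.S5635
import Cfsg.Agent.Lib.Helper5.SLImprim
import Cfsg.Agent.Lib.Helper5.SUBridge

set_option autoImplicit false
open Cfsg

namespace Cfsg.Agent.S5635


/-- For a finite field F with q elements and n ≥ 13, let D be a decomposition of F^n into t ≥ 2 independent subspaces of equal dimension m spanning F^n, where m = 1 and q ≤ 4, or m = 2 and q = 2. Then the elements of SL_n(F) permuting the members of D form a subgroup that is not maximal: some subgroup lies strictly between it and SL_n(F). -/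
theorem result {F : Type*} [Field F] [Fintype F] (n : ℕ) (hn : 13 ≤ n) {t : ℕ} (m : ℕ) (D : Fin t → Submodule F (Fin n → F)) (hD : Cfsg.Geo.IsMDecomposition m D) (h : (m = 1 ∧ Fintype.card F ≤ 4) ∨ (m = 2 ∧ Fintype.card F = 2)) : ∃ K : Subgroup (Matrix.GeneralLinearGroup (Fin n) F), Cfsg.Geo.decompositionStabilizer D ⊓ Cfsg.Geo.specialLinear (Fin n) F < K ∧ K < Cfsg.Geo.specialLinear (Fin n) F := by
  classical
  obtain ⟨e, x, hmem, hx, hexp, hline, hcard⟩ := Cfsg.Agent.Lib.Helper5.SLImprim.exists_coords hD
  rw [Fintype.card_fin] at hcard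
  rcases h with ⟨rfl, hq⟩ | ⟨rfl, hq⟩
  · have hq1 : 1 < Fintype.card F := Fintype.one_lt_card
    have hw : ((Fintype.card F : ℕ) : F) = 0 := FiniteField.cast_card_eq_zero F
    have main : ∀ σ : F →+* F, (∀ a, σ (σ a) = a) → (∀ a : F, a ≠ 0 → a * σ a = 1) →
        ∃ K : Subgroup (Matrix.GeneralLinearGroup (Fin n) F),
          Cfsg.Geo.decompositionStabilizer D ⊓ Cfsg.Geo.specialLinear (Fin n) F < K ∧
          K < Cfsg.Geo.specialLinear (Fin n) F := by
      intro σ hσσ hN
      apply Cfsg.Agent.Lib.Helper5.SLImprim.one_not_max (fun i => x i 0) σ D (fun i => e i 0)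
        (fun i => hmem i 0) ?_ ?_ (fun i w hw k hk => hline i w hw k 0 hk) hσσ hN
        (Fintype.card F) hw (by omega) (by omega)
      · intro i k
        rw [hx]
        simp
      · intro v
        conv_lhs => rw [hexp v]
        apply Finset.sum_congr rfl
        intro i _
        rw [Fin.sum_univ_one]
    have hcases : Fintype.card F = 2 ∨ Fintype.card F = 3 ∨ Fintype.card F = 4 := by omega
    rcases hcases with h2 | h3 | h4
    · apply main (RingHom.id F) (fun a => rfl)
      intro a ha
      have h1 := FiniteField.pow_card_sub_one_eq_one a ha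
      rw [h2] at h1
      have h5 : a = 1 := by simpa using h1
      rw [RingHom.id_apply, h5, mul_one]
    · apply main (RingHom.id F) (fun a => rfl)
      intro a ha
      have h1 := FiniteField.pow_card_sub_one_eq_one a ha
      rw [h3] at h1
      rw [RingHom.id_apply]
      calc a * a = a ^ (3 - 1) := by ring
        _ = 1 := h1
    · obtain ⟨σ, hσ, hf⟩ := Cfsg.Agent.Lib.Helper5.SUBridge.exists_sigma n 2
        (show Fintype.card F = 2 ^ 2 by rw [h4]; norm_num)
      apply main (σ : F →+* F) (fun a => hf.involutive a)
      intro a ha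
      have h1 := FiniteField.pow_card_sub_one_eq_one a ha
      rw [h4] at h1
      show a * σ a = 1
      rw [hσ]
      calc a * a ^ 2 = a ^ (4 - 1) := by ring
        _ = 1 := h1
  · have hF2 : ∀ a : F, a = 0 ∨ a = 1 := by
      intro a
      by_contra hcon
      push Not at hcon
      have h1 : ({0, 1, a} : Finset F).card ≤ Fintype.card F := Finset.card_le_univ _
      rw [hq, Finset.card_insert_of_notMem (by
        simp only [Finset.mem_insert, Finset.mem_singleton, not_or]
        exact ⟨zero_ne_one, hcon.1.symm⟩), Finset.card_insert_of_notMem (by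
        simp only [Finset.mem_singleton]
        exact hcon.2.symm), Finset.card_singleton] at h1
      omega
    have hSL : Cfsg.Geo.specialLinear (Fin n) F = ⊤ := by
      rw [eq_top_iff]
      intro g _
      show Matrix.GeneralLinearGroup.det g = 1
      apply Units.ext
      rcases hF2 ((Matrix.GeneralLinearGroup.det g : Fˣ) : F) with h | h
      · exact absurd h (Units.ne_zero _)
      · rw [h, Units.val_one]
    rw [hSL, inf_top_eq]
    exact Cfsg.Agent.Lib.Helper5.SLImprim.two_not_max x hF2 D e hmem hx hexp hline (by omega)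
      hD.finrank_eq hD.iSup_eq_top

end Cfsg.Agent.S5635
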