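import Mathlib
import Cfsg.Statements.S5638
import Cfsg.Agent.Lib.Helper5.TensorTwo

set_option autoImplicit false
open Cfsg

namespace Cfsg.Agent.S5638


/-- Over the field with 2 elements, for n = 2 n₂ ≥ 13, the stabiliser in SL_n of a tensor decomposition with factors of dimensions 2 and n₂ (the conjugate by any P of the Kronecker-product subgroup transported along any bijection Fin n ≃ Fin 2 × Fin n₂, intersected with SL_n) is not a maximal subgroup: some subgroup lies strictly between it and SL_n. -/
theorem result {F : Type*} [Field F] [Fintype F] (n : ℕ) (hn : 13 ≤ n) (hq : Fintype.card F = 2) (n₂ : ℕ) (e : Fin n ≃ Fin 2 × Fin n₂) (P : Matrix.GeneralLinearGroup (Fin n) F) : ∃ K : Subgroup (Matrix.GeneralLinearGroup (Fin n) F), Cfsg.Geo.tensorProductSubgroup 2 n₂ e P ⊓ Cfsg.Geo.specialLinear (Fin n) F < K ∧ K < Cfsg.Geo.specialLinear (Fin n) F := by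
  classical
  have hF2 : ∀ a : F, a = 0 ∨ a = 1 := by
    intro a
    by_contra hcon
    push Not at hcon
    have h1 : ({0, 1, a} : Finset F).card ≤ Fintype.card F := Finset.card_le_univ _
    rw [hq, Finset.card_insert_of_notMem (by
      simp only [Finset.mem_insert, Finset.mem_singleton, not_or]
      exact ⟨zero_ne_one, hcon.1.symm⟩), Finset.card_insert_of_notMem (by
      simp only [Finset.mem_singleton]
      exact hcon.2.symm), Finset.card_singleton] at h1
    omega
  have h2 : (2 : F) = 0 := by
    rcases hF2 2 with h | h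
    · exact h
    · exfalso
      have : (1 : F) = 0 := by linear_combination h
      exact one_ne_zero this
  have hn₂ : n = 2 * n₂ := by
    have := Fintype.card_congr e
    rwa [Fintype.card_fin, Fintype.card_prod, Fintype.card_fin, Fintype.card_fin] at this
  haveI : NeZero n₂ := ⟨by omega⟩
  have hSL : Cfsg.Geo.specialLinear (Fin n) F = ⊤ := by
    rw [eq_top_iff]
    intro g _
    show Matrix.GeneralLinearGroup.det g = 1
    apply Units.ext
    rcases hF2 ((Matrix.GeneralLinearGroup.det g : Fˣ) : F) with h | h
    · exact absurd h (Units.ne_zero _)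
    · rw [h, Units.val_one]
  obtain ⟨K', hK1, hK2⟩ := Cfsg.Agent.Lib.Helper5.TensorTwo.kron_not_max (n₂ := n₂) hF2 h2
    (⟨1, by omega⟩ : Fin n₂) (by
      intro h
      have := congrArg Fin.val h
      simp at this)
  rw [hSL, inf_top_eq]
  have hi1 : Function.Injective ((Cfsg.Geo.glReindex (F := F) e.symm).toMonoidHom) :=
    (Cfsg.Geo.glReindex (F := F) e.symm).injective
  have hi2 : Function.Injective ((MulAut.conj P).toMonoidHom) := (MulAut.conj P).injective
  refine ⟨(K'.map (Cfsg.Geo.glReindex e.symm).toMonoidHom).map (MulAut.conj P).toMonoidHom, ?_, ?_⟩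
  · unfold Cfsg.Geo.tensorProductSubgroup
    rw [Subgroup.map_lt_map_iff_of_injective hi2, Subgroup.map_lt_map_iff_of_injective hi1]
    exact hK1
  · have ht : (⊤ : Subgroup (Matrix.GeneralLinearGroup (Fin n) F)) =
        ((⊤ : Subgroup (Matrix.GeneralLinearGroup (Fin 2 × Fin n₂) F)).map
          (Cfsg.Geo.glReindex e.symm).toMonoidHom).map (MulAut.conj P).toMonoidHom := by
      have s1 : Function.Surjective ((Cfsg.Geo.glReindex (F := F) e.symm).toMonoidHom) :=
        (Cfsg.Geo.glReindex (F := F) e.symm).surjective
      have s2 : Function.Surjective ((MulAut.conj P).toMonoidHom) := (MulAut.conj P).surjective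
      rw [Subgroup.map_top_of_surjective _ s1, Subgroup.map_top_of_surjective _ s2]
    rw [ht, Subgroup.map_lt_map_iff_of_injective hi2, Subgroup.map_lt_map_iff_of_injective hi1]
    exact hK2

end Cfsg.Agent.S5638
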