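import Mathlib
import Cfsg.Statements.S5648
import Cfsg.Agent.Lib.Helper5.SympTwo
import Cfsg.Agent.Lib.Helper5.SympMax

set_option autoImplicit false
open Cfsg

namespace Cfsg.Agent.S5648


/-- Over the field with 2 elements and for m ≥ 7, let D be a decomposition of F^(2m) into t pairwise orthogonal non-degenerate 2-dimensional subspaces for the standard alternating form (t = m ≥ 2). Then the elements of Sp_2m(2) permuting the members of D form a subgroup that is not maximal: some subgroup lies strictly between it and Sp_2m(2). -/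
theorem result {F : Type*} [Field F] [Fintype F] (m : ℕ) (hm : 7 ≤ m) (hq : Fintype.card F = 2) {t : ℕ} (D : Fin t → Submodule F (Fin m ⊕ Fin m → F)) (hD : Cfsg.Geo.IsNondegenerateMDecomposition (Cfsg.sympForm m F) 2 D) : ∃ K : Subgroup (Matrix.GeneralLinearGroup (Fin m ⊕ Fin m) F), Cfsg.Geo.decompositionStabilizer D ⊓ Cfsg.spGL m F < K ∧ K < Cfsg.spGL m F := by
  have hf : Cfsg.Geo.IsSymplecticForm (Cfsg.sympForm m F) := by
    refine ⟨⟨Cfsg.Agent.Lib.Helper5.Symp.sympForm_add_left,
      Cfsg.Agent.Lib.Helper5.Symp.sympForm_smul_left,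
      Cfsg.Agent.Lib.Helper5.Symp.sympForm_add_right,
      Cfsg.Agent.Lib.Helper5.Symp.sympForm_smul_right⟩,
      Cfsg.Agent.Lib.Helper5.Symp.sympForm_swap,
      Cfsg.Agent.Lib.Helper5.Symp.sympForm_self, fun v hv => ?_⟩
    obtain ⟨y, _, hy⟩ := Cfsg.Agent.Lib.Helper5.SympMax.exists_orth_ne ⊥ v (by simpa using hv)
    refine ⟨⟨y, hy⟩, ⟨y, ?_⟩⟩
    rw [Cfsg.Agent.Lib.Helper5.Symp.sympForm_swap]
    exact neg_ne_zero.mpr hy
  have hF2 : ∀ a : F, a = 0 ∨ a = 1 := by
    classical
    intro a
    by_contra hcon
    push Not at hcon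
    have h1 : ({0, 1, a} : Finset F).card ≤ Fintype.card F := Finset.card_le_univ _
    rw [hq, Finset.card_insert_of_notMem (by
      simp only [Finset.mem_insert, Finset.mem_singleton, not_or]
      exact ⟨zero_ne_one, hcon.1.symm⟩), Finset.card_insert_of_notMem (by
      simp only [Finset.mem_singleton]
      exact hcon.2.symm), Finset.card_singleton] at h1
    omega
  have ht : 3 ≤ t := by
    by_contra hlt
    have ht2 : t = 2 := by
      have := hD.decomp.two_le
      omega
    subst ht2
    have hsup : iSup D = D 0 ⊔ D 1 := by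
      apply le_antisymm
      · apply iSup_le
        intro i
        fin_cases i
        · exact le_sup_left
        · exact le_sup_right
      · exact sup_le (le_iSup D 0) (le_iSup D 1)
    have h1 := Submodule.finrank_add_le_finrank_add_finrank (D 0) (D 1)
    rw [← hsup, hD.decomp.iSup_eq_top, finrank_top, Module.finrank_fintype_fun_eq_card,
      hD.decomp.finrank_eq, hD.decomp.finrank_eq, Fintype.card_sum, Fintype.card_fin] at h1
    omega
  exact Cfsg.Agent.Lib.Helper5.SympTwo.not_max (Cfsg.sympForm m F) hf hF2 D ht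
    hD.decomp.finrank_eq hD.decomp.iSup_eq_top hD.nondegenerate hD.orthogonal (Cfsg.spGL m F)
    (fun g => Iff.rfl)

end Cfsg.Agent.S5648
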