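import Mathlib
import Cfsg.Statements.S5649
import Cfsg.Agent.Lib.Helper5.SympPair
import Cfsg.Agent.Lib.Helper5.SpinorDiag

set_option autoImplicit false
open Cfsg

namespace Cfsg.Agent.S5649


/-- For a finite field F of odd order and m ≥ 7, let D be a decomposition of F^(2m) into two complementary subspaces of dimension m on each of which the standard alternating form vanishes identically. Then the elements of Sp_2m(F) preserving or interchanging the two subspaces form a maximal subgroup of Sp_2m(F). -/
theorem result {F : Type*} [Field F] [Fintype F] (m : ℕ) (hm : 7 ≤ m) (hodd : Odd (Fintype.card F)) (D : Fin 2 → Submodule F (Fin m ⊕ Fin m → F)) (hD : Cfsg.Geo.IsMDecomposition m D) (hts : ∀ i, Cfsg.Geo.IsTotallySingularFor (Cfsg.sympForm m F) (D i)) : Cfsg.Geo.IsMaximalIn (Cfsg.spGL m F) (Cfsg.Geo.decompositionStabilizer D ⊓ Cfsg.spGL m F) := by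
  have h2 : (2 : F) ≠ 0 := Cfsg.Agent.Lib.Helper5.SpinorDiag.two_ne_zero_of_odd hodd
  apply Cfsg.Agent.Lib.Helper5.SympPair.pair_max h2 (by omega) D hD.finrank_eq
  refine ⟨hts 0, hts 1, fun v => ?_⟩
  have hv : v ∈ iSup D := by rw [hD.iSup_eq_top]; trivial
  have hsup : iSup D = D 0 ⊔ D 1 := by
    apply le_antisymm
    · apply iSup_le
      intro i
      fin_cases i
      · exact le_sup_left
      · exact le_sup_right
    · exact sup_le (le_iSup D 0) (le_iSup D 1)
  rw [hsup] at hv
  obtain ⟨a, ha, b, hb, e⟩ := Submodule.mem_sup.mp hv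
  exact ⟨a, ha, b, hb, e.symm⟩

end Cfsg.Agent.S5649
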