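import Mathlib
import Cfsg.Statements.S5656
import Cfsg.Agent.Lib.Helper5.SUFour
import Cfsg.Agent.Lib.Helper5.SUBridge

set_option autoImplicit false
open Cfsg

namespace Cfsg.Agent.S5656


/-- Let F be the field with 4 elements (q = 2) and n ≥ 13. Let D be a decomposition of F^n into t pairwise orthogonal 2-dimensional subspaces, each non-degenerate for the standard unitary form Σ u_i v_i². Then the elements of SU_n(2) permuting the members of D form a subgroup that is not maximal: some subgroup lies strictly between it and SU_n(2). -/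
theorem result {F : Type*} [Field F] [Fintype F] (n : ℕ) (hF : Fintype.card F = 4) (hn : 13 ≤ n) {t : ℕ} (D : Fin t → Submodule F (Fin n → F)) (hD : Cfsg.Geo.IsNondegenerateMDecomposition (Cfsg.hermForm n F 2) 2 D) : ∃ K : Subgroup (Matrix.GeneralLinearGroup (Fin n) F), Cfsg.Geo.decompositionStabilizer D ⊓ (Cfsg.GU n F 2 ⊓ Cfsg.Geo.specialLinear (Fin n) F) < K ∧ K < (Cfsg.GU n F 2 ⊓ Cfsg.Geo.specialLinear (Fin n) F) := by
  obtain ⟨σ, hσ, hf⟩ := Cfsg.Agent.Lib.Helper5.SUBridge.exists_sigma n 2
    (show Fintype.card F = 2 ^ 2 by rw [hF]; norm_num)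
  have h2 : (2 : F) = 0 := by
    have h1 : ringChar F = 2 := FiniteField.even_card_iff_char_two.mpr (by rw [hF])
    have h3 := ringChar.Nat.cast_ringChar (R := F)
    rw [h1] at h3
    exact_mod_cast h3
  have hN : ∀ α : F, α ≠ 0 → α * σ α = 1 := by
    intro α hα
    have h1 := FiniteField.pow_card_sub_one_eq_one α hα
    rw [hF] at h1
    rw [hσ]
    calc α * α ^ 2 = α ^ (4 - 1) := by ring
      _ = 1 := h1
  have hfix : ∀ x : F, σ x = x → x = 0 ∨ x = 1 := by
    intro x hx
    rw [hσ] at hx
    have h1 : x * (x - 1) = 0 := by linear_combination hx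
    rcases mul_eq_zero.mp h1 with h | h
    · exact Or.inl h
    · exact Or.inr (sub_eq_zero.mp h)
  exact Cfsg.Agent.Lib.Helper5.SUFour.not_max (Cfsg.hermForm n F 2) hf h2 hN hfix D
    hD.decomp.two_le hD.decomp.finrank_eq hD.nondegenerate hD.orthogonal (Cfsg.GU n F 2)
    (Cfsg.Agent.Lib.Helper5.SUBridge.mem_GU n 2)

end Cfsg.Agent.S5656
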