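import Mathlib
import Cfsg.Statements.S5657
import Cfsg.Agent.Lib.Helper5.SUPair
import Cfsg.Agent.Lib.Helper5.SUBridge

set_option autoImplicit false
open Cfsg

namespace Cfsg.Agent.S5657


/-- Let F be the field with q² elements and n = 2k ≥ 13. Let D be a decomposition of F^n into two complementary subspaces of dimension k on each of which the standard unitary form vanishes identically. Then the elements of SU_n(q) preserving or interchanging the two subspaces form a maximal subgroup of SU_n(q). -/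
theorem result {F : Type*} [Field F] [Fintype F] (n q : ℕ) (hF : Fintype.card F = q ^ 2) (hn : 13 ≤ n) (k : ℕ) (hk : 2 * k = n) (D : Fin 2 → Submodule F (Fin n → F)) (hD : Cfsg.Geo.IsMDecomposition k D) (hts : ∀ i, Cfsg.Geo.IsTotallySingularFor (Cfsg.hermForm n F q) (D i)) : Cfsg.Geo.IsMaximalIn (Cfsg.GU n F q ⊓ Cfsg.Geo.specialLinear (Fin n) F) (Cfsg.Geo.decompositionStabilizer D ⊓ (Cfsg.GU n F q ⊓ Cfsg.Geo.specialLinear (Fin n) F)) := by
  obtain ⟨σ, _, hf⟩ := Cfsg.Agent.Lib.Helper5.SUBridge.exists_sigma n q hF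
  apply Cfsg.Agent.Lib.Helper5.SUPair.pair_max (Cfsg.hermForm n F q) hf
    (by rw [Fintype.card_fin]; omega) (Cfsg.GU n F q)
    (Cfsg.Agent.Lib.Helper5.SUBridge.mem_GU n q) (k := k) (by omega) D hD.finrank_eq
  refine ⟨hts 0, hts 1, fun v => ?_⟩
  have hv : v ∈ iSup D := by rw [hD.iSup_eq_top]; trivial
  have hsup : iSup D = D 0 ⊔ D 1 := by
    apply le_antisymm
    · apply iSup_le
      intro i
      fin_cases i
      · exact le_sup_left
      · exact le_sup_right
    · exact sup_le (le_iSup D 0) (le_iSup D 1)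
  rw [hsup] at hv
  obtain ⟨a, ha, b, hb, e⟩ := Submodule.mem_sup.mp hv
  exact ⟨a, ha, b, hb, e.symm⟩

end Cfsg.Agent.S5657
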