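import Mathlib
import Cfsg.Statements.S5659
import Cfsg.Agent.Lib.Helper5.SUOrth
import Cfsg.Agent.Lib.Helper5.SUBridge

set_option autoImplicit false
open Cfsg

namespace Cfsg.Agent.S5659


/-- Let F be the field with q² elements, q odd, n ≥ 13, and F₀ the subfield with q elements. Let P be an invertible matrix such that the standard unitary form takes values in F₀ on the F₀-span of the columns of P (so it restricts to a non-degenerate symmetric bilinear form there). Then the elements of SU_n(q) lying in the subfield group of P form a maximal subgroup of SU_n(q). -/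
theorem result {F : Type*} [Field F] [Fintype F] (n q : ℕ) (hF : Fintype.card F = q ^ 2) (hn : 13 ≤ n) (hodd : Odd q) (F₀ : Subfield F) (hcard : Fintype.card F = Nat.card F₀ ^ 2) (P : Matrix.GeneralLinearGroup (Fin n) F) (hP : Cfsg.Geo.IsFormRationalStructure (Cfsg.hermForm n F q) F₀ 1 P) : Cfsg.Geo.IsMaximalIn (Cfsg.GU n F q ⊓ Cfsg.Geo.specialLinear (Fin n) F) (Cfsg.Geo.subfieldSubgroup F₀ P ⊓ (Cfsg.GU n F q ⊓ Cfsg.Geo.specialLinear (Fin n) F)) := by
  obtain ⟨σ, hσ, hf⟩ := Cfsg.Agent.Lib.Helper5.SUBridge.exists_sigma n q hF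
  obtain ⟨θ, hθ0, hθ⟩ := Cfsg.Agent.Lib.Helper5.SLUni.exists_skew σ hf.involutive hf.ne_refl
  have hfix : ∀ x, x ∈ F₀ ↔ σ x = x := by
    intro x
    rw [hσ]
    exact Cfsg.Agent.Lib.Helper5.SubfieldGrp.mem_iff_fixed hF hcard x
  have h2 : (2 : F) ≠ 0 := by
    apply Ring.two_ne_zero
    intro hch
    have h1 := FiniteField.even_card_iff_char_two.mp hch
    rw [hF] at h1
    have h3 : Odd (q ^ 2) := hodd.pow
    rw [Nat.odd_iff] at h3
    omega
  have hθF : θ ∉ F₀ := by
    intro h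
    have h1 := (hfix θ).mp h
    rw [hθ] at h1
    apply hθ0
    have h3 : (2 : F) * θ = 0 := by linear_combination -h1
    exact (mul_eq_zero.mp h3).resolve_left h2
  have hr : Cfsg.Agent.Lib.Helper5.SUOrth.RO σ (Cfsg.hermForm n F q) F₀ P θ := by
    refine ⟨hfix, hθ0, hθ, h2, Cfsg.Agent.Lib.Helper5.SubfieldGrp.vec_decomp hcard θ hθF,
      Cfsg.Agent.Lib.Helper5.SubfieldGrp.field_decomp hcard θ hθF, fun a b ha hb => ?_⟩
    obtain ⟨u, hu, rfl⟩ := ha.exists
    obtain ⟨v, hv, rfl⟩ := hb.exists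
    have := hP u v hu hv
    rwa [one_mul] at this
  exact Cfsg.Agent.Lib.Helper5.SUOrth.orth_max (Cfsg.hermForm n F q) hf hr
    (by rw [Fintype.card_fin]; omega) (Cfsg.GU n F q)
    (Cfsg.Agent.Lib.Helper5.SUBridge.mem_GU n q)

end Cfsg.Agent.S5659
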