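import Mathlib
import Cfsg.Statements.S5675
import Cfsg.Agent.Lib.Helper5.OrthNdStab
import Cfsg.Agent.Lib.Helper5.SpinorDiag

set_option autoImplicit false
open Cfsg

namespace Cfsg.Agent.S5675


/-- Let F be a finite field of odd order q, m ≥ 6, Q the standard quadratic form on F^(2m+1) and Ω the commutator subgroup of its isometry group. Let W be a non-zero subspace of even dimension on which the polar form of Q is non-degenerate; exclude the case q = 3, dim W = 2 with Q vanishing on some line of W (a plus-type plane). Then the elements of Ω stabilising W (equivalently, stabilising its orthogonal complement, of odd dimension) form a maximal subgroup of Ω. -/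
theorem result {F : Type*} [Field F] [Fintype F] (hodd : Odd (Fintype.card F)) (m : ℕ) (hm : 6 ≤ m) (W : Submodule F (Unit ⊕ (Fin m ⊕ Fin m) → F)) (hW0 : W ≠ ⊥) (hev : Even (Module.finrank F W)) (hW : Cfsg.Geo.IsNondegenerateOn (QuadraticMap.polar (Cfsg.quadFormOdd m F)) W) (hex : ¬ (Fintype.card F = 3 ∧ Module.finrank F W = 2 ∧ Cfsg.Geo.IsPlusTypeOn (Cfsg.quadFormOdd m F) W)) : Cfsg.Geo.IsMaximalIn (Cfsg.Geo.omegaGL (Cfsg.quadFormOdd m F)) (Cfsg.Geo.subspaceStabilizer W ⊓ Cfsg.Geo.omegaGL (Cfsg.quadFormOdd m F)) := by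
  have h2 : (2 : F) ≠ 0 := Cfsg.Agent.Lib.Helper5.SpinorDiag.two_ne_zero_of_odd hodd
  obtain ⟨Qf, hQf, hnd, _, _⟩ := Cfsg.Agent.Lib.Helper5.OrthOdd.good_odd (F := F) h2 m
  have hcard : Fintype.card (Unit ⊕ (Fin m ⊕ Fin m)) = 2 * m + 1 := by
    simp only [Fintype.card_sum, Fintype.card_fin, Fintype.card_unit]; omega
  have hW' : Cfsg.Geo.IsNondegenerateOn (QuadraticMap.polar ⇑Qf) W := by rw [hQf]; exact hW
  obtain ⟨r, hr⟩ := hev
  have key := Cfsg.Agent.Lib.Helper5.OrthNdStab.stab_max hnd (by rw [hcard]; omega) W hW0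
    (by
      intro hc
      rw [hc, finrank_top, Module.finrank_fintype_fun_eq_card, hcard] at hr
      omega)
    (by rw [hcard]; omega) hW'
    (by
      rintro ⟨hq, h2', z, hz, hz0, hQz⟩
      apply hex
      refine ⟨?_, h2', Submodule.span F {z},
        by rw [Submodule.span_singleton_le_iff_mem]; exact hz, ?_,
        by rw [finrank_span_singleton hz0, h2']⟩
      · obtain ⟨s, hs⟩ := hodd
        have := Fintype.one_lt_card (α := F)
        omega
      · intro w hw
        obtain ⟨c, rfl⟩ := Submodule.mem_span_singleton.mp hw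
        rw [← hQf, QuadraticMap.map_smul, hQz, smul_zero])
    (by
      rintro ⟨_, h2', _⟩
      obtain ⟨_, hfr⟩ := Cfsg.Agent.Lib.Helper5.OrthNdStab.spl_of_nondeg hnd W hW'
      rw [hcard] at hfr
      omega)
  rw [hQf] at key
  exact key

end Cfsg.Agent.S5675
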