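import Mathlib
import Cfsg.Statements.S5685
import Cfsg.Agent.Lib.Helper5.OrthMax

set_option autoImplicit false
open Cfsg

namespace Cfsg.Agent.S5685


/-- Let F be a finite field with q elements, n ≥ 13 even, Q a non-degenerate quadratic form on F^n of plus type (some subspace of dimension n/2 is totally singular), and Ω the commutator subgroup of the isometry group of Q, viewed inside GL_n(F). The elements of Ω stabilising a non-zero subspace W on which Q vanishes, with dim W ≠ n/2 − 1, form a maximal subgroup of Ω. -/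
theorem result {F : Type*} [Field F] [Fintype F] {n : ℕ} (hn : 13 ≤ n) (heven : Even n) (Q : (Fin n → F) → F) (hQ : Cfsg.Geo.IsNondegenerateQuadraticForm Q) (hplus : Cfsg.Geo.IsPlusTypeOn Q ⊤) (W : Submodule F (Fin n → F)) (hW0 : W ≠ ⊥) (hW : Cfsg.Geo.IsTotallySingularQuad Q W) (hdim : 2 * (Module.finrank F W + 1) ≠ n) : Cfsg.Geo.IsMaximalIn (Cfsg.Geo.omegaGL Q) (Cfsg.Geo.subspaceStabilizer W ⊓ Cfsg.Geo.omegaGL Q) := by
  obtain ⟨Qf, rfl, hnd⟩ := Cfsg.Agent.Lib.Helper5.OrthGeo.exists_form hQ
  exact Cfsg.Agent.Lib.Helper5.OrthMax.parabolic_max hnd (by rw [Fintype.card_fin]; omega) W hW0 hW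
    (by
      rintro ⟨h, _⟩
      rw [Fintype.card_fin] at h
      exact hdim h)

end Cfsg.Agent.S5685
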