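import Mathlib
import Cfsg.Statements.S5688
import Cfsg.Agent.Lib.Helper5.OrthNdStab

set_option autoImplicit false
open Cfsg

namespace Cfsg.Agent.S5688


/-- Let F be a finite field with q elements, n ≥ 13 even, Q a non-degenerate quadratic form on F^n of plus type (some subspace of dimension n/2 is totally singular), and Ω the commutator subgroup of the isometry group of Q, viewed inside GL_n(F). Let W be a non-zero proper subspace with dim W ≠ n/2 on which the polar form of Q is non-degenerate. Exclude the case q ≤ 3 in which W, or its orthogonal complement, is a plane containing a line on which Q vanishes. Then the elements of Ω stabilising W form a maximal subgroup of Ω. -/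
theorem result {F : Type*} [Field F] [Fintype F] {n : ℕ} (hn : 13 ≤ n) (heven : Even n) (Q : (Fin n → F) → F) (hQ : Cfsg.Geo.IsNondegenerateQuadraticForm Q) (hplus : Cfsg.Geo.IsPlusTypeOn Q ⊤) (W : Submodule F (Fin n → F)) (hW0 : W ≠ ⊥) (hW1 : W ≠ ⊤) (hdim : 2 * Module.finrank F W ≠ n) (hW : Cfsg.Geo.IsNondegenerateOn (QuadraticMap.polar Q) W) (hex : ¬ (Fintype.card F ≤ 3 ∧ (∃ U : Submodule F (Fin n → F), Module.finrank F U = 2 ∧ Cfsg.Geo.IsNondegenerateOn (QuadraticMap.polar Q) U ∧ Cfsg.Geo.IsPlusTypeOn Q U ∧ (U = W ∨ (Cfsg.Geo.AreOrthogonalFor (QuadraticMap.polar Q) U W ∧ Module.finrank F U + Module.finrank F W = n))))) : Cfsg.Geo.IsMaximalIn (Cfsg.Geo.omegaGL Q) (Cfsg.Geo.subspaceStabilizer W ⊓ Cfsg.Geo.omegaGL Q) := by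
  obtain ⟨Qf, rfl, hnd⟩ := Cfsg.Agent.Lib.Helper5.OrthGeo.exists_form hQ
  have plus_of : ∀ X : Submodule F (Fin n → F), Module.finrank F X = 2 →
      (∃ z ∈ X, z ≠ 0 ∧ Qf z = 0) → Cfsg.Geo.IsPlusTypeOn ⇑Qf X := by
    rintro X hX ⟨z, hz, hz0, hQz⟩
    refine ⟨Submodule.span F {z}, by rw [Submodule.span_singleton_le_iff_mem]; exact hz, ?_,
      by rw [finrank_span_singleton hz0, hX]⟩
    intro w hw
    obtain ⟨c, rfl⟩ := Submodule.mem_span_singleton.mp hw
    rw [QuadraticMap.map_smul, hQz, smul_zero]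
  apply Cfsg.Agent.Lib.Helper5.OrthNdStab.stab_max hnd (by rw [Fintype.card_fin]; exact hn) W hW0 hW1
    (by rw [Fintype.card_fin]; exact hdim) hW
  · rintro ⟨hq, h2, hz⟩
    exact hex ⟨hq, W, h2, hW, plus_of W h2 hz, Or.inl rfl⟩
  · rintro ⟨hq, h2, hz⟩
    obtain ⟨hs, hfr⟩ := Cfsg.Agent.Lib.Helper5.OrthNdStab.spl_of_nondeg hnd W hW
    refine hex ⟨hq, _, h2, ?_, plus_of _ h2 hz, Or.inr ⟨?_, ?_⟩⟩
    · intro u hu hu0
      obtain ⟨x, hx, hne⟩ := hs.symm.nd hnd u hu hu0
      exact ⟨⟨x, hx, by rw [QuadraticMap.polar_comm]; exact hne⟩, ⟨x, hx, hne⟩⟩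
    · intro u hu w hw
      rw [QuadraticMap.polar_comm]
      exact hs.orth w hw u hu
    · rw [Fintype.card_fin] at hfr
      omega

end Cfsg.Agent.S5688
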