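import Mathlib
import Cfsg.Statements.S5689
import Cfsg.Agent.Lib.Helper5.OrthNdStab
import Cfsg.Agent.Lib.Helper4.QuadSim

set_option autoImplicit false
open Cfsg

namespace Cfsg.Agent.S5689


/-- Let F be a finite field with q elements, n ≥ 13 even, Q a non-degenerate quadratic form on F^n of minus type (no subspace of dimension n/2 is totally singular), and Ω the commutator subgroup of the isometry group of Q, viewed inside GL_n(F). Let W be a non-zero proper subspace on which the polar form of Q is non-degenerate, not of odd dimension n/2. Exclude the case q ≤ 3 in which W, or its orthogonal complement, is a plane containing a line on which Q vanishes. Then the elements of Ω stabilising W form a maximal subgroup of Ω. -/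
theorem result {F : Type*} [Field F] [Fintype F] {n : ℕ} (hn : 13 ≤ n) (heven : Even n) (Q : (Fin n → F) → F) (hQ : Cfsg.Geo.IsNondegenerateQuadraticForm Q) (hminus : ¬ Cfsg.Geo.IsPlusTypeOn Q ⊤) (W : Submodule F (Fin n → F)) (hW0 : W ≠ ⊥) (hW1 : W ≠ ⊤) (hdim : ¬ (2 * Module.finrank F W = n ∧ Odd (Module.finrank F W))) (hW : Cfsg.Geo.IsNondegenerateOn (QuadraticMap.polar Q) W) (hex : ¬ (Fintype.card F ≤ 3 ∧ (∃ U : Submodule F (Fin n → F), Module.finrank F U = 2 ∧ Cfsg.Geo.IsNondegenerateOn (QuadraticMap.polar Q) U ∧ Cfsg.Geo.IsPlusTypeOn Q U ∧ (U = W ∨ (Cfsg.Geo.AreOrthogonalFor (QuadraticMap.polar Q) U W ∧ Module.finrank F U + Module.finrank F W = n))))) : Cfsg.Geo.IsMaximalIn (Cfsg.Geo.omegaGL Q) (Cfsg.Geo.subspaceStabilizer W ⊓ Cfsg.Geo.omegaGL Q) := by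
  obtain ⟨Qf, rfl, hnd⟩ := Cfsg.Agent.Lib.Helper5.OrthGeo.exists_form hQ
  have plus_of : ∀ X : Submodule F (Fin n → F), Module.finrank F X = 2 →
      (∃ z ∈ X, z ≠ 0 ∧ Qf z = 0) → Cfsg.Geo.IsPlusTypeOn ⇑Qf X := by
    rintro X hX ⟨z, hz, hz0, hQz⟩
    refine ⟨Submodule.span F {z}, by rw [Submodule.span_singleton_le_iff_mem]; exact hz, ?_,
      by rw [finrank_span_singleton hz0, hX]⟩
    intro w hw
    obtain ⟨c, rfl⟩ := Submodule.mem_span_singleton.mp hw
    rw [QuadraticMap.map_smul, hQz, smul_zero]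
  have hexW : ¬ (Fintype.card F ≤ 3 ∧ Module.finrank F W = 2 ∧ ∃ z ∈ W, z ≠ 0 ∧ Qf z = 0) := by
    rintro ⟨hq, h2, hz⟩
    exact hex ⟨hq, W, h2, hW, plus_of W h2 hz, Or.inl rfl⟩
  obtain ⟨hs, hfr⟩ := Cfsg.Agent.Lib.Helper5.OrthNdStab.spl_of_nondeg hnd W hW
  rw [Fintype.card_fin] at hfr
  by_cases hdim2 : 2 * Module.finrank F W = n
  · -- the middle-dimensional case
    have hevW : Even (Module.finrank F W) := by
      rcases Nat.even_or_odd (Module.finrank F W) with h | h
      · exact h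
      · exact absurd ⟨hdim2, h⟩ hdim
    set U := LinearMap.BilinForm.orthogonal (QuadraticMap.polarBilin Qf) W with hU
    have hex' : Fintype.card F ≠ 2 ∨ Fintype.card (Fin n) ≠ 4 := Or.inr (by
      rw [Fintype.card_fin]; omega)
    have hAW : ∀ g : ↥(Cfsg.isometryGroup F ⇑Qf),
        (g : Matrix.GeneralLinearGroup (Fin n) F) ∈ Cfsg.Geo.subspaceStabilizer W ↔
          ∀ x ∈ W, Matrix.mulVec (Cfsg.Agent.Lib.Helper5.OrthGen.mat g) x ∈ W := by
      intro g
      rw [Cfsg.Agent.Lib.Helper5.OrthGeo.mem_stab]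
      constructor
      · intro hc x hx
        rw [← hc]
        exact (Cfsg.Agent.Lib.Helper5.OrthTrans.mem_img g W _).mpr ⟨x, hx, rfl⟩
      · exact Cfsg.Agent.Lib.Helper5.OrthTrans.img_eq_of_le g W
    apply Cfsg.Agent.Lib.Helper5.OrthNdStab.split_max hnd hex' (by rw [Fintype.card_fin]; omega) hs
      (by omega) hW0 hexW
    · intro g hg
      apply hminus
      obtain ⟨k, hk⟩ := hevW
      have hfU : Module.finrank F U = 2 * k := by omega
      have hNDU : Cfsg.Agent.Lib.Helper4.QuadFin.ND (Qf.comp U.subtype) := by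
        intro v hv
        by_contra h0
        have h0' : (v : Fin n → F) ≠ 0 := fun h => h0 (Subtype.ext h)
        obtain ⟨x, hx, hne⟩ := hs.symm.nd hnd v v.2 h0'
        apply hne
        have := hv ⟨x, hx⟩
        simpa [QuadraticMap.polar] using this
      obtain ⟨S, hS⟩ := Cfsg.Agent.Lib.Helper4.QuadFin.exists_similarity (Qf.comp U.subtype) hNDU
        hfU (c := -1) (by simp)
      let T : ↥U →ₗ[F] (Fin n → F) :=
        (Matrix.toLin' (Cfsg.Agent.Lib.Helper5.OrthGen.mat g)).comp U.subtype +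
          U.subtype.comp S.toLinearMap
      have hT : ∀ u : ↥U, T u = Matrix.mulVec (Cfsg.Agent.Lib.Helper5.OrthGen.mat g) (u : Fin n → F) +
          ((S u : ↥U) : Fin n → F) := fun u => rfl
      have hinj : Function.Injective T := by
        rw [← LinearMap.ker_eq_bot, LinearMap.ker_eq_bot']
        intro u hu
        rw [hT] at hu
        have h1 : ((S u : ↥U) : Fin n → F) ∈ W := by
          have : ((S u : ↥U) : Fin n → F) =
              -(Matrix.mulVec (Cfsg.Agent.Lib.Helper5.OrthGen.mat g) (u : Fin n → F)) := by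
            rw [eq_neg_iff_add_eq_zero, add_comm]; exact hu
          rw [this]
          exact W.neg_mem (hg u u.2)
        have h2 := hs.disj hnd _ h1 (S u).2
        have h3 : S u = 0 := Subtype.ext h2
        exact S.map_eq_zero_iff.mp h3
      refine ⟨LinearMap.range T, le_top, ?_, ?_⟩
      · rintro _ ⟨u, rfl⟩
        rw [hT]
        have h1 := QuadraticMap.map_add Qf (Matrix.mulVec (Cfsg.Agent.Lib.Helper5.OrthGen.mat g) (u : Fin n → F))
          ((S u : ↥U) : Fin n → F)
        have h2 : Qf ((S u : ↥U) : Fin n → F) = -1 * Qf (u : Fin n → F) := hS u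
        have h3 := Cfsg.Agent.Lib.Helper5.OrthGen.mat_preserves g (u : Fin n → F)
        have h4 := hs.orth _ (hg u u.2) _ (S u).2
        rw [h1, h2, h3, h4]
        ring
      · rw [LinearMap.finrank_range_of_inj hinj, finrank_top, Module.finrank_fin_fun]
        omega
    · intro g
      rw [hAW]
      exact ⟨hs.symm.stab_of hnd g, hs.stab_of hnd g⟩
  apply Cfsg.Agent.Lib.Helper5.OrthNdStab.stab_max hnd (by rw [Fintype.card_fin]; exact hn) W hW0 hW1
    (by rw [Fintype.card_fin]; exact hdim2) hW hexW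
  · rintro ⟨hq, h2, hz⟩
    refine hex ⟨hq, _, h2, ?_, plus_of _ h2 hz, Or.inr ⟨?_, ?_⟩⟩
    · intro u hu hu0
      obtain ⟨x, hx, hne⟩ := hs.symm.nd hnd u hu hu0
      exact ⟨⟨x, hx, by rw [QuadraticMap.polar_comm]; exact hne⟩, ⟨x, hx, hne⟩⟩
    · intro u hu w hw
      rw [QuadraticMap.polar_comm]
      exact hs.orth w hw u hu
    · omega

end Cfsg.Agent.S5689
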