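import Mathlib
import Cfsg.Statements.S5697
import Cfsg.Agent.Lib.Helper5.OrthPair

set_option autoImplicit false
open Cfsg

namespace Cfsg.Agent.S5697


/-- Let F be a finite field with q elements, n ≥ 13 even, Q a non-degenerate quadratic form on F^n of plus type (some subspace of dimension n/2 is totally singular), and Ω the commutator subgroup of the isometry group of Q, viewed inside GL_n(F). Suppose n/2 is even and let D be a decomposition of F^n into two complementary subspaces of dimension n/2 on each of which Q vanishes. Then the elements of Ω preserving or interchanging the two subspaces form a maximal subgroup of Ω. -/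
theorem result {F : Type*} [Field F] [Fintype F] {n : ℕ} (hn : 13 ≤ n) (heven : Even n) (Q : (Fin n → F) → F) (hQ : Cfsg.Geo.IsNondegenerateQuadraticForm Q) (hplus : Cfsg.Geo.IsPlusTypeOn Q ⊤) (k : ℕ) (hk : 2 * k = n) (hke : Even k) (D : Fin 2 → Submodule F (Fin n → F)) (hD : Cfsg.Geo.IsMDecomposition k D) (hts : ∀ i, Cfsg.Geo.IsTotallySingularQuad Q (D i)) : Cfsg.Geo.IsMaximalIn (Cfsg.Geo.omegaGL Q) (Cfsg.Geo.decompositionStabilizer D ⊓ Cfsg.Geo.omegaGL Q) := by
  obtain ⟨Qf, rfl, hnd⟩ := Cfsg.Agent.Lib.Helper5.OrthGeo.exists_form hQ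
  apply Cfsg.Agent.Lib.Helper5.OrthPair.pair_max hnd (Or.inr (by rw [Fintype.card_fin]; omega))
    (by rw [Fintype.card_fin]; omega) k (by omega) hke D hD.finrank_eq
  refine ⟨hts 0, hts 1, fun v => ?_⟩
  have hv : v ∈ iSup D := by rw [hD.iSup_eq_top]; trivial
  have hsup : iSup D = D 0 ⊔ D 1 := by
    apply le_antisymm
    · apply iSup_le
      intro i
      fin_cases i
      · exact le_sup_left
      · exact le_sup_right
    · exact sup_le (le_iSup D 0) (le_iSup D 1)
  rw [hsup] at hv
  obtain ⟨a, ha, b, hb, e⟩ := Submodule.mem_sup.mp hv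
  exact ⟨a, ha, b, hb, e.symm⟩

end Cfsg.Agent.S5697
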