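import Mathlib
import Cfsg.Statements.S5699
import Cfsg.Agent.Lib.Helper5.OrthNdStab

set_option autoImplicit false
open Cfsg

namespace Cfsg.Agent.S5699


/-- Let F be a finite field with q elements, n ≥ 13 even, Q a non-degenerate quadratic form on F^n (of either type), and Ω the commutator subgroup of the isometry group of Q, viewed inside GL_n(F). Let D be a decomposition of F^n into two orthogonal subspaces of odd dimension n/2 on which the polar form is non-degenerate and which are not Q-isometric to each other. Then the elements of Ω permuting (necessarily fixing) the two subspaces form a maximal subgroup of Ω. -/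
theorem result {F : Type*} [Field F] [Fintype F] {n : ℕ} (hn : 13 ≤ n) (heven : Even n) (Q : (Fin n → F) → F) (hQ : Cfsg.Geo.IsNondegenerateQuadraticForm Q) (k : ℕ) (hk : 2 * k = n) (hko : Odd k) (D : Fin 2 → Submodule F (Fin n → F)) (hD : Cfsg.Geo.IsNondegenerateMDecomposition (QuadraticMap.polar Q) k D) (hni : ¬ Cfsg.Geo.AreIsometricFor Q (D 0) (D 1)) : Cfsg.Geo.IsMaximalIn (Cfsg.Geo.omegaGL Q) (Cfsg.Geo.decompositionStabilizer D ⊓ Cfsg.Geo.omegaGL Q) := by
  obtain ⟨Qf, rfl, hnd⟩ := Cfsg.Agent.Lib.Helper5.OrthGeo.exists_form hQ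
  have hfin := hD.decomp.finrank_eq
  have hfin01 : Module.finrank F (D 0) = Module.finrank F (D 1) := by rw [hfin, hfin]
  have hs : Cfsg.Agent.Lib.Helper5.OrthNdStab.Spl Qf (D 0) (D 1) := by
    refine ⟨hD.orthogonal 0 1 (by decide), fun v => ?_⟩
    have hv : v ∈ iSup D := by rw [hD.decomp.iSup_eq_top]; trivial
    have hsup : iSup D = D 0 ⊔ D 1 := by
      apply le_antisymm
      · apply iSup_le
        intro i
        fin_cases i
        · exact le_sup_left
        · exact le_sup_right
      · exact sup_le (le_iSup D 0) (le_iSup D 1)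
    rw [hsup] at hv
    obtain ⟨a, ha, b, hb, e⟩ := Submodule.mem_sup.mp hv
    exact ⟨a, ha, b, hb, e.symm⟩
  have hns : ∀ g : ↥(Cfsg.isometryGroup F ⇑Qf),
      ¬ (∀ x ∈ D 1, (Cfsg.Agent.Lib.Helper5.OrthGen.mat g).mulVec x ∈ D 0) := by
    intro g hg
    apply hni
    let f : D 1 →ₗ[F] D 0 :=
      LinearMap.restrict (Matrix.mulVecLin (Cfsg.Agent.Lib.Helper5.OrthGen.mat g)) hg
    have hinj : Function.Injective f := by
      intro x y hxy
      apply Subtype.ext
      apply Cfsg.Agent.Lib.Helper5.OrthTrans.mulVec_injective g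
      exact congrArg Subtype.val hxy
    let e := LinearEquiv.ofInjectiveOfFinrankEq f hinj hfin01.symm
    refine ⟨e.symm, fun w => ?_⟩
    have h1 : ((e (e.symm w) : D 0) : Fin n → F) =
        (Cfsg.Agent.Lib.Helper5.OrthGen.mat g).mulVec ((e.symm w : D 1) : Fin n → F) := rfl
    rw [LinearEquiv.apply_symm_apply] at h1
    rw [h1]
    exact (Cfsg.Agent.Lib.Helper5.OrthGen.mat_preserves g _).symm
  apply Cfsg.Agent.Lib.Helper5.OrthNdStab.split_max hnd (Or.inr (by rw [Fintype.card_fin]; omega))
    (by rw [Fintype.card_fin]; omega) hs (by rw [hfin]; omega)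
    (by
      intro hc
      have := hfin 0
      rw [hc, finrank_bot] at this
      omega)
    (by
      rintro ⟨_, h2, _⟩
      rw [hfin] at h2
      omega) hns
  intro g
  constructor
  · intro hg
    rcases Cfsg.Agent.Lib.Helper5.OrthPair.cases_of_mem D g hg with ⟨_, h1⟩ | ⟨_, h1⟩
    · exact h1
    · exact absurd h1 (hns g)
  · intro hg
    exact Cfsg.Agent.Lib.Helper5.OrthPair.mem_decomp_of D hfin01 g
      (Or.inl ⟨hs.stab_of hnd g hg, hg⟩)

end Cfsg.Agent.S5699
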