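import Mathlib
import Cfsg.Statements.S5944

set_option autoImplicit false
open Cfsg

namespace Cfsg.Agent.S5944


/-- For n ≠ 4, every proper subgroup of the symmetric group S_n other than the alternating group A_n has index at least n. -/
theorem result (n : ℕ) (hn : n ≠ 4) (H : Subgroup (Equiv.Perm (Fin n))) (hH : H ≠ ⊤) (hA : H ≠ alternatingGroup (Fin n)) : n ≤ H.index := by
  classical
  by_contra hlt
  push Not at hlt
  have hidx0 : H.index ≠ 0 := Subgroup.index_ne_zero_of_finite
  have hidx2 : ¬ H.index ≤ 2 := by
    intro h2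
    have : H.index = 1 ∨ H.index = 2 := by omega
    rcases this with h1 | h2
    · exact hH (Subgroup.index_eq_one.mp h1)
    · exact hA (Equiv.Perm.eq_alternatingGroup_of_index_eq_two h2)
  have hn5 : 5 ≤ n := by omega
  have hcore : Nontrivial H.normalCore := by
    by_contra hnt
    rw [Subgroup.nontrivial_iff_ne_bot, not_not] at hnt
    rw [Subgroup.normalCore_eq_ker] at hnt
    have hinj : Function.Injective (MulAction.toPermHom (Equiv.Perm (Fin n)) (Equiv.Perm (Fin n) ⧸ H)) :=
      (MonoidHom.ker_eq_bot_iff _).mp hnt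
    have hfin : Finite (Equiv.Perm (Fin n) ⧸ H) := inferInstance
    have hle := Nat.card_le_card_of_injective _ hinj
    rw [Nat.card_perm, Nat.card_perm, Nat.card_fin] at hle
    have hidx : Nat.card (Equiv.Perm (Fin n) ⧸ H) = H.index := rfl
    rw [hidx] at hle
    have := (Nat.factorial_lt (Nat.pos_of_ne_zero hidx0)).mpr hlt
    omega
  have hAle : alternatingGroup (Fin n) ≤ H.normalCore :=
    Equiv.Perm.alternatingGroup_le_of_normal (by simpa using hn5) hcore
  have hAH : alternatingGroup (Fin n) ≤ H := hAle.trans (Subgroup.normalCore_le H)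
  have hnt : Nontrivial (Fin n) := Fin.nontrivial_iff_two_le.mpr (by omega)
  have hdvd := Subgroup.index_dvd_of_le hAH
  rw [alternatingGroup.index_eq_two] at hdvd
  exact hidx2 (Nat.le_of_dvd (by norm_num) hdvd)

end Cfsg.Agent.S5944
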